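import Cfsg.Agent.H7.Proper

/-!
Stabilisers of direct sum decompositions with blocks of dimension at least two are maximal in the
special linear group.
-/

set_option autoImplicit false
set_option linter.unusedSectionVars false

namespace Cfsg.Agent.H1.C2a

open Module Cfsg.Agent.H7

variable {F : Type*} [Field F] {V : Type*} [AddCommGroup V] [Module F V] [FiniteDimensional F V]
  {T : Type*} [Fintype T] [DecidableEq T] {D : T → Submodule F V} {π : T → V →ₗ[F] V} {m : ℕ}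
  {K : Subgroup (V ≃ₗ[F] V)}

/-- `g` permutes the blocks. -/
def Stab (D : T → Submodule F V) (g : V ≃ₗ[F] V) : Prop :=
  ∃ σ : Equiv.Perm T, ∀ i, (D i).map (g : V →ₗ[F] V) = D (σ i)

/-- `K` contains the stabiliser of the decomposition in the special linear group. -/
def HasStab (D : T → Submodule F V) (K : Subgroup (V ≃ₗ[F] V)) : Prop :=
  ∀ g, LinearEquiv.det g = 1 → Stab D g → g ∈ K

omit [Fintype T] [DecidableEq T] in
theorem map_eq_of_maps (hD : ∀ i, finrank F (D i) = m) {g : V ≃ₗ[F] V} {i j : T}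
    (h : ∀ x ∈ D i, g x ∈ D j) : (D i).map (g : V →ₗ[F] V) = D j := by
  apply Submodule.eq_of_le_of_finrank_eq
  · rintro _ ⟨x, hx, rfl⟩; exact h x hx
  · rw [LinearEquiv.finrank_map_eq, hD, hD]

omit [DecidableEq T] in
theorem stab_of_maps (hπ : Projs D π) (hD : ∀ i, finrank F (D i) = m) (hm : 0 < m) {g : V ≃ₗ[F] V}
    (h : ∀ i, ∃ j, ∀ x ∈ D i, g x ∈ D j) : Stab D g := by
  choose f hf using h
  have hinj : Function.Injective f := by
    intro i i' e
    by_contra hne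
    have h1 := map_eq_of_maps hD (hf i)
    have h2 := map_eq_of_maps hD (hf i')
    rw [← e, ← h1] at h2
    have h3 : D i' = D i := Submodule.map_injective_of_injective g.injective h2
    obtain ⟨x, hx, hx0⟩ := exists_ne_zero_of_finrank_pos (A := D i) (by rw [hD]; exact hm)
    exact hx0 (hπ.eq_zero_of_mem hne hx (h3 ▸ hx))
  exact ⟨Equiv.ofBijective f (Finite.injective_iff_bijective.1 hinj), fun i => map_eq_of_maps hD (hf i)⟩

omit [FiniteDimensional F V] in
theorem internal_maps (hπ : Projs D π) {a : T} {y : V} (hy : y ∈ D a) {χ : Dual F V} {g : V ≃ₗ[F] V}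
    (e : ∀ z, g z = z + χ (π a z) • y) (i : T) : ∀ x ∈ D i, g x ∈ D i := by
  intro x hx
  rw [e]
  by_cases h : a = i
  · subst h; exact (D a).add_mem hx ((D a).smul_mem _ hy)
  · rw [hπ.ne a i h x hx]; simpa using hx

theorem has_int (hπ : Projs D π) (hD : ∀ i, finrank F (D i) = m) (hK : HasStab D K) {a : T} {y : V}
    (hy : y ∈ D a) {χ : Dual F V} (h : χ y = 0) : Has K (χ ∘ₗ π a) y := by
  obtain ⟨g, hg, e⟩ := exists_transvection (φ := χ ∘ₗ π a) (v := y) (by simp [hπ.self a y hy, h])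
  exact ⟨g, hK g hg ⟨1, fun i => map_eq_of_maps hD (internal_maps hπ hy e i)⟩, e⟩

theorem exists_dil (hπ : Projs D π) {a : T} {y : V} (hy : y ∈ D a) {χ : Dual F V} (h : χ y = 1) (c : Fˣ) :
    ∃ g : V ≃ₗ[F] V, LinearEquiv.det g = c ∧ (∀ z, g z = z + (((c : F) - 1) * χ (π a z)) • y) ∧
      ∀ i, ∀ x ∈ D i, g x ∈ D i := by
  obtain ⟨g, hg, e⟩ := exists_dilat (φ := (((c : F) - 1) • χ) ∘ₗ π a) (v := y) (by
    simp [hπ.self a y hy, h])
  refine ⟨g, Units.ext ?_, fun z => by simpa using e z, internal_maps hπ hy (χ := ((c : F) - 1) • χ) e⟩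
  simp [hg, hπ.self a y hy, h]

/-- All transvections with centre in block `a` and axis concentrated in block `b`. -/
def X (D : T → Submodule F V) (π : T → V →ₗ[F] V) (K : Subgroup (V ≃ₗ[F] V)) (a b : T) : Prop :=
  ∀ χ : Dual F V, ∀ x ∈ D a, Has K (χ ∘ₗ π b) x

theorem X_of_cross (hπ : Projs D π) (hD : ∀ i, finrank F (D i) = m) (hm : 2 ≤ m) (hK : HasStab D K)
    {a b : T} (hab : a ≠ b) {x y : V} (hx : x ∈ D a) (hx0 : x ≠ 0) (hy : y ∈ D b) {ψ : Dual F V}
    (h : Has K ψ x) (h1 : ψ x = 0) (h2 : ψ y ≠ 0) : X D π K a b := by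
  have hbx : π b x = 0 := hπ.ne b a hab.symm x hx
  have S1 : ∀ (ψ : Dual F V) (y : V), y ∈ D b → Has K ψ x → ψ x = 0 → ψ y ≠ 0 →
      ∀ χ : Dual F V, χ y = 0 → Has K (χ ∘ₗ π b) x := by
    intro ψ y hy h h1 h2 χ hχ
    have := h.comm_left (has_int hπ hD hK hy (χ := (ψ y)⁻¹ • χ) (by simp [hχ])) h1
      (by simp [hπ.self b y hy, hχ]) (by simp [hbx])
    exact this.congr (fun z => by simp [h2])
  obtain ⟨y', hy', hy'0⟩ := exists_mem_notMem_of_finrank_lt (U := D b) (W := F ∙ y)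
    (lt_of_le_of_lt (finrank_span_singleton_le y) (by rw [hD]; omega))
  obtain ⟨χ1, e1, e2⟩ := exists_dual_one hy'0
  have e3 : χ1 y = 0 := e2 y (Submodule.mem_span_singleton_self y)
  have S2 : ∀ χ : Dual F V, Has K (χ ∘ₗ π b) x := by
    intro χ
    have a1 := S1 ψ y hy h h1 h2 (χ y' • χ1) (by simp [e3])
    have a2 := S1 _ y' hy' (S1 ψ y hy h h1 h2 χ1 e3) (by simp [hbx]) (by simp [hπ.self b y' hy', e1])
      (χ - χ y' • χ1) (by simp [e1])
    exact (a1.add_left a2 (by simp [hbx])).congr (fun z => by simp)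
  intro χ x' hx'
  by_cases hm : x ∈ F ∙ x'
  · obtain ⟨c, rfl⟩ := Submodule.mem_span_singleton.1 hm
    have hc : c ≠ 0 := by rintro rfl; simp at hx0
    exact (S2 (c⁻¹ • χ)).congr (fun z => by
      simp only [LinearMap.comp_apply, LinearMap.smul_apply, smul_eq_mul, smul_smul]
      congr 1; field_simp)
  · obtain ⟨φ0, e4, e5⟩ := exists_dual_one hm
    have e6 : φ0 x' = 0 := e5 x' (Submodule.mem_span_singleton_self x')
    have := (has_int hπ hD hK hx' e6).comm_left (S2 χ) (by simp [hπ.self a x' hx', e6]) (by simp [hbx])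
      (by simp [hπ.ne b a hab.symm x' hx'])
    exact this.congr (fun z => by simp [hπ.self a x hx, e4])

omit [FiniteDimensional F V] in
theorem X.map (hπ : Projs D π) {g : V ≃ₗ[F] V} (hg : g ∈ K) {σ : Equiv.Perm T}
    (h : ∀ i, (D i).map (g : V →ₗ[F] V) = D (σ i)) {a b : T} (hX : X D π K a b) :
    X D π K (σ a) (σ b) := by
  intro χ x hx
  rw [← h a] at hx
  obtain ⟨x, hx, rfl⟩ := hx
  have key : ∀ z, g (π b z) = π (σ b) (g z) := by
    intro z
    conv_rhs => rw [← hπ.sum z, map_sum, map_sum]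
    rw [Finset.sum_eq_single b]
    · exact (hπ.self _ _ (mem_of_map_eq (h b) (hπ.mem b z))).symm
    · intro i _ hi
      exact hπ.ne _ _ (fun e => hi (σ.injective e).symm) _ (mem_of_map_eq (h i) (hπ.mem i z))
    · simp
  exact ((hX (χ ∘ₗ (g : V →ₗ[F] V)) x hx).conj hg).congr (fun z => by simp [key])

theorem exists_swap (hπ : Projs D π) (hD : ∀ i, finrank F (D i) = m) (hm : 0 < m) (hK : HasStab D K)
    (a b : T) : ∃ g ∈ K, ∀ i, (D i).map (g : V →ₗ[F] V) = D (Equiv.swap a b i) := by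
  by_cases hab : a = b
  · subst hab
    exact ⟨1, K.one_mem, fun i => by simp [Submodule.map_id]⟩
  let θ : D a ≃ₗ[F] D b := LinearEquiv.ofFinrankEq _ _ (by rw [hD, hD])
  let A : V →ₗ[F] V := (D b).subtype ∘ₗ (θ : D a →ₗ[F] D b) ∘ₗ (π a).codRestrict (D a) (hπ.mem a)
  let B : V →ₗ[F] V := (D a).subtype ∘ₗ (θ.symm : D b →ₗ[F] D a) ∘ₗ (π b).codRestrict (D b) (hπ.mem b)
  have hA : ∀ x, A x ∈ D b := fun x => (θ _).2
  have hB : ∀ x, B x ∈ D a := fun x => (θ.symm _).2
  have hA0 : ∀ x, π a x = 0 → A x = 0 := fun x hx => by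
    have : (π a).codRestrict (D a) (hπ.mem a) x = 0 := Subtype.ext hx
    simp [A, this]
  have hB0 : ∀ x, π b x = 0 → B x = 0 := fun x hx => by
    have : (π b).codRestrict (D b) (hπ.mem b) x = 0 := Subtype.ext hx
    simp [B, this]
  have hBA : ∀ x, B (A x) = π a x := fun x => by
    have : (π b).codRestrict (D b) (hπ.mem b) (A x) = θ ((π a).codRestrict (D a) (hπ.mem a) x) :=
      Subtype.ext (hπ.self b _ (hA x))
    simp [B, this]
  have hAB : ∀ x, A (B x) = π b x := fun x => by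
    have : (π a).codRestrict (D a) (hπ.mem a) (B x) = θ.symm ((π b).codRestrict (D b) (hπ.mem b) x) :=
      Subtype.ext (hπ.self a _ (hB x))
    simp [A, this]
  have hAa : ∀ x, A (π a x) = A x := fun x => by
    have := hA0 (π a x - x) (by simp [hπ.proj_proj])
    rwa [map_sub, sub_eq_zero] at this
  have hBb : ∀ x, B (π b x) = B x := fun x => by
    have := hB0 (π b x - x) (by simp [hπ.proj_proj])
    rwa [map_sub, sub_eq_zero] at this
  let s0 : V →ₗ[F] V := LinearMap.id - π a - π b + A + B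
  have hs0 : ∀ x, s0 x = x - π a x - π b x + A x + B x := fun x => rfl
  have hinv : Function.Involutive s0 := by
    intro x
    rw [hs0, hs0]
    simp only [map_add, map_sub, hπ.proj_proj, hπ.proj_proj_ne hab, hπ.proj_proj_ne (Ne.symm hab),
      hπ.ne a b hab _ (hA x), hπ.self b _ (hA x), hπ.ne b a (Ne.symm hab) _ (hB x), hπ.self a _ (hB x),
      hBA, hAB, hAa, hBb, hA0 _ (hπ.proj_proj_ne hab x), hB0 _ (hπ.proj_proj_ne (Ne.symm hab) x),
      hA0 _ (hπ.ne a b hab _ (hA x)), hB0 _ (hπ.ne b a (Ne.symm hab) _ (hB x))]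
    abel
  let s : V ≃ₗ[F] V := LinearEquiv.ofInvolutive s0 hinv
  have hs : ∀ i, ∀ x ∈ D i, s x ∈ D (Equiv.swap a b i) := by
    intro i x hx
    change s0 x ∈ _
    rw [hs0]
    by_cases h1 : i = a
    · subst h1
      rw [Equiv.swap_apply_left, hπ.self i x hx, hπ.ne b i (Ne.symm hab) x hx,
        hB0 x (hπ.ne b i (Ne.symm hab) x hx)]
      simpa using hA x
    by_cases h2 : i = b
    · subst h2
      rw [Equiv.swap_apply_right, hπ.self i x hx, hπ.ne a i hab x hx, hA0 x (hπ.ne a i hab x hx)]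
      simpa using hB x
    · rw [Equiv.swap_apply_of_ne_of_ne h1 h2, hπ.ne a i (Ne.symm h1) x hx, hπ.ne b i (Ne.symm h2) x hx,
        hA0 x (hπ.ne a i (Ne.symm h1) x hx), hB0 x (hπ.ne b i (Ne.symm h2) x hx)]
      simpa using hx
  obtain ⟨y, hy, hy0⟩ := exists_ne_zero_of_finrank_pos (A := D a) (by rw [hD]; exact hm)
  obtain ⟨χ, hχ, -⟩ := exists_dual_one (F := F) (W := ⊥) (x := y) (by simpa using hy0)
  obtain ⟨d, hd, -, hd'⟩ := exists_dil hπ hy hχ (LinearEquiv.det s)⁻¹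
  have h3 : ∀ i, (D i).map ((s * d : V ≃ₗ[F] V) : V →ₗ[F] V) = D (Equiv.swap a b i) :=
    fun i => map_eq_of_maps hD (fun x hx => hs i _ (hd' i x hx))
  exact ⟨s * d, hK _ (by simp [hd]) ⟨_, h3⟩, h3⟩

theorem rel_all {R : T → T → Prop} (hR : ∀ i j a b, R a b → R (Equiv.swap i j a) (Equiv.swap i j b))
    {a b : T} (hab : a ≠ b) (h : R a b) (a' b' : T) (hab' : a' ≠ b') : R a' b' := by
  have h1 := hR a a' a b h
  rw [Equiv.swap_apply_left] at h1
  have h2 := hR (Equiv.swap a a' b) b' _ _ h1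
  rw [Equiv.swap_apply_left, Equiv.swap_apply_of_ne_of_ne ?_ hab'] at h2
  · exact h2
  · intro e
    apply hab
    apply (Equiv.swap a a').injective
    rw [← e, Equiv.swap_apply_left]

theorem mem_of_X (hπ : Projs D π) (hD : ∀ i, finrank F (D i) = m) (hm : 0 < m) (hK : HasStab D K)
    {a b : T} (hab : a ≠ b) (hX : X D π K a b) (g : V ≃ₗ[F] V) (hg : LinearEquiv.det g = 1) : g ∈ K := by
  have hall := rel_all (R := X D π K) (fun i j a b h => by
    obtain ⟨s, hs, hs'⟩ := exists_swap hπ hD hm hK i j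
    exact h.map hπ hs hs') hab hX
  refine mem_of_fullCenters_eq_top (eq_top_iff.2 fun v _ => ?_) g hg
  rw [← hπ.sum v]
  refine Submodule.sum_mem _ fun i _ φ hφ => ?_
  have key : ∀ s : Finset T, Has K (∑ j ∈ s, φ ∘ₗ π j) (π i v) := by
    intro s
    induction s using Finset.induction_on with
    | empty => simpa using has_zero_left (M := K) (π i v)
    | insert j s hj ih =>
      rw [Finset.sum_insert hj]
      by_cases hji : j = i
      · subst hji
        exact (has_int hπ hD hK (hπ.mem j v) hφ).add_left ih (by simp [hπ.proj_proj, hφ])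
      · exact (hall i j (Ne.symm hji) φ _ (hπ.mem i v)).add_left ih (by simp [hπ.proj_proj_ne hji])
  refine (key Finset.univ).congr (fun z => ?_)
  congr 1
  rw [LinearMap.sum_apply]
  simp only [LinearMap.comp_apply]
  rw [← map_sum, hπ.sum]

theorem cross_of_good (hπ : Projs D π) (hD : ∀ i, finrank F (D i) = m) (hm : 2 ≤ m) (hK : HasStab D K)
    {φ : Dual F V} {w : V} (h : Has K φ w) (hw : φ w = 0) {a b : T} (hab : a ≠ b) (ha : π a w ≠ 0)
    {y : V} (hy : y ∈ D a) (hy1 : φ y = 0) (hy2 : y ∉ F ∙ π a w) {y' : V} (hy' : y' ∈ D b)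
    (hy'1 : φ y' ≠ 0) : X D π K a b := by
  have hy0 : y ≠ 0 := by rintro rfl; exact hy2 (zero_mem _)
  have h1 : π a w ∉ F ∙ y := by
    intro hm
    obtain ⟨c, hc⟩ := Submodule.mem_span_singleton.1 hm
    have hc0 : c ≠ 0 := by rintro rfl; exact ha (by simpa using hc.symm)
    exact hy2 (Submodule.mem_span_singleton.2 ⟨c⁻¹, by rw [← hc, smul_smul, inv_mul_cancel₀ hc0, one_smul]⟩)
  obtain ⟨χ, e1, e2⟩ := exists_dual_one h1
  have e3 : χ y = 0 := e2 y (Submodule.mem_span_singleton_self y)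
  have := (has_int hπ hD hK hy e3).comm_left h (by simp [hπ.self a y hy, e3]) hw hy1
  exact X_of_cross hπ hD hm hK hab hy hy0 hy' this (by simp [hy1]) (by simpa [e1] using hy'1)

theorem cross_of_zero (hπ : Projs D π) (hD : ∀ i, finrank F (D i) = m) (hm : 2 ≤ m) (hK : HasStab D K)
    {φ : Dual F V} {w : V} (h : Has K φ w) (hw : φ w = 0) (hφ : φ ≠ 0) {a : T} (ha : π a w ≠ 0)
    (h0 : ∀ y ∈ D a, φ y = 0) : ∃ a b, a ≠ b ∧ X D π K a b := by
  obtain ⟨b, y', hy', hy'1⟩ := hπ.exists_dual_ne hφ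
  have hab : a ≠ b := by rintro rfl; exact hy'1 (h0 y' hy')
  obtain ⟨y, hy, hy2⟩ := exists_mem_notMem_of_finrank_lt (U := D a) (W := F ∙ π a w)
    (lt_of_le_of_lt (finrank_span_singleton_le _) (by rw [hD]; omega))
  exact ⟨a, b, hab, cross_of_good hπ hD hm hK h hw hab ha hy (h0 y hy) hy2 hy' hy'1⟩

theorem cross (hπ : Projs D π) (hD : ∀ i, finrank F (D i) = m) (hm : 2 ≤ m) (hK : HasStab D K)
    (hc : 3 ≤ m ∨ ((∃ c : F, c ≠ 0 ∧ c ≠ 1) ∧ 3 ≤ Fintype.card T))
    {φ : Dual F V} {w : V} (h : Has K φ w) (hw : φ w = 0) (hφ : φ ≠ 0)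
    (hs : ∀ b, ∃ a, a ≠ b ∧ π a w ≠ 0) : ∃ a b, a ≠ b ∧ X D π K a b := by
  obtain ⟨b, y', hy', hy'1⟩ := hπ.exists_dual_ne hφ
  obtain ⟨a, hab, ha⟩ := hs b
  rcases hc with hc | ⟨⟨c, hc0, hc1⟩, hT⟩
  · obtain ⟨y, hy, hy2⟩ := exists_mem_notMem_of_finrank_lt (U := D a ⊓ LinearMap.ker φ) (W := F ∙ π a w)
      (lt_of_le_of_lt (finrank_span_singleton_le _) (by
        have := finrank_le_finrank_inf_ker (D a) φ
        rw [hD] at this; omega))
    exact ⟨a, b, hab, cross_of_good hπ hD hm hK h hw hab ha hy.1 hy.2 hy2 hy' hy'1⟩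
  by_cases h1 : φ (π b w) = 0
  · obtain ⟨k, hk1, hk2⟩ : ∃ k, k ≠ a ∧ k ≠ b := by
      by_contra hcon
      push Not at hcon
      have : (Finset.univ : Finset T) ⊆ {a, b} := by
        intro j _
        by_cases h : j = a
        · simp [h]
        · simp [hcon j h]
      have h1 := Finset.card_le_card this
      have h2 := Finset.card_le_two (a := a) (b := b)
      rw [Finset.card_univ] at h1
      omega
    obtain ⟨yk, hyk, hyk2⟩ := exists_mem_notMem_of_finrank_lt (U := D k) (W := F ∙ π k w)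
      (lt_of_le_of_lt (finrank_span_singleton_le _) (by rw [hD]; omega))
    obtain ⟨χ, e1, e2⟩ := exists_dual_one hyk2
    have e3 : χ (π k w) = 0 := e2 _ (Submodule.mem_span_singleton_self _)
    obtain ⟨d1, hd1, f1, g1⟩ := exists_dil hπ ((D b).smul_mem (φ y')⁻¹ hy') (χ := φ) (by simp [hy'1])
      (Units.mk0 c hc0)
    obtain ⟨d2, hd2, f2, g2⟩ := exists_dil hπ hyk e1 (Units.mk0 c hc0)⁻¹
    have hd : d1 * d2 ∈ K := hK _ (by simp [hd1, hd2])
      ⟨1, fun i => map_eq_of_maps hD (fun x hx => g1 i _ (g2 i x hx))⟩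
    have h2 := h.conj (K.inv_mem hd)
    have e4 : (d1 * d2) w = w := by simp [f1, f2, e3, h1]
    have e5 : (d1 * d2)⁻¹ w = w := by
      rw [LinearEquiv.coe_inv, LinearEquiv.symm_apply_eq, e4]
    rw [e5] at h2
    have e6 : ∀ z, (φ ∘ₗ (((d1 * d2)⁻¹).symm : V →ₗ[F] V)) z = φ (d1 (d2 z)) := fun z => rfl
    have h3 := h2.sub_left h (by rw [e6]; exact (congrArg φ e4).trans hw) hw
    refine cross_of_zero hπ hD hm hK h3 (by
      rw [LinearMap.sub_apply, e6, hw, sub_zero]; exact (congrArg φ e4).trans hw) ?_ ha ?_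
    · intro h0
      have := LinearMap.congr_fun h0 y'
      rw [LinearMap.sub_apply, e6, f2, hπ.ne k b hk2 y' hy', map_zero, mul_zero, zero_smul, add_zero, f1,
        hπ.self b y' hy'] at this
      simp [hy'1, sub_eq_zero, hc1] at this
    · intro y hy
      rw [LinearMap.sub_apply, e6, f2, hπ.ne k a hk1 y hy, map_zero, mul_zero, zero_smul, add_zero, f1,
        hπ.ne b a hab.symm y hy]
      simp
  · obtain ⟨y, hy, hy2⟩ := exists_mem_notMem_of_finrank_lt (U := D b) (W := F ∙ π b w)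
      (lt_of_le_of_lt (finrank_span_singleton_le _) (by rw [hD]; omega))
    obtain ⟨χ, e1, e2⟩ := exists_dual_one hy2
    have e3 : χ (π b w) = 0 := e2 _ (Submodule.mem_span_singleton_self _)
    have h2 := h.comm_left (has_int hπ hD hK (hπ.mem b w) e3) hw (by simp [hπ.proj_proj, e3])
      (by simp [e3])
    refine cross_of_zero hπ hD hm hK h2 (by simp [e3]) ?_ ha ?_
    · intro h0
      have := LinearMap.congr_fun h0 y
      simp [h1, hπ.self b y hy, e1] at this
    · intro z hz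
      simp [hπ.ne b a hab.symm z hz]

theorem abstract_max (hπ : Projs D π) (hD : ∀ i, finrank F (D i) = m) (hm : 2 ≤ m) (hK : HasStab D K)
    (hc : 3 ≤ m ∨ ((∃ c : F, c ≠ 0 ∧ c ≠ 1) ∧ 3 ≤ Fintype.card T)) :
    (∀ g ∈ K, Stab D g) ∨ ∀ g, LinearEquiv.det g = 1 → g ∈ K := by
  by_cases h : ∀ g ∈ K, ∀ i, ∀ v ∈ D i, ∃ j, g v ∈ D j
  · left
    intro g hg
    refine stab_of_maps hπ hD (by omega) fun i => ?_
    obtain ⟨x, hx, hx0⟩ := exists_ne_zero_of_finrank_pos (A := D i) (by rw [hD]; omega)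
    obtain ⟨j, hj⟩ := h g hg i x hx
    refine ⟨j, fun y hy => ?_⟩
    obtain ⟨k, hk⟩ := h g hg i y hy
    by_cases hkj : k = j
    · exact hkj ▸ hk
    obtain ⟨l, hl⟩ := h g hg i (x + y) (add_mem hx hy)
    rw [map_add] at hl
    by_cases hlj : l = j
    · subst hlj; simpa using sub_mem hl hj
    · exfalso
      have h1 := hπ.ne j l (Ne.symm hlj) _ hl
      rw [map_add, hπ.self j _ hj, hπ.ne j k (Ne.symm hkj) _ hk, add_zero] at h1
      exact hx0 (by simpa using h1)
  right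
  push Not at h
  obtain ⟨g, hg, i, v, hv, h⟩ := h
  obtain ⟨y, hy, hy2⟩ := exists_mem_notMem_of_finrank_lt (U := D i) (W := F ∙ v)
    (lt_of_le_of_lt (finrank_span_singleton_le _) (by rw [hD]; omega))
  obtain ⟨χ, e1, e2⟩ := exists_dual_one hy2
  have e3 : χ v = 0 := e2 _ (Submodule.mem_span_singleton_self _)
  obtain ⟨a, b, hab, hX⟩ := cross hπ hD hm hK hc ((has_int hπ hD hK hv e3).conj hg)
    (by simp [hπ.self i v hv, e3]) (fun h0 => by
      have := LinearMap.congr_fun h0 (g y)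
      simp [hπ.self i y hy, e1] at this) (fun b => by
      by_contra hcon
      push Not at hcon
      exact h b (hπ.mem_of hcon))
  exact mem_of_X hπ hD (by omega) hK hab hX

end Cfsg.Agent.H1.C2a
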