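import Cfsg.Agent.H1.Root

/-!
Overgroups of the monomial group in the general linear group contain a root element.
-/

set_option autoImplicit false
set_option linter.unusedSectionVars false

namespace Cfsg.Agent.H1.C2b

open Module Cfsg.Agent.H7 Cfsg.Agent.H1.Root

section general
variable {F V : Type*} [Field F] [AddCommGroup V] [Module F V] {K : Subgroup (V ≃ₗ[F] V)}

theorem has_same_center {α β : Dual F V} {v : V} (h1 : Has K α v) (h2 : Has K β v) :
    Has K (α + β + α v • β) v := by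
  obtain ⟨t, ht, e⟩ := h1
  obtain ⟨s, hs, e'⟩ := h2
  refine ⟨t * s, K.mul_mem ht hs, fun z => ?_⟩
  simp only [LinearEquiv.mul_apply, e, e', map_add, map_smul, LinearMap.add_apply, LinearMap.smul_apply,
    smul_eq_mul]
  module

theorem has_same_axis {φ : Dual F V} {a b : F} {v w : V} (h1 : Has K (a • φ) v) (h2 : Has K (b • φ) w) :
    Has K φ (a • v + b • w + (a * b * φ w) • v) := by
  obtain ⟨t, ht, e⟩ := h1
  obtain ⟨s, hs, e'⟩ := h2
  refine ⟨t * s, K.mul_mem ht hs, fun z => ?_⟩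
  simp only [LinearEquiv.mul_apply, e, e', map_add, map_smul, LinearMap.smul_apply, smul_eq_mul]
  module

/-- `K` contains the full group of homologies with axis `ker φ` and centre `v`. -/
def Hom (K : Subgroup (V ≃ₗ[F] V)) (φ : Dual F V) (v : V) : Prop :=
  φ v = 1 ∧ ∀ c : F, c ≠ 0 → Has K ((c - 1) • φ) v

theorem Hom.conj {φ : Dual F V} {v : V} (h : Hom K φ v) {g : V ≃ₗ[F] V} (hg : g ∈ K) :
    Hom K (φ ∘ₗ (g.symm : V →ₗ[F] V)) (g v) :=
  ⟨by simp [h.1], fun c hc => ((h.2 c hc).conj hg).congr (fun z => by simp)⟩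

theorem Hom.exists_elt {χ : Dual F V} {y : V} (h : Hom K χ y) {c : F} (hc : c ≠ 0) :
    ∃ t ∈ K, (∀ z, t z = z + ((c - 1) * χ z) • y) ∧ ∀ z, t.symm z = z + ((c⁻¹ - 1) * χ z) • y := by
  obtain ⟨t, ht, e⟩ := h.2 c hc
  refine ⟨t, ht, fun z => by simpa using e z, fun z => ?_⟩
  rw [LinearEquiv.symm_apply_eq, e]
  simp only [LinearMap.smul_apply, map_add, map_smul, h.1, smul_eq_mul]
  match_scalars
  · rfl
  · field_simp; ring

theorem has_conj_hom {φ χ : Dual F V} {v y : V} (h1 : Has K φ v) (h : Hom K χ y) {c : F} (hc : c ≠ 0) :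
    Has K (φ + ((c⁻¹ - 1) * φ y) • χ) (v + ((c - 1) * χ v) • y) := by
  obtain ⟨t, ht, e, e'⟩ := h.exists_elt hc
  have := h1.conj ht
  rw [e] at this
  exact this.congr (fun z => by
    simp only [LinearMap.comp_apply, LinearEquiv.coe_coe, e', map_add, map_smul, LinearMap.add_apply,
      LinearMap.smul_apply, smul_eq_mul]
    congr 1; ring)

theorem hom_conj_hom {φ χ : Dual F V} {v y : V} (h1 : Hom K φ v) (h : Hom K χ y) {c : F} (hc : c ≠ 0) :
    ∃ φ', Hom K φ' (v + ((c - 1) * χ v) • y) := by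
  obtain ⟨t, ht, e, -⟩ := h.exists_elt hc
  have := h1.conj ht
  rw [e] at this
  exact ⟨_, this⟩

end general

variable {ι : Type} [Fintype ι] [DecidableEq ι] {F : Type*} [Field F]
  {K : Subgroup ((ι → F) ≃ₗ[F] (ι → F))}

/-- diagonal automorphisms -/
def dg (d : ι → Fˣ) : (ι → F) ≃ₗ[F] (ι → F) where
  toFun x i := d i * x i
  invFun x i := ((d i)⁻¹ : Fˣ) * x i
  map_add' x y := by ext i; simp [mul_add]
  map_smul' c x := by ext i; simp [mul_left_comm]
  left_inv x := by ext i; simp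
  right_inv x := by ext i; simp

@[simp] theorem dg_apply (d : ι → Fˣ) (x : ι → F) (i : ι) : dg d x i = d i * x i := rfl
@[simp] theorem dg_symm_apply (d : ι → Fˣ) (x : ι → F) (i : ι) :
    (dg d).symm x i = (d i : F)⁻¹ * x i := by
  change ((d i)⁻¹ : Fˣ) * x i = _
  simp

theorem dg_ee (d : ι → Fˣ) (i : ι) : dg d (ee F i) = (d i : F) • ee F i := by
  ext j
  by_cases h : j = i
  · subst h; simp
  · simp [ee_ne h]

theorem dg_symm_ee (d : ι → Fˣ) (i : ι) : (dg d).symm (ee F i) = (d i : F)⁻¹ • ee F i := by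
  ext j
  by_cases h : j = i
  · subst h; simp
  · simp [ee_ne h]

theorem det_dg (d : ι → Fˣ) : LinearEquiv.det (dg d) = ∏ i, d i := by
  apply Units.ext
  have : (dg d : (ι → F) →ₗ[F] (ι → F)) = Matrix.toLin' (Matrix.diagonal fun i => (d i : F)) := by
    refine LinearMap.ext fun x => ?_
    ext i; simp [Matrix.mulVec_diagonal]
  rw [LinearEquiv.coe_det, this, LinearMap.det_toLin', Matrix.det_diagonal, Units.coe_prod]

/-- coordinate permutations -/
def pm (F : Type*) [Field F] (σ : Equiv.Perm ι) : (ι → F) ≃ₗ[F] (ι → F) := LinearEquiv.funCongrLeft F F σ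

@[simp] theorem pm_apply (σ : Equiv.Perm ι) (x : ι → F) (i : ι) : pm F σ x i = x (σ i) := rfl
@[simp] theorem pm_symm_apply (σ : Equiv.Perm ι) (x : ι → F) (i : ι) :
    (pm F σ).symm x i = x (σ.symm i) := rfl

theorem pm_ee (σ : Equiv.Perm ι) (i : ι) : pm F σ (ee F i) = ee F (σ.symm i) := by
  ext j
  simp [Pi.single_apply, Equiv.eq_symm_apply]

theorem det_pm (σ : Equiv.Perm ι) : (LinearEquiv.det (pm F σ) : F) = Equiv.Perm.sign σ := by
  have : (pm F σ : (ι → F) →ₗ[F] (ι → F)) = Matrix.toLin' (σ.permMatrix F) := by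
    refine LinearMap.ext fun x => ?_
    ext i; simp [Matrix.permMatrix_mulVec]
  rw [LinearEquiv.coe_det, this, LinearMap.det_toLin', Matrix.det_permutation]

/-- non-zero multiples of standard basis vectors -/
def IsE (x : ι → F) : Prop := ∃ i, ∃ c : F, c ≠ 0 ∧ x = c • ee F i

/-- monomial automorphisms -/
def Mono (g : (ι → F) ≃ₗ[F] (ι → F)) : Prop := ∀ j, IsE (g (ee F j))

/-- `K` contains a non-trivial root element -/
def NRoot (K : Subgroup ((ι → F) ≃ₗ[F] (ι → F))) : Prop := ∃ i j, ∃ c : F, i ≠ j ∧ c ≠ 0 ∧ Rt K i j c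

theorem exists_two_of_not_isE {v : ι → F} (h0 : v ≠ 0) (h : ¬ IsE v) :
    ∃ i j, i ≠ j ∧ v i ≠ 0 ∧ v j ≠ 0 := by
  obtain ⟨i, hi⟩ := Function.ne_iff.1 h0
  by_contra hc
  push Not at hc
  refine h ⟨i, v i, hi, ?_⟩
  ext j
  by_cases hj : j = i
  · subst hj; simp
  · simp [ee_ne hj, hc i j (Ne.symm hj) hi]

theorem not_isE_of_two {v : ι → F} {i j : ι} (hij : i ≠ j) (hi : v i ≠ 0) (hj : v j ≠ 0) : ¬ IsE v := by
  rintro ⟨k, c, -, rfl⟩
  by_cases h : i = k
  · subst h; exact hj (by simp [ee_ne hij.symm])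
  · exact hi (by simp [ee_ne h])

theorem hom_ee (hd : ∀ d, dg d ∈ K) (i : ι) : Hom K (pr F i) (ee F i) := by
  refine ⟨by simp, fun c hc => ⟨_, hd (Function.update 1 i (Units.mk0 c hc)), fun z => ?_⟩⟩
  ext j
  by_cases h : j = i
  · subst h; simp; ring
  · simp [ee_ne h, Function.update_of_ne h]

theorem exists_ne_of_card [Fintype F] (s : Finset F) (h : s.card < Fintype.card F) : ∃ x, x ∉ s := by
  by_contra hc
  push Not at hc
  have := Finset.card_le_card (show Finset.univ ⊆ s from fun x _ => hc x)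
  rw [Finset.card_univ] at this
  omega

theorem exists_ne3 [Fintype F] (hq : 4 ≤ Fintype.card F) (a b c : F) : ∃ x, x ≠ a ∧ x ≠ b ∧ x ≠ c := by
  classical
  obtain ⟨x, hx⟩ := exists_ne_of_card ({a, b, c} : Finset F) (lt_of_le_of_lt Finset.card_le_three (by omega))
  exact ⟨x, by simpa [not_or] using hx⟩

section partI
variable (hd : ∀ d, dg d ∈ K) {μ : F} (hμ0 : μ ≠ 0) (hμ1 : μ ≠ 1)
include hd hμ0 hμ1

theorem nroot_of_center {ψ : Dual F (ι → F)} {j : ι} (h : Has K ψ (ee F j)) (h0 : ψ (ee F j) = 0)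
    (hψ : ψ ≠ 0) : NRoot K := by
  obtain ⟨k, hk⟩ := exists_dual_single_ne hψ
  have hkj : k ≠ j := by rintro rfl; exact hk h0
  have h1 := has_conj_hom h (hom_ee hd k) hμ0
  simp only [LinearMap.proj_apply, ee_ne hkj, mul_zero, zero_smul, add_zero] at h1
  have h2 := h1.sub_left h (by simp [h0, ee_ne hkj]) h0
  refine ⟨j, k, _, hkj.symm, mul_ne_zero (sub_ne_zero.2 (inv_ne_one.2 hμ1)) hk, h2.congr fun z => ?_⟩
  simp

theorem nroot_of_axis {c : F} (hc : c ≠ 0) {j : ι} {v : ι → F} (h : Has K (c • pr F j) v) (h0 : v j = 0)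
    (hv : v ≠ 0) : NRoot K := by
  obtain ⟨k, hk⟩ := Function.ne_iff.1 hv
  have hkj : k ≠ j := by rintro rfl; exact hk h0
  have h1 := has_conj_hom h (hom_ee hd k) hμ0
  simp only [LinearMap.smul_apply, LinearMap.proj_apply, ee_ne hkj.symm, smul_zero, mul_zero, zero_smul,
    add_zero] at h1
  have h2 := h1.sub_right h (by simp [h0])
  refine ⟨k, j, _, hkj, mul_ne_zero hc (mul_ne_zero (sub_ne_zero.2 hμ1) hk), h2.congr fun z => ?_⟩
  simp only [LinearMap.smul_apply, LinearMap.proj_apply, smul_eq_mul, add_sub_cancel_left, smul_smul]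
  congr 1; ring

theorem nroot_B1 {φ : Dual F (ι → F)} {v : ι → F} (h : Hom K φ v) {j : ι} (h1 : v j ≠ 0)
    (h2 : φ (ee F j) = 0) : NRoot K := by
  have h3 := has_conj_hom (h.2 μ hμ0) (hom_ee hd j) hμ0
  simp only [LinearMap.smul_apply, h2, smul_zero, mul_zero, zero_smul, add_zero, LinearMap.proj_apply] at h3
  have h4 := has_same_axis h3 (h.2 μ⁻¹ (inv_ne_zero hμ0))
  refine nroot_of_center hd hμ0 hμ1 (j := j) (ψ := ((1 - μ⁻¹) * ((μ - 1) * v j)) • φ) (h4.congr fun z => ?_)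
    (by simp [h2]) ?_
  · simp only [h.1, LinearMap.smul_apply, smul_eq_mul]
    match_scalars
    · field_simp; ring
    · field_simp; ring
  · intro h5
    have := LinearMap.congr_fun h5 v
    simp [h.1, h1, sub_eq_zero, hμ1, (inv_ne_one.2 hμ1).symm] at this

theorem nroot_B2 {φ : Dual F (ι → F)} {v : ι → F} (h : Hom K φ v) {j : ι} (h1 : v j = 0)
    (h2 : φ (ee F j) ≠ 0) : NRoot K := by
  have h3 := has_conj_hom (h.2 μ hμ0) (hom_ee hd j) hμ0
  simp only [LinearMap.proj_apply, h1, mul_zero, zero_smul, add_zero] at h3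
  have h4 := has_same_center h3 (h.2 μ⁻¹ (inv_ne_zero hμ0))
  refine nroot_of_axis hd hμ0 hμ1 (j := j) (c := (μ⁻¹ - 1) * ((μ - 1) * φ (ee F j))) ?_
    (h4.congr fun z => ?_) h1 ?_
  · exact mul_ne_zero (sub_ne_zero.2 (inv_ne_one.2 hμ1)) (mul_ne_zero (sub_ne_zero.2 hμ1) h2)
  · simp only [h.1, h1, LinearMap.add_apply, LinearMap.smul_apply, smul_eq_mul, LinearMap.proj_apply]
    congr 1
    field_simp; ring
  · rintro rfl; simpa using h.1

theorem nroot_of_full {φ : Dual F (ι → F)} {w : ι → F} (h : ∀ c : F, Has K (c • φ) w) (h0 : φ w = 0)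
    {j : ι} (h1 : w j ≠ 0) (h2 : φ (ee F j) ≠ 0) : NRoot K := by
  have a1 : μ - 1 ≠ 0 := sub_ne_zero.2 hμ1
  have a2 : μ⁻¹ - 1 ≠ 0 := sub_ne_zero.2 (inv_ne_one.2 hμ1)
  set c : F := -((μ⁻¹ - 1) * φ (ee F j) * w j)⁻¹ with hc
  have h3 := has_conj_hom (h c) (hom_ee hd j) hμ0
  have h4 := (h 1).conj_has h3 (by
    simp only [LinearMap.add_apply, LinearMap.smul_apply, map_add, map_smul, h0, LinearMap.proj_apply,
      smul_eq_mul, Pi.single_eq_same]
    field_simp; ring)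
  have e1 : (c • φ + ((μ⁻¹ - 1) * (c • φ) (ee F j)) • pr F j) w = -1 := by
    simp only [LinearMap.add_apply, LinearMap.smul_apply, h0, LinearMap.proj_apply, smul_eq_mul, hc]
    field_simp; ring
  rw [e1] at h4
  set ψ := (1 : F) • φ - ((1 : F) • φ) (w + ((μ - 1) * (pr F j) w) • ee F j) •
    (c • φ + ((μ⁻¹ - 1) * (c • φ) (ee F j)) • pr F j) with hψ
  refine nroot_of_center hd hμ0 hμ1 (j := j) (ψ := (-((μ - 1) * w j)) • ψ) (h4.congr fun z => ?_) ?_ ?_
  · simp only [LinearMap.smul_apply, smul_eq_mul, LinearMap.proj_apply]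
    module
  · simp only [hψ, LinearMap.sub_apply, LinearMap.add_apply, LinearMap.smul_apply, map_add, map_smul, h0,
      LinearMap.proj_apply, smul_eq_mul, Pi.single_eq_same, hc]
    field_simp; ring
  · intro h5
    have := LinearMap.congr_fun h5 w
    rw [LinearMap.smul_apply, hψ, LinearMap.sub_apply, LinearMap.smul_apply _ _ w,
      LinearMap.smul_apply _ _ w, e1] at this
    simp [h0, h1, h2, a1] at this

theorem full_of_hom {φ : Dual F (ι → F)} {v : ι → F} (h : Hom K φ v) (t : ι → Fˣ)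
    (h1 : φ (dg t v) = 0) (h2 : φ ((dg t).symm v) ≠ 0) (c : F) : Has K (c • φ) (dg t v) := by
  have a1 : μ - 1 ≠ 0 := sub_ne_zero.2 hμ1
  have a2 : μ⁻¹ - 1 ≠ 0 := sub_ne_zero.2 (inv_ne_one.2 hμ1)
  have h3 := h.conj (hd t)
  have h4 := has_conj_hom (h3.2 μ hμ0) h hμ0
  rw [h1, mul_zero, zero_smul, add_zero] at h4
  have h5 := has_same_center h4 (h3.2 μ⁻¹ (inv_ne_zero hμ0))
  set c0 : F := (μ⁻¹ - 1) * ((μ - 1) * φ ((dg t).symm v)) with hc0
  have h6 : Has K (c0 • φ) (dg t v) := h5.congr fun z => by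
    simp only [LinearMap.add_apply, LinearMap.smul_apply, h3.1, h1, smul_eq_mul, hc0, LinearMap.comp_apply,
      LinearEquiv.coe_coe]
    congr 1
    field_simp; ring
  have hc0' : c0 ≠ 0 := mul_ne_zero a2 (mul_ne_zero a1 h2)
  by_cases hc : c = 0
  · subst hc; simpa using has_zero_left (M := K) (dg t v)
  have h7 := has_conj_hom h6 h (div_ne_zero hc0' hc)
  rw [h1, mul_zero, zero_smul, add_zero] at h7
  refine h7.congr fun z => ?_
  simp only [LinearMap.add_apply, LinearMap.smul_apply, h.1, smul_eq_mul]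
  congr 1
  field_simp; ring

end partI

theorem exists_torus [Fintype F] (hq : 5 ≤ Fintype.card F) (p : ι → F) {i1 i2 i3 : ι} (h12 : i1 ≠ i2)
    (h13 : i1 ≠ i3) (h23 : i2 ≠ i3) (h1 : p i1 ≠ 0) (h2 : p i2 ≠ 0) (h3 : p i3 ≠ 0) :
    ∃ t : ι → Fˣ, ∑ i, (t i : F) * p i = 0 ∧ ∑ i, (t i : F)⁻¹ * p i ≠ 0 := by
  set s : Finset ι := ((Finset.univ.erase i1).erase i2).erase i3 with hs
  set R := ∑ i ∈ s, p i with hR
  have hsum : ∀ f : ι → F, ∑ i, f i = f i1 + f i2 + f i3 + ∑ i ∈ s, f i := by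
    intro f
    rw [← Finset.add_sum_erase _ _ (Finset.mem_univ i1),
      ← Finset.add_sum_erase _ _ (show i2 ∈ Finset.univ.erase i1 by simp [h12.symm]),
      ← Finset.add_sum_erase _ _ (show i3 ∈ (Finset.univ.erase i1).erase i2 by simp [h13.symm, h23.symm])]
    ring
  obtain ⟨y, hy0, hy1, -⟩ := exists_ne3 (by omega) (0 : F) (-R / p i3) 0
  have hσ : R + y * p i3 ≠ 0 := fun h => hy1 (by field_simp; linear_combination h)
  set σ := R + y * p i3 with hσ'
  set C := R + y⁻¹ * p i3 with hC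
  let f : Polynomial F := Polynomial.X * (Polynomial.X + Polynomial.C σ) *
    (Polynomial.C C * Polynomial.X ^ 2 + Polynomial.C (p i1 ^ 2 - p i2 ^ 2 + C * σ) * Polynomial.X +
      Polynomial.C (p i1 ^ 2 * σ))
  have hf0 : f ≠ 0 := by
    refine mul_ne_zero (mul_ne_zero Polynomial.X_ne_zero (Polynomial.X_add_C_ne_zero σ)) fun h => ?_
    have := congrArg (Polynomial.eval 0) h
    simp [h1, hσ] at this
  have hdeg : f.natDegree ≤ 4 := by
    simp only [f]; compute_degree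
  obtain ⟨x, hx⟩ := Polynomial.exists_eval_ne_zero_of_natDegree_lt_card f hf0 (by
    rw [Cardinal.mk_fintype]; exact_mod_cast (by omega))
  simp only [f, Polynomial.eval_mul, Polynomial.eval_add, Polynomial.eval_X, Polynomial.eval_C,
    Polynomial.eval_pow, ne_eq, mul_eq_zero, not_or] at hx
  obtain ⟨⟨hx0, hx1⟩, hx2⟩ := hx
  let t : ι → Fˣ := fun i => if i = i1 then Units.mk0 (x / p i1) (div_ne_zero hx0 h1) else
    if i = i2 then Units.mk0 (-(x + σ) / p i2) (div_ne_zero (neg_ne_zero.2 hx1) h2) else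
    if i = i3 then Units.mk0 y hy0 else 1
  have ht : ∀ i ∈ s, t i = 1 := fun i hi => by
    simp only [hs, Finset.mem_erase] at hi
    simp [t, hi.1, hi.2.1, hi.2.2.1]
  have e1 : (t i1 : F) = x / p i1 := by simp [t]
  have e2 : (t i2 : F) = -(x + σ) / p i2 := by simp [t, h12.symm]
  have e3 : (t i3 : F) = y := by simp [t, h13.symm, h23.symm]
  refine ⟨t, ?_, ?_⟩
  · rw [hsum, Finset.sum_congr rfl (fun i hi => by rw [ht i hi, Units.val_one, one_mul]), e1, e2, e3, ← hR]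
    field_simp; ring
  · rw [hsum, Finset.sum_congr rfl (fun i hi => by rw [ht i hi, Units.val_one, inv_one, one_mul]), e1, e2, e3,
      ← hR]
    intro h
    apply hx2
    have h4 : (x / p i1)⁻¹ * p i1 + (-(x + σ) / p i2)⁻¹ * p i2 + C = 0 := by rw [hC]; linear_combination h
    field_simp at h4
    linear_combination h4

theorem nroot_of_three [Fintype F] (hq : 5 ≤ Fintype.card F) (hd : ∀ d, dg d ∈ K) {φ : Dual F (ι → F)}
    {v : ι → F} (h : Hom K φ v) {i1 i2 i3 : ι} (h12 : i1 ≠ i2) (h13 : i1 ≠ i3) (h23 : i2 ≠ i3)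
    (h1 : v i1 ≠ 0) (h2 : v i2 ≠ 0) (h3 : v i3 ≠ 0) : NRoot K := by
  obtain ⟨μ, hμ0, hμ1, -⟩ := exists_ne3 (by omega) (0 : F) 1 0
  by_cases hB : ∃ j, v j ≠ 0 ∧ φ (ee F j) = 0
  · obtain ⟨j, a1, a2⟩ := hB
    exact nroot_B1 hd hμ0 hμ1 h a1 a2
  push Not at hB
  obtain ⟨t, ht1, ht2⟩ := exists_torus hq (fun i => v i * φ (ee F i)) h12 h13 h23
    (mul_ne_zero h1 (hB _ h1)) (mul_ne_zero h2 (hB _ h2)) (mul_ne_zero h3 (hB _ h3))
  have e1 : φ (dg t v) = 0 := by rw [dual_eq_sum, ← ht1]; simp [mul_assoc]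
  refine nroot_of_full hd hμ0 hμ1 (full_of_hom hd hμ0 hμ1 h t e1 ?_) e1 (j := i1) (by simp [h1]) (hB _ h1)
  rw [dual_eq_sum]; simpa [mul_assoc] using ht2

theorem nroot_of_not_mono [Fintype F] (hq : 5 ≤ Fintype.card F) (hn : 3 ≤ Fintype.card ι)
    (hd : ∀ d, dg d ∈ K) (hs : ∀ a b, pm F (Equiv.swap a b) ∈ K) {g : (ι → F) ≃ₗ[F] (ι → F)}
    (hg : g ∈ K) (h : ¬ Mono g) : NRoot K := by
  obtain ⟨j, hj⟩ := not_forall.1 h
  obtain ⟨φ, hH⟩ : ∃ φ, Hom K φ (g (ee F j)) := ⟨_, (hom_ee hd j).conj hg⟩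
  set v := g (ee F j)
  have hv0 : v ≠ 0 := by rintro h0; simpa [h0] using hH.1
  obtain ⟨i1, i2, h12, h1, h2⟩ := exists_two_of_not_isE hv0 hj
  obtain ⟨i3, h31, h32⟩ := exists_third hn i1 i2
  by_cases h3 : v i3 = 0
  swap
  · exact nroot_of_three hq hd hH h12 h31.symm h32.symm h1 h2 h3
  obtain ⟨μ, hμ0, hμ1, -⟩ := exists_ne3 (by omega) (0 : F) 1 0
  by_cases hB : ∃ j, v j = 0 ∧ φ (ee F j) ≠ 0
  · obtain ⟨j, a1, a2⟩ := hB
    exact nroot_B2 hd hμ0 hμ1 hH a1 a2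
  push Not at hB
  by_cases hB' : φ (ee F i2) = 0
  · exact nroot_B1 hd hμ0 hμ1 hH h2 hB'
  by_cases hB'' : φ (ee F i1) = 0
  · exact nroot_B1 hd hμ0 hμ1 hH h1 hB''
  by_cases h4 : ∃ k, k ≠ i1 ∧ k ≠ i2 ∧ v k ≠ 0
  · obtain ⟨k, a1, a2, a3⟩ := h4
    exact nroot_of_three hq hd hH h12 a1.symm a2.symm h1 h2 a3
  push Not at h4
  have hH' := hH.conj (hs i2 i3)
  set v' := pm F (Equiv.swap i2 i3) v with hv'
  have e1 : φ v' = v i1 * φ (ee F i1) := by
    rw [dual_eq_sum, Finset.sum_eq_single i1]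
    · simp [hv', Equiv.swap_apply_of_ne_of_ne h12 h31.symm]
    · intro k _ hk
      by_cases a1 : k = i2
      · subst a1; simp [hv', h3]
      · rw [hB k (h4 k hk a1), mul_zero]
    · simp
  have hp : φ v' ≠ 0 := e1 ▸ mul_ne_zero h1 hB''
  obtain ⟨c, hc0, hc1, hc2⟩ := exists_ne3 (by omega) (0 : F) 1 (1 - (φ v')⁻¹)
  obtain ⟨φ'', hH''⟩ := hom_conj_hom hH' hH hc0
  refine nroot_of_three hq hd hH'' h12 h31.symm h32.symm ?_ ?_ ?_
  · simp only [Pi.add_apply, Pi.smul_apply, smul_eq_mul, hv', pm_apply,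
      Equiv.swap_apply_of_ne_of_ne h12 h31.symm]
    rw [← hv']
    intro h5
    apply hc2
    have h6 : 1 + (c - 1) * φ v' = 0 := by
      apply mul_right_cancel₀ h1; linear_combination h5
    field_simp; linear_combination h6
  · simp only [Pi.add_apply, Pi.smul_apply, smul_eq_mul, hv', pm_apply, Equiv.swap_apply_left, h3, zero_add]
    exact mul_ne_zero (mul_ne_zero (sub_ne_zero.2 hc1) hp) h2
  · simpa [hv', h3] using h2

end Cfsg.Agent.H1.C2b
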