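import Cfsg.Agent.H1.C2a
import Cfsg.Agent.H1.C2b

/-!
Overgroups of the monomial group in the special linear group: point stabilisers.
-/

set_option autoImplicit false
set_option linter.unusedSectionVars false

namespace Cfsg.Agent.H1.C2c

open Module Cfsg.Agent.H7 Cfsg.Agent.H1.Root Cfsg.Agent.H1.C2b

variable {ι : Type} [Fintype ι] [DecidableEq ι] {F : Type*} [Field F]
  {K : Subgroup ((ι → F) ≃ₗ[F] (ι → F))}

/-- `K` contains the monomial group of determinant one. -/
def HasMono (K : Subgroup ((ι → F) ≃ₗ[F] (ι → F))) : Prop :=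
  ∀ g, LinearEquiv.det g = 1 → Mono g → g ∈ K

theorem mono_dg (d : ι → Fˣ) : Mono (dg d) := fun j => ⟨j, d j, (d j).ne_zero, dg_ee d j⟩

theorem mono_pm (σ : Equiv.Perm ι) : Mono (pm F σ) := fun j => ⟨_, 1, one_ne_zero, by rw [pm_ee, one_smul]⟩

theorem mono_mul {g h : (ι → F) ≃ₗ[F] (ι → F)} (hg : Mono g) (hh : Mono h) : Mono (g * h) := by
  intro j
  obtain ⟨k, c, hc, e⟩ := hh j
  obtain ⟨l, c', hc', e'⟩ := hg k
  exact ⟨l, c * c', mul_ne_zero hc hc', by rw [LinearEquiv.mul_apply, e, map_smul, e', smul_smul]⟩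

theorem col_inj {g : (ι → F) ≃ₗ[F] (ι → F)} {k m l : ι} {c c' : F} (hc : c ≠ 0)
    (h1 : g (ee F k) = c • ee F l) (h2 : g (ee F m) = c' • ee F l) : m = k := by
  by_contra h
  have : g (c • ee F m) = g (c' • ee F k) := by rw [map_smul, map_smul, h1, h2, smul_comm]
  have := congrFun (g.injective this) m
  simp [ee_ne h, hc] at this

theorem mono_symm {g : (ι → F) ≃ₗ[F] (ι → F)} (hg : Mono g) : Mono g.symm := by
  choose σ c hc e using hg
  have hinj : Function.Injective σ := fun k m h => (col_inj (hc k) (e k) (h ▸ e m)).symm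
  intro j
  obtain ⟨k, rfl⟩ := Finite.injective_iff_surjective.1 hinj j
  refine ⟨k, (c k)⁻¹, inv_ne_zero (hc k), ?_⟩
  rw [LinearEquiv.symm_apply_eq, map_smul, e, smul_smul, inv_mul_cancel₀ (hc k), one_smul]

theorem HasMono.dg_mem (hK : HasMono K) {d : ι → Fˣ} (h : ∏ i, d i = 1) : dg d ∈ K :=
  hK _ (by rw [det_dg, h]) (mono_dg d)

/-- the diagonal element with entries `a` at `k` and `a⁻¹` at `l` -/
def tor (k l : ι) (a : Fˣ) : ι → Fˣ := Pi.mulSingle k a * Pi.mulSingle l a⁻¹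

theorem tor_left {k l : ι} (h : k ≠ l) (a : Fˣ) : tor k l a k = a := by simp [tor, h]
theorem tor_right {k l : ι} (h : k ≠ l) (a : Fˣ) : tor k l a l = a⁻¹ := by simp [tor, h.symm]
theorem tor_ne {k l m : ι} (h1 : m ≠ k) (h2 : m ≠ l) (a : Fˣ) : tor k l a m = 1 := by simp [tor, h1, h2]

theorem HasMono.tor_mem (hK : HasMono K) (k l : ι) (a : Fˣ) : dg (tor k l a) ∈ K :=
  hK.dg_mem (by simp [tor, Finset.prod_mul_distrib])

theorem HasMono.swap_mem (hK : HasMono K) {a b : ι} (hab : a ≠ b) (k : ι) :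
    dg (Pi.mulSingle k (-1)) * pm F (Equiv.swap a b) ∈ K := by
  refine hK _ ?_ (mono_mul (mono_dg _) (mono_pm _))
  apply Units.ext
  rw [map_mul, Units.val_mul, det_pm, det_dg, Equiv.Perm.sign_swap hab]
  simp

theorem exists_notMem (s : Finset ι) (h : s.card < Fintype.card ι) : ∃ x, x ∉ s := by
  by_contra hc
  push Not at hc
  have := Finset.card_le_card (show Finset.univ ⊆ s from fun x _ => hc x)
  rw [Finset.card_univ] at this
  omega

theorem exists_fourth (hn : 4 ≤ Fintype.card ι) (a b c : ι) : ∃ x, x ≠ a ∧ x ≠ b ∧ x ≠ c := by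
  obtain ⟨x, hx⟩ := exists_notMem ({a, b, c} : Finset ι) (lt_of_le_of_lt Finset.card_le_three (by omega))
  exact ⟨x, by simpa [not_or] using hx⟩

theorem nroot_of_center (hn : 4 ≤ Fintype.card ι) (hK : HasMono K) {a : Fˣ} (ha : a ≠ 1)
    {ψ : Dual F (ι → F)} {j : ι} (h : Has K ψ (ee F j)) (h0 : ψ (ee F j) = 0) (hψ : ψ ≠ 0) : NRoot K := by
  obtain ⟨k, hk⟩ := exists_dual_single_ne hψ
  have hkj : k ≠ j := by rintro rfl; exact hk h0
  obtain ⟨l, hlj, hlk⟩ := exists_third (by omega) j k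
  obtain ⟨m, hmj, hmk, hml⟩ := exists_fourth hn j k l
  have step : ∀ (ψ : Dual F (ι → F)) (l : ι), l ≠ j → Has K ψ (ee F j) → ψ (ee F j) = 0 →
      Has K (ψ ∘ₗ ((dg (tor k l a)).symm : (ι → F) →ₗ[F] (ι → F)) - ψ) (ee F j) ∧
      (ψ ∘ₗ ((dg (tor k l a)).symm : (ι → F) →ₗ[F] (ι → F)) - ψ) (ee F j) = 0 := by
    intro ψ l hl h h0
    have h1 := h.conj (hK.tor_mem k l a)
    rw [dg_ee, tor_ne hkj.symm hl.symm, Units.val_one, one_smul] at h1
    have h2 : (ψ ∘ₗ ((dg (tor k l a)).symm : (ι → F) →ₗ[F] (ι → F))) (ee F j) = 0 := by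
      simp [dg_symm_ee, h0]
    exact ⟨h1.sub_left h h2 h0, by rw [LinearMap.sub_apply, h2, h0, sub_zero]⟩
  obtain ⟨h1, h2⟩ := step ψ l hlj h h0
  obtain ⟨h3, -⟩ := step _ m hmj h1 h2
  have ha' : (a : F)⁻¹ - 1 ≠ 0 := sub_ne_zero.2 (inv_ne_one.2 (fun h => ha (Units.ext h)))
  refine ⟨j, k, ((a : F)⁻¹ - 1) ^ 2 * ψ (ee F k), hkj.symm, mul_ne_zero (pow_ne_zero _ ha') hk,
    h3.congr fun z => ?_⟩
  congr 1
  simp only [LinearMap.sub_apply, LinearMap.comp_apply, LinearEquiv.coe_coe, ← map_sub,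
    LinearMap.smul_apply, LinearMap.proj_apply, smul_eq_mul]
  rw [show ((a : F)⁻¹ - 1) ^ 2 * ψ (ee F k) * z k = ψ (((((a : F)⁻¹ - 1) ^ 2) * z k) • ee F k) by
    rw [map_smul, smul_eq_mul]; ring]
  congr 1
  ext i
  by_cases b1 : i = k
  · subst b1; simp [tor_left hlk.symm, tor_left hmk.symm]; ring
  by_cases b2 : i = l
  · subst b2; simp [tor_ne b1 hml.symm, ee_ne b1]
  · simp [tor_ne b1 b2, ee_ne b1]

theorem all_of_nroot (hn : 3 ≤ Fintype.card ι) (hK : HasMono K) (h : NRoot K) (g : (ι → F) ≃ₗ[F] (ι → F))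
    (hg : LinearEquiv.det g = 1) : g ∈ K := by
  obtain ⟨i, j, c, hij, hc, h⟩ := h
  have h1 : ∀ a, Rt K i j a := by
    intro a
    by_cases ha : a = 0
    · subst ha; exact rt_zero i j
    obtain ⟨k, hki, hkj⟩ := exists_third hn i j
    have := Has.conj h (hK.tor_mem i k (Units.mk0 (a / c) (div_ne_zero ha hc)))
    rw [dg_ee, tor_left hki.symm] at this
    refine this.congr fun z => ?_
    simp only [LinearMap.comp_apply, LinearEquiv.coe_coe, LinearMap.smul_apply, LinearMap.proj_apply,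
      dg_symm_apply, tor_ne hij.symm hkj.symm, smul_smul, smul_eq_mul, Units.val_mk0]
    congr 1; simp; field_simp
  refine mem_of_rt_all (C2a.rel_all (R := fun i j => ∀ a, Rt K i j a) ?_ hij h1) g hg
  intro a b i j h x
  by_cases hab : a = b
  · subst hab; simpa using h x
  obtain ⟨d, hd⟩ : ∃ d : ι → Fˣ, dg d * pm F (Equiv.swap a b) ∈ K := ⟨_, hK.swap_mem hab a⟩
  have := Has.conj (h (x * d (Equiv.swap a b j) * (d (Equiv.swap a b i) : F)⁻¹)) hd
  rw [LinearEquiv.mul_apply, pm_ee, dg_ee, Equiv.symm_swap] at this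
  refine this.congr fun z => ?_
  have e : ((dg d * pm F (Equiv.swap a b)).symm z) j = (d (Equiv.swap a b j) : F)⁻¹ * z (Equiv.swap a b j) := by
    change (pm F (Equiv.swap a b)).symm ((dg d).symm z) j = _
    simp
  simp only [LinearMap.comp_apply, LinearEquiv.coe_coe, LinearMap.smul_apply, LinearMap.proj_apply, e,
    smul_smul, smul_eq_mul]
  congr 1; field_simp

section stab
variable (hn : 4 ≤ Fintype.card ι) (hK : HasMono K) (hdet : ∀ g ∈ K, LinearEquiv.det g = 1)
  (hN : ¬ NRoot K)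
include hn hK hdet hN

theorem eq_of_off {a : Fˣ} (ha : a ≠ 1) {i0 : ι} {g h : (ι → F) ≃ₗ[F] (ι → F)} (hg : g ∈ K) (hh : h ∈ K)
    (e : ∀ m i, i ≠ i0 → g (ee F m) i = h (ee F m) i) : g = h := by
  have e' : ∀ z i, i ≠ i0 → g z i = h z i := by
    intro z i hi
    rw [pi_eq_sum_univ' z, map_sum, map_sum]
    simp only [map_smul, Finset.sum_apply, Pi.smul_apply]
    exact Finset.sum_congr rfl fun m _ => by rw [e m i hi]
  let ψ : Dual F (ι → F) := pr F i0 ∘ₗ (((g * h⁻¹ : (ι → F) ≃ₗ[F] (ι → F)) : (ι → F) →ₗ[F] (ι → F)) -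
    LinearMap.id)
  have h1 : ∀ z, (g * h⁻¹) z = z + ψ z • ee F i0 := by
    intro z
    ext i
    by_cases hi : i = i0
    · subst hi; simp [ψ]
    · simp [ee_ne hi, e' _ i hi]
  have hm := K.mul_mem hg (K.inv_mem hh)
  have h2 := det_of_rank_one h1
  rw [hdet _ hm] at h2
  have h3 : ψ = 0 := by
    by_contra h3
    exact hN (nroot_of_center hn hK ha ⟨_, hm, h1⟩ (by simpa using h2.symm) h3)
  rw [← mul_inv_eq_one]
  ext1 z
  rw [h1, h3]; simp

theorem mono_of_fix [Fintype F] (hq : 5 ≤ Fintype.card F) {i0 : ι} {g : (ι → F) ≃ₗ[F] (ι → F)}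
    (hg : g ∈ K) {c0 : F} (h0 : g (ee F i0) = c0 • ee F i0) : Mono g := by
  obtain ⟨a0, ha0, ha1, ha2⟩ := exists_ne3 (by omega) (0 : F) 1 (-1)
  let a : Fˣ := Units.mk0 a0 ha0
  have ha : a ≠ 1 := fun h => ha1 (congrArg Units.val h)
  let π : (ι → F) →ₗ[F] ({i // i ≠ i0} → F) := LinearMap.funLeft F F Subtype.val
  have hπ : ∀ z i, π z i = z i := fun _ _ => rfl
  have hπs : Function.Surjective π := LinearMap.funLeft_surjective_of_injective F F _ Subtype.val_injective
  have hπe : ∀ l : {i // i ≠ i0}, π (ee F (l : ι)) = ee F l := fun l => by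
    ext i; simp [hπ, Pi.single_apply, Subtype.ext_iff]
  have hπ0 : π (ee F i0) = 0 := by ext i; simp [hπ, ee_ne i.2]
  let K' : Subgroup (({i // i ≠ i0} → F) ≃ₗ[F] ({i // i ≠ i0} → F)) :=
    { carrier := {g' | ∃ g ∈ K, ∀ z, π (g z) = g' (π z)}
      mul_mem' := by
        rintro a b ⟨g, hg, e⟩ ⟨h, hh, e'⟩
        exact ⟨g * h, K.mul_mem hg hh, fun z => by simp [e, e']⟩
      one_mem' := ⟨1, K.one_mem, fun z => rfl⟩
      inv_mem' := by
        rintro a ⟨g, hg, e⟩
        refine ⟨g⁻¹, K.inv_mem hg, fun z => a.injective ?_⟩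
        rw [← e]; simp }
  have hd : ∀ d, dg d ∈ K' := by
    intro d
    refine ⟨dg (fun i => if h : i = i0 then (∏ j, d j)⁻¹ else d ⟨i, h⟩), hK.dg_mem ?_, fun z => ?_⟩
    · rw [Fintype.prod_eq_mul_prod_subtype_ne _ i0]
      rw [dif_pos rfl, inv_mul_eq_one]
      exact Finset.prod_congr rfl (fun i _ => by rw [dif_neg i.2])
    · ext i; simp [hπ, i.2]
  have hs : ∀ a b, pm F (Equiv.swap a b) ∈ K' := by
    intro a b
    by_cases hab : a = b
    · subst hab
      refine ⟨1, K.one_mem, fun z => ?_⟩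
      ext i; simp
    refine ⟨_, hK.swap_mem (a := a) (b := b) (fun h => hab (Subtype.ext h)) i0, fun z => ?_⟩
    ext i
    simp only [hπ, LinearEquiv.mul_apply, dg_apply, pm_apply, Pi.mulSingle_eq_of_ne i.2, Units.val_one,
      one_mul]
    congr 1
    exact (Subtype.val_injective.map_swap a b i).symm
  have hN' : ¬ NRoot K' := by
    rintro ⟨i, j, c, hij, hc, t, ⟨g', hg', e⟩, et⟩
    have e1 : ∀ z l, l ≠ i0 → g' z l = z l + c * z j * ee F (i : ι) l := by
      intro z l hl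
      have := congrFun (e z) ⟨l, hl⟩
      rw [et, ← hπe] at this
      simpa [hπ] using this
    obtain ⟨k, hk0, hki, hkj⟩ := exists_fourth hn i0 i j
    have e2 : dg (tor i0 k a) * g' = g' * dg (tor i0 k a) := by
      refine eq_of_off hn hK hdet hN ha (i0 := i0) (K.mul_mem (hK.tor_mem _ _ _) hg')
        (K.mul_mem hg' (hK.tor_mem _ _ _)) fun m l hl => ?_
      simp only [LinearEquiv.mul_apply, dg_apply, e1 _ l hl, tor_ne j.2 hkj.symm]
      by_cases hli : l = i
      · subst hli; simp [tor_ne hl hki.symm]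
      · simp [ee_ne hli]
    have e3 : ∀ l, l ≠ i0 → g' (ee F l) i0 = 0 := by
      intro l hl
      have := congrFun (LinearEquiv.congr_fun e2 (ee F l)) i0
      simp only [LinearEquiv.mul_apply, dg_apply, dg_ee, map_smul, Pi.smul_apply, smul_eq_mul,
        tor_left hk0.symm] at this
      by_contra hne
      have h3 := mul_right_cancel₀ hne this
      by_cases hlk : l = k
      · subst hlk
        rw [tor_right hk0.symm] at h3
        have h4 : a0 * a0 = 1 := by
          have : a0 = a0⁻¹ := by simpa [a] using h3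
          nth_rewrite 2 [this]; exact mul_inv_cancel₀ ha0
        rcases mul_self_eq_one_iff.1 h4 with h5 | h5
        exacts [ha1 h5, ha2 h5]
      · rw [tor_ne hl hlk] at h3
        exact ha (Units.ext h3)
    have hij' : (i : ι) ≠ j := fun h => hij (Subtype.ext h)
    obtain ⟨τ, hτ, eτ⟩ := exists_transvection (φ := c • pr F (j : ι)) (v := ee F (i : ι))
      (by simp [ee_ne hij'.symm])
    have e4 : ∀ z, g' z = τ (z + ((g' (ee F i0) i0 - 1) • pr F i0) z • ee F i0) := by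
      intro z
      ext l
      rw [eτ]
      by_cases hl : l = i0
      · subst hl
        conv_lhs => rw [pi_eq_sum_univ' z, map_sum]
        simp only [map_smul, Finset.sum_apply, Pi.smul_apply, smul_eq_mul]
        rw [Finset.sum_eq_single l (fun m _ hm => by rw [e3 m hm, mul_zero]) (by simp)]
        simp [ee_ne i.2.symm]; ring
      · simp [e1 z l hl, ee_ne hl, ee_ne j.2]
    have e5 := det_of_rank_one (g := τ⁻¹ * g') (φ := (g' (ee F i0) i0 - 1) • pr F i0) (v := ee F i0)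
      (fun z => by rw [LinearEquiv.mul_apply, e4]; simp)
    rw [map_mul, map_inv, hτ, hdet _ hg'] at e5
    have e6 : g' (ee F i0) i0 - 1 = 0 := by simpa [sub_eq_zero] using e5.symm
    refine hN ⟨i, j, c, hij', hc, g', hg', fun z => ?_⟩
    rw [e4, e6, eτ]; simp
  -- the induced automorphism
  have hc0 : c0 ≠ 0 := by
    rintro rfl
    rw [zero_smul, map_eq_zero_iff _ g.injective] at h0
    simpa using congrFun h0 i0
  obtain ⟨s, hs'⟩ := π.exists_rightInverse_of_surjective (LinearMap.range_eq_top.2 hπs)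
  have hs'' : ∀ x, π (s x) = x := fun x => LinearMap.congr_fun hs' x
  have hker : ∀ z, π z = 0 → π (g z) = 0 := by
    intro z hz
    have : z = z i0 • ee F i0 := by
      ext l
      by_cases hl : l = i0
      · subst hl; simp
      · simpa [ee_ne hl, hπ] using congrFun hz ⟨l, hl⟩
    rw [this, map_smul, h0, map_smul, map_smul, hπ0, smul_zero, smul_zero]
  let g0 := π ∘ₗ (g : (ι → F) →ₗ[F] (ι → F)) ∘ₗ s
  have hg0 : ∀ z, π (g z) = g0 (π z) := by
    intro z
    have := hker (z - s (π z)) (by simp [hs''])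
    rwa [map_sub, map_sub, sub_eq_zero] at this
  have hsurj : Function.Surjective g0 := fun y => by
    obtain ⟨z, rfl⟩ := hπs y
    exact ⟨π (g.symm z), by rw [← hg0]; simp⟩
  let g1 := LinearEquiv.ofBijective g0 ⟨LinearMap.injective_iff_surjective.2 hsurj, hsurj⟩
  have hM : Mono g1 := by
    by_contra h
    exact hN' (nroot_of_not_mono hq (by simp; omega) hd hs (g := g1) ⟨g, hg, hg0⟩ h)
  choose σ c hc e using hM
  have e1 : ∀ (l : {i // i ≠ i0}) m, m ≠ i0 → g (ee F (l : ι)) m = c l * ee F (σ l : ι) m := by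
    intro l m hm
    have := congrFun (hg0 (ee F (l : ι))) ⟨m, hm⟩
    rw [hπe] at this
    change _ = g1 _ _ at this
    rw [e, ← hπe] at this
    simpa [hπ] using this
  intro l
  by_cases hl : l = i0
  · subst hl; exact ⟨l, c0, hc0, h0⟩
  obtain ⟨k, hk0, hkl⟩ := exists_third (by omega) i0 l
  have e2 : g * dg (tor i0 k a) = dg (tor i0 (σ ⟨k, hk0⟩) a) * g := by
    refine eq_of_off hn hK hdet hN ha (i0 := i0) (K.mul_mem hg (hK.tor_mem _ _ _))
      (K.mul_mem (hK.tor_mem _ _ _) hg) fun m i hi => ?_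
    simp only [LinearEquiv.mul_apply, dg_apply, dg_ee, map_smul, Pi.smul_apply, smul_eq_mul]
    by_cases hm : m = i0
    · subst hm; simp [h0, ee_ne hi]
    rw [e1 ⟨m, hm⟩ i hi]
    by_cases hi' : i = σ ⟨m, hm⟩
    swap
    · simp [ee_ne hi']
    congr 2
    by_cases hmk : m = k
    · subst hmk
      rw [hi', tor_right hk0.symm, tor_right (σ _).2.symm]
    · rw [tor_ne hm hmk, tor_ne hi]
      intro h
      have := col_inj (hc _) (e ⟨k, hk0⟩) (by
        rw [e ⟨m, hm⟩, show σ ⟨m, hm⟩ = σ ⟨k, hk0⟩ from Subtype.ext (hi'.symm.trans h)])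
      exact hmk (congrArg Subtype.val this)
  have e3 : g (ee F l) i0 = 0 := by
    have := congrFun (LinearEquiv.congr_fun e2 (ee F l)) i0
    simp only [LinearEquiv.mul_apply, dg_apply, dg_ee, map_smul, Pi.smul_apply, smul_eq_mul,
      tor_left (σ _).2.symm, tor_ne hl hkl.symm] at this
    by_contra hne
    exact ha (Units.ext (mul_right_cancel₀ hne this).symm)
  refine ⟨σ ⟨l, hl⟩, c ⟨l, hl⟩, hc _, ?_⟩
  ext m
  by_cases hm : m = i0
  · subst hm; simp [e3, ee_ne (σ _).2.symm]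
  · simpa using e1 ⟨l, hl⟩ m hm

theorem mono_of_isE [Fintype F] (hq : 5 ≤ Fintype.card F) {i : ι} {g : (ι → F) ≃ₗ[F] (ι → F)}
    (hg : g ∈ K) (h : IsE (g (ee F i))) : Mono g := by
  obtain ⟨j, c, -, e⟩ := h
  by_cases hij : i = j
  · subst hij; exact mono_of_fix hn hK hdet hN hq hg e
  set s := dg (Pi.mulSingle i (-1 : Fˣ)) * pm F (Equiv.swap i j) with hs
  have h1 : Mono (s * g) := by
    refine mono_of_fix hn hK hdet hN hq (K.mul_mem (hK.swap_mem hij i) hg) (i0 := i) (c0 := -c) ?_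
    rw [LinearEquiv.mul_apply, e, map_smul, hs, LinearEquiv.mul_apply, pm_ee, dg_ee]
    simp
  have := mono_mul (mono_symm (mono_mul (mono_dg (Pi.mulSingle i (-1 : Fˣ))) (mono_pm (Equiv.swap i j)))) h1
  rwa [← hs, show s.symm = s⁻¹ from rfl, inv_mul_cancel_left] at this

end stab

end Cfsg.Agent.H1.C2c
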