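import Cfsg.Agent.H1.C2c
import Cfsg.Agent.H7.Contain

/-!
The monomial group is maximal in the special linear group (`q ≥ 5`, `n ≥ 6`); stabilisers of
decompositions.
-/

set_option autoImplicit false
set_option linter.unusedSectionVars false

namespace Cfsg.Agent.H1.C2d

open Module Cfsg.Agent.H7 Cfsg.Agent.H1.Root Cfsg.Agent.H1.C2b Cfsg.Agent.H1.C2c
open scoped Matrix MatrixGroups

variable {ι : Type} [Fintype ι] [DecidableEq ι] {F : Type*} [Field F]
  {K : Subgroup ((ι → F) ≃ₗ[F] (ι → F))}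

theorem card_le_of_cols (G : (ι → F) ≃ₗ[F] (ι → F)) (s : Finset ι) (w : ι → F) {X : Type*} [Fintype X]
    (y : X → ι → F) (h1 : ∀ x, ∃ i, ∃ c : F, c ≠ 0 ∧ y x = c • G (ee F i))
    (h2 : ∀ x m, m ∉ s → y x m = w m) (h3 : ∃ m, m ∉ s ∧ w m ≠ 0) (h4 : Function.Injective y) :
    Fintype.card X ≤ s.card + 1 := by
  classical
  choose i c hc e using h1
  obtain ⟨m, hm, hm0⟩ := h3
  have hi : Function.Injective i := by
    intro x x' h
    apply h4
    have e1 : y x = (c x / c x') • y x' := by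
      rw [e x, e x', h, smul_smul, div_mul_cancel₀ _ (hc x')]
    have e2 := congrFun e1 m
    rw [Pi.smul_apply, h2 x m hm, h2 x' m hm, smul_eq_mul] at e2
    have e3 : c x / c x' = 1 := mul_right_cancel₀ hm0 (by rw [← e2, one_mul])
    rw [e1, e3, one_smul]
  let U : Submodule F (ι → F) := Submodule.span F (s.image (ee F) : Set (ι → F)) ⊔ F ∙ w
  have hU : finrank F U ≤ s.card + 1 := by
    have a1 := finrank_sup_span_le (Submodule.span F (s.image (ee F) : Set (ι → F))) w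
    have a2 := finrank_span_finset_le_card (R := F) (s.image (ee F))
    have a3 := Finset.card_image_le (s := s) (f := ee F)
    simp only [Set.finrank] at a2
    simp only [U]; omega
  have hy : ∀ x, G (ee F (i x)) ∈ U := by
    intro x
    have a1 : y x ∈ U := by
      refine mem_sup_span_iff.2 ⟨y x - w, ?_, 1, by simp⟩
      rw [pi_eq_sum_univ' (y x - w)]
      refine Submodule.sum_mem _ fun l _ => ?_
      by_cases hl : l ∈ s
      · exact Submodule.smul_mem _ _ (Submodule.subset_span (by simpa using ⟨l, hl, rfl⟩))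
      · simp [h2 x l hl]
    have := U.smul_mem (c x)⁻¹ a1
    rwa [e x, smul_smul, inv_mul_cancel₀ (hc x), one_smul] at this
  have hli : LinearIndependent F (fun x => G (ee F (i x))) := by
    have a1 : LinearIndependent F (fun x => ee F (i x)) := by
      have := (Pi.basisFun F ι).linearIndependent.comp i hi
      convert this using 1
      ext1 x; simp
    exact a1.map' (G : (ι → F) →ₗ[F] (ι → F)) G.ker
  have := (LinearIndependent.of_comp U.subtype (v := fun x => (⟨_, hy x⟩ : U)) hli).fintype_card_le_finrank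
  omega

/-- The hypothesis obtained from point stabilisers. -/
def Rigid (K : Subgroup ((ι → F) ≃ₗ[F] (ι → F))) : Prop := ∀ g ∈ K, ∀ i, IsE (g (ee F i)) → Mono g

theorem Rigid.perm (hR : Rigid K) {g m : (ι → F) ≃ₗ[F] (ι → F)} (hg : g ∈ K) (hm : m ∈ K) {j : ι}
    (h : m (g (ee F j)) = g (ee F j)) (i : ι) :
    ∃ i', ∃ c : F, c ≠ 0 ∧ m (g (ee F i)) = c • g (ee F i') := by
  obtain ⟨i', c, hc, e⟩ := hR (g⁻¹ * m * g) (K.mul_mem (K.mul_mem (K.inv_mem hg) hm) hg) j
    ⟨j, 1, one_ne_zero, by simp [h]⟩ i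
  refine ⟨i', c, hc, ?_⟩
  rw [← map_smul, ← e]; simp

theorem exists_col_ne (g : (ι → F) ≃ₗ[F] (ι → F)) {φ : Dual F (ι → F)} (hφ : φ ≠ 0) :
    ∃ i, φ (g (ee F i)) ≠ 0 := by
  refine exists_dual_single_ne (φ := φ ∘ₗ (g : (ι → F) →ₗ[F] (ι → F))) fun h => hφ ?_
  ext1 x; ext
  simpa using LinearMap.congr_fun h (g.symm (ee F x))

theorem two_zeros_aux [Fintype F] (hq : 5 ≤ Fintype.card F) (hK : HasMono K) (hR : Rigid K)
    {g : (ι → F) ≃ₗ[F] (ι → F)} (hg : g ∈ K) {j k l : ι} (hkl : k ≠ l) (hk : g (ee F j) k = 0)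
    (hl : g (ee F j) l = 0) (i : ι) :
    (∀ m, m ≠ k → m ≠ l → g (ee F i) m = 0) ∨ (g (ee F i) k = 0 ∧ g (ee F i) l = 0) := by
  classical
  by_contra hc
  rw [not_or] at hc
  obtain ⟨h1, h2⟩ := hc
  push Not at h1
  obtain ⟨m, hm1, hm2, hm⟩ := h1
  have := card_le_of_cols g {k, l} (g (ee F i)) (X := Fˣ) (fun a => dg (tor k l a) (g (ee F i)))
    (fun a => hR.perm hg (hK.tor_mem k l a) (j := j) (by
      ext x
      by_cases a1 : x = k
      · subst a1; simp [hk]
      by_cases a2 : x = l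
      · subst a2; simp [hl]
      simp [tor_ne a1 a2]) i)
    (fun a x hx => by
      simp only [Finset.mem_insert, Finset.mem_singleton, not_or] at hx
      simp [tor_ne hx.1 hx.2]) ⟨m, by simp [hm1, hm2], hm⟩ (fun a a' h => by
      by_cases a1 : g (ee F i) k = 0
      · have a2 : g (ee F i) l ≠ 0 := fun h => h2 ⟨a1, h⟩
        have := congrFun h l
        simp only [dg_apply, tor_right hkl] at this
        exact inv_injective (Units.ext (mul_right_cancel₀ a2 this))
      · have := congrFun h k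
        simp only [dg_apply, tor_left hkl] at this
        exact Units.ext (mul_right_cancel₀ a1 this))
  rw [Fintype.card_units] at this
  have := Finset.card_le_two (a := k) (b := l)
  omega

theorem exists_out3 (hn : 5 ≤ Fintype.card ι) (a b c : ι) :
    ∃ x y, x ≠ y ∧ x ≠ a ∧ x ≠ b ∧ x ≠ c ∧ y ≠ a ∧ y ≠ b ∧ y ≠ c := by
  obtain ⟨x, h1, h2, h3⟩ := exists_fourth (by omega) a b c
  obtain ⟨y, hy⟩ := exists_notMem ({x, a, b, c} : Finset ι) (lt_of_le_of_lt Finset.card_le_four (by omega))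
  simp only [Finset.mem_insert, Finset.mem_singleton, not_or] at hy
  exact ⟨x, y, Ne.symm hy.1, h1, h2, h3, hy.2.1, hy.2.2.1, hy.2.2.2⟩

theorem not_two_zeros [Fintype F] (hq : 5 ≤ Fintype.card F) (hn : 5 ≤ Fintype.card ι) (hK : HasMono K)
    (hR : Rigid K) {g : (ι → F) ≃ₗ[F] (ι → F)} (hg : g ∈ K) (hM : ¬ Mono g) {j k l : ι} (hkl : k ≠ l)
    (hk : g (ee F j) k = 0) : g (ee F j) l ≠ 0 := by
  intro hl
  have key : ∀ {j k l : ι}, k ≠ l → g (ee F j) k = 0 → g (ee F j) l = 0 →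
      ∃ i, ∀ m, m ≠ k → m ≠ l → g (ee F i) m = 0 := by
    intro j k l hkl hk hl
    obtain ⟨i, hi⟩ := exists_col_ne g (φ := pr F k) (fun h => by simpa using LinearMap.congr_fun h (ee F k))
    exact ⟨i, (two_zeros_aux hq hK hR hg hkl hk hl i).resolve_right fun h => hi h.1⟩
  obtain ⟨i, hi⟩ := key hkl hk hl
  obtain ⟨k', hk1, hk2⟩ := exists_third (by omega) k l
  obtain ⟨l', m', hlm, a1, a2, a3, a4, a5, a6⟩ := exists_out3 hn k l k'
  obtain ⟨i2, hi2⟩ := key a3.symm (hi k' hk1 hk2) (hi l' a1 a2)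
  obtain ⟨x, y, hxy, hx, hy⟩ := exists_two_of_not_isE (v := g (ee F i2)) (by
    rw [Ne, map_eq_zero_iff _ g.injective]
    intro h; simpa using congrFun h i2) (fun h => hM (hR g hg i2 h))
  have b1 : x = k' ∨ x = l' := by by_contra h; push Not at h; exact hx (hi2 x h.1 h.2)
  have b2 : y = k' ∨ y = l' := by by_contra h; push Not at h; exact hy (hi2 y h.1 h.2)
  have b3 : g (ee F i2) k' ≠ 0 ∧ g (ee F i2) l' ≠ 0 := by
    rcases b1 with rfl | rfl <;> rcases b2 with rfl | rfl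
    exacts [(hxy rfl).elim, ⟨hx, hy⟩, ⟨hy, hx⟩, (hxy rfl).elim]
  rcases two_zeros_aux hq hK hR hg a6.symm (hi k' hk1 hk2) (hi m' a4 a5) i2 with h | h
  · exact b3.2 (h l' a3 hlm)
  · exact b3.1 h.1

/-- A frame permuted by the even permutations of the set `S`. -/
structure Fr (G : (ι → F) ≃ₗ[F] (ι → F)) (S : ι → Prop) : Prop where
  perm : ∀ σ : Equiv.Perm ι, Equiv.Perm.sign σ = 1 → (∀ a, ¬ S a → σ a = a) →
    ∀ i, ∃ i', ∃ c : F, c ≠ 0 ∧ pm F σ (G (ee F i)) = c • G (ee F i')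
  zero : ∀ i k l, k ≠ l → G (ee F i) k = 0 → G (ee F i) l ≠ 0

theorem Fr.four (hn : 6 ≤ Fintype.card ι) {G : (ι → F) ≃ₗ[F] (ι → F)} {S : ι → Prop} (h : Fr G S) (i : ι)
    {a b c d : ι} (ha : S a) (hb : S b) (hc : S c) (hd : S d) (hab : a ≠ b) (hac : a ≠ c) (had : a ≠ d)
    (hbc : b ≠ c) (hbd : b ≠ d) (hcd : c ≠ d) (h1 : G (ee F i) a ≠ G (ee F i) b) :
    G (ee F i) c = G (ee F i) d := by
  by_contra h2
  set w := G (ee F i) with hw
  let ρ : Equiv.Perm ι := Equiv.swap a b * Equiv.swap b c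
  let κ : Equiv.Perm ι := Equiv.swap a b * Equiv.swap c d
  let f : Fin 6 → Equiv.Perm ι := ![1, ρ, ρ * ρ, κ, κ * ρ, κ * (ρ * ρ)]
  have hρ : ∀ m, m ≠ a → m ≠ b → m ≠ c → ρ m = m := fun m h1 h2 h3 => by
    simp [ρ, Equiv.swap_apply_of_ne_of_ne, h1, h2, h3]
  have hκ : ∀ m, m ≠ a → m ≠ b → m ≠ c → m ≠ d → κ m = m := fun m h1 h2 h3 h4 => by
    simp [κ, Equiv.swap_apply_of_ne_of_ne, h1, h2, h3, h4]
  have hf : ∀ s m, m ≠ a → m ≠ b → m ≠ c → m ≠ d → f s m = m := by
    intro s m h1 h2 h3 h4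
    fin_cases s <;> simp [f, hρ m h1 h2 h3, hκ m h1 h2 h3 h4]
  have ρa : ρ a = b := by simp [ρ, Equiv.swap_apply_of_ne_of_ne, hab, hac]
  have ρb : ρ b = c := by simp [ρ, Equiv.swap_apply_of_ne_of_ne, hac.symm, hbc.symm]
  have ρc : ρ c = a := by simp [ρ]
  have ρd : ρ d = d := hρ d had.symm hbd.symm hcd.symm
  have κa : κ a = b := by simp [κ, Equiv.swap_apply_of_ne_of_ne, hac, had]
  have κb : κ b = a := by simp [κ, Equiv.swap_apply_of_ne_of_ne, hbc, hbd]
  have κc : κ c = d := by simp [κ, Equiv.swap_apply_of_ne_of_ne, had.symm, hbd.symm]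
  have κd : κ d = c := by simp [κ, Equiv.swap_apply_of_ne_of_ne, hac.symm, hbc.symm]
  have sρ : Equiv.Perm.sign ρ = 1 := by simp [ρ, hab, hbc]
  have sκ : Equiv.Perm.sign κ = 1 := by simp [κ, hab, hcd]
  have hcard : ({a, b, c, d} : Finset ι).card ≤ 4 := Finset.card_le_four
  have := card_le_of_cols G {a, b, c, d} w (X := Fin 6) (fun s => pm F (f s) w)
    (fun s => h.perm (f s) (by fin_cases s <;> simp [f, sρ, sκ]) (fun m hm => hf s m
      (by rintro rfl; exact hm ha) (by rintro rfl; exact hm hb) (by rintro rfl; exact hm hc)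
      (by rintro rfl; exact hm hd)) i)
    (fun s m hm => by
      simp only [Finset.mem_insert, Finset.mem_singleton, not_or] at hm
      rw [pm_apply, hf s m hm.1 hm.2.1 hm.2.2.1 hm.2.2.2])
    (by
      obtain ⟨x, hx⟩ := exists_notMem ({a, b, c, d} : Finset ι) (by omega)
      obtain ⟨y, hy⟩ := exists_notMem (insert x {a, b, c, d} : Finset ι)
        (lt_of_le_of_lt (Finset.card_insert_le _ _) (by omega))
      rw [Finset.mem_insert, not_or] at hy
      by_cases hx0 : w x = 0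
      · exact ⟨y, hy.2, h.zero i x y (Ne.symm hy.1) hx0⟩
      · exact ⟨x, hx, hx0⟩)
    (by
      intro s t hst
      have e1 := congrFun hst a
      have e2 := congrFun hst b
      have e3 := congrFun hst c
      have e4 := congrFun hst d
      have h1' := Ne.symm h1
      have h2' := Ne.symm h2
      fin_cases s <;> fin_cases t <;>
        simp [f, ρa, ρb, ρc, ρd, κa, κb, κc, κd, h1, h2, h1', h2'] at e1 e2 e3 e4 ⊢)
  simp at this
  omega

theorem Fr.pattern (hn : 6 ≤ Fintype.card ι) {G : (ι → F) ≃ₗ[F] (ι → F)} {S : ι → Prop} (h : Fr G S)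
    (hS : ∀ s : Finset ι, s.card ≤ 4 → ∃ a, a ∉ s ∧ S a) :
    ∃ i a0, ∃ β : F, S a0 ∧ G (ee F i) a0 ≠ β ∧ ∀ a, S a → a ≠ a0 → G (ee F i) a = β := by
  obtain ⟨a, -, ha⟩ := hS ∅ (by simp)
  obtain ⟨b, hb', hb⟩ := hS {a} (by simp)
  have hab : a ≠ b := fun h => hb' (by simp [h])
  obtain ⟨i, hi⟩ := exists_col_ne G (φ := pr F a - pr F b) (fun h => by
    simpa [ee_ne hab.symm] using LinearMap.congr_fun h (ee F a))
  have h1 : G (ee F i) a ≠ G (ee F i) b := by simpa [sub_eq_zero] using hi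
  obtain ⟨c, hc', hc⟩ := hS {a, b} (Finset.card_le_two.trans (by norm_num))
  obtain ⟨d, hd', hd⟩ := hS {a, b, c} (Finset.card_le_three.trans (by norm_num))
  simp only [Finset.mem_insert, Finset.mem_singleton, not_or] at hc' hd'
  have h2 : ∀ x, S x → x ≠ a → x ≠ b → G (ee F i) x = G (ee F i) c := by
    intro x hx h3 h4
    by_cases h5 : x = c
    · rw [h5]
    · exact h.four hn i ha hb hx hc hab h3.symm (Ne.symm hc'.1) h4.symm (Ne.symm hc'.2) h5 h1
  by_cases h3 : G (ee F i) a = G (ee F i) c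
  · refine ⟨i, b, G (ee F i) c, hb, fun h4 => h1 (h3.trans h4.symm), fun x hx hxb => ?_⟩
    by_cases h5 : x = a
    · rw [h5, h3]
    · exact h2 x hx h5 hxb
  · refine ⟨i, a, G (ee F i) c, ha, h3, fun x hx hxa => ?_⟩
    by_cases h5 : x = b
    · rw [h5, ← h2 d hd hd'.1 hd'.2.1]
      exact h.four hn i ha hc hb hd (Ne.symm hc'.1) hab (Ne.symm hd'.1) hc'.2 (Ne.symm hd'.2.2)
        (Ne.symm hd'.2.1) h3
    · exact h2 x hx hxa h5

theorem rigid_mono [Fintype F] (hq : 5 ≤ Fintype.card F) (hn : 6 ≤ Fintype.card ι) (hK : HasMono K)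
    (hR : Rigid K) {g : (ι → F) ≃ₗ[F] (ι → F)} (hg : g ∈ K) : Mono g := by
  classical
  by_contra hM
  have h2z := fun {g : (ι → F) ≃ₗ[F] (ι → F)} (hg : g ∈ K) (hM : ¬ Mono g) {j k l : ι} =>
    not_two_zeros hq (by omega) hK hR hg hM (j := j) (k := k) (l := l)
  obtain ⟨j⟩ : Nonempty ι := Fintype.card_pos_iff.1 (by omega)
  set v := g (ee F j) with hv
  let d : ι → Fˣ := fun a => if h : v a = 0 then 1 else Units.mk0 (v a) h
  let G := (dg d)⁻¹ * g
  have hG : ∀ x a, G x a = (d a : F)⁻¹ * g x a := fun x a => dg_symm_apply d _ a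
  have hG' : ∀ x, g x = dg d (G x) := fun x => by simp [G]
  have hv1 : ∀ a, v a ≠ 0 → G (ee F j) a = 1 := fun a ha => by simp [hG, d, ha, ← hv]
  have hv0 : ∀ a, v a = 0 → G (ee F j) a = 0 := fun a ha => by simp [hG, ha, ← hv]
  have hFr : Fr G (fun a => v a ≠ 0) := by
    refine ⟨fun σ hσ hσ' i => ?_, fun i k l hkl hk => ?_⟩
    · have hm : dg d * pm F σ * (dg d)⁻¹ ∈ K := by
        refine hK _ ?_ (mono_mul (mono_mul (mono_dg d) (mono_pm σ)) (mono_symm (mono_dg d)))
        have : LinearEquiv.det (pm F σ) = 1 := Units.ext (by rw [det_pm, hσ]; simp)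
        simp [this]
      obtain ⟨i', c, hc, e⟩ := hR.perm hg hm (j := j) (by
        rw [hG']
        simp only [LinearEquiv.mul_apply, LinearEquiv.coe_inv, LinearEquiv.symm_apply_apply]
        congr 1
        ext a
        rw [pm_apply]
        by_cases ha : v a = 0
        · rw [hσ' a (not_not.2 ha)]
        · rw [hv1 a ha, hv1]
          intro h0
          have := σ.injective (hσ' _ (not_not.2 h0))
          exact ha (this ▸ h0)) i
      refine ⟨i', c, hc, (dg d).injective ?_⟩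
      rw [map_smul, ← hG', ← e]; rfl
    · rw [hG] at hk ⊢
      exact mul_ne_zero (inv_ne_zero (d l).ne_zero)
        (h2z hg hM hkl ((mul_eq_zero.1 hk).resolve_left (inv_ne_zero (d k).ne_zero)))
  have hS : ∀ s : Finset ι, s.card ≤ 4 → ∃ a, a ∉ s ∧ v a ≠ 0 := by
    intro s hs
    obtain ⟨x, hx⟩ := exists_notMem s (by omega)
    obtain ⟨y, hy⟩ := exists_notMem (insert x s) (lt_of_le_of_lt (Finset.card_insert_le _ _) (by omega))
    rw [Finset.mem_insert, not_or] at hy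
    by_cases hx0 : v x = 0
    · exact ⟨y, hy.2, h2z hg hM (Ne.symm hy.1) hx0⟩
    · exact ⟨x, hx, hx0⟩
  obtain ⟨i, a0, β, ha0, hα, hβ⟩ := hFr.pattern hn hS
  obtain ⟨a1, ha1', ha1⟩ := hS {a0} (by simp)
  obtain ⟨a2, ha2', ha2⟩ := hS {a0, a1} (Finset.card_le_two.trans (by norm_num))
  simp only [Finset.mem_insert, Finset.mem_singleton, not_or] at ha1' ha2'
  have hij : i ≠ j := by
    rintro rfl
    exact hα (by rw [hv1 a0 ha0, ← hβ a1 ha1 ha1', hv1 a1 ha1])
  set α := G (ee F i) a0 with hαdef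
  by_cases hz : ∀ a, v a ≠ 0
  · have e : g.symm (ee F a0) = ((α - β) * d a0)⁻¹ • (ee F i - β • ee F j) := by
      rw [LinearEquiv.symm_apply_eq, map_smul, map_sub, map_smul, hG', hG' (ee F j)]
      ext a
      have := sub_ne_zero.2 hα
      by_cases ha : a = a0
      · subst ha; simp [hv1 a (hz a), ← hαdef]; field_simp
      · simp [hv1 a (hz a), hβ a (hz a) ha, ee_ne ha, mul_comm]
    obtain ⟨x, y, hxy, b1, b2, -, b3, b4, -⟩ := exists_out3 (by omega) i j j
    refine h2z (K.inv_mem hg) (fun h => hM (mono_symm h)) (j := a0) hxy ?_ ?_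
    · rw [LinearEquiv.coe_inv, e]; simp [ee_ne b1, ee_ne b2]
    · rw [LinearEquiv.coe_inv, e]; simp [ee_ne b3, ee_ne b4]
  push Not at hz
  obtain ⟨z, hz⟩ := hz
  have z0 : z ≠ a0 := by rintro rfl; exact ha0 hz
  have z1 : z ≠ a1 := by rintro rfl; exact ha1 hz
  let σ : Equiv.Perm ι := Equiv.swap a1 a2 * Equiv.swap a0 a1
  have σ0 : σ a0 = a2 := by simp [σ]
  have σ1 : σ a1 = a0 := by simp [σ, Equiv.swap_apply_of_ne_of_ne, Ne.symm ha1', Ne.symm ha2'.1]
  have σ2 : σ a2 = a1 := by simp [σ, Equiv.swap_apply_of_ne_of_ne, ha2'.1, ha2'.2]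
  have σ3 : ∀ m, m ≠ a0 → m ≠ a1 → m ≠ a2 → σ m = m := fun m h1 h2 h3 => by
    simp [σ, Equiv.swap_apply_of_ne_of_ne, h1, h2, h3]
  obtain ⟨i', c, hc, e⟩ := hFr.perm σ (by simp [σ, Ne.symm ha1', Ne.symm ha2'.2])
    (fun m hm => σ3 m (by rintro rfl; exact hm ha0) (by rintro rfl; exact hm ha1)
      (by rintro rfl; exact hm ha2)) i
  have f1 : c * G (ee F i') a1 = α := by simpa [σ1] using (congrFun e a1).symm
  have f2 : c * G (ee F i') a2 = β := by simpa [σ2, hβ a1 ha1 ha1'] using (congrFun e a2).symm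
  have hi'j : i' ≠ j := by
    rintro rfl
    rw [hv1 _ ha1] at f1; rw [hv1 _ ha2] at f2
    exact hα (f1.symm.trans f2)
  have hi'i : i' ≠ i := by
    rintro rfl
    rw [hβ _ ha1 ha1'] at f1; rw [hβ _ ha2 ha2'.1] at f2
    exact hα (f1.symm.trans f2)
  obtain ⟨μ, hμ0, hμ1, hμ2⟩ := exists_ne3 (by omega) (0 : F) 1 (-1)
  have u1 : 1 + μ ≠ 0 := fun h => hμ2 (by linear_combination h)
  have u2 : 1 - μ ≠ 0 := fun h => hμ1 (by linear_combination -h)
  let t : ι → Fˣ := tor a0 z (Units.mk0 _ u1) * tor a1 z (Units.mk0 _ u2)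
  have ht : dg t ∈ K := hK.dg_mem (by simp [t, tor, Finset.prod_mul_distrib])
  have hαβ := sub_ne_zero.2 hα
  have e2 : (g⁻¹ * dg t * g) (ee F j) = ee F j + (μ / (α - β)) • (ee F i - c • ee F i') := by
    simp only [LinearEquiv.mul_apply, LinearEquiv.coe_inv]
    rw [LinearEquiv.symm_apply_eq, map_add, map_smul, map_sub, map_smul, hG' (ee F i), hG' (ee F i'),
      ← map_smul (dg d) c, ← e, hG' (ee F j)]
    ext a
    simp only [dg_apply, Pi.add_apply, Pi.smul_apply, Pi.sub_apply, pm_apply, smul_eq_mul, t, Pi.mul_apply,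
      Units.val_mul]
    by_cases b0 : a = a0
    · subst b0
      rw [tor_left z0.symm, tor_ne (Ne.symm ha1') z0.symm, σ0, hβ a2 ha2 ha2'.1, hv1 _ ha0, ← hαdef]
      simp only [Units.val_mk0, Units.val_one]; field_simp
    by_cases b1 : a = a1
    · subst b1
      rw [tor_left z1.symm, tor_ne b0 z1.symm, σ1, hβ a ha1 ha1', hv1 _ ha1, ← hαdef]
      simp only [Units.val_mk0, Units.val_one]; field_simp; ring
    have b3 : G (ee F i) (σ a) = G (ee F i) a := by
      by_cases b2 : a = a2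
      · subst b2; rw [σ2, hβ a1 ha1 ha1', hβ a ha2 ha2'.1]
      · rw [σ3 a b0 b1 b2]
    rw [b3]
    by_cases b4 : a = z
    · subst b4; simp [hv0 a hz]
    · simp [tor_ne b0 b4, tor_ne b1 b4]
  have hk := K.mul_mem (K.mul_mem (K.inv_mem hg) ht) hg
  have hnM : ¬ Mono (g⁻¹ * dg t * g) := by
    intro h
    refine not_isE_of_two hij ?_ ?_ (h j)
    · rw [e2]; simp [ee_ne hij, ee_ne hi'i.symm, hμ0, hαβ]
    · rw [e2]; simp [ee_ne hij.symm, ee_ne hi'j.symm]
  obtain ⟨x, y, hxy, b1, b2, b3, b4, b5, b6⟩ := exists_out3 (by omega) i j i'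
  refine h2z hk hnM (j := j) hxy ?_ ?_
  · rw [e2]; simp [ee_ne b1, ee_ne b2, ee_ne b3]
  · rw [e2]; simp [ee_ne b4, ee_ne b5, ee_ne b6]

theorem mono_max [Fintype F] (hq : 5 ≤ Fintype.card F) (hn : 6 ≤ Fintype.card ι) (hK : HasMono K)
    (hdet : ∀ g ∈ K, LinearEquiv.det g = 1) :
    (∀ g ∈ K, Mono g) ∨ ∀ g, LinearEquiv.det g = 1 → g ∈ K := by
  by_cases hN : NRoot K
  · exact Or.inr (all_of_nroot (by omega) hK hN)
  · exact Or.inl fun g hg => rigid_mono hq hn hK
      (fun g hg i h => mono_of_isE (by omega) hK hdet hN hq hg h) hg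

theorem decomp_max [Fintype F] (hn : 6 ≤ Fintype.card ι) {t m : ℕ} {D : Fin t → Submodule F (ι → F)}
    (hD : Geo.IsMDecomposition m D) (h1 : ¬ (m = 1 ∧ Fintype.card F ≤ 4))
    (h2 : ¬ (m = 2 ∧ Fintype.card F = 2)) :
    Geo.IsMaximalIn (Geo.specialLinear ι F) (Geo.decompositionStabilizer D ⊓ Geo.specialLinear ι F) := by
  have hc := card_eq_of_isMDecomposition hD
  have hne := not_le_inf_of_not_le (SL_not_le_decompositionStabilizer (by omega) hD)
  have hm := hD.pos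
  by_cases hm1 : m = 1
  · subst hm1
    obtain ⟨b, rfl⟩ := exists_basis_of_isMDecomposition hD
    let Ψ : (Fin t → F) ≃ₗ[F] (ι → F) := b.equivFun.symm
    have hΨ : ∀ i, Ψ (ee F i) = b i := fun i => by simp [Ψ, Pi.single_apply]
    refine isMaximalIn_of_equiv (toLE.trans (conjLE Ψ).symm) _ _ (fun g => LinearEquiv.det g = 1)
      (fun g => Mono g ∧ LinearEquiv.det g = 1) (fun g => ?_) (fun g => ?_) (fun g h => h.2) hne
      (fun M h3 h4 => ?_)
    · rw [mem_SL_iff, ← det_conjLE Ψ]; simp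
    · rw [Subgroup.mem_inf, mem_SL_iff, ← det_conjLE Ψ ((toLE.trans (conjLE Ψ).symm) g)]
      simp only [MulEquiv.trans_apply, MulEquiv.apply_symm_apply]
      refine and_congr_left fun _ => ⟨fun h j => ?_, fun h => ?_⟩
      · obtain ⟨σ, c, a1, a2, -⟩ := monomial_of_mem b h
        exact ⟨σ j, c j, a1 j, by rw [conjLE_symm_apply, hΨ, a2, map_smul, ← hΨ]; simp⟩
      · obtain ⟨π, hπ⟩ := exists_projs hD.indep hD.iSup_eq_top
        rw [mem_decompositionStabilizer_iff]
        refine C2a.stab_of_maps hπ hD.finrank_eq one_pos fun i => ?_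
        obtain ⟨j, c, -, e⟩ := h i
        rw [conjLE_symm_apply, hΨ, LinearEquiv.symm_apply_eq, map_smul, hΨ] at e
        refine ⟨j, fun x hx => ?_⟩
        obtain ⟨a, rfl⟩ := Submodule.mem_span_singleton.1 hx
        rw [map_smul, e]
        exact Submodule.smul_mem _ _ (Submodule.smul_mem _ _ (Submodule.mem_span_singleton_self _))
    · rcases mono_max (by omega) (by simp; omega) (K := M) (fun g a1 a2 => h3 g ⟨a2, a1⟩) h4 with h | h
      · exact Or.inl fun g hg => ⟨h g hg, h4 g hg⟩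
      · exact Or.inr h
  · obtain ⟨π, hπ⟩ := exists_projs hD.indep hD.iSup_eq_top
    refine isMaximalIn_of_equiv toLE _ _ (fun g => LinearEquiv.det g = 1)
      (fun g => C2a.Stab D g ∧ LinearEquiv.det g = 1) mem_SL_iff (fun g => ?_) (fun g h => h.2) hne
      (fun M h3 h4 => ?_)
    · rw [Subgroup.mem_inf, mem_SL_iff, mem_decompositionStabilizer_iff]; rfl
    · rcases C2a.abstract_max hπ hD.finrank_eq (by omega) (K := M) (fun g a1 a2 => h3 g ⟨a2, a1⟩) (by
        by_cases hm2 : m = 2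
        · subst hm2
          refine Or.inr ⟨?_, by simp; omega⟩
          classical
          have := Fintype.one_lt_card (α := F)
          obtain ⟨x, hx⟩ := exists_ne_of_card ({0, 1} : Finset F)
            (lt_of_le_of_lt Finset.card_le_two (by omega))
          exact ⟨x, by simpa [not_or] using hx⟩
        · left; omega) with h | h
      · exact Or.inl fun g hg => ⟨h g hg, h4 g hg⟩
      · exact Or.inr h

end Cfsg.Agent.H1.C2d
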