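import Cfsg.Agent.H1.Root
import Cfsg.Agent.H8.Dickson

/-!
Subfield subgroups of prime index are maximal in the special linear group (dimension at least four).
-/

set_option autoImplicit false

namespace Cfsg.Agent.H1.C5

open Module Cfsg.Agent.H7 Cfsg.Agent.H1.Root
open scoped Matrix MatrixGroups

variable {ι : Type} [Fintype ι] [DecidableEq ι] {F : Type*} [Field F] {F₀ : Subfield F}
  {K : Subgroup ((ι → F) ≃ₗ[F] (ι → F))}

/-- `K` contains all transvections defined over `F₀`. -/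
def HasRat (F₀ : Subfield F) (K : Subgroup ((ι → F) ≃ₗ[F] (ι → F))) : Prop :=
  ∀ (ψ : Dual F (ι → F)) (w : ι → F), (∀ j, ψ (ee F j) ∈ F₀) → (∀ i, w i ∈ F₀) → ψ w = 0 → Has K ψ w

omit [Fintype ι] in
theorem ee_mem (F₀ : Subfield F) (j k : ι) : ee F j k ∈ F₀ := by
  by_cases hk : k = j
  · subst hk; simp
  · simp [Pi.single_eq_of_ne hk]

omit [Fintype ι] in
theorem HasRat.rt (h : HasRat F₀ K) {i j : ι} (hij : i ≠ j) {a : F} (ha : a ∈ F₀) : Rt K i j a :=
  h _ _ (fun k => by simpa using F₀.mul_mem ha (ee_mem F₀ k j)) (ee_mem F₀ i) (by simp [ee_ne hij.symm])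

theorem all_of_irr [Finite F] (hn : 3 ≤ Fintype.card ι) (hp : (finrank F₀ F).Prime) (hR : HasRat F₀ K)
    {α : F} (hα : α ∉ F₀) (h : ∀ i j, i ≠ j → Rt K i j α) (g : (ι → F) ≃ₗ[F] (ι → F))
    (hg : LinearEquiv.det g = 1) : g ∈ K := by
  let R : Subalgebra F₀ F :=
    { carrier := {a | ∀ i j, i ≠ j → Rt K i j a}
      mul_mem' := fun {a b} ha hb i j hij => by
        obtain ⟨k, h1, h2⟩ := exists_third hn i j
        exact (ha i k h1.symm).comm (hb k j h2) h1.symm h2 hij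
      add_mem' := fun {a b} ha hb i j hij => (ha i j hij).add (hb i j hij) hij
      algebraMap_mem' := fun a i j hij => hR.rt hij a.2 }
  rcases (Subalgebra.isSimpleOrder_of_finrank_prime F₀ F hp).eq_bot_or_eq_top R with h1 | h1
  · exfalso
    have : α ∈ R := h
    rw [h1, Algebra.mem_bot] at this
    obtain ⟨a, rfl⟩ := this
    exact hα a.2
  · refine mem_of_rt_all (fun i j hij a => ?_) g hg
    have : a ∈ R := h1 ▸ Algebra.mem_top
    exact this i j hij

theorem irr_of_basis_center (hn : 3 ≤ Fintype.card ι) (hR : HasRat F₀ K) {j k : ι}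
    {φ : Dual F (ι → F)} (h : Has K φ (ee F j)) (hφ : φ (ee F j) = 0) (hk : φ (ee F k) ∉ F₀) :
    ∃ α ∉ F₀, ∀ i j, i ≠ j → Rt K i j α :=
  ⟨_, hk, rt_of_has hn (fun _ _ hij => hR.rt hij F₀.one_mem) h hφ k⟩

theorem irr_of_rat_center (hn : 3 ≤ Fintype.card ι) (hR : HasRat F₀ K) {x : ι → F} (hx : ∀ i, x i ∈ F₀)
    {φ : Dual F (ι → F)} (h : Has K φ x) (hφ : φ x = 0) {i k : ι} (hk : φ (ee F k) * x i ∉ F₀) :
    ∃ α ∉ F₀, ∀ i j, i ≠ j → Rt K i j α := by
  have hi : x i ≠ 0 := fun h0 => hk (by rw [h0, mul_zero]; exact F₀.zero_mem)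
  have hk' : φ (ee F k) ∉ F₀ := fun h0 => hk (F₀.mul_mem h0 (hx i))
  -- move `x` to `x i • e_i`
  have h2 : Has K ((x i)⁻¹ • pr F i) (x i • ee F i - x) :=
    hR _ _ (fun j => by simpa using F₀.mul_mem (F₀.inv_mem (hx i)) (ee_mem F₀ j i))
      (fun j => by simpa using F₀.sub_mem (F₀.mul_mem (hx i) (ee_mem F₀ i j)) (hx j)) (by simp)
  have h3 := h.conj_has h2 (by simp)
  have e1 : x + ((x i)⁻¹ • pr F i) x • (x i • ee F i - x) = x i • ee F i := by
    simp [inv_mul_cancel₀ hi]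
  rw [e1] at h3
  set φ' := φ - φ (x i • ee F i - x) • ((x i)⁻¹ • pr F i) with hφ'
  have h4 : Has K (x i • φ') (ee F i) := h3.congr (fun z => by simp [smul_smul, mul_comm])
  have e2 : ∀ j, φ' (ee F j) = φ (ee F j) - φ (ee F i) * ee F j i := fun j => by
    simp only [hφ', LinearMap.sub_apply, LinearMap.smul_apply, map_sub, map_smul, hφ, smul_eq_mul,
      LinearMap.proj_apply]
    field_simp; ring
  by_contra hc
  have h5 : ∀ j, j ≠ i → φ (ee F j) ∈ F₀ := by
    intro j hj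
    by_contra hj'
    refine hc (irr_of_basis_center hn hR h4 (by simp [e2]) (k := j) ?_)
    simp only [LinearMap.smul_apply, e2, ee_ne hj.symm, mul_zero, sub_zero, smul_eq_mul]
    intro h6
    exact hj' (by simpa [hi] using F₀.mul_mem (F₀.inv_mem (hx i)) h6)
  have hki : k = i := by by_contra h6; exact hk' (h5 k h6)
  subst hki
  apply hk
  rw [dual_eq_sum, ← Finset.add_sum_erase _ _ (Finset.mem_univ k)] at hφ
  have : φ (ee F k) * x k = -∑ j ∈ Finset.univ.erase k, x j * φ (ee F j) := by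
    linear_combination hφ
  rw [this]
  exact F₀.neg_mem (F₀.sum_mem fun j hj => F₀.mul_mem (hx j) (h5 j (Finset.ne_of_mem_erase hj)))

omit [DecidableEq ι] in
theorem mem_of_entries {T : Type*} [Fintype T] (hn : 3 ≤ Fintype.card T) {c : F} {χ v : T → F}
    (h1 : ∀ i j, i ≠ j → c * (χ j * v i) ∈ F₀) (h2 : ∀ i, c + c * (χ i * v i) ∈ F₀) : c ∈ F₀ := by
  classical
  by_contra hcF
  have h3 : ∀ i, c * (χ i * v i) ∉ F₀ := fun i hi => hcF (by simpa using F₀.sub_mem (h2 i) hi)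
  have third : ∀ i k : T, ∃ j, j ≠ i ∧ j ≠ k := by
    intro i k
    by_contra hc
    push Not at hc
    have : (Finset.univ : Finset T) ⊆ {i, k} := by
      intro j _
      by_cases h : j = i
      · simp [h]
      · simp [hc j h]
    have h1 := Finset.card_le_card this
    have h2 := Finset.card_le_two (a := i) (b := k)
    rw [Finset.card_univ] at h1
    omega
  have h4 : ∀ j k, j ≠ k → c * (χ k * v j) = 0 := by
    intro j k hjk
    obtain ⟨i, hij, hik⟩ := third j k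
    by_contra h0
    apply h3 i
    have := F₀.div_mem (F₀.mul_mem (h1 i k hik) (h1 j i hij.symm)) (h1 j k hjk)
    convert this using 1
    rw [eq_div_iff h0]; ring
  obtain ⟨j, k, hjk⟩ := Fintype.exists_pair_of_one_lt_card (α := T) (by omega)
  have h5 : (c * (χ j * v j)) * (c * (χ k * v k)) = 0 := by
    linear_combination (c * (χ j * v k)) * h4 j k hjk
  rcases mul_eq_zero.1 h5 with h6 | h6
  · exact h3 j (h6 ▸ F₀.zero_mem)
  · exact h3 k (h6 ▸ F₀.zero_mem)

theorem irr_of_dickson [Finite F] (hn : 4 ≤ Fintype.card ι) (hR : HasRat F₀ K) {v : ι → F}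
    {φ : Dual F (ι → F)} (h : Has K φ v) (hφ : φ v = 0) {i0 i j : ι} (h0 : φ (ee F i0) ≠ 0)
    (hi : i ≠ i0) (hj : j ≠ i0) (hvi : v i ≠ 0) (hvj : v j / v i ∉ F₀) :
    ∃ α ∉ F₀, ∀ i j, i ≠ j → Rt K i j α := by
  let W : Submodule F (ι → F) := (F ∙ ee F i0) ⊔ F ∙ v
  let K' : Subgroup ((ι → F) ≃ₗ[F] (ι → F)) :=
    { carrier := {g | g ∈ K ∧ ∀ z, g z - z ∈ W}
      mul_mem' := fun {a b} ha hb => ⟨K.mul_mem ha.1 hb.1, fun z => by
        simpa using W.add_mem (ha.2 (b z)) (hb.2 z)⟩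
      one_mem' := ⟨K.one_mem, fun z => by simp⟩
      inv_mem' := fun {a} ha => ⟨K.inv_mem ha.1, fun z => by
        simpa using W.neg_mem (ha.2 (a.symm z))⟩ }
  set a : ι → F := φ (ee F i0) • v with ha
  let B : AddSubmonoid F :=
    { carrier := {b : F | ∃ h ∈ K', h (ee F i0) = ee F i0 ∧ h a = a + b • ee F i0}
      zero_mem' := ⟨1, K'.one_mem, rfl, by simp⟩
      add_mem' := by
        rintro b c ⟨g, hg, e1, e2⟩ ⟨g', hg', e1', e2'⟩
        refine ⟨g * g', K'.mul_mem hg hg', by simp [e1, e1'], ?_⟩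
        rw [LinearEquiv.mul_apply, e2', map_add, e2, map_smul, e1]; module }
  have hB : ∀ k, k ≠ i0 → a k ∈ B := by
    intro k hk
    obtain ⟨t, ht, e⟩ := hR.rt hk.symm F₀.one_mem
    refine ⟨t, ⟨ht, fun z => ?_⟩, by simp [e, ee_ne hk], by simp [e]⟩
    rw [e, add_sub_cancel_left]
    exact W.smul_mem _ (Submodule.mem_sup_left (Submodule.mem_span_singleton_self _))
  have hai : a i ≠ 0 := by simp [ha, h0, hvi]
  have hq : a j / a i ∉ F₀ := by
    simp only [ha, Pi.smul_apply, smul_eq_mul]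
    rwa [mul_div_mul_left _ _ h0]
  have haj : a j ≠ 0 := fun h => hq (by rw [h, zero_div]; exact F₀.zero_mem)
  have hij : a i ≠ a j := fun h => hq (by rw [← h, div_self hai]; exact F₀.one_mem)
  have hsum : a i + a j ≠ 0 := fun h => hq (by
    rw [eq_neg_of_add_eq_zero_right h, neg_div, div_self hai]; exact F₀.neg_mem F₀.one_mem)
  have h4 : 4 ≤ {b : F | ∃ h ∈ K', h (ee F i0) = ee F i0 ∧ h a = a + b • ee F i0}.ncard := by
    classical
    have hsub : (({0, a i, a j, a i + a j} : Finset F) : Set F) ⊆ B := by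
      intro x hx
      simp only [Finset.coe_insert, Finset.coe_singleton, Set.mem_insert_iff, Set.mem_singleton_iff] at hx
      rcases hx with rfl | rfl | rfl | rfl
      exacts [B.zero_mem, hB i hi, hB j hj, B.add_mem (hB i hi) (hB j hj)]
    have hc : ({0, a i, a j, a i + a j} : Finset F).card = 4 := by
      rw [Finset.card_eq_four]
      exact ⟨_, _, _, _, hai.symm, haj.symm, hsum.symm, hij, by simpa using haj, by simpa using hai, rfl⟩
    have := Set.ncard_le_ncard hsub (Set.toFinite _)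
    rwa [Set.ncard_coe_finset, hc] at this
  have hy : ∃ h ∈ K', h (ee F i0) = ee F i0 + a ∧ h a = a := by
    obtain ⟨t, ht, e⟩ := h
    refine ⟨t, ⟨ht, fun z => ?_⟩, e _, by simp [e, ha, hφ]⟩
    rw [e, add_sub_cancel_left]
    exact W.smul_mem _ (Submodule.mem_sup_right (Submodule.mem_span_singleton_self _))
  obtain ⟨b, hb, hbB⟩ : ∃ b ∉ F₀, b ∈ B := by
    by_cases h1 : a i ∈ F₀
    · exact ⟨a j, fun h2 => hq (F₀.div_mem h2 h1), hB j hj⟩
    · exact ⟨a i, h1, hB i hi⟩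
  obtain ⟨n, hn', e1, -⟩ := (H8.Dickson.plane h4 hy).2.1 b (fun h => hb (h ▸ F₀.zero_mem)) hbB
  by_contra hc
  have h5 : ∀ k, k ≠ i0 → ∀ l, b * n.symm (ee F l) k ∈ F₀ := by
    intro k hk l
    have h6 := Has.conj (hR.rt hk.symm F₀.one_mem) hn'.1
    rw [e1] at h6
    have h7 : Has K (b • (pr F k ∘ₗ (n.symm : (ι → F) →ₗ[F] (ι → F)))) (ee F i0) :=
      h6.congr (fun z => by simp [smul_smul, mul_comm])
    by_contra h8
    refine hc (irr_of_basis_center (by omega) hR h7 ?_ (k := l) (by simpa using h8))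
    have : n.symm (b • ee F i0) = ee F i0 := by rw [← e1]; simp
    have h9 := congrFun this k
    simpa [ee_ne hk] using h9
  have h6 : ∀ l, ∃ χ : F, ∀ k, k ≠ i0 → n.symm (ee F l) k = ee F l k + χ * v k := by
    intro l
    obtain ⟨y, hy, χ, e⟩ := mem_sup_span_iff.1 ((K'.inv_mem hn').2 (ee F l))
    obtain ⟨c, rfl⟩ := Submodule.mem_span_singleton.1 hy
    refine ⟨χ, fun k hk => ?_⟩
    have := congrFun e k
    simp only [LinearEquiv.coe_inv, Pi.sub_apply, Pi.add_apply, Pi.smul_apply, ee_ne hk, smul_eq_mul,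
      mul_zero, zero_add] at this
    linear_combination this
  choose χ hχ using h6
  refine hb (mem_of_entries (T := {k // k ≠ i0}) (by simp; omega) (χ := fun k => χ k) (v := fun k => v k)
    (fun k l hkl => ?_) (fun k => ?_))
  · have := h5 k k.2 l
    rwa [hχ l k k.2, ee_ne (fun h => hkl (Subtype.ext h)), zero_add] at this
  · have := h5 k k.2 k
    rwa [hχ k k k.2, show ee F (k : ι) k = 1 from Pi.single_eq_same _ _, mul_add, mul_one] at this

theorem irr_of_has [Finite F] (hn : 4 ≤ Fintype.card ι) (hR : HasRat F₀ K) {v : ι → F}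
    {φ : Dual F (ι → F)} (h : Has K φ v) (hφ : φ v = 0) {i k : ι} (hk : φ (ee F k) * v i ∉ F₀) :
    ∃ α ∉ F₀, ∀ i j, i ≠ j → Rt K i j α := by
  have hi : v i ≠ 0 := fun h0 => hk (by rw [h0, mul_zero]; exact F₀.zero_mem)
  have hk0 : φ (ee F k) ≠ 0 := fun h0 => hk (by rw [h0, zero_mul]; exact F₀.zero_mem)
  by_cases h1 : ∀ j, v j / v i ∈ F₀
  · refine irr_of_rat_center (by omega) hR (x := (v i)⁻¹ • v) (φ := v i • φ)
      (fun j => by simpa [div_eq_inv_mul] using h1 j) (h.congr fun z => ?_) (by simp [hφ]) (i := i) (k := k) ?_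
    · simp only [LinearMap.smul_apply, smul_eq_mul, smul_smul]; congr 1; field_simp
    · simpa [hi, mul_comm] using hk
  push Not at h1
  obtain ⟨j, hj⟩ := h1
  have hvj : v j ≠ 0 := fun h => hj (by rw [h, zero_div]; exact F₀.zero_mem)
  have hij : i ≠ j := by rintro rfl; exact hj (by rw [div_self hi]; exact F₀.one_mem)
  by_cases h2 : ∃ l, l ≠ i ∧ l ≠ j ∧ φ (ee F l) ≠ 0
  · obtain ⟨l, a1, a2, a3⟩ := h2
    exact irr_of_dickson hn hR h hφ a3 a1.symm a2.symm hi hj
  push Not at h2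
  have hs : v i * φ (ee F i) + v j * φ (ee F j) = 0 := by
    rw [dual_eq_sum, Finset.sum_eq_add_of_mem i j (Finset.mem_univ _) (Finset.mem_univ _) hij] at hφ
    · exact hφ
    · intro c _ hc; rw [h2 c hc.1 hc.2, mul_zero]
  have hφi : φ (ee F i) ≠ 0 := by
    intro h3
    have h4 : φ (ee F j) = 0 := by simpa [h3, hvj] using hs
    by_cases a1 : k = i
    · exact hk0 (a1 ▸ h3)
    by_cases a2 : k = j
    · exact hk0 (a2 ▸ h4)
    exact hk0 (h2 k a1 a2)
  obtain ⟨l, hl1, hl2⟩ := exists_third (by omega : 3 ≤ Fintype.card ι) i j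
  by_cases h3 : v l / v j ∈ F₀
  · have h4 := h.conj_has (hR.rt hl1 F₀.one_mem) (by simp [ee_ne hl1.symm])
    rw [h2 l hl1 hl2, zero_smul, sub_zero] at h4
    refine irr_of_dickson hn hR h4 (by simp [hφ, h2 l hl1 hl2]) hφi hij.symm hl1 (i := j) (j := l)
      (by simpa [ee_ne hl2.symm] using hvj) ?_
    simp only [one_smul, LinearMap.proj_apply, Pi.add_apply, Pi.smul_apply, Pi.single_eq_same,
      ee_ne hl2.symm, smul_eq_mul, mul_one, mul_zero, add_zero, add_div]
    intro h5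
    have h6 : v i / v j ∈ F₀ := by simpa using F₀.sub_mem h5 h3
    exact hj (by simpa using F₀.inv_mem h6)
  · exact irr_of_dickson hn hR h hφ hφi hij.symm hl1 hvj h3

theorem rat_of_entries (hn : 3 ≤ Fintype.card ι) (g : (ι → F) ≃ₗ[F] (ι → F))
    (h : ∀ k l, k ≠ l → ∀ j i, g.symm (ee F j) k * g (ee F l) i ∈ F₀) :
    ∃ c : F, c ≠ 0 ∧ ∀ x : ι → F, (∀ i, x i ∈ F₀) → ∀ i, (c • g x) i ∈ F₀ := by
  have h1 : ∀ k, ∃ j, g.symm (ee F j) k ≠ 0 := by
    intro k
    apply exists_dual_single_ne (φ := pr F k ∘ₗ (g.symm : (ι → F) →ₗ[F] (ι → F)))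
    intro h0
    simpa using LinearMap.congr_fun h0 (g (ee F k))
  have h2 : ∀ l, ∃ i, g (ee F l) i ≠ 0 := by
    intro l
    by_contra hc
    push Not at hc
    have : g (ee F l) = 0 := funext hc
    rw [map_eq_zero_iff _ g.injective] at this
    simpa using congrFun this l
  obtain ⟨k0, k1, hk⟩ := Fintype.exists_pair_of_one_lt_card (α := ι) (by omega)
  obtain ⟨j0, hj0⟩ := h1 k0
  obtain ⟨j1, hj1⟩ := h1 k1
  obtain ⟨l', hl0, hl1⟩ := exists_third hn k0 k1
  obtain ⟨i', hi'⟩ := h2 l'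
  have h3 : ∀ l i, g.symm (ee F j0) k0 * g (ee F l) i ∈ F₀ := by
    intro l i
    by_cases hl : k0 = l
    · subst hl
      have := F₀.div_mem (F₀.mul_mem (h k0 l' hl0.symm j0 i') (h k1 k0 hk.symm j1 i)) (h k1 l' hl1.symm j1 i')
      convert this using 1
      field_simp
    · exact h k0 l hl j0 i
  refine ⟨_, hj0, fun x hx i => ?_⟩
  rw [pi_eq_sum_univ' x, map_sum]
  simp only [map_smul, Pi.smul_apply, Finset.sum_apply, smul_eq_mul, Finset.mul_sum]
  refine F₀.sum_mem fun l _ => ?_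
  rw [mul_left_comm]
  exact F₀.mul_mem (hx l) (h3 l i)

theorem abstract_max [Finite F] (hn : 4 ≤ Fintype.card ι) (hp : (finrank F₀ F).Prime) (hR : HasRat F₀ K) :
    (∀ g ∈ K, ∃ c : F, c ≠ 0 ∧ ∀ x : ι → F, (∀ i, x i ∈ F₀) → ∀ i, (c • g x) i ∈ F₀) ∨
      ∀ g, LinearEquiv.det g = 1 → g ∈ K := by
  by_cases h : ∀ g ∈ K, ∀ k l, k ≠ l → ∀ j i, g.symm (ee F j) k * g (ee F l) i ∈ F₀
  · exact Or.inl fun g hg => rat_of_entries (by omega) g (h g hg)
  right
  push Not at h
  obtain ⟨g, hg, k, l, hkl, j, i, h⟩ := h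
  obtain ⟨α, hα, h'⟩ := irr_of_has hn hR (Has.conj (hR.rt hkl.symm F₀.one_mem) hg)
    (by simp [ee_ne hkl]) (i := i) (k := j) (by simpa using h)
  exact all_of_irr (by omega) hp hR hα h'

theorem finrank_of_card [Fintype F] {r : ℕ} (hcard : Fintype.card F = Nat.card F₀ ^ r) :
    finrank F₀ F = r := by
  have h1 := Module.natCard_eq_pow_finrank (K := F₀) (V := F)
  rw [Nat.card_eq_fintype_card, hcard] at h1
  exact (Nat.pow_right_injective (Finite.one_lt_card (α := F₀)) h1).symm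

theorem subfield_max [Fintype F] (hn : 4 ≤ Fintype.card ι) (F₀ : Subfield F) {r : ℕ} (hr : r.Prime)
    (hcard : Fintype.card F = Nat.card F₀ ^ r) (P : GL ι F) :
    Geo.IsMaximalIn (Geo.specialLinear ι F) (Geo.subfieldSubgroup F₀ P ⊓ Geo.specialLinear ι F) := by
  have hfr := finrank_of_card hcard
  have hF : F₀ ≠ ⊤ := by
    rintro rfl
    have : finrank (⊤ : Subfield F) F = 1 := by
      have h1 : Nat.card (⊤ : Subfield F) = Fintype.card F := by
        rw [← Nat.card_eq_fintype_card]; exact Nat.card_congr Subfield.topEquiv.toEquiv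
      exact finrank_of_card (by rw [h1, pow_one])
    rw [this] at hfr
    exact hr.one_lt.ne hfr
  refine isMaximalIn_of_equiv (theta (Equiv.refl ι) P) _ _ (fun g => LinearEquiv.det g = 1)
    (fun g => (∃ c : F, c ≠ 0 ∧ ∀ x : ι → F, (∀ i, x i ∈ F₀) → ∀ i, (c • g x) i ∈ F₀) ∧
      LinearEquiv.det g = 1)
    (fun g => by rw [mem_SL_iff, det_theta]) (fun g => ?_) (fun g h => h.2)
    (not_le_inf_of_not_le (SL_not_le_subfieldSubgroup (by omega) hF P)) (fun M h1 h2 => ?_)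
  · rw [Subgroup.mem_inf, mem_SL_iff, mem_subfieldSubgroup_iff, det_theta]
  · rcases abstract_max hn (hfr ▸ hr) (K := M) (fun ψ w hψ hw h0 => by
      refine has_of_forall h0 _ h1 (fun g hg e => ⟨⟨1, one_ne_zero, fun x hx i => ?_⟩, hg⟩)
      rw [one_smul, e, dual_eq_sum]
      exact F₀.add_mem (hx i) (F₀.mul_mem (F₀.sum_mem fun j _ => F₀.mul_mem (hx j) (hψ j)) (hw i))) with h | h
    · exact Or.inl fun g hg => ⟨h g hg, h2 g hg⟩
    · exact Or.inr h

end Cfsg.Agent.H1.C5
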