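import Cfsg.Agent.H3.TenSL

/-!
Tensor structures whose root elements lie in a group `M` without proper levels.
-/

set_option autoImplicit false
set_option linter.unusedSectionVars false
set_option linter.unusedSimpArgs false

namespace Cfsg.Agent.H1.C7a

open Module Cfsg.Agent.H7 Cfsg.Agent.H3.TenLin

variable {F : Type*} [Field F] {V : Type*} [AddCommGroup V] [Module F V]
  {U : Type*} [AddCommGroup U] [Module F U] {W : Type*} [AddCommGroup W] [Module F W]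
  {τ τ' σ : U →ₗ[F] W →ₗ[F] V} {M : Subgroup (V ≃ₗ[F] V)}

/-- the operator `1 ⊗ (x ψ)` -/
noncomputable def rk (h : IsTens τ) (ψ : Dual F W) (x : W) : End F V := τ.flip x ∘ₗ h.ctr ψ

theorem rk_apply (h : IsTens τ) (ψ : Dual F W) (x : W) (v : V) : rk h ψ x v = τ (h.ctr ψ v) x := rfl

@[simp] theorem rk_tmul (h : IsTens τ) (ψ : Dual F W) (x : W) (u : U) (y : W) :
    rk h ψ x (τ u y) = ψ y • τ u x := by simp [rk_apply]

theorem rk_rk (h : IsTens τ) (ψ χ : Dual F W) (x y : W) (v : V) :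
    rk h ψ x (rk h χ y v) = ψ y • rk h χ x v := by rw [rk_apply h χ, rk_tmul, rk_apply]

theorem rk_mem (h : IsTens τ) (ψ : Dual F W) (x : W) (v : V) : rk h ψ x v ∈ Bw τ x := ⟨_, rfl⟩

theorem rk_add (h : IsTens τ) (ψ χ : Dual F W) (x : W) (v : V) :
    rk h (ψ + χ) x v = rk h ψ x v + rk h χ x v := by simp [rk_apply, ctr_add]

theorem rk_Bw (h : IsTens τ) {ψ : Dual F W} {w : W} (hψ : ψ w = 0) (x : W) {v : V} (hv : v ∈ Bw τ w) :
    rk h ψ x v = 0 := by rw [rk_apply, ctr_Bw h hψ hv]; simp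

/-- transport of a tensor structure -/
def act (g : V ≃ₗ[F] V) (τ : U →ₗ[F] W →ₗ[F] V) : U →ₗ[F] W →ₗ[F] V := τ.compr₂ (g : V →ₗ[F] V)

@[simp] theorem act_apply (g : V ≃ₗ[F] V) (u : U) (w : W) : act g τ u w = g (τ u w) := rfl

theorem tens_act (h : IsTens τ) (g : V ≃ₗ[F] V) : IsTens (act g τ) := h.map g

theorem ctr_act (h : IsTens τ) (g : V ≃ₗ[F] V) (ψ : Dual F W) (v : V) :
    (tens_act h g).ctr ψ (g v) = h.ctr ψ v := by
  refine h.induction v (by simp) (fun a b => ?_) (fun x y hx hy => by simp [hx, hy])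
  rw [← act_apply, IsTens.ctr_apply, IsTens.ctr_apply]

theorem rk_act (h : IsTens τ) (g : V ≃ₗ[F] V) (ψ : Dual F W) (x : W) (v : V) :
    rk (tens_act h g) ψ x (g v) = g (rk h ψ x v) := by rw [rk_apply, ctr_act]; rfl

theorem Bw_act (g : V ≃ₗ[F] V) (w : W) : Bw (act g τ) w = (Bw τ w).map (g : V →ₗ[F] V) := by
  ext v
  exact ⟨fun ⟨u, h⟩ => ⟨_, ⟨u, rfl⟩, h⟩, fun ⟨_, ⟨u, rfl⟩, h⟩ => ⟨u, h⟩⟩

/-- equivalent tensor structures -/
def Eqv (τ τ' : U →ₗ[F] W →ₗ[F] V) : Prop :=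
  ∃ (a : U ≃ₗ[F] U) (b : W ≃ₗ[F] W), ∀ u w, τ' u w = τ (a u) (b w)

theorem Eqv.symm (h : Eqv τ τ') : Eqv τ' τ := by
  obtain ⟨a, b, e⟩ := h
  exact ⟨a.symm, b.symm, fun u w => by simp [e]⟩

theorem Eqv.trans (h : Eqv τ τ') (h' : Eqv τ' σ) : Eqv τ σ := by
  obtain ⟨a, b, e⟩ := h
  obtain ⟨a', b', e'⟩ := h'
  exact ⟨a * a', b * b', fun u w => by simp [e, e']⟩

theorem Eqv.act (h : Eqv τ τ') (g : V ≃ₗ[F] V) : Eqv (act g τ) (act g τ') := by
  obtain ⟨a, b, e⟩ := h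
  exact ⟨a, b, fun u w => by simp [e]⟩

theorem eqv_act_iff {g : V ≃ₗ[F] V} : Eqv τ (act g τ) ↔ g ∈ TStab τ := Iff.rfl

theorem rk_of_eqv (h : IsTens τ) (h' : IsTens τ') {a : U ≃ₗ[F] U} {b : W ≃ₗ[F] W}
    (e : ∀ u w, τ' u w = τ (a u) (b w)) (ψ : Dual F W) (x : W) :
    rk h' ψ x = rk h (ψ ∘ₗ (b.symm : W →ₗ[F] W)) (b x) := h'.ext fun u w => by
  rw [rk_tmul, e, e, rk_tmul]; simp

/-- commuting tensor structures -/
def Comm (τ τ' : U →ₗ[F] W →ₗ[F] V) : Prop :=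
  ∀ (h : IsTens τ) (h' : IsTens τ') ψ x ψ' x' v, rk h ψ x (rk h' ψ' x' v) = rk h' ψ' x' (rk h ψ x v)

theorem Comm.symm (h : Comm τ τ') : Comm τ' τ := fun a b ψ x ψ' x' v => (h b a ψ' x' ψ x v).symm

theorem Comm.eqv (h : Comm τ τ') (h1 : IsTens τ') (e : Eqv τ' σ) : Comm τ σ := by
  obtain ⟨a, b, e⟩ := e
  intro k k' ψ x ψ' x' v
  rw [rk_of_eqv h1 k' e]; exact h ..

theorem Comm.act (h : Comm τ τ') (h1 : IsTens τ) (h2 : IsTens τ') (g : V ≃ₗ[F] V) : Comm (act g τ) (act g τ') := by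
  intro k k' ψ x ψ' x' v
  obtain ⟨v, rfl⟩ := g.surjective v
  rw [rk_act h2, rk_act h1, rk_act h1, rk_act h2, h]

theorem not_comm_rk [FiniteDimensional F W] [Nontrivial U] (h : IsTens τ) {ψ : Dual F W} {x : W} (h0 : ψ x = 0)
    (hψ : ψ ≠ 0) (hx : x ≠ 0) : ¬ ∀ χ y v, rk h ψ x (rk h χ y v) = rk h χ y (rk h ψ x v) := by
  intro hc
  obtain ⟨u, hu⟩ := exists_ne (0 : U)
  obtain ⟨y, hy⟩ := exists_apply_eq_one hψ
  obtain ⟨χ, hχ, -⟩ := exists_dual_one (W := (⊥ : Submodule F W)) (x := x) (by simpa using hx)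
  have := hc χ y (τ u x)
  simp [h0, hχ, hy] at this
  exact h.ne_zero hu hx this

/-- `z` is the root element `1 + 1 ⊗ (w φ)` -/
def IsRt (h : IsTens τ) (φ : Dual F W) (w : W) (z : V ≃ₗ[F] V) : Prop := ∀ v, z v = v + rk h φ w v

theorem IsRt.conj {h : IsTens τ} {φ : Dual F W} {w : W} {z : V ≃ₗ[F] V} (e : IsRt h φ w z) (g : V ≃ₗ[F] V) :
    IsRt (tens_act h g) φ w (g * z * g⁻¹) := fun v => by
  obtain ⟨v, rfl⟩ := g.surjective v
  rw [rk_act h]; simp [e v]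

theorem IsRt.mul {h : IsTens τ} {φ φ' : Dual F W} {w : W} {z z' : V ≃ₗ[F] V} (e : IsRt h φ w z)
    (e' : IsRt h φ' w z') (h0 : φ w = 0) : IsRt h (φ + φ') w (z * z') := fun v => by
  rw [LinearEquiv.mul_apply, e', map_add, e, e, rk_rk, h0, rk_add]; module

theorem IsRt.sub_mem {h : IsTens τ} {φ : Dual F W} {w : W} {z : V ≃ₗ[F] V} (e : IsRt h φ w z) (v : V) :
    z v - v ∈ Bw τ w := by rw [e, add_sub_cancel_left]; exact rk_mem ..

theorem IsRt.mul_self {h : IsTens τ} {φ : Dual F W} {w : W} {z : V ≃ₗ[F] V} (e : IsRt h φ w z)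
    (h0 : φ w = 0) (h2 : (2 : F) = 0) : z * z = 1 := by
  ext v
  rw [e.mul e h0, rk_add, ← two_smul F, h2]; simp

/-- the centraliser of an endomorphism -/
def cent (A : End F V) : Subgroup (V ≃ₗ[F] V) where
  carrier := {g | ∀ v, g (A v) = A (g v)}
  one_mem' := fun _ => rfl
  mul_mem' := fun {a b} ha hb v => by rw [LinearEquiv.mul_apply, hb, ha]; rfl
  inv_mem' := fun {a} ha v => a.injective (by rw [ha]; simp)

theorem mem_cent {A : End F V} {g : V ≃ₗ[F] V} : g ∈ cent A ↔ ∀ v, g (A v) = A (g v) := Iff.rfl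

theorem IsRt.mem_cent_iff {h : IsTens τ} {φ : Dual F W} {w : W} {z : V ≃ₗ[F] V} (e : IsRt h φ w z)
    {A : End F V} : z ∈ cent A ↔ ∀ v, rk h φ w (A v) = A (rk h φ w v) := by
  simp only [mem_cent, e _, map_add, add_right_inj]

theorem IsRt.comm_iff {h : IsTens τ} {φ : Dual F W} {w : W} {z : V ≃ₗ[F] V} (e : IsRt h φ w z)
    {g : V ≃ₗ[F] V} : g * z = z * g ↔ g ∈ cent (rk h φ w) := by
  simp only [mem_cent, LinearEquiv.ext_iff, LinearEquiv.mul_apply, e _, map_add, add_right_inj]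

/-- `M` contains the root elements of `τ` and has no proper levels. -/
structure Good (M : Subgroup (V ≃ₗ[F] V)) (τ : U →ₗ[F] W →ₗ[F] V) : Prop where
  tens : IsTens τ
  all : AllRt tens M
  nolev : ∀ w, w ≠ 0 → ∀ θ : V →ₗ[F] U, (∀ u, θ (τ u w) = 0) → HasQ τ M θ w → ∃ ψ, θ = tens.ctr ψ

theorem Good.root (G : Good M τ) {φ : Dual F W} {w : W} (h : φ w = 0) : ∃ z ∈ M, IsRt G.tens φ w z :=
  G.all φ w h

theorem Good.act (G : Good M τ) {g : V ≃ₗ[F] V} (hg : g ∈ M) : Good M (act g τ) := by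
  refine ⟨tens_act G.tens g, fun φ w h => ?_, fun w hw θ h0 ⟨x, hx, e⟩ => ?_⟩
  · obtain ⟨z, hz, e⟩ := G.root h
    exact ⟨_, M.mul_mem (M.mul_mem hg hz) (M.inv_mem hg), e.conj g⟩
  · obtain ⟨ψ, hψ⟩ := G.nolev w hw (θ ∘ₗ (g : V →ₗ[F] V)) h0
      ⟨g⁻¹ * x * g, M.mul_mem (M.mul_mem (M.inv_mem hg) hx) hg, fun v => by simp [e]⟩
    refine ⟨ψ, LinearMap.ext fun v => ?_⟩
    obtain ⟨v, rfl⟩ := g.surjective v
    rw [ctr_act G.tens, ← hψ]; rfl

theorem Good.eqv (G : Good M τ) (h' : IsTens τ') (e : Eqv τ τ') : Good M τ' := by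
  obtain ⟨a, b, e⟩ := e
  refine ⟨h', fun φ w h => ?_, fun w hw θ h0 ⟨x, hx, e'⟩ => ?_⟩
  · obtain ⟨z, hz, e'⟩ := G.root (φ := φ ∘ₗ (b.symm : W →ₗ[F] W)) (w := b w) (by simpa using h)
    exact ⟨z, hz, fun v => by rw [e', ← rk_of_eqv G.tens h' e]; rfl⟩
  · obtain ⟨ψ, hψ⟩ := G.nolev (b w) (by simpa using hw) ((a : U →ₗ[F] U) ∘ₗ θ)
      (fun u => by simpa [e] using h0 (a.symm u)) ⟨x, hx, fun v => by simp [e', e]⟩
    refine ⟨ψ ∘ₗ (b : W →ₗ[F] W), h'.ext fun u y => a.injective ?_⟩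
    have := LinearMap.congr_fun hψ (τ' u y)
    rw [IsTens.ctr_apply]
    simpa [e] using this

variable [FiniteDimensional F U] [FiniteDimensional F W] [Nontrivial U]

theorem eqv_of_eq (h3 : 3 ≤ finrank F W) (G : Good M τ) (G' : Good M τ') {w w' : W} (hw : w ≠ 0)
    (hw' : w' ≠ 0) (e : ∀ u, τ u w = τ' u w') : Eqv τ τ' := by
  obtain ⟨u₀, hu₀⟩ := exists_ne (0 : U)
  have h := G.tens
  have h' := G'.tens
  have h1 : ∀ ψ : Dual F W, ψ w = 0 → ∃ ψ' : Dual F W, h.ctr ψ = h'.ctr ψ' := fun ψ hψ =>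
    G'.nolev w' hw' _ (fun u => by simp [← e, hψ]) (by
      obtain ⟨g, hg, e'⟩ := G.all ψ w hψ
      exact ⟨g, hg, fun v => by rw [e', e]⟩)
  have h2 : ∀ ψ' : Dual F W, ψ' w' = 0 → ∃ ψ : Dual F W, h'.ctr ψ' = h.ctr ψ := fun ψ hψ =>
    G.nolev w hw _ (fun u => by simp [e, hψ]) (by
      obtain ⟨g, hg, e'⟩ := G'.all ψ w' hψ
      exact ⟨g, hg, fun v => by rw [e', e]⟩)
  obtain ⟨a, b, e3⟩ := mem_TStab_of h (x := h.equiv.symm.trans h'.equiv) 1 (fun w₁ => by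
    obtain ⟨ψ₀, hψ₀, -⟩ := exists_dual_one (W := (⊥ : Submodule F W)) (x := w) (by simpa using hw)
    let c := Module.finBasis F W
    choose κ hκ using fun i => h1 (c.coord i - c.coord i w • ψ₀) (by simp [hψ₀])
    let y : W := ∑ i, κ i w₁ • c i
    let θ : U →ₗ[F] U := h.ctr ψ₀ ∘ₗ τ'.flip w₁
    have e1 : ∀ u, τ' u w₁ = τ u y + τ (θ u) w := by
      intro u
      rw [← h.sum_basis c (τ' u w₁)]
      conv_rhs => rw [← c.sum_repr w]
      simp only [y, map_sum, map_smul, ← Finset.sum_add_distrib]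
      refine Finset.sum_congr rfl fun i _ => ?_
      have := LinearMap.congr_fun (hκ i) (τ' u w₁)
      rw [sub_eq_add_neg, ctr_add, ctr_neg, ctr_smul] at this
      simp only [LinearMap.add_apply, LinearMap.neg_apply, LinearMap.smul_apply, h'.ctr_apply] at this
      rw [← sub_eq_add_neg, sub_eq_iff_eq_add] at this
      rw [this]
      simp [θ]
    obtain ⟨φ', hφ0, hφw, hφ1⟩ := exists_dual_two h3 w' w₁
    obtain ⟨φ, hφ⟩ := h2 φ' hφw
    have a1 : φ w = 0 := by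
      have := LinearMap.congr_fun hφ (τ u₀ w)
      rw [h.ctr_apply, e, h'.ctr_apply, hφw, zero_smul] at this
      simpa [hu₀] using this.symm
    have a2 : φ y = 0 := by
      have := LinearMap.congr_fun hφ (τ' u₀ w₁)
      rw [h'.ctr_apply, e1, hφ1] at this
      simpa [a1, hu₀] using this.symm
    obtain ⟨n', hn', en'⟩ := G'.all φ' w₁ hφ1
    obtain ⟨n, hn, en⟩ := (G.all φ y a2).neg (fun u => by simp [a2])
    obtain ⟨ψ, e2⟩ := G.nolev w hw (θ ∘ₗ h.ctr φ) (fun u => by simp [a1])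
      ⟨n * n', M.mul_mem hn hn', fun v => by
        simp [en, en', e1, hφ, a1, a2]
        abel⟩
    have a3 : φ ≠ 0 := by
      rintro rfl
      obtain ⟨z, hz⟩ := exists_apply_eq_one hφ0
      have := LinearMap.congr_fun hφ (τ' u₀ z)
      simp [H3.TenLin.ctr_zero, hz, hu₀] at this
    obtain ⟨z, hz⟩ := exists_apply_eq_one a3
    refine ⟨y + ψ z • w, fun u => ?_⟩
    have := LinearMap.congr_fun e2 (τ u z)
    simp only [LinearMap.comp_apply, h.ctr_apply, hz, one_smul] at this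
    simp [e1, this])
  exact ⟨a, b, fun u y => by simpa using e3 u y⟩

theorem eqv_of_Bw (h3 : 3 ≤ finrank F W) (G : Good M τ) (G' : Good M τ') {w w' : W} (hw : w ≠ 0)
    (hw' : w' ≠ 0) (e : Bw τ w ≤ Bw τ' w') : Eqv τ τ' := by
  obtain ⟨a, ha⟩ := exists_of_map_Bw G'.tens hw hw' (x := G'.tens.equiv.symm.trans G.tens.equiv)
    (fun u => by simpa using e (tmul_mem_Bw u w))
  have h1 : Eqv τ' (act (G'.tens.tcongr a 1) τ') := tcongr_mem ..
  exact (eqv_of_eq h3 G (G'.eqv (tens_act G'.tens _) h1) hw hw' fun u => by simpa using ha u).trans h1.symm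

theorem Good.mem_TStab (h3 : 3 ≤ finrank F W) (G : Good M τ) {g : V ≃ₗ[F] V} (hg : g ∈ M) {φ : Dual F W}
    (hφ : φ ≠ 0) {w : W} (hw : w ≠ 0) (hc : g ∈ cent (rk G.tens φ w)) : g ∈ TStab τ := by
  refine parabolic G.tens h3 G.all hw (G.nolev w hw) hg fun u => ?_
  obtain ⟨z, hz⟩ := exists_apply_eq_one hφ
  have := hc (τ u z)
  rw [rk_tmul, hz, one_smul] at this
  rw [this]; exact rk_mem ..

theorem exists_dual_pair {x y : W} (h : y ∉ F ∙ x) : ∃ χ : Dual F W, χ y = 1 ∧ χ x = 0 := by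
  obtain ⟨χ, h1, h2⟩ := exists_dual_one h
  exact ⟨χ, h1, h2 x (Submodule.mem_span_singleton_self x)⟩

theorem tstab_cases (h3 : 3 ≤ finrank F W) (h : IsTens τ) {g : V ≃ₗ[F] V} (hg : g ∈ TStab τ)
    {S : Submodule F V} [FiniteDimensional F S] (hS : ∀ v, g v - v ∈ S) (hd : finrank F S ≤ finrank F U) :
    (∃ x, x ≠ 0 ∧ S ≤ Bw τ x) ∨ ∀ ψ x, g ∈ cent (rk h ψ x) := by
  obtain ⟨a, b, e⟩ := hg
  by_cases hb : ∀ x, b x ∈ F ∙ x
  · right
    obtain ⟨c, hc⟩ := scalar_of_forall_mem_span (b : W →ₗ[F] W) hb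
    replace hc : ∀ x, b x = c • x := hc
    intro ψ x v
    refine h.induction v (by simp) (fun u y => ?_) (fun x y hx hy => by simp [hx, hy])
    simp [e, hc, smul_smul, mul_comm]
  left
  push Not at hb
  obtain ⟨x, hx⟩ := hb
  let L : U →ₗ[F] V := τ.flip (b x) ∘ₗ (a : U →ₗ[F] U) - τ.flip x
  have hL : ∀ u, L u = τ (a u) (b x) - τ u x := fun _ => rfl
  obtain ⟨χ, h1, h2⟩ := exists_dual_pair hx
  have hinj : Function.Injective L := by
    rw [injective_iff_map_eq_zero]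
    intro u hu
    simpa [hL, h1, h2] using congrArg (h.ctr χ) hu
  have h4 : LinearMap.range L = S := Submodule.eq_of_le_of_finrank_le
    (by rintro _ ⟨u, rfl⟩; rw [hL, ← e]; exact hS _) (by rw [LinearMap.finrank_range_of_inj hinj]; exact hd)
  obtain ⟨ψ, hψ, h5, h6⟩ := exists_dual_two h3 x (b x)
  obtain ⟨y, hy⟩ := exists_apply_eq_one hψ
  have h7 : ∀ u, ψ (b y) • a u = u := fun u => by
    obtain ⟨u', hu'⟩ : g (τ u y) - τ u y ∈ LinearMap.range L := h4 ▸ hS _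
    have := congrArg (h.ctr ψ) hu'
    simp only [hL, h5, h6, e, hy, map_sub, h.ctr_apply, zero_smul, sub_zero, one_smul] at this
    exact sub_eq_zero.1 this.symm
  refine ⟨b x - ψ (b y) • x, fun h8 => hx ?_, ?_⟩
  · rw [sub_eq_zero.1 h8]; exact Submodule.smul_mem _ _ (Submodule.mem_span_singleton_self x)
  · rw [← h4]
    rintro _ ⟨u, rfl⟩
    refine ⟨a u, ?_⟩
    rw [hL, LinearMap.flip_apply, map_sub, map_smul, ← LinearMap.smul_apply, ← map_smul, h7]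

theorem eqv_or_comm (h3 : 3 ≤ finrank F W) (G : Good M τ) (G' : Good M σ) {y : V ≃ₗ[F] V} (hy : y ∈ TStab τ)
    {ψ : Dual F W} {x : W} (hψ : ψ ≠ 0) (hx : x ≠ 0) (e : IsRt G'.tens ψ x y) : Eqv τ σ ∨ Comm τ σ := by
  have : FiniteDimensional F V := G.tens.equiv.finiteDimensional
  rcases tstab_cases h3 G.tens hy e.sub_mem (finrank_Bw G'.tens hx).le with ⟨x0, h1, h2⟩ | h1
  · exact Or.inl (eqv_of_Bw h3 G' G hx h1 h2).symm
  by_cases h2 : Eqv τ σ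
  · exact Or.inl h2
  right
  have h4 : ∀ φ w, φ w = 0 → ∀ ψ' x' v, rk G.tens φ w (rk G'.tens ψ' x' v) = rk G'.tens ψ' x' (rk G.tens φ w v) := by
    intro φ w h0 ψ' x'
    by_cases hw : w = 0
    · simp [rk_apply, hw]
    obtain ⟨n, hn, en⟩ := G.root h0
    have h5 := G'.mem_TStab h3 hn hψ hx (en.mem_cent_iff.2 fun v => (e.mem_cent_iff.1 (h1 φ w) v).symm)
    rcases tstab_cases h3 G'.tens h5 en.sub_mem (finrank_Bw G.tens hw).le with ⟨x0, h6, h7⟩ | h6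
    · exact absurd (eqv_of_Bw h3 G G' hw h6 h7) h2
    · exact en.mem_cent_iff.1 (h6 ψ' x')
  intro _ _ φ w ψ' x' v
  obtain ⟨z, hz, hzw⟩ := exists_mem_notMem_of_finrank_lt (U := ⊤ ⊓ LinearMap.ker φ) (W := F ∙ w) (by
    have := finrank_le_finrank_inf_ker ⊤ φ
    have := finrank_span_singleton_le (F := F) w
    rw [finrank_top] at *; omega)
  obtain ⟨χ, a1, a2⟩ := exists_dual_pair hzw
  have a3 : ∀ v, rk G.tens φ w v = rk G.tens χ w (rk G.tens φ z v) := fun v => by rw [rk_rk, a1, one_smul]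
  rw [a3, a3, h4 φ z hz.2, h4 χ w a2]

/-- inequivalent non-commuting structures -/
def Bad (τ τ' : U →ₗ[F] W →ₗ[F] V) : Prop := ¬ Eqv τ τ' ∧ ¬ Comm τ τ'

theorem Bad.symm (h : Bad τ τ') : Bad τ' τ := ⟨fun e => h.1 e.symm, fun e => h.2 e.symm⟩

theorem Bad.not_mem (h3 : 3 ≤ finrank F W) (G : Good M τ) (G' : Good M τ') (hb : Bad τ τ') {z : V ≃ₗ[F] V}
    {φ : Dual F W} {w : W} (hφ : φ ≠ 0) (hw : w ≠ 0) (e : IsRt G.tens φ w z) : z ∉ TStab τ' := fun h =>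
  (eqv_or_comm h3 G' G h hφ hw e).elim hb.symm.1 hb.symm.2

theorem Bad.swap (h3 : 3 ≤ finrank F W) (h2 : (2 : F) = 0) (G : Good M τ) (G' : Good M τ') (hb : Bad τ τ')
    {z : V ≃ₗ[F] V} (hz : z ∈ M) {φ : Dual F W} {w : W} (h0 : φ w = 0) (hφ : φ ≠ 0) (hw : w ≠ 0)
    (e : IsRt G.tens φ w z) (hc : Comm τ' (act z τ')) {n : V ≃ₗ[F] V} (hn : n ∈ M) {ψ : Dual F W} {x : W}
    (h0' : ψ x = 0) (hψ : ψ ≠ 0) (hx : x ≠ 0) (e' : IsRt G'.tens ψ x n) : Comm τ (act n τ) := by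
  have a1 := e.mul_self h0 h2
  have a2 := e'.mul_self h0' h2
  have a3 : n * (z * n * z⁻¹) = z * n * z⁻¹ * n :=
    (e'.conj z).comm_iff.2 (e'.mem_cent_iff.2 fun v => hc _ _ _ _ _ _ v)
  have a4 : n * z * n⁻¹ * z = z * (n * z * n⁻¹) := by
    rw [inv_eq_of_mul_eq_one_left a1] at a3
    rw [inv_eq_of_mul_eq_one_left a2]
    simpa [mul_assoc] using a3
  have a5 := G.mem_TStab h3 (M.mul_mem (M.mul_mem hn hz) (M.inv_mem hn)) hφ hw (e.comm_iff.1 a4)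
  exact (eqv_or_comm h3 G (G.act hn) a5 hφ hw (e.conj n)).resolve_left
    (hb.symm.not_mem h3 G' G hψ hx e')

theorem Bad.act (h3 : 3 ≤ finrank F W) (G : Good M τ) (G' : Good M τ') (hb : Bad τ τ')
    {z : V ≃ₗ[F] V} (hz : z ∈ M) {φ : Dual F W} {w : W} (h0 : φ w = 0) (hφ : φ ≠ 0) (hw : w ≠ 0)
    (e : IsRt G.tens φ w z) : Bad τ' (act z τ') := by
  refine ⟨hb.not_mem h3 G G' hφ hw e, fun hc => ?_⟩
  obtain ⟨x, hx⟩ : ∃ x : W, x ≠ 0 := ⟨w, hw⟩
  obtain ⟨ψ, hψ, h0', -⟩ := exists_dual_two h3 x x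
  by_cases h2 : (2 : F) = 0
  · obtain ⟨n, hn, e'⟩ := G'.root h0'
    have a1 := hb.swap h3 h2 G G' hz h0 hφ hw e hc hn h0' hψ hx e'
    obtain ⟨y, hy⟩ := exists_apply_eq_one hφ
    obtain ⟨φ₁, b1, b2, b3⟩ := exists_dual_two h3 w y
    obtain ⟨z₁, hz₁, e₁⟩ := G.root b2
    have a2 := hb.symm.swap h3 h2 G' G hn h0' hψ hx e' a1 hz₁ b2 b1 hw e₁
    have a3 := hb.symm.swap h3 h2 G' G hn h0' hψ hx e' a1 (M.mul_mem hz₁ hz) (ψ := φ₁ + φ) (by simp [b2, h0])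
      (fun h => by simpa [b3, hy] using LinearMap.congr_fun h y) hw (e₁.mul e b2)
    have a4 : z₁ * z = z * z₁ := e.comm_iff.2 (e₁.mem_cent_iff.2 fun v => by simp [rk_rk, b2, h0])
    have a5 : z₁ * (n * z * n⁻¹) = n * z * n⁻¹ * z₁ :=
      (e.conj n).comm_iff.2 (e₁.mem_cent_iff.2 fun v => a1 _ _ _ _ _ _ v)
    refine not_comm_rk G'.tens h0' hψ hx fun χ y' => e'.mem_cent_iff.1 ?_
    have c1 := (e'.conj z).mem_cent_iff.2 fun v => (hc G'.tens _ χ y' _ _ v).symm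
    have c2 := (e'.conj z₁).mem_cent_iff.2 fun v => (a2 G'.tens _ χ y' _ _ v).symm
    have c3 := (e'.conj (z₁ * z)).mem_cent_iff.2 fun v => (a3 G'.tens _ χ y' _ _ v).symm
    have c4 := mul_mem (inv_mem c1) (mul_mem c3 (inv_mem c2))
    refine inv_mem_iff.1 ?_
    convert c4 using 1
    have i1 := inv_eq_of_mul_eq_one_left (e.mul_self h0 h2)
    rw [eq_inv_mul_iff_mul_eq]
    calc z * n * z⁻¹ * n⁻¹ = z * (n * z * n⁻¹) := by rw [i1]; group
      _ = z₁ * (z * (n * z * n⁻¹)) * z₁⁻¹ := by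
        rw [← mul_assoc z₁, a4, mul_assoc z, a5]; group
      _ = z₁ * (z * (n * z⁻¹ * n⁻¹)) * z₁⁻¹ := by rw [i1]
      _ = _ := by group
  · have G1 := G'.act hz
    have G2 := G1.act hz
    have a1 : Bw (C7a.act z (C7a.act z τ')) x ≤ Bw τ' x := by
      have b1 : ∀ χ y, ∀ v ∈ Bw τ' x, rk G1.tens χ y v ∈ Bw τ' x := by
        rintro χ y _ ⟨u, rfl⟩
        obtain ⟨s, hs⟩ := exists_apply_eq_one hψ
        have := hc G'.tens G1.tens ψ x χ y (τ' u s)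
        rw [rk_tmul, hs, one_smul] at this
        rw [LinearMap.flip_apply, ← this]; exact rk_mem ..
      have b2 : ∀ y, ∀ v ∈ Bw (C7a.act z (C7a.act z τ')) x, rk G1.tens ψ y v ∈ Bw τ' x := by
        rintro y _ ⟨u, rfl⟩
        have : z (z (τ' u x)) = (2 : F) • z (τ' u x) - τ' u x := by
          rw [e (τ' u x), map_add, e, e, rk_rk, h0]; module
        change rk G1.tens ψ y (z (z (τ' u x))) ∈ _
        rw [this, map_sub, map_smul, ← act_apply, rk_tmul, h0', zero_smul, smul_zero, zero_sub]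
        exact neg_mem (b1 _ _ _ ⟨u, rfl⟩)
      rintro _ ⟨u, rfl⟩
      obtain ⟨s, hs⟩ := exists_apply_eq_one hψ
      let c := Module.finBasis F W
      change z (z (τ' u x)) ∈ _
      rw [← G1.tens.sum_basis c (z (z (τ' u x)))]
      refine Submodule.sum_mem _ fun i _ => ?_
      have := b2 (c i) (rk G1.tens (c.coord i) s (z (z (τ' u x)))) (by
        rw [rk_act G'.tens, Bw_act]
        refine ⟨_, ?_, rfl⟩
        have := hc G'.tens G1.tens (c.coord i) s ψ x (z (τ' u s))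
        rw [← act_apply, rk_tmul, hs, one_smul] at this
        rw [← act_apply, this]; exact rk_mem ..)
      rwa [rk_rk, hs, one_smul] at this
    have a2 := (eqv_of_Bw h3 G2 G' hx hx a1).symm
    exact hb.not_mem h3 G G' (φ := φ + φ) (fun h => hφ (by rwa [← two_smul F, smul_eq_zero_iff_right h2] at h)) hw
      (e.mul e h0) a2

end Cfsg.Agent.H1.C7a
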