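import Cfsg.Agent.H4.Dick

/-!
Pairs of quadratic elements.
-/

set_option autoImplicit false
set_option linter.unusedSectionVars false
set_option linter.unusedSimpArgs false

namespace Cfsg.Agent.H1.C7b

open Module Polynomial
open scoped Matrix

section PG
open Cfsg.Agent.H4 Cfsg.Agent.H4.Mob Cfsg.Agent.H4.Bar Cfsg.Agent.H4.Dick MulAction

theorem invol_of_even {G : Type*} [Group G] [Finite G] (h : 2 ∣ Nat.card G) : ∃ g : G, g ≠ 1 ∧ g * g = 1 := by
  have := Fact.mk Nat.prime_two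
  obtain ⟨g, hg⟩ := exists_prime_orderOf_dvd_card' 2 h
  refine ⟨g, fun h1 => by simp [h1] at hg, ?_⟩
  rw [← sq, ← hg, pow_orderOf_eq_one]

theorem pg_invol {K : Type*} [Field K] [Finite K] (M : Subgroup (PG K)) {c : K} (hc : c ≠ 0)
    (h1 : tr c ∈ M) (h2 : mob (1 : K) 0 1 1 (by simp) ∈ M) : ∃ g ∈ M, g ≠ 1 ∧ g * g = 1 := by
  have A : 2 ∣ Nat.card M → ∃ g ∈ M, g ≠ 1 ∧ g * g = 1 := fun h => by
    obtain ⟨g, a, b⟩ := invol_of_even h
    exact ⟨g, g.2, fun h => a (Subtype.ext h), congrArg Subtype.val b⟩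
  rcases dickson M with ⟨x, h⟩ | ⟨x, y, hp, h⟩ | ⟨-, -, ⟨⟨e⟩⟩ | ⟨⟨e⟩⟩⟩ | ⟨-, -, -, ⟨e⟩⟩ | ⟨g, E, -, h, -⟩
  · exfalso
    have a1 : x ∈ fixedBy (P1 K) (tr c) := h h1
    rw [H8.Dickson.tr_fixed hc] at a1
    have a2 : mob (1 : K) 0 1 1 (by simp) • x = x := h h2
    rw [show x = inf from a1, mob_smul_inf_eq_inf] at a2
    exact one_ne_zero a2
  · rcases h h1 with ⟨a1, a2⟩ | ⟨a1, a2⟩
    · exfalso
      have b1 : x ∈ fixedBy _ (tr c) := a1
      have b2 : y ∈ fixedBy _ (tr c) := a2
      rw [Bar.tr_fixed hc] at b1 b2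
      exact hp.ne (b1.trans b2.symm)
    · refine ⟨_, h1, by simpa using hc, up_injective ?_⟩
      rw [map_mul, map_one]
      exact mul_self_of_swap hp.ne a1 a2
  · refine A ?_
    rw [Nat.card_congr e.toEquiv, Nat.card_eq_fintype_card, card_alternatingGroup]; decide
  · refine A ?_
    rw [Nat.card_congr e.toEquiv, Nat.card_eq_fintype_card, Fintype.card_perm]; decide
  · refine A ?_
    rw [Nat.card_congr e.toEquiv, Nat.card_eq_fintype_card, card_alternatingGroup]; decide
  · have a1 : flip (-1 : K) (by simp) ∈ PSsub E :=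
      mob_mem_PSsub (s := 1) E.zero_mem (E.neg_mem E.one_mem) E.one_mem E.zero_mem E.one_mem (by ring)
    refine ⟨_, Pair.mem_cj.1 (h a1), fun h1 => ?_, ?_⟩
    · have : flip (-1 : K) (by simp) = 1 := by
        rw [← mul_left_inj g, ← mul_right_inj g⁻¹, ← mul_assoc, h1]; simp
      simp [Mob.flip, mob_eq_one] at this
    · have := flip_mul_self (-1 : K) (by simp)
      calc _ = g⁻¹ * (flip (-1 : K) (by simp) * flip (-1 : K) (by simp)) * g := by group
        _ = 1 := by rw [this]; group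

end PG

universe u
variable {F : Type u} {V : Type*} [Field F] [AddCommGroup V] [Module F V] [FiniteDimensional F V]

theorem exists_eigen [Finite F] {A : End F V} (hA : ¬ IsNilpotent A) :
    ∃ (K : Type u) (_ : Field K) (_ : Algebra F K) (_ : Finite K) (c : K) (l : V →ₗ[F] K),
      c ≠ 0 ∧ l ≠ 0 ∧ ∀ v, l (A v) = c * l v := by
  classical
  let K := A.charpoly.SplittingField
  have hK : Finite K := Module.finite_of_finite F
  have hs : (A.charpoly.map (algebraMap F K)).Splits := SplittingField.splits _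
  have hm : (A.charpoly.map (algebraMap F K)).Monic := A.charpoly_monic.map _
  obtain ⟨c, hc, hc0⟩ : ∃ c ∈ (A.charpoly.map (algebraMap F K)).roots, c ≠ 0 := by
    by_contra h
    push Not at h
    apply hA
    rw [LinearMap.isNilpotent_iff_charpoly]
    apply Polynomial.map_injective _ (algebraMap F K).injective
    rw [hs.eq_prod_roots_of_monic hm, Multiset.eq_replicate_card.2 h, ← hs.natDegree_eq_card_roots]
    simp [hm.natDegree_map, A.charpoly_monic.natDegree_map, LinearMap.charpoly_natDegree]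
  let b := Module.finBasis F V
  let B := (LinearMap.toMatrix b b A).map (algebraMap F K)
  have h1 : (Matrix.scalar _ c - B).det = 0 := by
    rw [← Matrix.eval_charpoly, Matrix.charpoly_map, LinearMap.charpoly_toMatrix]
    exact (mem_roots hm.ne_zero).1 hc
  obtain ⟨r, hr0, hr⟩ := Matrix.exists_vecMul_eq_zero_iff.2 h1
  refine ⟨K, inferInstance, inferInstance, hK, c, b.constr F r, hc0, fun h => hr0 ?_, fun v => ?_⟩
  · ext i; simpa using LinearMap.congr_fun h (b i)
  · have : b.constr F r ∘ₗ A = c • b.constr F r := b.ext fun j => by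
      have := congrFun hr j
      simp only [Matrix.vecMul_sub, Pi.sub_apply, Pi.zero_apply, sub_eq_zero] at this
      simp only [LinearMap.comp_apply, LinearMap.smul_apply, Basis.constr_basis, smul_eq_mul]
      rw [Basis.constr_apply_fintype]
      simp only [Matrix.vecMul, dotProduct, B, Matrix.map_apply, LinearMap.toMatrix_apply] at this
      simp only [Algebra.smul_def, Basis.equivFun_apply, mul_comm _ (r _)]
      rw [← this]
      simp [Matrix.diagonal_apply]
    exact LinearMap.congr_fun this v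

theorem trace_central {N N' : End F V} (hN : N * N = 0) (hN' : N' * N' = 0) {z z' : V ≃ₗ[F] V}
    (hz : (z : End F V) = 1 + N) (hz' : (z' : End F V) = 1 + N') {g : V ≃ₗ[F] V}
    (hg : g ∈ Subgroup.closure {z, z'}) :
    (g + g.symm : End F V) ∈ Subring.centralizer {N, N'} := by
  let Z := Subring.centralizer ({N, N'} : Set (End F V))
  have hZ : ∀ a, a ∈ Z ↔ N * a = a * N ∧ N' * a = a * N' := fun a => by simp [Z, Subring.mem_centralizer_iff]
  have hc : N * N' + N' * N ∈ Z := by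
    rw [hZ]
    constructor
    · simp only [mul_add, add_mul, ← mul_assoc, hN, zero_mul]; simp only [mul_assoc, hN, mul_zero]; simp
    · simp only [mul_add, add_mul, ← mul_assoc, hN', zero_mul]; simp only [mul_assoc, hN', mul_zero]; simp
  have hi : ∀ {y : V ≃ₗ[F] V} {A : End F V}, (y : End F V) = 1 + A → A * A = 0 → (y.symm : End F V) = 1 - A := by
    intro y A h1 h2
    have h3 : (y : End F V) * (1 - A) = 1 := by rw [h1]; noncomm_ring [h2]
    calc (y.symm : End F V) = y.symm * (y * (1 - A)) := by rw [h3, mul_one]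
      _ = 1 - A := by rw [← mul_assoc]; ext v; simp
  have key : ∃ α ∈ Z, ∃ β ∈ Z, ∃ γ ∈ Z, ∃ δ ∈ Z, (g : End F V) = α + β * N + γ * N' + δ * (N * N') ∧
      (g.symm : End F V) = α - β * N - γ * N' + δ * (N' * N) := by
    have e1 : ∀ a b : V ≃ₗ[F] V, ((a * b : V ≃ₗ[F] V) : End F V) = (a : End F V) * b := fun _ _ => rfl
    have e2 : ∀ a b : V ≃ₗ[F] V, ((a * b).symm : End F V) = (b.symm : End F V) * a.symm := fun _ _ => rfl
    have c1 : ∀ a ∈ Z, ∀ x, N * (a * x) = a * (N * x) := fun a ha x => by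
      rw [← mul_assoc, ((hZ a).1 ha).1, mul_assoc]
    have c2 : ∀ a ∈ Z, ∀ x, N' * (a * x) = a * (N' * x) := fun a ha x => by
      rw [← mul_assoc, ((hZ a).1 ha).2, mul_assoc]
    have n1 : ∀ x, N * (N * x) = 0 := fun x => by rw [← mul_assoc, hN, zero_mul]
    have n2 : ∀ x, N' * (N' * x) = 0 := fun x => by rw [← mul_assoc, hN', zero_mul]
    induction hg using Subgroup.closure_induction_right with
    | one => exact ⟨1, Z.one_mem, 0, Z.zero_mem, 0, Z.zero_mem, 0, Z.zero_mem, by simp; rfl, by simp; rfl⟩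
    | mul_right x hx y hy ih =>
      obtain ⟨α, h1, β, h2, γ, h3, δ, h4, a1, a2⟩ := ih
      rcases hy with rfl | rfl
      · refine ⟨_, Z.add_mem h1 (Z.mul_mem h3 hc), _, Z.add_mem (Z.add_mem h1 h2) (Z.mul_mem h4 hc), γ, h3,
          _, Z.sub_mem h4 h3, ?_, ?_⟩
        · rw [e1, a1, hz]; simp only [mul_add, add_mul, sub_mul, mul_assoc, hN, mul_zero, mul_one]; abel
        · rw [e2, a2, hi hz hN]
          simp only [mul_add, add_mul, sub_mul, mul_sub, mul_assoc, hN, mul_zero, one_mul, c1 _ h2, c1 _ h3,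
            c1 _ h4, ((hZ _).1 h1).1]
          abel
      · refine ⟨α, h1, β, h2, _, Z.add_mem h1 h3, _, Z.add_mem h2 h4, ?_, ?_⟩
        · rw [e1, a1, hz']; simp only [mul_add, add_mul, sub_mul, mul_assoc, hN', mul_zero, mul_one]; abel
        · rw [e2, a2, hi hz' hN']
          simp only [mul_add, add_mul, sub_mul, mul_sub, mul_assoc, hN', mul_zero, one_mul, c2 _ h2, c2 _ h3,
            c2 _ h4, ((hZ _).1 h1).2, n2]
          abel
    | mul_inv_cancel x hx y hy ih =>
      obtain ⟨α, h1, β, h2, γ, h3, δ, h4, a1, a2⟩ := ih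
      have e3 : ∀ a : V ≃ₗ[F] V, ((a⁻¹ : V ≃ₗ[F] V) : End F V) = a.symm := fun _ => rfl
      have e4 : ∀ a : V ≃ₗ[F] V, ((a⁻¹ : V ≃ₗ[F] V).symm : End F V) = a := fun _ => rfl
      rcases hy with rfl | rfl
      · refine ⟨_, Z.sub_mem h1 (Z.mul_mem h3 hc), _, Z.sub_mem (Z.sub_mem h2 h1) (Z.mul_mem h4 hc), γ, h3,
          _, Z.add_mem h4 h3, ?_, ?_⟩
        · rw [e1, a1, e3, hi hz hN]
          simp only [mul_add, add_mul, sub_mul, mul_sub, mul_assoc, hN, mul_zero, mul_one]; abel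
        · rw [e2, a2, e4, hz]
          simp only [mul_add, add_mul, sub_mul, mul_sub, mul_assoc, hN, mul_zero, one_mul, c1 _ h2, c1 _ h3,
            c1 _ h4, ((hZ _).1 h1).1]
          abel
      · refine ⟨α, h1, β, h2, _, Z.sub_mem h3 h1, _, Z.sub_mem h4 h2, ?_, ?_⟩
        · rw [e1, a1, e3, hi hz' hN']
          simp only [mul_add, add_mul, sub_mul, mul_sub, mul_assoc, hN', mul_zero, mul_one]; abel
        · rw [e2, a2, e4, hz']
          simp only [mul_add, add_mul, sub_mul, mul_sub, mul_assoc, hN', mul_zero, one_mul, c2 _ h2, c2 _ h3,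
            c2 _ h4, ((hZ _).1 h1).2, n2]
          abel
  obtain ⟨α, h1, β, h2, γ, h3, δ, h4, a1, a2⟩ := key
  convert Z.add_mem (Z.add_mem h1 h1) (Z.mul_mem h4 hc) using 1
  rw [a1, a2, mul_add]; abel

theorem exists_invol [Finite F] (h2 : (2 : F) ≠ 0) {N N' : End F V} (hN : N * N = 0) (hN' : N' * N' = 0)
    {z z' : V ≃ₗ[F] V} (hz : (z : End F V) = 1 + N) (hz' : (z' : End F V) = 1 + N')
    (hn : ¬ IsNilpotent (N' * N)) : ∃ i ∈ Subgroup.closure {z, z'}, i ≠ 1 ∧ i * i = 1 ∧
      (∀ v, i (N v) = N (i v)) ∧ ∀ v, i (N' v) = N' (i v) := by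
  have : Finite V := Module.finite_of_finite F
  have : Finite (V ≃ₗ[F] V) := Finite.of_injective _ DFunLike.coe_injective
  obtain ⟨K, _, _, _, c, l, hc, hl, e⟩ := exists_eigen hn
  have hev : 2 ∣ Nat.card (Subgroup.closure ({z, z'} : Set (V ≃ₗ[F] V))) := by
    by_contra hodd
    let π : V → Fin 2 → K := fun v => ![l (N' v), l v]
    have n1 : ∀ v, N (N v) = 0 := fun v => LinearMap.congr_fun hN v
    have n2 : ∀ v, N' (N' v) = 0 := fun v => LinearMap.congr_fun hN' v
    replace e : ∀ v, l (N' (N v)) = c * l v := e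
    have e0 : ∀ v, l (N v) = 0 := fun v => by simpa [n1, hc] using (e (N v)).symm
    let Γ : Subgroup (GL (Fin 2) K) :=
      { carrier := {g | ∃ k ∈ Subgroup.closure ({z, z'} : Set (V ≃ₗ[F] V)), ∀ v, π (k v) = g.val *ᵥ π v}
        one_mem' := ⟨1, one_mem _, fun v => by simp⟩
        mul_mem' := by
          rintro a b ⟨k, hk, e1⟩ ⟨k', hk', e2⟩
          exact ⟨k * k', mul_mem hk hk', fun v => by
            rw [LinearEquiv.mul_apply, e1, e2, Matrix.mulVec_mulVec, Units.val_mul]⟩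
        inv_mem' := by
          rintro a ⟨k, hk, e1⟩
          refine ⟨k⁻¹, inv_mem hk, fun v => ?_⟩
          have := e1 (k.symm v)
          rw [LinearEquiv.apply_symm_apply] at this
          rw [this, Matrix.mulVec_mulVec]; simp }
    have z1 : ∀ v, z v = v + N v := fun v => LinearMap.congr_fun hz v
    have z2 : ∀ v, z' v = v + N' v := fun v => LinearMap.congr_fun hz' v
    obtain ⟨_, ⟨g, ⟨k, hk, e1⟩, rfl⟩, a1, a2⟩ := pg_invol (Γ.map Matrix.ProjGenLinGroup.mk) hc
      ⟨H8.Dickson.xu c, ⟨z, Subgroup.subset_closure (by simp), fun v => by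
        ext i; fin_cases i <;> simp [π, z1, e, e0, H8.Dickson.xu, Matrix.mulVec, dotProduct]⟩, rfl⟩
      ⟨H8.Dickson.xl 1, ⟨z', Subgroup.subset_closure (by simp), fun v => by
        ext i; fin_cases i <;> simp [π, z2, n2, H8.Dickson.xl, Matrix.mulVec, dotProduct, add_comm]⟩, rfl⟩
    have e2 : ∀ n : ℕ, ∀ v, π ((k ^ n) v) = (g ^ n).val *ᵥ π v := by
      intro n
      induction n with
      | zero => simp
      | succ n ih =>
        intro v
        rw [pow_succ, LinearEquiv.mul_apply, ih, e1, Matrix.mulVec_mulVec, pow_succ, Units.val_mul]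
    have e3 : k ^ Nat.card (Subgroup.closure ({z, z'} : Set (V ≃ₗ[F] V))) = 1 :=
      congrArg Subtype.val (pow_card_eq_one' (x := (⟨k, hk⟩ : Subgroup.closure _)))
    obtain ⟨r, hr⟩ := Nat.odd_iff.2 (Nat.two_dvd_ne_zero.1 hodd)
    have e4 := e2 (2 * r + 1)
    rw [← hr, e3, hr] at e4
    obtain ⟨v, hv⟩ : ∃ v, l v ≠ 0 := by
      by_contra h; push Not at h; exact hl (LinearMap.ext h)
    have e5 : g ^ (2 * r + 1) = 1 := by
      generalize g ^ (2 * r + 1) = y at e4
      have b1 := congrFun (e4 (N v)) 0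
      have b2 := congrFun (e4 (N v)) 1
      have b3 := congrFun (e4 v) 0
      have b4 := congrFun (e4 v) 1
      simp [π, e, e0, Matrix.mulVec, dotProduct, hc, hv] at b1 b2 b3 b4
      ext i j
      fin_cases i <;> fin_cases j
      · simpa using b1
      · simpa [b1, hv] using b3
      · simpa using b2
      · simpa [b2, hv] using b4
    apply a1
    have := congrArg Matrix.ProjGenLinGroup.mk e5
    rwa [map_pow, map_one, pow_succ, pow_mul, sq, a2, one_pow, one_mul] at this
  obtain ⟨⟨i, hi⟩, a1, a2⟩ := invol_of_even hev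
  have a3 : i * i = 1 := congrArg Subtype.val a2
  have a4 := trace_central hN hN' hz hz' hi
  rw [show i.symm = i from inv_eq_of_mul_eq_one_left a3, Subring.mem_centralizer_iff] at a4
  have a5 : ∀ A ∈ ({N, N'} : Set (End F V)), ∀ v, i (A v) = A (i v) := fun A hA v => by
    have := LinearMap.congr_fun (a4 A hA) v
    simp only [End.mul_apply, LinearMap.add_apply, LinearEquiv.coe_coe, map_add] at this
    rw [← two_smul F, ← two_smul F] at this
    exact (smul_right_injective V h2 this).symm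
  exact ⟨i, hi, fun h => a1 (Subtype.ext h), a3, a5 _ (by simp), a5 _ (by simp)⟩

theorem dihedral {G : Type*} [Group G] [Finite G] {z z' : G} (hz : z * z = 1) (hz' : z' * z' = 1) :
    (∃ s ∈ Subgroup.closure {z, z'}, s * z * s⁻¹ = z') ∨ ∃ i ∈ Subgroup.closure {z, z'}, i ≠ 1 ∧
      z * i = i * z ∧ z' * i = i * z' ∧
      (∃ s ∈ Subgroup.closure {z, z'}, z * i = s * z * s⁻¹ ∨ z * i = s * z' * s⁻¹) ∧
      ∃ s ∈ Subgroup.closure {z, z'}, z' * i = s * z * s⁻¹ ∨ z' * i = s * z' * s⁻¹ := by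
  set r := z * z' with hr
  have m : ∀ n : ℕ, r ^ n ∈ Subgroup.closure {z, z'} := fun n =>
    pow_mem (mul_mem (Subgroup.subset_closure (by simp)) (Subgroup.subset_closure (by simp))) n
  have i1 : z⁻¹ = z := inv_eq_of_mul_eq_one_left hz
  have i2 : z'⁻¹ = z' := inv_eq_of_mul_eq_one_left hz'
  have c1 : ∀ n : ℕ, (r ^ n)⁻¹ * z = z * r ^ n := fun n => by
    have : z * r * z⁻¹ = r⁻¹ := by rw [hr, mul_inv_rev, i1, i2, ← mul_assoc, hz, one_mul]
    rw [← inv_pow, ← this, conj_pow]; group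
  have c2 : ∀ n : ℕ, (r ^ n)⁻¹ * z' = z' * r ^ n := fun n => by
    have : z' * r * z'⁻¹ = r⁻¹ := by rw [hr, mul_inv_rev, i1, i2, mul_assoc, mul_assoc, hz', mul_one]
    rw [← inv_pow, ← this, conj_pow]; group
  have d1 : z * r = z' := by rw [hr, ← mul_assoc, hz, one_mul]
  have d2 : ∀ n, (r ^ n)⁻¹ * z * (r ^ n)⁻¹⁻¹ = z * r ^ (2 * n) := fun n => by
    rw [c1, inv_inv, mul_assoc, ← pow_add, two_mul]
  have d3 : ∀ n, (r ^ n)⁻¹ * z' * (r ^ n)⁻¹⁻¹ = z' * r ^ (2 * n) := fun n => by
    rw [c2, inv_inv, mul_assoc, ← pow_add, two_mul]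
  have h0 := pow_orderOf_eq_one r
  have hpos := orderOf_pos r
  rcases Nat.even_or_odd' (orderOf r) with ⟨j, hj | hj⟩
  · right
    have h1 : (r ^ j)⁻¹ = r ^ j := inv_eq_of_mul_eq_one_left (by rw [← pow_add, ← two_mul, ← hj, h0])
    refine ⟨r ^ j, m j, pow_ne_one_of_lt_orderOf (by omega) (by omega), by rw [← c1, h1], by rw [← c2, h1], ?_⟩
    rcases Nat.even_or_odd' j with ⟨l, rfl | rfl⟩
    · exact ⟨⟨_, inv_mem (m l), Or.inl (d2 l).symm⟩, _, inv_mem (m l), Or.inr (d3 l).symm⟩
    · refine ⟨⟨_, inv_mem (m l), Or.inr ?_⟩, _, inv_mem (m (l + 1)), Or.inl ?_⟩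
      · rw [d3, pow_succ', ← mul_assoc, d1]
      · rw [d2, ← d1, mul_assoc, ← pow_succ']; rfl
  · left
    refine ⟨_, inv_mem (m (j + 1)), ?_⟩
    rw [d2, show 2 * (j + 1) = 1 + orderOf r by omega, pow_add, h0, mul_one, pow_one, d1]

theorem exists_eigen_of_odd {a : End F V} (hodd : Odd (finrank F V)) {β δ : F}
    (h : β • (a * a) + δ • a = 1) : ∃ (c : F) (u : V), u ≠ 0 ∧ a u = c • u := by
  by_contra hc
  push Not at hc
  have : Nontrivial V := Module.nontrivial_of_finrank_pos (R := F) hodd.pos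
  obtain ⟨u, hu⟩ := exists_ne (0 : V)
  have hβ : β ≠ 0 := by
    rintro rfl
    have h1 : δ • a u = u := by simpa using LinearMap.congr_fun h u
    have hδ : δ ≠ 0 := by rintro rfl; exact hu (by simpa using h1.symm)
    exact hc δ⁻¹ u hu (by rw [eq_inv_smul_iff₀ hδ, h1])
  let f : F[X] := C β * X ^ 2 + C δ * X + C (-1)
  have hd : f.natDegree = 2 := natDegree_quadratic hβ
  have hf : aeval a f = 0 := by
    simp only [f, map_add, map_mul, aeval_C, aeval_X, map_pow, ← Algebra.smul_def, sq, h]; simp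
  have hirr : Irreducible f := by
    refine irreducible_of_degree_le_three_of_not_isRoot (by simp [hd]) fun x hx => ?_
    have h1 : β * x ^ 2 + δ * x - 1 = 0 := by simpa [f, sub_eq_add_neg] using hx
    have h2 : a (β • a u + (β * x + δ) • u) = x • (β • a u + (β * x + δ) • u) := by
      have h3 : β • a (a u) + δ • a u = u := LinearMap.congr_fun h u
      rw [map_add, map_smul, map_smul]
      linear_combination (norm := module) h3 - h1 • u
    by_cases h3 : β • a u + (β * x + δ) • u = 0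
    · refine hc (-(β⁻¹ * (β * x + δ))) u hu ?_
      rw [← smul_right_inj hβ, smul_smul, mul_neg, mul_inv_cancel_left₀ hβ, neg_smul, eq_neg_iff_add_eq_zero, h3]
    · exact hc x _ h3 h2
  have := Fact.mk hirr
  let ρ : AdjoinRoot f →+* End F V := Ideal.Quotient.lift _ (aeval a).toRingHom fun p hp => by
    obtain ⟨q, rfl⟩ := Ideal.mem_span_singleton'.1 hp
    simp [hf]
  let _ : Module (AdjoinRoot f) V := Module.compHom V ρ
  have : IsScalarTower F (AdjoinRoot f) V := ⟨fun c k v => by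
    change ρ (c • k) v = c • ρ k v
    rw [Algebra.smul_def, map_mul, show ρ (algebraMap F _ c) = algebraMap F _ c from (aeval a).commutes c]
    rfl⟩
  have h1 := Module.finrank_mul_finrank F (AdjoinRoot f) V
  rw [(AdjoinRoot.powerBasis hirr.ne_zero).finrank, AdjoinRoot.powerBasis_dim, hd] at h1
  rw [← h1] at hodd
  exact (Nat.not_odd_iff_even.2 (even_two_mul _)) hodd

end Cfsg.Agent.H1.C7b
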