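import Cfsg.Agent.H1.C7a
import Cfsg.Agent.H1.C7b

/-!
Two good tensor structures are equivalent or commute.
-/

set_option autoImplicit false
set_option linter.unusedSectionVars false
set_option linter.unusedSimpArgs false

namespace Cfsg.Agent.H1.C7c

open Module Cfsg.Agent.H7 Cfsg.Agent.H3.TenLin Cfsg.Agent.H1.C7a Cfsg.Agent.H1.C7b

universe u

variable {F : Type u} [Field F] {V : Type*} [AddCommGroup V] [Module F V]
  {U : Type*} [AddCommGroup U] [Module F U] {W : Type*} [AddCommGroup W] [Module F W]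
  {τ τ' : U →ₗ[F] W →ₗ[F] V} {M : Subgroup (V ≃ₗ[F] V)} {w w' : W}

/-- an extremal bad pair -/
structure Ext (M : Subgroup (V ≃ₗ[F] V)) (τ τ' : U →ₗ[F] W →ₗ[F] V) (w w' : W) : Prop where
  G : Good M τ
  G' : Good M τ'
  bad : Bad τ τ'
  hw : w ≠ 0
  hw' : w' ≠ 0
  max : ∀ (ρ ρ' : U →ₗ[F] W →ₗ[F] V) (x x' : W), Good M ρ → Good M ρ' → Bad ρ ρ' → x ≠ 0 → x' ≠ 0 →
    finrank F ↥(Bw ρ x ⊓ Bw ρ' x') ≤ finrank F ↥(Bw τ w ⊓ Bw τ' w')

theorem Ext.symm (E : Ext M τ τ' w w') : Ext M τ' τ w' w :=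
  ⟨E.G', E.G, ⟨fun e => E.bad.1 e.symm, fun e => E.bad.2 e.symm⟩, E.hw', E.hw, by rw [inf_comm (Bw τ' w')]; exact E.max⟩

/-- elements of `M` acting trivially modulo `S` -/
def Kr (M : Subgroup (V ≃ₗ[F] V)) (S : Submodule F V) : Subgroup (V ≃ₗ[F] V) where
  carrier := {g | g ∈ M ∧ ∀ v, g v - v ∈ S}
  one_mem' := ⟨M.one_mem, fun v => by simp⟩
  mul_mem' := fun {a b} ha hb => ⟨M.mul_mem ha.1 hb.1, fun v => by
    simpa using S.add_mem (ha.2 (b v)) (hb.2 v)⟩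
  inv_mem' := fun {a} ha => ⟨M.inv_mem ha.1, fun v => by simpa using S.neg_mem (ha.2 (a⁻¹ v))⟩

variable [FiniteDimensional F U] [FiniteDimensional F W] [Nontrivial U]

theorem Ext.I (h3 : 3 ≤ finrank F W) (E : Ext M τ τ' w w') {φ : Dual F W} (hφ : φ ≠ 0) (h0 : φ w = 0) {t : V}
    (ht : t ∈ Bw τ' w') (h : rk E.G.tens φ w t ∈ Bw τ' w') : t ∈ Bw τ w := by
  have : FiniteDimensional F V := E.G.tens.equiv.finiteDimensional
  obtain ⟨z, hz, e⟩ := E.G.root h0
  have h1 := E.max _ _ w' w' E.G' (E.G'.act hz) (E.bad.act h3 E.G E.G' hz h0 hφ E.hw e) E.hw' E.hw'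
  have h2 : Bw τ w ⊓ Bw τ' w' = Bw τ' w' ⊓ Bw (act z τ') w' := Submodule.eq_of_le_of_finrank_le
    (fun v hv => ⟨hv.2, by rw [Bw_act]; exact ⟨v, hv.2, by simp [e v, rk_Bw _ h0 w hv.1]⟩⟩) h1
  have h4 : z t ∈ Bw τ w ⊓ Bw τ' w' := by
    rw [h2, Bw_act]; exact ⟨by rw [e]; exact add_mem ht h, t, ht, rfl⟩
  simpa using sub_mem h4.1 (e.sub_mem t)

theorem Ext.not_le (h3 : 3 ≤ finrank F W) (E : Ext M τ τ' w w') : ¬ Bw τ' w' ≤ Bw τ w := fun h =>
  E.bad.1 (eqv_of_Bw h3 E.G' E.G E.hw' E.hw h).symm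

theorem Ext.S (h3 : 3 ≤ finrank F W) (E : Ext M τ τ' w w') {u : U} {x : W} (hx : x ∉ F ∙ w)
    (h : τ u x ∈ Bw τ w ⊔ Bw τ' w') : u = 0 := by
  obtain ⟨t, ht, t', ht', e⟩ := Submodule.mem_sup.1 h
  obtain ⟨φ, h1, h2, h4⟩ := exists_dual_two h3 w x
  have h5 : rk E.G.tens φ w t' = 0 := by
    have := congrArg (rk E.G.tens φ w) e
    simpa [h4, rk_Bw _ h2 w ht] using this
  obtain ⟨u', hu'⟩ : τ u x ∈ Bw τ w := e ▸ add_mem ht (E.I h3 h1 h2 ht' (by simp [h5]))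
  obtain ⟨χ, a1, a2⟩ := exists_dual_pair hx
  simpa [a1, a2] using congrArg (E.G.tens.ctr χ) hu'.symm

theorem Ext.H (h3 : 3 ≤ finrank F W) (h4 : finrank F W = 3 → Odd (finrank F U)) (E : Ext M τ τ' w w')
    {g : V ≃ₗ[F] V} (hg : g ∈ Kr M (Bw τ w ⊔ Bw τ' w')) (hT : ∀ u, g (τ u w) ∈ Bw τ w) (v : V) :
    g v - v ∈ Bw τ w := by
  have : FiniteDimensional F V := E.G.tens.equiv.finiteDimensional
  have h := E.G.tens
  obtain ⟨a, b, e⟩ := parabolic h h3 E.G.all E.hw (E.G.nolev w E.hw) hg.1 hT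
  suffices H : ∀ u x, g (τ u x) - τ u x ∈ Bw τ w by
    refine h.induction v (by simp) H fun x y hx hy => ?_
    convert add_mem hx hy using 1
    rw [map_add]; abel
  intro u x
  by_cases hx : x ∈ F ∙ w
  · obtain ⟨c, rfl⟩ := Submodule.mem_span_singleton.1 hx
    simp only [map_smul, ← smul_sub]
    exact Submodule.smul_mem _ _ (sub_mem (hT u) (tmul_mem_Bw u w))
  by_cases hb : b x ∈ Submodule.span F {x, w}
  · obtain ⟨c, d, hc⟩ := Submodule.mem_span_pair.1 hb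
    have h1 : g (τ u x) - τ u x = τ (c • a u - u) x + d • τ (a u) w := by
      rw [e, ← hc]; simp; abel
    have h2 : d • τ (a u) w ∈ Bw τ w := Submodule.smul_mem _ _ (tmul_mem_Bw _ w)
    have h5 := E.S h3 hx (u := c • a u - u) (by
      have := sub_mem (hg.2 (τ u x)) (Submodule.mem_sup_left h2)
      rwa [h1, add_sub_cancel_right] at this)
    rw [h1, h5]; simpa using h2
  exfalso
  obtain ⟨χ, c1, c2⟩ := exists_dual_one hb
  have c3 : χ w = 0 := c2 _ (Submodule.subset_span (by simp))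
  replace c2 : χ x = 0 := c2 _ (Submodule.subset_span (by simp))
  let L : U × U →ₗ[F] V := (τ.flip w).coprod (τ.flip (b x) ∘ₗ (a : U →ₗ[F] U) - τ.flip x)
  have hL : ∀ p, L p = τ p.1 w + (τ (a p.2) (b x) - τ p.2 x) := fun _ => rfl
  have hinj : Function.Injective L := by
    rw [injective_iff_map_eq_zero]
    rintro ⟨p, q⟩ hp
    have hq : q = 0 := by simpa [hL, c1, c2, c3] using congrArg (h.ctr χ) hp
    subst hq
    have : τ p w = 0 := by simpa [hL] using hp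
    simpa [E.hw] using h.eq_zero this
  have h5 : LinearMap.range L = Bw τ w ⊔ Bw τ' w' := Submodule.eq_of_le_of_finrank_le
    (by
      rintro _ ⟨p, rfl⟩
      rw [hL, ← e]
      exact add_mem (Submodule.mem_sup_left (tmul_mem_Bw _ _)) (hg.2 _))
    (by
      rw [LinearMap.finrank_range_of_inj hinj, finrank_prod]
      have := Submodule.finrank_add_le_finrank_add_finrank (Bw τ w) (Bw τ' w')
      rwa [finrank_Bw h E.hw, finrank_Bw E.G'.tens E.hw'] at this)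
  by_cases h6 : finrank F W = 3
  · obtain ⟨χ₀, d1, d2⟩ := exists_dual_pair hx
    let χ₁ := χ₀ - χ₀ (b x) • χ
    have d3 : χ₁ x = 1 := by simp [χ₁, d1, c2]
    have d4 : χ₁ w = 0 := by simp [χ₁, d2, c3]
    have d5 : χ₁ (b x) = 0 := by simp [χ₁, c1]
    obtain ⟨c, u', k1, k2⟩ := exists_eigen_of_odd (a := (a : End F U)) (h4 h6) (β := χ₁ (b (b x)))
      (δ := χ (b (b x))) (by
        ext u
        obtain ⟨p, hp⟩ : g (τ u (b x)) - τ u (b x) ∈ LinearMap.range L := h5 ▸ hg.2 _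
        have k1 := congrArg (h.ctr χ) hp
        have k2 := congrArg (h.ctr χ₁) hp
        simp only [hL, e, map_add, map_sub, h.ctr_apply, c1, c2, c3, d3, d4, d5, zero_smul, one_smul, zero_add,
          sub_zero, zero_sub] at k1 k2
        have k3 := congrArg a k2
        rw [map_neg, k1, map_smul] at k3
        simp [← k3])
    refine k1 (E.S h3 (x := c • b x - x) (fun hh => ?_) ?_)
    · obtain ⟨d, hd⟩ := Submodule.mem_span_singleton.1 hh
      simpa [d3, d4, d5] using congrArg χ₁ hd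
    · have := hg.2 (τ u' x)
      rw [e, show a u' = c • u' from k2] at this
      simpa using this
  · obtain ⟨y, -, hy⟩ := exists_mem_notMem_of_finrank_lt (U := (⊤ : Submodule F W))
      (W := Submodule.span F {w, x, b x}) (by
        classical
        have := finrank_span_le_card (R := F) ({w, x, b x} : Set W)
        have h7 : ({w, x, b x} : Set W).toFinset.card ≤ 3 := by
          simpa using Finset.card_le_three
        rw [finrank_top]; omega)
    obtain ⟨φ, a1, a2⟩ := exists_dual_one hy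
    have a3 : φ w = 0 := a2 _ (Submodule.subset_span (by simp))
    have a4 : φ x = 0 := a2 _ (Submodule.subset_span (by simp))
    have a5 : φ (b x) = 0 := a2 _ (Submodule.subset_span (by simp))
    refine E.not_le h3 fun t ht => E.I h3 (φ := φ) (fun h => by simp [h] at a1) a3 ht ?_
    obtain ⟨p, rfl⟩ : t ∈ LinearMap.range L := h5 ▸ Submodule.mem_sup_right ht
    simp [hL, a3, a4, a5]

theorem Ext.C (h3 : 3 ≤ finrank F W) (h4 : finrank F W = 3 → Odd (finrank F U)) (E : Ext M τ τ' w w')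
    {g : V ≃ₗ[F] V} (hg : g ∈ Kr M (Bw τ w ⊔ Bw τ' w')) {φ φ' : Dual F W} (hφ : φ ≠ 0) (h0 : φ w = 0)
    (hφ' : φ' ≠ 0) (hc : g ∈ cent (rk E.G.tens φ w)) (hc' : g ∈ cent (rk E.G'.tens φ' w')) : g = 1 := by
  have h := E.G.tens
  obtain ⟨y, hy⟩ := exists_apply_eq_one hφ
  obtain ⟨y', hy'⟩ := exists_apply_eq_one hφ'
  have h1 := E.H h3 h4 hg fun u => by
    have := hc (τ u y)
    rw [rk_tmul, hy, one_smul] at this
    rw [this]; exact rk_mem ..
  have h2 := E.symm.H h3 h4 (sup_comm (Bw τ w) _ ▸ hg) fun u => by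
    have := hc' (τ' u y')
    rw [rk_tmul, hy', one_smul] at this
    rw [this]; exact rk_mem ..
  have h5 : ∀ u, g (τ u w) = τ u w := fun u => by
    have k1 := hc (τ u y)
    have k2 := rk_Bw h h0 w (h1 (τ u y))
    rw [map_sub, sub_eq_zero, ← k1, rk_tmul, hy, one_smul] at k2
    exact k2
  obtain ⟨χ, hχ, -⟩ := exists_dual_one (W := (⊥ : Submodule F W)) (x := w) (by simpa using E.hw)
  let θ : V →ₗ[F] U := h.ctr χ ∘ₗ ((g : V →ₗ[F] V) - LinearMap.id)
  have hθ : ∀ v, g v = v + τ (θ v) w := fun v => by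
    obtain ⟨u, hu⟩ := h1 v
    have : θ v = u := by
      change h.ctr χ (g v - v) = u
      rw [← hu]; simp [hχ]
    rw [this, ← sub_eq_iff_eq_add']; exact hu.symm
  have h6 : ∀ u, θ (τ u w) = 0 := fun u => by simp [θ, h5]
  obtain ⟨ψ, hψ⟩ := E.G.nolev w E.hw θ h6 ⟨g, hg.1, hθ⟩
  by_cases h7 : ψ = 0
  · ext v; simp [hθ, hψ, h7, H3.TenLin.ctr_zero]
  obtain ⟨u, hu⟩ := exists_ne (0 : U)
  refine absurd (fun t ht => E.I h3 h7 (by simpa [hψ, hu] using h6 u) ht ?_) (E.not_le h3)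
  have := h2 t
  rwa [hθ, add_sub_cancel_left, hψ] at this

theorem Ext.false [Finite F] (h3 : 3 ≤ finrank F W) (h4 : finrank F W = 3 → Odd (finrank F U))
    (E : Ext M τ τ' w w') : False := by
  have : FiniteDimensional F V := E.G.tens.equiv.finiteDimensional
  obtain ⟨φ', a1, a2, -⟩ := exists_dual_two h3 w' w'
  obtain ⟨z', hz', e'⟩ := E.G'.root a2
  have cl : ∀ {φ z}, z ∈ M → IsRt E.G.tens φ w z → Subgroup.closure {z, z'} ≤ Kr M (Bw τ w ⊔ Bw τ' w') := by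
    intro φ z hz e
    rw [Subgroup.closure_le]
    rintro _ (rfl | rfl)
    · exact ⟨hz, fun v => Submodule.mem_sup_left (e.sub_mem v)⟩
    · exact ⟨hz', fun v => Submodule.mem_sup_right (e'.sub_mem v)⟩
  by_cases h2 : (2 : F) = 0
  · have : Finite V := Module.finite_of_finite F
    have : Finite (V ≃ₗ[F] V) := Finite.of_injective _ DFunLike.coe_injective
    have key : ∀ φ : Dual F W, φ ≠ 0 → φ w = 0 → ∃ z, IsRt E.G.tens φ w z ∧
        ∃ s ∈ Kr M (Bw τ w ⊔ Bw τ' w'), s * z * s⁻¹ = z' := by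
      intro φ h1 h0
      obtain ⟨z, hz, e⟩ := E.G.root h0
      refine ⟨z, e, ?_⟩
      rcases dihedral (e.mul_self h0 h2) (e'.mul_self a2 h2) with ⟨s, hs, h⟩ | ⟨i, hi, b1, b2, b3, -⟩
      · exact ⟨s, cl hz e hs, h⟩
      · exact absurd (E.C h3 h4 (cl hz e hi) h1 h0 a1 (e.comm_iff.1 b2.symm) (e'.comm_iff.1 b3.symm)) b1
    obtain ⟨x, -, hx⟩ := exists_mem_notMem_of_finrank_lt (U := (⊤ : Submodule F W)) (W := F ∙ w) (by
      have := finrank_span_singleton_le (F := F) w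
      rw [finrank_top]; omega)
    obtain ⟨φ₁, b1, b2⟩ := exists_dual_pair hx
    obtain ⟨φ₂, b3, b4, b5⟩ := exists_dual_two h3 w x
    obtain ⟨z₁, e₁, s₁, hs₁, k₁⟩ := key φ₁ (fun h => by simp [h] at b1) b2
    obtain ⟨z₂, e₂, s₂, hs₂, k₂⟩ := key φ₂ b3 b4
    have c1 : s₁⁻¹ * s₂ * z₂ = z₁ * (s₁⁻¹ * s₂) := by
      rw [mul_inv_eq_iff_eq_mul] at k₂
      rw [mul_assoc, k₂, ← k₁]; group
    have c2 := mul_mem (inv_mem hs₁) hs₂
    generalize s₁⁻¹ * s₂ = g at c1 c2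
    have c3 : ∀ v, g (rk E.G.tens φ₂ w v) = rk E.G.tens φ₁ w (g v) := fun v => by
      simpa [e₁ _, e₂ _] using LinearEquiv.congr_fun c1 v
    obtain ⟨y, hy⟩ := exists_apply_eq_one b3
    have c4 := E.H h3 h4 c2 fun u => by
      have := c3 (τ u y)
      rw [rk_tmul, hy, one_smul] at this
      rw [this]; exact rk_mem ..
    obtain ⟨u, hu⟩ := exists_ne (0 : U)
    have c5 := rk_Bw E.G.tens b2 w (c4 (τ u x))
    rw [map_sub, ← c3] at c5
    simp only [rk_tmul, b5, b1, zero_smul, one_smul, map_zero, zero_sub, neg_eq_zero] at c5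
    exact E.G.tens.ne_zero hu E.hw c5
  · obtain ⟨φ, b1, b2, -⟩ := exists_dual_two h3 w w
    obtain ⟨z, hz, e⟩ := E.G.root b2
    obtain ⟨i, hi, c1, -, c2, c3⟩ := exists_invol h2 (N := rk E.G.tens φ w) (N' := rk E.G'.tens φ' w')
      (z := z) (z' := z') (by ext v; simp [rk_rk, b2]) (by ext v; simp [rk_rk, a2]) (by ext v; simp [e v])
      (by ext v; simp [e' v]) (by
        rintro ⟨k, hk⟩
        obtain ⟨t, ht, ht'⟩ := SetLike.not_le_iff_exists.1 (E.not_le h3)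
        have : ∀ k : ℕ, ((rk E.G'.tens φ' w' * rk E.G.tens φ w) ^ k) t ∈ Bw τ' w' ∧
            ((rk E.G'.tens φ' w' * rk E.G.tens φ w) ^ k) t ∉ Bw τ w := by
          intro k
          induction k with
          | zero => exact ⟨ht, ht'⟩
          | succ k ih =>
            rw [pow_succ', End.mul_apply, End.mul_apply]
            exact ⟨rk_mem .., fun h => ih.2 (E.I h3 b1 b2 ih.1 (E.symm.I h3 a1 a2 (rk_mem ..) h))⟩
        exact (this k).2 (by simp [hk]))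
    exact c1 (E.C h3 h4 (cl hz e hi) b1 b2 a1 c2 c3)

theorem eqv_or_comm_of_good [Finite F] (h3 : 3 ≤ finrank F W) (h4 : finrank F W = 3 → Odd (finrank F U))
    (G : Good M τ) (G' : Good M τ') : Eqv τ τ' ∨ Comm τ τ' := by
  have : FiniteDimensional F V := G.tens.equiv.finiteDimensional
  by_contra hc
  have : Nontrivial W := Module.nontrivial_of_finrank_pos (R := F) (by omega)
  obtain ⟨x, hx⟩ := exists_ne (0 : W)
  classical
  let P : ℕ → Prop := fun n => ∃ (ρ ρ' : U →ₗ[F] W →ₗ[F] V) (x x' : W), Good M ρ ∧ Good M ρ' ∧ Bad ρ ρ' ∧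
    x ≠ 0 ∧ x' ≠ 0 ∧ finrank F ↥(Bw ρ x ⊓ Bw ρ' x') = n
  obtain ⟨ρ, ρ', y, y', a1, a2, a3, a4, a5, a6⟩ : P (Nat.findGreatest P (finrank F V)) :=
    Nat.findGreatest_spec (Submodule.finrank_le _) ⟨τ, τ', x, x, G, G', not_or.1 hc, hx, hx, rfl⟩
  refine Ext.false h3 h4 (⟨a1, a2, a3, a4, a5, fun σ σ' s s' b1 b2 b3 b4 b5 => ?_⟩ : Ext M ρ ρ' y y')
  rw [a6]
  exact Nat.le_findGreatest (Submodule.finrank_le _) ⟨σ, σ', s, s', b1, b2, b3, b4, b5, rfl⟩

end Cfsg.Agent.H1.C7c
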