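import Cfsg.Agent.H3.TenSL

/-!
Commuting systems of rank one operators in an algebra.
-/

set_option autoImplicit false
set_option linter.unusedSectionVars false
set_option linter.unusedSimpArgs false

namespace Cfsg.Agent.H1.C7d

open Module Cfsg.Agent.H7 Cfsg.Agent.H3.TenLin Cfsg.Agent.H3.TenSL

variable {F : Type*} [Field F] {W : Type*} [AddCommGroup W] [Module F W] [FiniteDimensional F W]
  {R : Type*} [Ring R] [Algebra F R]

theorem exists_ker_not_mem (h3 : 3 ≤ finrank F W) (ψ : Dual F W) (u : W) :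
    ∃ (v : W) (χ : Dual F W), ψ v = 0 ∧ χ v = 1 ∧ χ u = 0 := by
  obtain ⟨v, hv, hvu⟩ := exists_mem_notMem_of_finrank_lt (U := ⊤ ⊓ LinearMap.ker ψ) (W := F ∙ u) (by
    have := finrank_le_finrank_inf_ker ⊤ ψ
    have := finrank_span_singleton_le (F := F) u
    rw [finrank_top] at *; omega)
  obtain ⟨χ, h1, h2⟩ := exists_dual_one hvu
  exact ⟨v, χ, hv.2, h1, h2 u (Submodule.mem_span_singleton_self u)⟩

theorem spread {Q : Type*} [AddCommGroup Q] [Module F Q] (h3 : 3 ≤ finrank F W) (P : Dual F W →ₗ[F] W →ₗ[F] Q)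
    (J : Submodule F Q)
    (h : ∀ ψ u χ v, χ v = 0 → P ψ u ∈ J → χ u • P ψ v - ψ v • P χ u - (χ u * ψ v) • P χ v ∈ J)
    {ψ₀ : Dual F W} {u₀ : W} (h0 : ψ₀ u₀ = 0) (hψ : ψ₀ ≠ 0) (hu : u₀ ≠ 0) (h1 : P ψ₀ u₀ ∈ J)
    (ψ : Dual F W) (u : W) (h2 : ψ u = 0) : P ψ u ∈ J := by
  have A : ∀ {ψ u}, ψ ≠ 0 → P ψ u ∈ J → ∀ χ, χ u = 0 → P χ u ∈ J := by
    intro ψ u hψ h1 χ h2
    by_cases hk : ∃ v, χ v = 0 ∧ ψ v ≠ 0
    · obtain ⟨v, a1, a2⟩ := hk
      simpa [h2, J.smul_mem_iff a2] using h ψ u χ v a1 h1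
    · push Not at hk
      obtain ⟨z, hz⟩ := exists_apply_eq_one hψ
      have h4 : χ z ≠ 0 := fun e => by simp [hk z e] at hz
      have : χ = χ z • ψ := by
        ext v
        have := hk (χ z • v - χ v • z) (by simp [mul_comm])
        simp only [map_sub, map_smul, hz, smul_eq_mul, mul_one] at this
        simp [← sub_eq_zero.1 this]
      rw [this, map_smul]; exact J.smul_mem _ h1
  have B : ∀ {ψ u}, u ≠ 0 → P ψ u ∈ J → ∀ v, ψ v = 0 → P ψ v ∈ J := by
    intro ψ u hu h1 v h2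
    by_cases hk : u ∈ F ∙ v
    · obtain ⟨c, rfl⟩ := Submodule.mem_span_singleton.1 hk
      rw [map_smul] at h1
      exact (J.smul_mem_iff fun e => hu (by simp [e])).1 h1
    · obtain ⟨χ, a1, a2⟩ := exists_dual_one hk
      simpa [h2, a1] using h ψ u χ v (a2 v (Submodule.mem_span_singleton_self v)) h1
  obtain ⟨χ, a1, a2, a3⟩ := exists_dual_two h3 u₀ u
  exact A a1 (B hu (A hψ h1 χ a2) u a3) ψ h2

/-- a unital system of rank one operators -/
structure Sys (N : Dual F W →ₗ[F] W →ₗ[F] R) : Prop where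
  mul : ∀ ψ u χ v, N ψ u * N χ v = ψ v • N χ u
  one : ∑ l, N ((finBasis F W).coord l) (finBasis F W l) = 1

/-- matrix coefficients -/
noncomputable def E (N : Dual F W →ₗ[F] W →ₗ[F] R) (ψ : Dual F W) (u : W) (X : R) : R :=
  ∑ l, N ψ (finBasis F W l) * X * N ((finBasis F W).coord l) u

variable {N : Dual F W →ₗ[F] W →ₗ[F] R}

theorem sumL (ψ : Dual F W) (v : W) (Y : R) :
    ∑ l, (finBasis F W).repr v l • (N ψ (finBasis F W l) * Y) = N ψ v * Y := by
  conv_rhs => rw [← (finBasis F W).sum_repr v]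
  simp only [map_sum, map_smul, Finset.sum_mul, smul_mul_assoc]

theorem sumR (χ : Dual F W) (u : W) (Y : R) :
    ∑ l, χ (finBasis F W l) • (Y * N ((finBasis F W).coord l) u) = Y * N χ u := by
  conv_rhs => rw [← (finBasis F W).sum_dual_apply_smul_coord χ]
  simp only [map_sum, map_smul, Finset.mul_sum, mul_smul_comm, LinearMap.sum_apply, LinearMap.smul_apply]

theorem Sys.E_mul (S : Sys N) (ψ : Dual F W) (u : W) (X : R) (χ : Dual F W) (v : W) :
    E N ψ u X * N χ v = N ψ v * X * N χ u := by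
  simp [E, Finset.sum_mul, mul_assoc, S.mul, sumL]

theorem Sys.mul_E (S : Sys N) (ψ : Dual F W) (u : W) (X : R) (χ : Dual F W) (v : W) :
    N χ v * E N ψ u X = N ψ v * X * N χ u := by
  simp [E, Finset.mul_sum, ← mul_assoc, S.mul, sumR]

theorem Sys.expand (S : Sys N) (X : R) : X = ∑ a, ∑ b, E N ((finBasis F W).coord a) (finBasis F W b) X *
    N ((finBasis F W).coord b) (finBasis F W a) := by
  simp only [S.E_mul, ← Finset.mul_sum, ← Finset.sum_mul, S.one, one_mul, mul_one]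

theorem E_comm {Y X : R} (h : ∀ ψ u, Commute Y (N ψ u)) (hX : Commute Y X) (ψ : Dual F W) (u : W) :
    Commute Y (E N ψ u X) :=
  Commute.sum_right _ _ _ fun _ _ => ((h _ _).mul_right hX).mul_right (h _ _)

theorem Sys.comm_of (S : Sys N) (h3 : 3 ≤ finrank F W) {X : R} (h : ∀ ψ u, ψ u = 0 → N ψ u * X * N ψ u = 0)
    (χ : Dual F W) (v : W) : Commute X (N χ v) := by
  have h1 : ∀ ψ u, ψ u = 0 → ∀ χ v, N ψ v * X * N χ u = 0 := by
    intro ψ u h0 χ v
    by_cases hu : u = 0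
    · simp [hu]
    by_cases hψ : ψ = 0
    · simp [hψ]
    obtain ⟨z, hz⟩ := exists_apply_eq_one hψ
    obtain ⟨φ, hφ, -⟩ := exists_dual_one (W := (⊥ : Submodule F W)) (x := u) (by simpa using hu)
    have := congrArg (fun Y => N φ v * Y * N χ z) (h ψ u h0)
    simp only [← mul_assoc, S.mul, hφ, one_smul, mul_zero, zero_mul] at this
    rwa [mul_assoc, S.mul, hz, one_smul] at this
  have h2 : ∀ ψ u φ w χ v, φ w • (N ψ v * X * N χ u) = ψ u • (N φ v * X * N χ w) := by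
    have h4 : ∀ ψ φ w χ v, φ w • (N ψ v * X * N χ w) = ψ w • (N φ v * X * N χ w) := fun ψ φ w χ v => by
      simpa [sub_mul, sub_eq_zero] using h1 (φ w • ψ - ψ w • φ) w (by simp [mul_comm]) χ v
    have h5 : ∀ ψ u w χ v, ψ w • (N ψ v * X * N χ u) = ψ u • (N ψ v * X * N χ w) := fun ψ u w χ v => by
      simpa [mul_sub, sub_eq_zero] using h1 ψ (ψ w • u - ψ u • w) (by simp [mul_comm]) χ v
    intro ψ u φ w χ v
    by_cases a1 : ψ u = 0
    · simp [a1, h1 ψ u a1]
    by_cases a2 : φ w = 0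
    · simp [a2, h1 φ w a2]
    by_cases a3 : ψ w = 0
    · have k1 := h5 (ψ + φ) u w χ v
      have k2 := h4 ψ φ u χ v
      have k3 := h5 φ u w χ v
      have k4 := h1 ψ w a3 χ v
      simp only [map_add, LinearMap.add_apply, add_mul, a3, zero_add, k4, smul_add, add_smul, k3] at k1
      exact add_right_cancel k1
    · refine smul_right_injective _ a3 ?_
      simp only
      rw [smul_comm, h5, smul_comm, h4, smul_comm]
  let c := finBasis F W
  have k1 : X * N χ v = ∑ l, N (c.coord l) (c l) * X * N χ v := by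
    rw [← Finset.sum_mul, ← Finset.sum_mul, S.one, one_mul]
  have k2 : N χ v * X = ∑ l, N χ v * X * N (c.coord l) (c l) := by rw [← Finset.mul_sum, S.one, mul_one]
  have : Nontrivial W := Module.nontrivial_of_finrank_pos (R := F) (by omega)
  obtain ⟨w, hw⟩ := exists_ne (0 : W)
  obtain ⟨φ, hφ, -⟩ := exists_dual_one (W := (⊥ : Submodule F W)) (x := w) (by simpa using hw)
  have k3 : ∀ ψ u χ v, N ψ v * X * N χ u = ψ u • (N φ v * X * N χ w) := fun ψ u χ v => by
    rw [← h2, hφ, one_smul]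
  change X * N χ v = N χ v * X
  rw [k1, k2]
  simp only [k3 (c.coord _), k3 χ]
  rw [sumR]
  simp only [mul_assoc]
  exact sumL ..

variable {I : Type*} [DecidableEq I] {N : I → Dual F W →ₗ[F] W →ₗ[F] R}

/-- hypotheses on a multiplicatively closed invariant subspace -/
structure Inv (N : I → Dual F W →ₗ[F] W →ₗ[F] R) (r : Finset I) (J : Submodule F R) : Prop where
  comm : ∀ X ∈ J, ∀ i ∉ r, ∀ ψ u, Commute X (N i ψ u)
  mul : ∀ X ∈ J, ∀ Y ∈ J, X * Y ∈ J
  conj : ∀ j ∈ r, ∀ ψ u, ψ u = 0 → ∀ X ∈ J, (1 + N j ψ u) * X * (1 - N j ψ u) ∈ J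

theorem Inv.step (S : ∀ i, Sys (N i)) (hc : ∀ i j, i ≠ j → ∀ ψ u χ v, Commute (N i ψ u) (N j χ v))
    (h3 : 3 ≤ finrank F W) {r : Finset I} {J : Submodule F R} (h : Inv N r J) {j : I} (hj : j ∈ r)
    (ih : ∀ J' : Submodule F R, Inv N (r.erase j) J' → J' ≠ ⊥ → 1 ∈ J') {X : R} (hX : X ∈ J)
    (hn : ¬ ∀ ψ u, Commute X (N j ψ u)) (ψ : Dual F W) (u : W) : N j ψ u ∈ J := by
  let J' : Submodule F R :=
    { carrier := {Y | (∀ i ∉ r.erase j, ∀ ψ u, Commute Y (N i ψ u)) ∧ ∀ ψ u, ψ u = 0 → Y * N j ψ u ∈ J}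
      add_mem' := fun ha hb => ⟨fun i hi ψ u => (ha.1 i hi ψ u).add_left (hb.1 i hi ψ u), fun ψ u h0 => by
        rw [add_mul]; exact add_mem (ha.2 ψ u h0) (hb.2 ψ u h0)⟩
      zero_mem' := ⟨fun _ _ _ _ => Commute.zero_left _, fun _ _ _ => by simp⟩
      smul_mem' := fun c a ha => ⟨fun i hi ψ u => (ha.1 i hi ψ u).smul_left c, fun ψ u h0 => by
        rw [smul_mul_assoc]; exact J.smul_mem c (ha.2 ψ u h0)⟩ }
  have hJ' : ∀ Y, Y ∈ J' ↔ (∀ i ∉ r.erase j, ∀ ψ u, Commute Y (N i ψ u)) ∧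
      ∀ ψ u, ψ u = 0 → Y * N j ψ u ∈ J := fun _ => Iff.rfl
  have h1 : 1 ∈ J' := by
    refine ih J' ⟨fun Y hY => hY.1, fun Y hY Z hZ => ⟨fun i hi ψ u => (hY.1 i hi ψ u).mul_left (hZ.1 i hi ψ u),
      fun ψ u h0 => ?_⟩, fun k hk χ v h0 Y hY => ⟨fun i hi ψ u => ?_, fun ψ u h1 => ?_⟩⟩ ?_
    · obtain ⟨v, χ, a1, a2, a3⟩ := exists_ker_not_mem h3 ψ u
      convert h.mul _ (hY.2 χ u a3) _ (hZ.2 ψ v a1) using 1
      rw [mul_assoc Y (N j χ u), ← mul_assoc _ Z, ← (hZ.1 j (by simp) χ u).eq, mul_assoc Z, (S j).mul, a2, one_smul,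
        mul_assoc]
    · have := hc k i (by rintro rfl; exact hi hk) χ v ψ u
      exact (((Commute.one_left _).add_left this).mul_left (hY.1 i hi ψ u)).mul_left
        ((Commute.one_left _).sub_left this)
    · convert h.conj k (Finset.mem_of_mem_erase hk) χ v h0 _ (hY.2 ψ u h1) using 1
      have := ((Commute.one_left _).sub_left (hc k j (Finset.ne_of_mem_erase hk) χ v ψ u)).eq
      simp only [mul_assoc, this]
    · have h2 : ∃ ψ u, ψ u = 0 ∧ N j ψ u * X * N j ψ u ≠ 0 := by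
        by_contra hh
        push Not at hh
        exact hn ((S j).comm_of h3 hh)
      obtain ⟨ψ, u, a1, a2⟩ := h2
      have a3 := sandwich (N j) (S j).mul J (h.conj j hj) (Or.inl h3) a1 hX
      have a4 : ∀ χ v, Commute (E (N j) ψ u X) (N j χ v) := fun χ v => by
        rw [Commute, SemiconjBy, (S j).E_mul, (S j).mul_E]
      rw [Submodule.ne_bot_iff]
      refine ⟨E (N j) ψ u X, ⟨fun i hi χ v => ?_, ?_⟩, fun h0 => a2 (by rw [← (S j).E_mul, h0, zero_mul])⟩
      · by_cases hij : i = j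
        · rw [hij]; exact a4 χ v
        · exact (E_comm (hc i j hij χ v) (h.comm X hX i (by simpa [hij] using hi) χ v).symm ψ u).symm
      · refine spread h3 ((N j).compr₂ (LinearMap.mulLeft F (E (N j) ψ u X))) J (fun φ w χ v b1 b2 => ?_) a1
          (fun e => a2 (by simp [e])) (fun e => a2 (by simp [e])) (by simpa [(S j).E_mul] using a3)
        simp only [LinearMap.compr₂_apply, LinearMap.mulLeft_apply] at b2 ⊢
        convert sub_mem (h.conj j hj χ v b1 _ b2) b2 using 1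
        simp only [add_mul, mul_sub, one_mul, mul_one, ← mul_assoc, ← (a4 χ v).eq]
        simp only [mul_assoc, (S j).mul, mul_smul_comm, smul_mul_assoc]
        module
  obtain ⟨v, χ, a1, a2, a3⟩ := exists_ker_not_mem h3 ψ u
  have := h.mul _ (h1.2 χ u a3) _ (h1.2 ψ v a1)
  simpa [(S j).mul, a2] using this

theorem Inv.one_mem (S : ∀ i, Sys (N i)) (hc : ∀ i j, i ≠ j → ∀ ψ u χ v, Commute (N i ψ u) (N j χ v))
    (hs : ∀ X : R, (∀ i ψ u, Commute X (N i ψ u)) → ∃ c : F, X = c • 1)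
    (h3 : 3 ≤ finrank F W) (r : Finset I) : ∀ J : Submodule F R, Inv N r J → J ≠ ⊥ → 1 ∈ J := by
  induction r using Finset.induction_on with
  | empty =>
    intro J h hJ
    obtain ⟨X, hX, h0⟩ := (Submodule.ne_bot_iff J).1 hJ
    obtain ⟨c, rfl⟩ := hs X fun i => h.comm X hX i (by simp)
    exact (J.smul_mem_iff fun e => h0 (by simp [e])).1 hX
  | insert j r hj ih =>
    intro J h hJ
    by_cases hn : ∀ X ∈ J, ∀ ψ u, Commute X (N j ψ u)
    · refine ih J ⟨fun X hX i hi => ?_, h.mul, fun k hk => h.conj k (Finset.mem_insert_of_mem hk)⟩ hJ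
      by_cases hij : i = j
      · rw [hij]; exact hn X hX
      · exact h.comm X hX i (by simp [hij, hi])
    · push Not at hn
      obtain ⟨X, hX, ψ, u, hn⟩ := hn
      rw [← (S j).one]
      exact J.sum_mem fun l _ => h.step S hc h3 (Finset.mem_insert_self j r) (by rwa [Finset.erase_insert hj]) hX
        (fun hh => hn (hh ψ u)) _ _

theorem Inv.exists_mem (S : ∀ i, Sys (N i)) (hc : ∀ i j, i ≠ j → ∀ ψ u χ v, Commute (N i ψ u) (N j χ v))
    (hs : ∀ X : R, (∀ i ψ u, Commute X (N i ψ u)) → ∃ c : F, X = c • 1)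
    (h3 : 3 ≤ finrank F W) {r : Finset I} {J : Submodule F R} (h : Inv N r J) {X : R} (hX : X ∈ J)
    (hn : ∀ c : F, X ≠ c • 1) : ∃ j ∈ r, ∀ ψ u, N j ψ u ∈ J := by
  by_contra hh
  obtain ⟨c, hc'⟩ := hs X fun i => by
    by_cases hi : i ∈ r
    · by_contra h1
      exact hh ⟨i, hi, h.step S hc h3 hi (Inv.one_mem S hc hs h3 _) hX h1⟩
    · exact h.comm X hX i hi
  exact hn c hc'

theorem mem_of_comm (S : ∀ i, Sys (N i)) (hc : ∀ i j, i ≠ j → ∀ ψ u χ v, Commute (N i ψ u) (N j χ v))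
    (hs : ∀ X : R, (∀ i ψ u, Commute X (N i ψ u)) → ∃ c : F, X = c • 1) (A : Subalgebra F R) (r : Finset I) :
    (∀ j ∈ r, ∀ ψ u, N j ψ u ∈ A) → ∀ X : R, (∀ i ∉ r, ∀ ψ u, Commute X (N i ψ u)) → X ∈ A := by
  induction r using Finset.induction_on with
  | empty =>
    intro _ X hX
    obtain ⟨c, rfl⟩ := hs X fun i => hX i (by simp)
    exact A.smul_mem A.one_mem c
  | insert j r hj ih =>
    intro h X hX
    rw [(S j).expand X]
    refine A.sum_mem fun a _ => A.sum_mem fun b _ => A.mul_mem (ih (fun k hk => h k (Finset.mem_insert_of_mem hk)) _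
      fun i hi χ v => ?_) (h j (Finset.mem_insert_self j r) _ _)
    by_cases hij : i = j
    · rw [hij, Commute, SemiconjBy, (S j).E_mul, (S j).mul_E]
    · exact (E_comm (hc i j hij χ v) (hX i (by simp [hij, hi]) χ v).symm _ _).symm

end Cfsg.Agent.H1.C7d
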