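import Cfsg.Agent.H1.C7c
import Cfsg.Agent.H1.C7d

/-!
Maximality of tensor wreath products in the special linear group (abstract form).
-/

set_option autoImplicit false
set_option linter.unusedSectionVars false
set_option linter.unusedSimpArgs false

namespace Cfsg.Agent.H1.C7e

open Module Cfsg.Agent.H7 Cfsg.Agent.H3.TenLin Cfsg.Agent.H1.C7a Cfsg.Agent.H1.C7c Cfsg.Agent.H1.C7d

universe u

variable {F : Type u} [Field F] {V : Type*} [AddCommGroup V] [Module F V]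
  {U : Type*} [AddCommGroup U] [Module F U] {W : Type*} [AddCommGroup W] [Module F W]
  {ρ ρ' : U →ₗ[F] W →ₗ[F] V} {M : Subgroup (V ≃ₗ[F] V)}

/-- bilinear form of `rk` -/
noncomputable def rkL (h : IsTens ρ) : Dual F W →ₗ[F] W →ₗ[F] End F V :=
  LinearMap.mk₂ F (rk h) (fun ψ χ x => LinearMap.ext (rk_add h ψ χ x))
    (fun c ψ x => h.ext fun u w => by simp [smul_smul]) (fun ψ x y => h.ext fun u w => by simp)
    (fun c ψ x => h.ext fun u w => by simp [smul_comm c])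

@[simp] theorem rkL_apply (h : IsTens ρ) (ψ : Dual F W) (x : W) : rkL h ψ x = rk h ψ x := rfl

theorem sys_rkL [FiniteDimensional F W] (h : IsTens ρ) : Sys (rkL h) :=
  ⟨fun ψ u χ v => LinearMap.ext (rk_rk h ψ χ u v), LinearMap.ext fun v => by
    rw [LinearMap.sum_apply]; exact h.sum_basis _ v⟩

/-- `X ↦ X ⊗ 1` -/
noncomputable def lft (h : IsTens ρ) : End F U →ₐ[F] End F V where
  toFun X := h.tmap X LinearMap.id
  map_one' := h.ext fun u w => by simp
  map_mul' X Y := h.ext fun u w => by simp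
  map_zero' := h.ext fun u w => by simp
  map_add' X Y := h.ext fun u w => by simp
  commutes' c := h.ext fun u w => by simp

@[simp] theorem lft_apply (h : IsTens ρ) (X : End F U) (u : U) (w : W) : lft h X (ρ u w) = ρ (X u) w :=
  h.tmap_apply _ _ _ _

theorem exists_of_comm [FiniteDimensional F U] (h : IsTens ρ) [Nontrivial W] {g : V ≃ₗ[F] V}
    (hg : ∀ ψ x v, g (rk h ψ x v) = rk h ψ x (g v)) : ∃ a : U ≃ₗ[F] U, ∀ u w, g (ρ u w) = ρ (a u) w := by
  obtain ⟨w, hw⟩ := exists_ne (0 : W)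
  obtain ⟨χ, hχ, -⟩ := exists_dual_one (W := (⊥ : Submodule F W)) (x := w) (by simpa using hw)
  have h1 : ∀ u y, g (ρ u y) = rk h χ y (g (ρ u w)) := fun u y => by rw [← hg, rk_tmul, hχ, one_smul]
  obtain ⟨a, ha⟩ := exists_of_map_Bw h hw hw (x := g) fun u => by rw [h1]; exact rk_mem ..
  exact ⟨a, fun u y => by rw [h1, ha, rk_tmul, hχ, one_smul]⟩

theorem eqv_of_rk [FiniteDimensional F U] [Nontrivial W] (h : IsTens ρ) (h' : IsTens ρ')
    (e : ∀ ψ x, rk h ψ x = rk h' ψ x) : Eqv ρ ρ' := by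
  obtain ⟨a, ha⟩ := exists_of_comm h (g := h.equiv.symm.trans h'.equiv) fun ψ x v => by
    refine h.induction v (by simp) (fun u w => ?_) fun a b ha hb => by rw [map_add, map_add, ha, hb, map_add, map_add]
    rw [rk_tmul, e]; simp
  exact ⟨a, 1, fun u w => by simpa using ha u w⟩

variable {I : Type*} [Fintype I] [DecidableEq I] {τ : I → U →ₗ[F] W →ₗ[F] V}

/-- `g` permutes the tensor factors -/
def Wr (τ : I → U →ₗ[F] W →ₗ[F] V) (g : V ≃ₗ[F] V) : Prop :=
  ∃ σ : Equiv.Perm I, ∀ i, Eqv (τ (σ i)) (act g (τ i))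

variable [FiniteDimensional F U] [FiniteDimensional F W] [Nontrivial U]

theorem wreath_max [Finite F] (h3 : 3 ≤ finrank F W) (h4 : finrank F W = 3 → Odd (finrank F U))
    (h : ∀ i, IsTens (τ i)) (hc : ∀ i j, i ≠ j → Comm (τ i) (τ j))
    (hs : ∀ X : End F V, (∀ i ψ x, Commute X (rk (h i) ψ x)) → ∃ c : F, X = c • 1)
    (hsw : ∀ i j k, j ≠ i → k ≠ i → ∃ s ∈ M, s ∈ TStab (τ i) ∧ Eqv (τ k) (act s (τ j)))
    (hM : ∀ g, Wr τ g → LinearEquiv.det g = 1 → g ∈ M) :
    (∀ g ∈ M, Wr τ g) ∨ ∀ g, LinearEquiv.det g = 1 → g ∈ M := by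
  have : Nontrivial W := Module.nontrivial_of_finrank_pos (R := F) (by omega)
  have h1 : ∀ i j, j ≠ i → ∀ (ψ : Dual F W) x (h0 : ψ x = 0), rt (h j) h0 ∈ TStab (τ i) := fun i j hj ψ x h0 => by
    obtain ⟨a, ha⟩ := exists_of_comm (h i) (g := rt (h j) h0) fun χ y v => by
      rw [rt_apply, rt_apply, map_add (rk _ χ y), ← rk_apply, ← rk_apply, hc j i hj]
    exact ⟨a, 1, ha⟩
  have h2 : ∀ j (ψ : Dual F W) x (h0 : ψ x = 0), rt (h j) h0 ∈ M := fun j ψ x h0 =>
    hM _ ⟨1, fun i => by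
      by_cases hj : j = i
      · subst hj; exact rt_mem _ h0
      · exact h1 i j hj ψ x h0⟩ (det_rt _ h0)
  have hA : ∀ i, AllRt (h i) M := fun i φ w h0 => ⟨_, h2 i φ w h0, rt_apply _ h0⟩
  by_cases hG : ∀ i, Good M (τ i)
  · left
    intro g hg
    obtain ⟨x, hx⟩ := exists_ne (0 : W)
    obtain ⟨ψ, a1, a2, -⟩ := exists_dual_two h3 x x
    have k1 : ∀ j, ∃ i, Eqv (τ i) (act g (τ j)) := fun j => by
      by_contra hh
      push Not at hh
      obtain ⟨c, hc'⟩ := hs (rk (tens_act (h j) g) ψ x) fun i χ y => LinearMap.ext fun v =>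
        (((eqv_or_comm_of_good h3 h4 (hG i) ((hG j).act hg)).resolve_left (hh i)) _ _ χ y ψ x v).symm
      exact not_comm_rk (tens_act (h j) g) a2 a1 hx fun χ y v => by simp [hc']
    choose σ hσ using k1
    have k2 : Function.Injective σ := fun j k e => by
      by_contra hjk
      have := ((hc j k hjk).act (h j) (h k) g).eqv (tens_act (h k) g) ((hσ k).symm.trans (e ▸ hσ j))
      exact not_comm_rk (tens_act (h j) g) a2 a1 hx fun χ y v => this ..
    exact ⟨Equiv.ofBijective σ (Finite.injective_iff_bijective.1 k2), hσ⟩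
  right
  push Not at hG
  obtain ⟨i, hi⟩ := hG
  have k1 : ∃ X ∈ Lev (h i) h3 (hA i), ∀ c : F, X ≠ c • LinearMap.id := by
    by_contra hh
    refine hi ⟨h i, hA i, fun w hw θ h0 hθ => ?_⟩
    by_contra hne
    push Not at hne
    exact hh (exists_mem_Lev h3 (hA i) hw h0 hθ hne)
  obtain ⟨X, hX, hns⟩ := k1
  let J := (Lev (h i) h3 (hA i)).map (lft (h i))
  have k2 : ∀ g ∈ M, g ∈ TStab (τ i) → ∀ A ∈ J, (g : End F V) * A * (g.symm : End F V) ∈ J := by
    rintro g hg ⟨a, b, e⟩ _ ⟨Y, hY, rfl⟩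
    refine ⟨_, conj_mem_Lev hY hg e, (h i).ext fun u w => ?_⟩
    have : g.symm (τ i u w) = τ i (a.symm u) (b.symm w) := by rw [LinearEquiv.symm_apply_eq, e]; simp
    simp [this, e]
  have k3 : ∀ Y : End F U, ∀ j ∉ Finset.univ.erase i, ∀ ψ x, Commute (lft (h i) Y) (rkL (h j) ψ x) := by
    intro Y j hj ψ x
    obtain rfl : j = i := by simpa using hj
    exact (h j).ext fun u w => by simp
  have hS := fun j => sys_rkL (h j)
  have hc' : ∀ i j, i ≠ j → ∀ ψ u χ v, Commute (rkL (h i) ψ u) (rkL (h j) χ v) := fun i j hij ψ u χ v =>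
    LinearMap.ext (hc i j hij _ _ ψ u χ v)
  obtain ⟨w, hw⟩ := exists_ne (0 : W)
  have hinj : Function.Injective (lft (h i)) := fun Y Z e => LinearMap.ext fun u =>
    eq_of_tmul_eq (h i) hw (by simpa using LinearMap.congr_fun e (τ i u w))
  obtain ⟨j, hj, k4⟩ := Inv.exists_mem hS hc' hs h3 (r := Finset.univ.erase i) (J := Subalgebra.toSubmodule J)
    ⟨by rintro _ ⟨Y, -, rfl⟩; exact k3 Y, fun X hX Y hY => J.mul_mem hX hY, fun j hj ψ x h0 A hA' => by
      have e1 : 1 + rkL (h j) ψ x = (rt (h j) h0 : End F V) := by ext v; simp [rt_apply, rk_apply]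
      have e2 : 1 - rkL (h j) ψ x = ((rt (h j) h0).symm : End F V) := by
        ext v
        simp [symm_apply_of_Q (rt_apply (h j) h0) (fun u => by simp [h0]), rk_apply]
      rw [e1, e2]
      exact k2 _ (h2 j ψ x h0) (h1 i j (Finset.ne_of_mem_erase hj) ψ x h0) A hA'⟩
    (X := lft (h i) X) ⟨X, hX, rfl⟩ fun c e => hns c (hinj (by rw [e]; exact (h i).ext fun u w => by simp))
  refine mem_of_Lev (h3 := h3) (hM := hA i) fun χ u => ?_
  obtain ⟨Y, hY, e⟩ := mem_of_comm hS hc' hs J (Finset.univ.erase i) (fun k hk ψ x => by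
    obtain ⟨s, b1, b2, b3⟩ := hsw i j k (Finset.ne_of_mem_erase hj) (Finset.ne_of_mem_erase hk)
    obtain ⟨a, b, e⟩ := b3.symm
    rw [rkL_apply, rk_of_eqv (tens_act (h j) s) (h k) e]
    convert k2 s b1 b2 _ (k4 (ψ ∘ₗ (b.symm : W →ₗ[F] W)) (b x)) using 1
    ext v
    obtain ⟨v, rfl⟩ := s.surjective v
    simp [rk_act (h j)]) _ (k3 (χ.smulRight u))
  exact hinj e ▸ hY

end Cfsg.Agent.H1.C7e
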