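import Cfsg.Agent.H1.C7e
import Cfsg.Agent.Asch.Wreath
import Cfsg.Agent.H7.Proper

/-!
The standard tensor power structures.
-/

set_option autoImplicit false
set_option linter.unusedSectionVars false
set_option linter.unusedSimpArgs false

namespace Cfsg.Agent.H1.C7f

open Module Cfsg.Agent.H7 Cfsg.Agent.H3.TenLin Cfsg.Agent.H1.C7a Cfsg.Agent.H1.C7e Cfsg.Agent.Asch
open scoped Matrix MatrixGroups

variable {F : Type*} [Field F] {s : ℕ} {κ : Type} [Fintype κ] [DecidableEq κ]

/-- the `i`-th factor structure -/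
noncomputable def fac (κ : Type) (F : Type*) [Field F] (i : Fin (s + 1)) :
    ((Fin s → κ) → F) →ₗ[F] (κ → F) →ₗ[F] ((Fin (s + 1) → κ) → F) :=
  (ptB (Fin s → κ) κ F).compr₂
    (LinearEquiv.funCongrLeft F F ((Fin.insertNthEquiv (fun _ => κ) i).symm.trans (Equiv.prodComm _ _)) :
      ((Fin s → κ) × κ → F) →ₗ[F] ((Fin (s + 1) → κ) → F))

theorem fac_apply (i : Fin (s + 1)) (u : (Fin s → κ) → F) (w : κ → F) (x : Fin (s + 1) → κ) :
    fac κ F i u w x = u (i.removeNth x) * w (x i) := rfl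

theorem tens_fac (i : Fin (s + 1)) : IsTens (fac κ F i) := (isTens_ptB _ _).map _

theorem emb_fac (i : Fin (s + 1)) (X : Matrix κ κ F) (u : (Fin s → κ) → F) (w : κ → F) :
    emb i X *ᵥ fac κ F i u w = fac κ F i u (X *ᵥ w) := by
  funext x
  have : ∀ y, emb i X x y = X (x i) (y i) * (1 : Matrix _ _ F) (i.removeNth x) (i.removeNth y) := fun y => by
    rw [emb_apply, pt_apply, Fin.prod_univ_succAbove _ i, ← pt_one, pt_apply]
    simp only [Pi.mulSingle_eq_of_ne (Fin.succAbove_ne i _), Pi.mulSingle_eq_same]; rfl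
  rw [fac_apply]
  simp only [Matrix.mulVec, dotProduct, this, fac_apply]
  rw [← (Fin.insertNthEquiv (fun _ => κ) i).sum_comp, Fintype.sum_prod_type, Finset.mul_sum]
  refine Finset.sum_congr rfl fun a _ => ?_
  simp [Matrix.one_apply, Fin.insertNthEquiv]; ring

theorem rk_fac (i : Fin (s + 1)) (ψ : Dual F (κ → F)) (x : κ → F) (v : (Fin (s + 1) → κ) → F) :
    rk (tens_fac i) ψ x v = emb i (LinearMap.toMatrix' (ψ.smulRight x)) *ᵥ v := by
  refine (tens_fac (κ := κ) (F := F) i).induction v (by simp) (fun u w => ?_) fun a b ha hb => by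
    rw [map_add, Matrix.mulVec_add, ha, hb]
  rw [emb_fac, ← Matrix.toLin'_apply]; simp

theorem comm_fac (i j : Fin (s + 1)) (h : i ≠ j) : Comm (fac κ F i) (fac κ F j) := fun _ _ ψ x χ y v => by
  simp only [rk_fac, Matrix.mulVec_mulVec, emb_comm h]

theorem scalar_fac [Nonempty κ] (X : End F ((Fin (s + 1) → κ) → F))
    (h : ∀ i ψ x, Commute X (rk (tens_fac (κ := κ) i) ψ x)) : ∃ c : F, X = c • 1 := by
  obtain ⟨c, hc⟩ := isSc_of_comm_emb (Z := LinearMap.toMatrix' X) fun i Y => by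
    obtain ⟨w, hw⟩ := exists_ne (0 : κ → F)
    obtain ⟨χ, hχ, -⟩ := exists_dual_one (W := (⊥ : Submodule F (κ → F))) (x := w) (by simpa using hw)
    have h1 : ∀ u y, X (fac κ F i u y) = fac κ F i ((tens_fac i).ctr χ (X (fac κ F i u w))) y := fun u y => by
      have := LinearMap.congr_fun (h i χ y).eq (fac κ F i u w)
      rwa [End.mul_apply, End.mul_apply, rk_tmul, hχ, one_smul, rk_apply] at this
    refine Matrix.toLin'.injective ((tens_fac i).ext fun u y => ?_)
    simp only [Matrix.toLin'_mul, Matrix.toLin'_toMatrix', LinearMap.comp_apply, Matrix.toLin'_apply, emb_fac]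
    rw [h1 u y, h1 u (Y *ᵥ y), emb_fac]
  exact ⟨c, LinearMap.toMatrix'.injective (by simpa using hc)⟩

theorem mem_of_wr {m : ℕ} (hm : 0 < m) (g : GL (Fin (s + 1) → Fin m) F) (h : Wr (fac (Fin m) F) (toLE g)) :
    g ∈ Geo.tensorWreathStandard m (s + 1) F := by
  obtain ⟨σ, h⟩ := h
  refine mem_tensorWreathStandard hm (by omega) g σ fun i X => ?_
  obtain ⟨a, b, e⟩ := h i
  refine ⟨LinearMap.toMatrix' ((b : End F _) * Matrix.toLin' X * (b.symm : End F _)), ?_⟩
  rw [cj_eq_iff]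
  refine Matrix.toLin'.injective ((tens_fac i).ext fun u y => ?_)
  simp only [act_apply, toLE_apply] at e
  simp only [Matrix.toLin'_mul, LinearMap.comp_apply, Matrix.toLin'_apply, emb_fac, e]
  rw [← Matrix.toLin'_apply (LinearMap.toMatrix' _)]; simp

theorem fp_rk (σ : Equiv.Perm (Fin (s + 1))) (i : Fin (s + 1)) (ψ : Dual F (κ → F)) (x : κ → F)
    (v : (Fin (s + 1) → κ) → F) :
    toLE (fp κ F σ) (rk (tens_fac i) ψ x v) = rk (tens_fac (σ i)) ψ x (toLE (fp κ F σ) v) := by
  simp only [rk_fac, toLE_apply, Matrix.mulVec_mulVec, (cj_eq_iff _ _ _).1 (cj_fp_emb σ i _)]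

theorem eqv_fp [Nonempty κ] (σ : Equiv.Perm (Fin (s + 1))) (i : Fin (s + 1)) :
    Eqv (fac κ F (σ i)) (act (toLE (fp κ F σ)) (fac κ F i)) :=
  eqv_of_rk (tens_fac _) (tens_act (tens_fac i) _) fun ψ x => LinearMap.ext fun v => by
    obtain ⟨v, rfl⟩ := (toLE (fp κ F σ)).surjective v
    rw [rk_act (tens_fac i), fp_rk]

theorem exists_swap [Nonempty κ] (i j k : Fin (s + 1)) (hj : j ≠ i) (hk : k ≠ i) :
    ∃ g : ((Fin (s + 1) → κ) → F) ≃ₗ[F] ((Fin (s + 1) → κ) → F), LinearEquiv.det g = 1 ∧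
      ∀ l, Eqv (fac κ F (Equiv.swap j k l)) (act g (fac κ F l)) := by
  let g := toLE (fp κ F (Equiv.swap j k))
  obtain ⟨a, ha⟩ := exists_of_comm (tens_fac i) (g := g) fun ψ x v => by
    rw [fp_rk, Equiv.swap_apply_of_ne_of_ne hj.symm hk.symm]
  have h1 : g = (tens_fac i).tcongr a 1 := LinearEquiv.toLinearMap_injective ((tens_fac i).ext fun u w => by
    simp [ha])
  have h2 : g * g = 1 := by
    rw [← map_mul, ← map_one toLE]
    congr 1
    exact mul_eq_one_iff_eq_inv.2 (Units.ext (by change fpM _ _ _ = fpM _ _ (Equiv.swap j k).symm; simp))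
  have h3 : a * a = 1 := by
    obtain ⟨w, hw⟩ := exists_ne (0 : κ → F)
    ext u : 1
    refine eq_of_tmul_eq (tens_fac i) hw ?_
    rw [LinearEquiv.mul_apply, ← ha, ← ha, ← LinearEquiv.mul_apply, h2]; rfl
  have h4 : LinearEquiv.det a ^ 2 = 1 := by rw [sq, ← map_mul, h3, map_one]
  refine ⟨(tens_fac i).tcongr (LinearEquiv.smulOfUnit (LinearEquiv.det a)) 1 * g, ?_, fun l => ?_⟩
  · have : LinearEquiv.det (LinearEquiv.smulOfUnit (LinearEquiv.det a) : ((Fin s → κ) → F) ≃ₗ[F] _) =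
        LinearEquiv.det a ^ (Fintype.card κ ^ s) := by
      ext
      rw [LinearEquiv.coe_det]
      have : (LinearEquiv.smulOfUnit (LinearEquiv.det a) : ((Fin s → κ) → F) ≃ₗ[F] _).toLinearMap =
        (LinearEquiv.det a : F) • LinearMap.id := rfl
      rw [this, LinearMap.det_smul]; simp
    rw [map_mul, h1, IsTens.det_tcongr, IsTens.det_tcongr, this]
    simp only [map_one, one_pow, mul_one, finrank_fintype_fun_eq_card, ← pow_mul, ← pow_add, ← Nat.succ_mul]
    obtain ⟨n, hn⟩ : Even ((Fintype.card κ ^ s).succ * Fintype.card κ) := by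
      rcases Nat.even_or_odd (Fintype.card κ) with h | h
      · exact h.mul_left _
      · exact (h.pow.add_one).mul_right _
    rw [hn, ← two_mul, pow_mul, h4, one_pow]
  · obtain ⟨b, c, e⟩ := eqv_fp (κ := κ) (F := F) (Equiv.swap j k) l
    refine ⟨LinearEquiv.smulOfUnit (LinearEquiv.det a) * b, c, fun u w => ?_⟩
    have : ∀ v, (tens_fac i).tcongr (LinearEquiv.smulOfUnit (LinearEquiv.det a)) 1 v = (LinearEquiv.det a : F) • v :=
      fun v => (tens_fac (κ := κ) (F := F) i).induction v (by simp) (fun u w => by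
        rw [IsTens.tcongr_apply]; simp [LinearEquiv.smulOfUnit, Units.smul_def])
        fun x y hx hy => by rw [map_add, hx, hy, smul_add]
    rw [act_apply, LinearEquiv.mul_apply, this, ← act_apply, e]
    simp [LinearEquiv.smulOfUnit, Units.smul_def]

theorem isMaximalIn_SL [Fintype F] {ι : Type} [Fintype ι] [DecidableEq ι] {m t : ℕ} (hm : 3 ≤ m) (ht : 2 ≤ t)
    (e : ι ≃ (Fin t → Fin m)) (P : GL ι F) :
    Geo.IsMaximalIn (Geo.specialLinear ι F) (Geo.tensorWreathSubgroup m t e P ⊓ Geo.specialLinear ι F) := by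
  obtain ⟨s, rfl⟩ : ∃ s, t = s + 1 := ⟨t - 1, by omega⟩
  have : Nonempty (Fin m) := ⟨⟨0, by omega⟩⟩
  have hcard : 3 ≤ Fintype.card ι := by
    rw [Fintype.card_congr e]; simp
    exact hm.trans (Nat.le_self_pow (by omega) m)
  have hne := SL_not_le_tensorWreathSubgroup hcard (by omega : 2 ≤ m) ht e P
  refine isMaximalIn_of_equiv (theta e P) _ _ (fun g => LinearEquiv.det g = 1)
    (fun g => toLE.symm g ∈ Geo.tensorWreathStandard m (s + 1) F ∧ LinearEquiv.det g = 1)
    (fun g => by rw [mem_SL_iff, det_theta])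
    (fun g => by rw [Subgroup.mem_inf, mem_SL_iff, det_theta, Geo.tensorWreathSubgroup, mem_transport_iff])
    (fun g hg => hg.2) (fun h => hne (h.trans inf_le_left)) fun M h1 h2 => ?_
  have h3 : ∀ g, Wr (fac (Fin m) F) g → LinearEquiv.det g = 1 → g ∈ M := fun g a b =>
    h1 g ⟨mem_of_wr (by omega) _ (by simpa using a), b⟩
  refine (wreath_max (M := M) (by simpa using hm) (fun h => ?_) tens_fac comm_fac scalar_fac
    (fun i j k hj hk => ?_) h3).imp_left fun h g hg => ⟨mem_of_wr (by omega) _ (by simpa using h g hg), h2 g hg⟩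
  · obtain rfl : m = 3 := by simpa using h
    simpa using Odd.pow (by decide)
  · obtain ⟨g, a, b⟩ := exists_swap (κ := Fin m) (F := F) i j k hj hk
    refine ⟨g, h3 g ⟨_, b⟩ a, ?_, by simpa using b j⟩
    have := b i
    rwa [Equiv.swap_apply_of_ne_of_ne hj.symm hk.symm] at this

end Cfsg.Agent.H1.C7f
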