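import Cfsg.Agent.H1.C7a
import Cfsg.Agent.H3.TenGlue

/-!
Tensor structures with forms whose second factor has transvections: linked structures.
-/

set_option autoImplicit false
set_option linter.unusedSectionVars false
set_option linter.unusedSimpArgs false

namespace Cfsg.Agent.H1.C7g

open Module Cfsg.Agent.H7 Cfsg.Agent.Form Cfsg.Agent.H3.TenLin Cfsg.Agent.H3.RootGeo Cfsg.Agent.H3.TenForm
  Cfsg.Agent.H3.TenGeo Cfsg.Agent.H3.TenGlue Cfsg.Agent.H1.C7a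

variable {F : Type*} [Field F] {V : Type*} [AddCommGroup V] [Module F V]
  {U : Type*} [AddCommGroup U] [Module F U] {W : Type*} [AddCommGroup W] [Module F W]
  {P P₁ P₂ : FP F} {S₁ : PQ P₁ U} {S₂ : PQ P₂ W} {S : PQ P V} {τ τ' σ : U →ₗ[F] W →ₗ[F] V}
  {M : Subgroup (V ≃ₗ[F] V)}

theorem act_act (g k : V ≃ₗ[F] V) : act g (act k τ) = act (g * k) τ := rfl

theorem act_one : act 1 τ = τ := rfl

theorem tf_act (h : TF S₁ S₂ S τ) {g : V ≃ₗ[F] V} (hg : g ∈ bis S) : TF S₁ S₂ S (act g τ) :=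
  ⟨tens_act h.tens g, h.σ₁, h.σ₂, h.ε, fun u w u' w' => by rw [act_apply, act_apply, hg, h.form], h.nd₁, h.nd₂⟩

theorem mem_TStab_act {g x : V ≃ₗ[F] V} : x ∈ TStab (act g τ) ↔ g⁻¹ * x * g ∈ TStab τ := by
  refine exists_congr fun a => exists_congr fun b => forall_congr' fun u => forall_congr' fun w => ?_
  simp [LinearEquiv.symm_apply_eq]

theorem rk_smul (h : IsTens τ) (c : F) (ψ : Dual F W) (x : W) (v : V) : rk h (c • ψ) x v = c • rk h ψ x v := by
  simp [rk_apply, ctr_smul]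

theorem nu_eq (h : TF S₁ S₂ S τ) (w : W) : h.nu w = rk h.tens (S₂.lin w) w := rfl

theorem isRt_of_R (h : TF S₁ S₂ S τ) {w : W} {hw : S₂.Sing w} (h0 : w ≠ 0) {z : V ≃ₗ[F] V} (hz : z ∈ h.R hw)
    (h1 : z ≠ 1) : ∃ φ : Dual F W, φ ≠ 0 ∧ φ w = 0 ∧ IsRt h.tens φ w z := by
  obtain ⟨c, -, e⟩ := hz
  refine ⟨c • S₂.lin w, fun h2 => ?_, by simp [hw.B_self], fun v => by rw [e, rk_smul]; rfl⟩
  obtain ⟨y, hy⟩ := h.nd₂.exists_eq h0 1
  have : c = 0 := by simpa [hy] using LinearMap.congr_fun h2 y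
  exact h1 (LinearEquiv.ext fun v => by simp [e, this])

theorem R_act (h : TF S₁ S₂ S τ) {g : V ≃ₗ[F] V} (hg : g ∈ bis S) {w : W} {hw : S₂.Sing w} {z : V ≃ₗ[F] V}
    (hz : z ∈ h.R hw) : g * z * g⁻¹ ∈ (tf_act h hg).R hw := by
  obtain ⟨c, hc, e⟩ := hz
  refine ⟨c, hc, fun v => ?_⟩
  obtain ⟨v, rfl⟩ := g.surjective v
  rw [nu_eq, rk_act h.tens]; simp [e, nu_eq]

theorem comm_of_nu [FiniteDimensional F W] (h : TF S₁ S₂ S τ) (hP : TrP P₂) (h2 : 2 ≤ finrank F W) {X : End F V}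
    (hX : ∀ w, S₂.Sing w → Commute X (h.nu w)) (ψ : Dual F W) (x : W) : Commute X (rk h.tens ψ x) := by
  have hl : ∀ {x : W}, x ≠ 0 → S₂.lin x ≠ 0 := fun hx e => by
    obtain ⟨y, hy⟩ := h.nd₂.exists_ne hx
    exact hy (LinearMap.congr_fun e y)
  have m : ∀ {φ χ : Dual F W} {a b : W}, φ b ≠ 0 → Commute X (rk h.tens φ a) → Commute X (rk h.tens χ b) →
      Commute X (rk h.tens χ a) := fun {φ χ a b} h0 h1 h2 => by
    have := (h1.mul_right h2).smul_right (φ b)⁻¹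
    rwa [show (φ b)⁻¹ • (rk h.tens φ a * rk h.tens χ b) = rk h.tens χ a from
      LinearMap.ext fun v => by simp [rk_rk, smul_smul, h0]] at this
  have k1 : ∀ y x, S₂.Sing y → S₂.Sing x → Commute X (rk h.tens (S₂.lin y) x) := by
    intro y x hy hx
    by_cases h0 : x = 0
    · rw [show rk h.tens (S₂.lin y) x = 0 from LinearMap.ext fun v => by simp [h0, rk_apply]]
      exact Commute.zero_right X
    by_cases h0' : y = 0
    · rw [show rk h.tens (S₂.lin y) x = 0 from h.tens.ext fun u w => by simp [h0']]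
      exact Commute.zero_right X
    obtain ⟨d, hd, a1, a2⟩ := hP.exists_sing_ne_ne h.nd₂ h2 (hl h0) (hl h0')
    exact m (φ := S₂.lin x) a1 (hX x hx) (m (φ := S₂.lin d) (b := y) (fun e => a2 (S₂.B_comm_zero e)) (hX d hd) (hX y hy))
  have top : ∀ A : Submodule F W, (∀ x, S₂.Sing x → x ∈ A) → ∀ x, x ∈ A := fun A hA x => by
    by_contra hx
    have : A ≠ ⊤ := fun e => hx (e ▸ trivial)
    obtain ⟨d, hd, a1, -⟩ := hP.exists_sing_notMem h.nd₂ h2 this this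
    exact a1 (hA d hd)
  obtain ⟨y, rfl⟩ := h.nd₂.exists_lin ψ
  refine top
    { carrier := {x | Commute X (rk h.tens (S₂.lin y) x)}
      add_mem' := fun a b => by
        convert Commute.add_right a b using 1
        change Commute X _ ↔ _
        congr! 1; ext v; simp [rk_apply]
      zero_mem' := by
        convert Commute.zero_right X using 1
        change Commute X _ ↔ _
        congr! 1; ext v; simp [rk_apply]
      smul_mem' := fun c x a => by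
        convert Commute.smul_right a c using 1
        change Commute X _ ↔ _
        congr! 1; ext v; simp [rk_apply] } (fun x hx => ?_) x
  exact top
    { carrier := {y | Commute X (rk h.tens (S₂.lin y) x)}
      add_mem' := fun a b => by
        convert Commute.add_right a b using 1
        change Commute X _ ↔ _
        congr! 1; exact h.tens.ext fun u w => by simp [add_smul]
      zero_mem' := by
        convert Commute.zero_right X using 1
        change Commute X _ ↔ _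
        congr! 1; exact h.tens.ext fun u w => by simp
      smul_mem' := fun c x a => by
        convert Commute.smul_right a (P₂.σ c) using 1
        change Commute X _ ↔ _
        congr! 1; exact h.tens.ext fun u w => by simp [mul_smul] } (fun y hy => k1 y x hy hx) y

/-- `M` contains the group of the second factor, and stabilisers of the subspaces `U ⊗ w` are tensors. -/
structure Gd (S₁ : PQ P₁ U) (S₂ : PQ P₂ W) (S : PQ P V) (M : Subgroup (V ≃ₗ[F] V))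
    (τ : U →ₗ[F] W →ₗ[F] V) : Prop where
  tf : TF S₁ S₂ S τ
  trP : TrP P₂
  bis : M ≤ bis S
  snd : sisom S₂ ≤ snd τ M
  stab : ∀ w, S₂.Sing w → w ≠ 0 → ∀ x ∈ M, (∀ u, x (τ u w) ∈ Bw τ w) → x ∈ TStab τ

theorem Gd.act (G : Gd S₁ S₂ S M τ) {g : V ≃ₗ[F] V} (hg : g ∈ M) : Gd S₁ S₂ S M (act g τ) := by
  refine ⟨tf_act G.tf (G.bis hg), G.trP, G.bis, fun b hb => ?_, fun w hw h0 x hx e => mem_TStab_act.2 ?_⟩
  · obtain ⟨n, hn, e⟩ := G.snd hb
    exact ⟨g * n * g⁻¹, M.mul_mem (M.mul_mem hg hn) (M.inv_mem hg), fun u w => by simp [e]⟩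
  · refine G.stab w hw h0 _ (M.mul_mem (M.mul_mem (M.inv_mem hg) hx) hg) fun u => ?_
    obtain ⟨u', hu'⟩ := e u
    exact ⟨u', g.injective (by simpa using hu')⟩

/-- linked structures -/
def Lk (M : Subgroup (V ≃ₗ[F] V)) (τ τ' : U →ₗ[F] W →ₗ[F] V) : Prop := ∃ g ∈ M, τ' = act g τ

theorem Lk.symm (h : Lk M τ τ') : Lk M τ' τ := by
  obtain ⟨g, hg, rfl⟩ := h
  exact ⟨g⁻¹, M.inv_mem hg, by rw [act_act, inv_mul_cancel, act_one]⟩

theorem lk_act {g : V ≃ₗ[F] V} (hg : g ∈ M) : Lk M τ (act g τ) := ⟨g, hg, rfl⟩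

theorem Gd.lk (G : Gd S₁ S₂ S M τ) (h : Lk M τ τ') : Gd S₁ S₂ S M τ' := by
  obtain ⟨g, hg, rfl⟩ := h
  exact G.act hg

variable [FiniteDimensional F U] [FiniteDimensional F W] [FiniteDimensional F V] [Nontrivial U]

theorem Gd.R_le (G : Gd S₁ S₂ S M τ) {w : W} (hw : S₂.Sing w) : G.tf.R hw ≤ M := G.tf.R_le G.snd hw

theorem Gd.move (G : Gd S₁ S₂ S M τ) (h2 : 2 ≤ finrank F W) {w w' : W} (hw : S₂.Sing w) (h0 : w ≠ 0) (h0' : w' ≠ 0)
    {x : V ≃ₗ[F] V} (hx : x ∈ M) (hxw : ∀ u, x (τ u w) ∈ Bw τ w') : x ∈ TStab τ := by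
  have hw' := (G.trP.sing_iff S₂ w').2 (B_self_of_map (bis_le_sim (G.bis hx)) G.tf hw.B_self h0 h0' hxw)
  obtain ⟨n, hn, -, b, -, en, c, hc, e⟩ := exists_move G.tf G.trP G.snd G.snd h2 hw' hw h0' h0
  refine ((TStab τ).mul_mem_cancel_left ⟨1, b, en⟩).1 (G.stab w hw h0 (n * x) (M.mul_mem hn hx) fun u => ?_)
  obtain ⟨u', hu'⟩ := hxw u
  exact ⟨c • u', by simp [← hu', en, e]⟩

theorem Gd.eqv_of_le (G : Gd S₁ S₂ S M τ) (h2 : 2 ≤ finrank F W) (L : Lk M τ τ') {w w' : W} (hw' : S₂.Sing w')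
    (h0' : w' ≠ 0) (h0 : w ≠ 0) (e : Bw τ' w' ≤ Bw τ w) : Eqv τ τ' := by
  obtain ⟨g, hg, rfl⟩ := L
  exact G.move h2 hw' h0' h0 hg fun u => e ⟨u, rfl⟩

theorem tstab_cases' (h3 : 3 ≤ finrank F W ∨ (2 : F) ≠ 0) (h : IsTens τ) {g : V ≃ₗ[F] V} (hg : g ∈ TStab τ)
    (hq : ∀ v, g (g v) = (2 : F) • g v - v) {A : Submodule F V} (hA : ∀ v, g v - v ∈ A)
    (hd : finrank F A ≤ finrank F U) : (∃ x, x ≠ 0 ∧ A ≤ Bw τ x) ∨ ∀ ψ x, g ∈ cent (rk h ψ x) := by
  rcases h3 with h3 | h2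
  · exact tstab_cases h3 h hg hA hd
  obtain ⟨a, b, e⟩ := hg
  by_cases hb : ∀ x, b x ∈ F ∙ x
  · right
    obtain ⟨c, hc⟩ := scalar_of_forall_mem_span (b : W →ₗ[F] W) hb
    replace hc : ∀ x, b x = c • x := hc
    intro ψ x v
    refine h.induction v (by simp) (fun u y => ?_) (fun x y hx hy => by simp [hx, hy])
    simp [e, hc, smul_smul, mul_comm]
  left
  push Not at hb
  obtain ⟨x, hx⟩ := hb
  obtain ⟨χ, h1, h3⟩ := C7a.exists_dual_pair hx
  have h4 : ∀ u, a u = (2 / χ (b (b x))) • u := fun u => by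
    obtain ⟨u, rfl⟩ := a.surjective u
    have := congrArg (h.ctr χ) (hq (τ u x))
    simp only [e, map_sub, map_smul, h.ctr_apply, h1, h3, one_smul, zero_smul, sub_zero] at this
    have h5 : χ (b (b x)) ≠ 0 := fun h0 => by
      obtain ⟨u', hu'⟩ := exists_ne (0 : U)
      have := congrArg (h.ctr χ) (hq (τ u' x))
      simp only [e, map_sub, map_smul, h.ctr_apply, h1, h3, h0, one_smul, zero_smul, sub_zero] at this
      exact hu' (by simpa [h2] using this.symm)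
    rw [div_eq_inv_mul, mul_smul, ← this, smul_smul, inv_mul_cancel₀ h5, one_smul]
  have h6 : (2 / χ (b (b x))) • b x - x ≠ 0 := fun h0 => by
    have h7 := congrArg χ h0
    simp only [map_sub, map_smul, h1, h3, smul_eq_mul, mul_one, sub_zero, map_zero] at h7
    obtain ⟨u', hu'⟩ := exists_ne (0 : U)
    have := h4 u'
    simp [h7, hu'] at this
  refine ⟨_, h6, (Submodule.eq_of_le_of_finrank_le ?_ (by rw [finrank_Bw h h6]; exact hd)).ge⟩
  rintro _ ⟨u, rfl⟩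
  have := hA (τ u x)
  rw [e, h4] at this
  simpa using this

theorem IsRt.quad {h : IsTens τ} {φ : Dual F W} {w : W} {z : V ≃ₗ[F] V} (e : IsRt h φ w z) (h0 : φ w = 0) (v : V) :
    z (z v) = (2 : F) • z v - v := by
  rw [e v, map_add, e, e, rk_rk, h0]; module

theorem Gd.mem_TStab (G : Gd S₁ S₂ S M τ) {g : V ≃ₗ[F] V} (hg : g ∈ M) {φ : Dual F W} (hφ : φ ≠ 0) {w : W}
    (hw : S₂.Sing w) (h0 : w ≠ 0) (hc : g ∈ cent (rk G.tf.tens φ w)) : g ∈ TStab τ := by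
  refine G.stab w hw h0 g hg fun u => ?_
  obtain ⟨z, hz⟩ := exists_apply_eq_one hφ
  have := hc (τ u z)
  rw [rk_tmul, hz, one_smul] at this
  rw [this]; exact rk_mem ..

theorem Gd.eqv_or_comm (G : Gd S₁ S₂ S M τ) (h2 : 2 ≤ finrank F W) (h3 : 3 ≤ finrank F W ∨ (2 : F) ≠ 0)
    (L : Lk M τ σ) {x : W} {hx : S₂.Sing x} (h0 : x ≠ 0) {y : V ≃ₗ[F] V} (hy : y ∈ (G.lk L).tf.R hx) (h1 : y ≠ 1)
    (hT : y ∈ TStab τ) : Eqv τ σ ∨ Comm τ σ := by
  have G' := G.lk L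
  obtain ⟨ψ, a1, a2, e⟩ := isRt_of_R G'.tf h0 hy h1
  rcases tstab_cases' h3 G.tf.tens hT (IsRt.quad e a2) e.sub_mem (finrank_Bw G'.tf.tens h0).le with ⟨x0, b1, b2⟩ | b1
  · exact Or.inl (G.eqv_of_le h2 L hx h0 b1 b2)
  by_cases b2 : Eqv τ σ
  · exact Or.inl b2
  right
  intro _ _ φ w ψ' x' v
  refine LinearMap.congr_fun (comm_of_nu G.tf G.trP h2 (X := rk G'.tf.tens ψ' x') (fun w hw => ?_) φ w).eq.symm v
  by_cases hw0 : w = 0
  · rw [show G.tf.nu w = 0 from LinearMap.ext fun v => by simp [hw0, nu_eq, rk_apply]]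
    exact Commute.zero_right _
  obtain ⟨c, hc, hc0⟩ := G.trP.ex
  have hn := rootE_mem (hν := G.tf.nu_sq hw) hc
  have en : IsRt G.tf.tens (c • S₂.lin w) w (rootE _ (G.tf.nu_sq hw) c) := fun v => by rw [rk_smul]; rfl
  have h5 := G'.mem_TStab (G.R_le hw hn) a1 hx h0 (en.mem_cent_iff.2 fun v => (e.mem_cent_iff.1 (b1 _ w) v).symm)
  rcases tstab_cases' h3 G'.tf.tens h5 (IsRt.quad en (by simp [hw.B_self])) en.sub_mem
    (finrank_Bw G.tf.tens hw0).le with ⟨x0, h6, h7⟩ | h6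
  · exact absurd (G'.eqv_of_le h2 L.symm hw hw0 h6 h7).symm b2
  · refine LinearMap.ext fun v => smul_right_injective _ hc0 ?_
    simpa [rk_smul, nu_eq] using (en.mem_cent_iff.1 (h6 ψ' x') v).symm

theorem Gd.not_mem (G : Gd S₁ S₂ S M τ) (h2 : 2 ≤ finrank F W) (h3 : 3 ≤ finrank F W ∨ (2 : F) ≠ 0)
    (L : Lk M τ τ') (hb : Bad τ τ') {w : W} {hw : S₂.Sing w} (h0 : w ≠ 0) {z : V ≃ₗ[F] V} (hz : z ∈ G.tf.R hw)
    (h1 : z ≠ 1) : z ∉ TStab τ' := fun h =>
  ((G.lk L).eqv_or_comm h2 h3 L.symm h0 hz h1 h).elim hb.symm.1 hb.symm.2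

theorem conj_ne_one {G : Type*} [Group G] {n z : G} (h : z ≠ 1) : n * z * n⁻¹ ≠ 1 := by simpa using h

theorem Gd.swap (G : Gd S₁ S₂ S M τ) (h3 : 3 ≤ finrank F W) (h2 : (2 : F) = 0) (L : Lk M τ τ') (hb : Bad τ τ')
    {w : W} {hw : S₂.Sing w} (h0 : w ≠ 0) {z : V ≃ₗ[F] V} (hz : z ∈ G.tf.R hw) (h1 : z ≠ 1)
    (hc : Comm τ' (C7a.act z τ')) {x : W} {hx : S₂.Sing x} (h0' : x ≠ 0) {n : V ≃ₗ[F] V}
    (hn : n ∈ (G.lk L).tf.R hx) (h1' : n ≠ 1) : Comm τ (C7a.act n τ) := by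
  have G' := G.lk L
  obtain ⟨φ, b1, b2, e⟩ := isRt_of_R G.tf h0 hz h1
  obtain ⟨ψ, b3, b4, e'⟩ := isRt_of_R G'.tf h0' hn h1'
  have a1 := e.mul_self b2 h2
  have a2 := e'.mul_self b4 h2
  have a3 : n * (z * n * z⁻¹) = z * n * z⁻¹ * n :=
    (e'.conj z).comm_iff.2 (e'.mem_cent_iff.2 fun v => hc _ _ _ _ _ _ v)
  have a4 : n * z * n⁻¹ * z = z * (n * z * n⁻¹) := by
    rw [inv_eq_of_mul_eq_one_left a1] at a3
    rw [inv_eq_of_mul_eq_one_left a2]
    simpa [mul_assoc] using a3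
  have hnM := G'.R_le hx hn
  have a5 := G.mem_TStab (M.mul_mem (M.mul_mem hnM (G.R_le hw hz)) (M.inv_mem hnM)) b1 hw h0 (e.comm_iff.1 a4)
  exact (G.eqv_or_comm (by omega) (Or.inl h3) (lk_act hnM) h0 (R_act G.tf (G.bis hnM) hz) (conj_ne_one h1)
    a5).resolve_left (G'.not_mem (by omega) (Or.inl h3) L.symm hb.symm h0' hn h1')

/-- an odd relation between commuting transvections -/
def OddRel (S₂ : PQ P₂ W) : Prop :=
  ∃ l : List (W × F), Odd l.length ∧ (∀ p ∈ l, S₂.Sing p.1 ∧ p.1 ≠ 0 ∧ p.2 ∈ P₂.Λ ∧ p.2 ≠ 0 ∧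
    ∀ q ∈ l, S₂.B p.1 q.1 = 0) ∧ ∀ x, (l.map fun p => (p.2 * S₂.B x p.1) • p.1).sum = 0

theorem Gd.bad_act (G : Gd S₁ S₂ S M τ) (h2 : 2 ≤ finrank F W)
    (h3 : (2 : F) = 0 → 3 ≤ finrank F W ∧ OddRel S₂) (L : Lk M τ τ') (hb : Bad τ τ')
    {w : W} {hw : S₂.Sing w} (h0 : w ≠ 0) {z : V ≃ₗ[F] V} (hz : z ∈ G.tf.R hw) (h1 : z ≠ 1) :
    Bad τ' (C7a.act z τ') := by
  have h4 : 3 ≤ finrank F W ∨ (2 : F) ≠ 0 := or_iff_not_imp_right.2 fun h => (h3 (not_not.1 h)).1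
  have G' := G.lk L
  refine ⟨G.not_mem h2 h4 L hb h0 hz h1, fun hc => ?_⟩
  obtain ⟨φ, b1, b2, e⟩ := isRt_of_R G.tf h0 hz h1
  by_cases hc2 : (2 : F) = 0
  · obtain ⟨h3, l, c1, c2, c3⟩ := h3 hc2
    obtain ⟨n, hn, hn1⟩ := exists_R_ne_one (h := G'.tf) G.trP hw h0
    obtain ⟨ψ, b3, b4, e'⟩ := isRt_of_R G'.tf h0 hn hn1
    have a1 := G.swap h3 hc2 L hb h0 hz h1 hc h0 hn hn1
    let C : Subgroup (V ≃ₗ[F] V) := ⨅ (χ) (y), cent (rk G'.tf.tens χ y)
    have hC : ∀ g, g ∈ C ↔ ∀ χ y, g ∈ cent (rk G'.tf.tens χ y) := fun g => by simp [C, Subgroup.mem_iInf]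
    have hnC : ∀ g ∈ C, n * g * n⁻¹ ∈ C := fun g hg => (hC _).2 fun χ y v => by
      obtain ⟨a, b, f⟩ := (TStab τ').inv_mem (G'.tf.R_le_TStab hw hn)
      have k1 := rk_of_eqv G'.tf.tens (tens_act G'.tf.tens n⁻¹) f χ y
      have k2 := fun v => rk_act G'.tf.tens n⁻¹ χ y v
      simp only [k1] at k2
      obtain ⟨v, rfl⟩ := n.surjective v
      apply (n⁻¹).injective
      rw [← k2, LinearEquiv.mul_apply, LinearEquiv.mul_apply, ← k2]
      simpa using (hC g).1 hg _ _ v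
    classical
    let r : W × F → V ≃ₗ[F] V := fun p => if h : S₂.Sing p.1 then rootE _ (G.tf.nu_sq h) p.2 else 1
    have hr : ∀ p (hp : p ∈ l), r p = rootE _ (G.tf.nu_sq (c2 p hp).1) p.2 := fun p hp => dif_pos (c2 p hp).1
    have d9 : ∀ p ∈ l, ∀ u x, r p (τ u x) = τ u (x + (p.2 * S₂.B x p.1) • p.1) := fun p hp u x => by
      simp [hr p hp, TF.nu_apply, mul_smul]
    have d8 : ∀ p (hp : p ∈ l), r p ∈ G.tf.R (c2 p hp).1 := fun p hp => hr p hp ▸ rootE_mem (c2 p hp).2.2.1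
    have r1 : ∀ p ∈ l, r p ≠ 1 := fun p hp h => G.tf.nu_ne_zero (c2 p hp).2.1 (LinearMap.ext fun v => by
      simpa [hr p hp, (c2 p hp).2.2.2.1] using LinearEquiv.congr_fun h v)
    have key : ∀ l' : List (W × F), l' ⊆ l →
        (∀ u x, (l'.map r).prod (τ u x) = τ u (x + (l'.map fun p => (p.2 * S₂.B x p.1) • p.1).sum)) ∧
        n ^ l'.length * ((l'.map r).prod * n * (l'.map r).prod⁻¹ * n⁻¹) ∈ C := by
      intro l'
      induction l' with
      | nil => exact fun _ => ⟨by simp, by simpa using C.one_mem⟩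
      | cons p l' ih =>
        intro hl
        have hl' : l' ⊆ l := fun q hq => hl (List.mem_cons_of_mem _ hq)
        have hp : p ∈ l := hl List.mem_cons_self
        obtain ⟨d1, d2⟩ := ih hl'
        have d10 : ∀ x, S₂.B (l'.map fun q => (q.2 * S₂.B x q.1) • q.1).sum p.1 = 0 := fun x => by
          rw [← PQ.lin_apply, map_list_sum, List.sum_eq_zero]
          simp only [List.map_map, List.mem_map]
          rintro _ ⟨q, hq, rfl⟩
          simp [(c2 q (hl' hq)).2.2.2.2 p hp]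
        obtain ⟨χ, f1, f2, f3⟩ := isRt_of_R G.tf (c2 p hp).2.1 (d8 p hp) (r1 p hp)
        have a2 := G'.swap h3 hc2 L.symm hb.symm h0 hn hn1 a1 (c2 p hp).2.1 (d8 p hp) (r1 p hp)
        have f4 : r p * n * (r p)⁻¹ ∈ C := (hC _).2 fun χ y =>
          (e'.conj (r p)).mem_cent_iff.2 fun v => (a2 G'.tf.tens _ χ y _ _ v).symm
        have f5 : Commute (r p) (l'.map r).prod := Commute.list_prod_right _ _ (by
          simp only [List.mem_map]
          rintro _ ⟨q, hq, rfl⟩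
          refine G.tf.eq_of_tens fun u x => ?_
          simp [d9 p hp, d9 q (hl' hq), (c2 q (hl' hq)).2.2.2.2 p hp, (c2 p hp).2.2.2.2 q (hl' hq)]
          abel)
        have f6 : Commute (n * r p * n⁻¹) (l'.map r).prod := Commute.list_prod_right _ _ (by
          simp only [List.mem_map]
          rintro _ ⟨q, hq, rfl⟩
          obtain ⟨χ', -, -, f7⟩ := isRt_of_R G.tf (c2 q (hl' hq)).2.1 (d8 q (hl' hq)) (r1 q (hl' hq))
          exact ((f3.conj n).comm_iff.2 (f7.mem_cent_iff.2 fun v => a1 _ _ _ _ _ _ v)).symm)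
        rw [List.map_cons, List.prod_cons]
        refine ⟨fun u x => by simp [d1, d9 p hp, d10, add_assoc, add_comm], ?_⟩
        have f7 : ∀ k : ℕ, n ^ k * (r p * n * (r p)⁻¹) * (n ^ k)⁻¹ ∈ C := fun k => by
          induction k with
          | zero => simpa using f4
          | succ k ih => convert hnC _ ih using 1; group
        convert mul_mem (f7 (l'.length + 1)) d2 using 1
        generalize (l'.map r).prod = g at f5 f6
        have f8 : n * (r p)⁻¹ * n⁻¹ * g = g * (n * (r p)⁻¹ * n⁻¹) := by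
          rw [show n * (r p)⁻¹ * n⁻¹ = (n * r p * n⁻¹)⁻¹ by group]; exact f6.inv_left
        have f9 : g⁻¹ * (r p)⁻¹ = (r p)⁻¹ * g⁻¹ := f5.inv_inv.eq.symm
        calc n ^ (p :: l').length * (r p * g * n * (r p * g)⁻¹ * n⁻¹)
            = n ^ (l'.length + 1) * r p * (g * n * (g⁻¹ * (r p)⁻¹) * n⁻¹) := by rw [List.length_cons]; group
          _ = n ^ (l'.length + 1) * r p * (g * (n * (r p)⁻¹ * n⁻¹)) * (n * g⁻¹ * n⁻¹) := by rw [f9]; group
          _ = _ := by rw [← f8]; group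
    obtain ⟨d1, d2⟩ := key l fun _ h => h
    rw [G.tf.eq_of_tens (g := (l.map r).prod) (k := 1) fun u x => by simp [d1, c3]] at d2
    obtain ⟨k, hk⟩ := c1
    have d3 : n ∈ C := by simpa [hk, pow_succ, pow_mul, sq, e'.mul_self b4 hc2] using d2
    exact not_comm_rk G'.tf.tens b4 b3 h0 fun χ y => e'.mem_cent_iff.1 ((hC n).1 d3 χ y)
  · have hzM := G.R_le hw hz
    have G1 := G'.act hzM
    have T' := G'.tf.tens
    have T1 := G1.tf.tens
    obtain ⟨s, hs⟩ := G.tf.nd₂.exists_eq h0 1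
    have h0' : S₂.lin w w = 0 := hw.B_self
    have hs : S₂.lin w s = 1 := hs
    generalize S₂.lin w = ψ at h0' hs
    have a1 : Bw (C7a.act z (C7a.act z τ')) w ≤ Bw τ' w := by
      have b1 : ∀ χ y, ∀ v ∈ Bw τ' w, rk T1 χ y v ∈ Bw τ' w := by
        rintro χ y _ ⟨u, rfl⟩
        have := hc T' T1 ψ w χ y (τ' u s)
        rw [rk_tmul, hs, one_smul] at this
        rw [LinearMap.flip_apply, ← this]; exact rk_mem ..
      have b2 : ∀ y, ∀ v ∈ Bw (C7a.act z (C7a.act z τ')) w, rk T1 ψ y v ∈ Bw τ' w := by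
        rintro y _ ⟨u, rfl⟩
        change rk T1 ψ y (z (z (τ' u w))) ∈ _
        rw [IsRt.quad e b2, map_sub, map_smul, ← act_apply, rk_tmul, h0', zero_smul, smul_zero, zero_sub]
        exact neg_mem (b1 _ _ _ ⟨u, rfl⟩)
      rintro _ ⟨u, rfl⟩
      let c := Module.finBasis F W
      change z (z (τ' u w)) ∈ _
      rw [← T1.sum_basis c (z (z (τ' u w)))]
      refine Submodule.sum_mem _ fun i _ => ?_
      have := b2 (c i) (rk T1 (c.coord i) s (z (z (τ' u w)))) (by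
        rw [rk_act T', Bw_act]
        refine ⟨_, ?_, rfl⟩
        have := hc T' T1 (c.coord i) s ψ w (z (τ' u s))
        rw [← act_apply, rk_tmul, hs, one_smul] at this
        rw [← act_apply, this]; exact rk_mem ..)
      rwa [rk_rk, hs, one_smul] at this
    have a2 := G'.eqv_of_le h2 (lk_act (M.mul_mem hzM hzM)) hw h0 h0 a1
    refine G.not_mem h2 h4 L hb h0 (mul_mem hz hz) (fun h => ?_) a2
    obtain ⟨y, hy⟩ := exists_apply_eq_one b1
    obtain ⟨u, hu⟩ := exists_ne (0 : U)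
    have := e.mul e b2 (τ u y)
    rw [h, rk_tmul] at this
    simp [hy, ← two_mul, ← one_add_one_eq_two.symm, hc2, G.tf.tens.ne_zero hu h0] at this

end Cfsg.Agent.H1.C7g
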