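import Cfsg.Agent.H1.C7g

/-!
Linked good structures are equivalent or commute (second factor of dimension at least three).
-/

set_option autoImplicit false
set_option linter.unusedSectionVars false
set_option linter.unusedSimpArgs false

namespace Cfsg.Agent.H1.C7h

open Module Cfsg.Agent.H7 Cfsg.Agent.Form Cfsg.Agent.H3.TenLin Cfsg.Agent.H3.RootGeo Cfsg.Agent.H3.TenForm
  Cfsg.Agent.H3.TenGeo Cfsg.Agent.H3.TenGlue Cfsg.Agent.H1.C7a Cfsg.Agent.H1.C7g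

variable {F : Type*} [Field F] {V : Type*} [AddCommGroup V] [Module F V]
  {U : Type*} [AddCommGroup U] [Module F U] {W : Type*} [AddCommGroup W] [Module F W]
  {P P₁ P₂ : FP F} {S₁ : PQ P₁ U} {S₂ : PQ P₂ W} {S : PQ P V} {τ τ' σ : U →ₗ[F] W →ₗ[F] V}
  {M : Subgroup (V ≃ₗ[F] V)} {w w' : W}

/-- an extremal bad pair -/
structure Ext (S₁ : PQ P₁ U) (S₂ : PQ P₂ W) (S : PQ P V) (M : Subgroup (V ≃ₗ[F] V))
    (τ τ' : U →ₗ[F] W →ₗ[F] V) (w w' : W) : Prop where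
  G : Gd S₁ S₂ S M τ
  L : Lk M τ τ'
  bad : Bad τ τ'
  two : 2 ≤ finrank F W
  odd : (2 : F) = 0 → 3 ≤ finrank F W ∧ OddRel S₂
  sw : S₂.Sing w
  hw : w ≠ 0
  sw' : S₂.Sing w'
  hw' : w' ≠ 0
  max : ∀ (ρ ρ' : U →ₗ[F] W →ₗ[F] V) (x x' : W), Gd S₁ S₂ S M ρ → Lk M ρ ρ' → Bad ρ ρ' → S₂.Sing x → x ≠ 0 →
    S₂.Sing x' → x' ≠ 0 → finrank F ↥(Bw ρ x ⊓ Bw ρ' x') ≤ finrank F ↥(Bw τ w ⊓ Bw τ' w')

theorem Ext.G' (E : Ext S₁ S₂ S M τ τ' w w') : Gd S₁ S₂ S M τ' := E.G.lk E.L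

theorem Ext.symm (E : Ext S₁ S₂ S M τ τ' w w') : Ext S₁ S₂ S M τ' τ w' w :=
  ⟨E.G', E.L.symm, ⟨fun e => E.bad.1 e.symm, fun e => E.bad.2 e.symm⟩, E.two, E.odd, E.sw', E.hw', E.sw, E.hw,
    by rw [inf_comm (Bw τ' w')]; exact E.max⟩

theorem Ext.three (E : Ext S₁ S₂ S M τ τ' w w') : 3 ≤ finrank F W ∨ (2 : F) ≠ 0 :=
  or_iff_not_imp_right.2 fun h => (E.odd (not_not.1 h)).1

variable [FiniteDimensional F U] [FiniteDimensional F W] [FiniteDimensional F V] [Nontrivial U]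

theorem exists_ext (G : Gd S₁ S₂ S M τ) (L : Lk M τ τ') (hb : Bad τ τ') (two : 2 ≤ finrank F W)
    (odd : (2 : F) = 0 → 3 ≤ finrank F W ∧ OddRel S₂) :
    ∃ (ρ ρ' : U →ₗ[F] W →ₗ[F] V) (x x' : W), Ext S₁ S₂ S M ρ ρ' x x' := by
  obtain ⟨x, -, hx0, hx⟩ := G.trP.exists_sing_of_two_le S₂ ⊤ (by rwa [finrank_top])
  classical
  let Q : ℕ → Prop := fun n => ∃ (ρ ρ' : U →ₗ[F] W →ₗ[F] V) (x x' : W), Gd S₁ S₂ S M ρ ∧ Lk M ρ ρ' ∧ Bad ρ ρ' ∧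
    S₂.Sing x ∧ x ≠ 0 ∧ S₂.Sing x' ∧ x' ≠ 0 ∧ finrank F ↥(Bw ρ x ⊓ Bw ρ' x') = n
  obtain ⟨ρ, ρ', y, y', a1, a2, a3, a4, a5, a6, a7, a8⟩ : Q (Nat.findGreatest Q (finrank F V)) :=
    Nat.findGreatest_spec (Submodule.finrank_le _) ⟨τ, τ', x, x, G, L, hb, hx, hx0, hx, hx0, rfl⟩
  refine ⟨ρ, ρ', y, y', a1, a2, a3, two, odd, a4, a5, a6, a7, fun σ σ' s s' b1 b2 b3 b4 b5 b6 b7 => ?_⟩
  rw [a8]
  exact Nat.le_findGreatest (Submodule.finrank_le _) ⟨σ, σ', s, s', b1, b2, b3, b4, b5, b6, b7, rfl⟩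

theorem Ext.I (E : Ext S₁ S₂ S M τ τ' w w') {y : W} (hy : S₂.Sing y) (h0 : y ≠ 0) (hwy : S₂.B w y = 0) {t : V}
    (ht : t ∈ Bw τ' w') (h : E.G.tf.nu y t ∈ Bw τ' w') : t ∈ Bw τ w := by
  obtain ⟨z, hz, h1⟩ := exists_R_ne_one (h := E.G.tf) E.G.trP hy h0
  have hzM := E.G.R_le hy hz
  have h2 := E.max _ _ w' w' E.G' (lk_act hzM) (E.G.bad_act E.two E.odd E.L E.bad h0 hz h1) E.sw' E.hw' E.sw' E.hw'
  have h3 : ∀ v ∈ Bw τ w, z v = v := fun v hv => R_fix hz (E.G.tf.cw_Bw hwy hv)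
  have h4 : Bw τ w ⊓ Bw τ' w' = Bw τ' w' ⊓ Bw (act z τ') w' := Submodule.eq_of_le_of_finrank_le
    (fun v hv => ⟨hv.2, by rw [Bw_act]; exact ⟨v, hv.2, h3 v hv.1⟩⟩) h2
  have h5 : z t ∈ Bw τ w ⊓ Bw τ' w' := by
    obtain ⟨c, -, e⟩ := hz
    rw [h4, Bw_act]; exact ⟨by rw [e]; exact add_mem ht (Submodule.smul_mem _ _ h), t, ht, rfl⟩
  exact z.injective (h3 _ h5.1) ▸ h5.1

theorem Ext.cw_ne (E : Ext S₁ S₂ S M τ τ' w w') {z : W} (hz : S₂.Sing z) (h0 : z ≠ 0) :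
    ¬ ∀ u, E.G.tf.cw z (τ' u w') = 0 := fun hc => by
  obtain ⟨ρ, hρ, h1⟩ := exists_R_ne_one (h := E.G.tf) E.G.trP hz h0
  exact E.G.not_mem E.two E.three E.L E.bad h0 hρ h1
    (E.G'.stab w' E.sw' E.hw' ρ (E.G.R_le hz hρ) fun u => ⟨u, (R_fix hρ (hc u)).symm⟩)

theorem Ext.Gam_le (E : Ext S₁ S₂ S M τ τ' w w') {y : W} (hy : S₂.Sing y) :
    Gam (E.G'.tf.nu w') (E.G.tf.nu y) P₂.Λ ≤ M := H3.RootGeo.Gam_le (E.G'.R_le E.sw') (E.G.R_le hy)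

theorem Ext.lemL (E : Ext S₁ S₂ S M τ τ' w w') {y w₁ y₀ : W} (hy : S₂.Sing y) (h0 : y ≠ 0)
    (hA : ∀ a ∈ Bw τ' w', E.G.tf.cw y a = 0 → a ∈ Bw τ y ⊔ Bw τ w₁) (hy₀ : S₂.B y₀ y = 0)
    (hy₀' : y₀ ∉ Submodule.span F {y, w₁}) {δ : V ≃ₗ[F] V} (hδ : δ ∈ Gam (E.G'.tf.nu w') (E.G.tf.nu y) P₂.Λ)
    (hst : ∀ v, δ (E.G.tf.nu y v) ∈ LinearMap.range (E.G.tf.nu y)) :
    δ ∈ E.G.tf.R hy ∨ ∃ x, x ∉ F ∙ y ∧ Bw τ x ≤ Bw τ' w' ⊔ Bw τ y := by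
  have h := E.G.tf
  have hδM := E.Gam_le hy hδ
  have hδb := E.G.bis hδM
  replace hst : ∀ u, δ (τ u y) ∈ Bw τ y := fun u => by
    rw [h.range_nu h0] at hst
    obtain ⟨v, hv⟩ : τ u y ∈ LinearMap.range (h.nu y) := by rw [h.range_nu h0]; exact ⟨u, rfl⟩
    rw [← hv]; exact hst v
  have hsub : ∀ v, δ v - v ∈ Bw τ' w' ⊔ Bw τ y := fun v => by
    have := Gam_sub_mem hδ v
    rwa [E.G'.tf.range_nu E.hw', h.range_nu h0] at this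
  have h1 : ∀ u, δ (τ u y₀) - τ u y₀ ∈ Bw τ y ⊔ Bw τ w₁ := by
    intro u
    obtain ⟨a, ha, b, hb, e⟩ := Submodule.mem_sup.1 (hsub (τ u y₀))
    rw [← e]
    refine add_mem (hA a ha ?_) (Submodule.mem_sup_left hb)
    have := congrArg (h.cw y) e
    rwa [map_add, h.cw_Bw hy.B_self hb, add_zero, map_sub,
      (h.cw_stab h0 h0 (bis_le_sim hδb) hst).2 (by simp [hy₀]), h.cw_apply, hy₀, zero_smul, sub_zero] at this
  obtain ⟨φ, hφ1, hφ2⟩ := exists_dual_one hy₀'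
  obtain ⟨b, eb⟩ := exists_snd_of h.tens (E.G.stab y hy h0 δ hδM hst) hφ1 (fun u => by
    obtain ⟨x, hx, z, hz, e⟩ := Submodule.mem_sup.1 (h1 u)
    rw [← e, map_add, ctr_Bw h.tens (hφ2 _ (Submodule.subset_span (by simp))) hx,
      ctr_Bw h.tens (hφ2 _ (Submodule.subset_span (by simp))) hz, add_zero])
  by_cases hb : ∀ x, b x - x ∈ F ∙ y
  · exact Or.inl (h.mem_R_of E.G.trP hy h0 hδb eb hb)
  push Not at hb
  obtain ⟨x, hx⟩ := hb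
  refine Or.inr ⟨_, hx, ?_⟩
  rintro _ ⟨u, rfl⟩
  simpa [eb] using hsub (τ u x)

theorem Ext.of_bot (E : Ext S₁ S₂ S M τ τ' w w') (hD : Bw τ w ⊓ Bw τ' w' = ⊥) {y : W} (hy : S₂.Sing y)
    (h0 : y ≠ 0) : Ext S₁ S₂ S M τ τ' y w' ∧ Bw τ y ⊓ Bw τ' w' = ⊥ := by
  have h1 := E.max
  rw [hD, finrank_bot] at h1
  refine ⟨⟨E.G, E.L, E.bad, E.two, E.odd, hy, h0, E.sw', E.hw', fun ρ ρ' x x' a b c d e f g =>
    (h1 ρ ρ' x x' a b c d e f g).trans (Nat.zero_le _)⟩, ?_⟩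
  exact Submodule.finrank_eq_zero.1 (Nat.le_zero.1 (h1 _ _ _ _ E.G E.L E.bad hy h0 E.sw' E.hw'))

theorem exists_perp_notMem (hS : S₂.Nondeg) (y : W) (A : Submodule F W) (h : finrank F A + 2 ≤ finrank F W) :
    ∃ y₀, S₂.B y₀ y = 0 ∧ y₀ ∉ A := by
  obtain ⟨y₀, hy₀, hy₀'⟩ := exists_mem_notMem_of_finrank_lt (U := S₂.perp (F ∙ y)) (W := A) (by
    have := hS.finrank_perp (F ∙ y)
    have := finrank_span_singleton_le (F := F) y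
    omega)
  exact ⟨y₀, S₂.mem_perp_span_singleton.1 hy₀, hy₀'⟩

variable [Finite F]

theorem Ext.step (E : Ext S₁ S₂ S M τ τ' w w') (h3 : 3 ≤ finrank F W) {a : F} (ha : a ≠ 0) (ha1 : a ≠ 1)
    (hΛ : ∀ c ∈ P₂.Λ, a * c ∈ P₂.Λ) : ∃ x, x ∉ F ∙ w ∧ Bw τ x ≤ Bw τ' w' ⊔ Bw τ w := by
  by_contra hc
  obtain ⟨y₀, a1, a2⟩ := exists_perp_notMem E.G.tf.nd₂ w (Submodule.span F {w, w}) (by
    have := finrank_span_singleton_le (F := F) w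
    rw [Set.pair_eq_singleton]; omega)
  have := frob_end (hν := E.G.tf.nu_sq E.sw) (E.G.tf.nu_ne_zero E.hw) E.G.trP.ex ha ha1 hΛ fun δ hδ hst =>
    (E.lemL E.sw E.hw (w₁ := w) (fun a h1 h2 => Submodule.mem_sup_left (E.I E.sw E.hw E.sw.B_self h1
      (by simp [TF.nu_apply, h2]))) a1 a2 hδ hst).resolve_right hc
  obtain ⟨z, hz, h1⟩ := exists_R_ne_one (h := E.G'.tf) E.G.trP E.sw' E.hw'
  exact E.G'.not_mem E.two E.three E.L.symm E.bad.symm E.hw' hz h1 (E.G.tf.R_le_TStab E.sw (this (RG_le_Gam' hz)))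

theorem Ext.false_of_three (E : Ext S₁ S₂ S M τ τ' w w') (h3 : 3 ≤ finrank F W) {a : F} (ha : a ≠ 0) (ha1 : a ≠ 1)
    (hΛ : ∀ c ∈ P₂.Λ, a * c ∈ P₂.Λ) : False := by
  have h := E.G.tf.tens
  obtain ⟨x, a1, a2⟩ := E.step h3 ha ha1 hΛ
  have a3 := le_of_Bw_le h (finrank_Bw E.G'.tf.tens E.hw').le E.hw a1 a2
  have hD : Bw τ w ⊓ Bw τ' w' = ⊥ := by
    have hx0 : x ≠ 0 := by rintro rfl; simp at a1
    have k1 := Submodule.finrank_sup_add_finrank_inf_eq (Bw τ w) (Bw τ x)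
    have k2 : Bw τ w ⊓ Bw τ x = ⊥ := eq_bot_iff.2 fun v hv => Bw_inf h a1 hv.1 hv.2
    have k3 := Submodule.finrank_sup_add_finrank_inf_eq (Bw τ w) (Bw τ' w')
    have k4 := Submodule.finrank_mono (sup_le le_sup_left (a2.trans (sup_comm _ _).le) :
      Bw τ w ⊔ Bw τ x ≤ Bw τ w ⊔ Bw τ' w')
    rw [k2, finrank_bot, finrank_Bw h E.hw, finrank_Bw h hx0] at k1
    rw [finrank_Bw h E.hw, finrank_Bw E.G'.tf.tens E.hw'] at k3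
    exact Submodule.finrank_eq_zero.1 (by omega)
  have hne : Submodule.span F {w, x} ≠ ⊤ := fun e => by
    have := finrank_span_pair_le (F := F) w x
    rw [e, finrank_top] at this; omega
  obtain ⟨y, hy, b1, -⟩ := E.G.trP.exists_sing_notMem E.G.tf.nd₂ E.two hne hne
  have hy0 : y ≠ 0 := by rintro rfl; simp at b1
  have E' := (E.of_bot hD hy hy0).1
  obtain ⟨x', b2, b3⟩ := E'.step h3 ha ha1 hΛ
  have b4 := le_of_Bw_le h (finrank_Bw E.G'.tf.tens E.hw').le hy0 b2 b3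
  obtain ⟨φ, c1, c2⟩ := exists_dual_one b1
  refine E.bad.1 (E.G.eqv_of_le E.two E.L E.sw' E.hw' (w := x' - φ x' • y) (fun e => b2 ?_) fun v hv => ?_)
  · rw [sub_eq_zero.1 e]; exact Submodule.smul_mem _ _ (Submodule.mem_span_singleton_self y)
  obtain ⟨s, hs, t, ht, e⟩ := Submodule.mem_sup.1 (a3 hv)
  obtain ⟨_, ⟨u, rfl⟩, _, ⟨u', rfl⟩, e'⟩ := Submodule.mem_sup.1 (b4 hv)
  have := congrArg (h.ctr φ) (e.trans e'.symm)
  rw [map_add, ctr_Bw h (c2 _ (Submodule.subset_span (by simp))) hs,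
    ctr_Bw h (c2 _ (Submodule.subset_span (by simp))) ht] at this
  simp only [add_zero, map_add, LinearMap.flip_apply, h.ctr_apply, c1, one_smul] at this
  refine ⟨u', ?_⟩
  rw [← e', eq_neg_of_add_eq_zero_left this.symm]
  simp [sub_eq_neg_add]

theorem Ext.exists_conj (E : Ext S₁ S₂ S M τ τ' w w') (h4 : 4 ≤ finrank F W) {y : W} (hy : S₂.Sing y) (h0 : y ≠ 0)
    (hwy : S₂.B w y = 0) : ∃ s ∈ M, (∀ a ∈ Bw τ' w', s a ∈ Bw τ y) ∧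
      ∀ v, E.G'.tf.nu w' v = 0 → E.G.tf.cw y v = 0 → s v = v := by
  have h := E.G.tf
  obtain ⟨y₀, a1, a2⟩ := exists_perp_notMem h.nd₂ y (Submodule.span F {y, w}) (by
    have := finrank_span_pair_le (F := F) y w; omega)
  obtain ⟨s, hs, e⟩ := sylow_end (hν := h.nu_sq hy) (E.G'.tf.nu_sq E.sw') (h.nu_ne_zero h0) E.G.trP.ex
    fun δ hδ hst => (E.lemL hy h0 (w₁ := w) (fun a h1 h2 => Submodule.mem_sup_right (E.I hy h0 hwy h1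
      (by simp [TF.nu_apply, h2]))) a1 a2 hδ hst).resolve_right (by
      rintro ⟨x, b1, b2⟩
      have b3 := le_of_Bw_le h.tens (finrank_Bw E.G'.tf.tens E.hw').le h0 b1 b2
      obtain ⟨z, hz0, hz, h1, h2⟩ := exists_sing_perp_two E.G.trP h.nd₂ h4 y x
      refine E.cw_ne hz hz0 fun u => ?_
      obtain ⟨a, ha, b, hb, e⟩ := Submodule.mem_sup.1 (b3 (tmul_mem_Bw u w'))
      rw [← e, map_add, h.cw_Bw h1 ha, h.cw_Bw h2 hb, add_zero])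
  refine ⟨s, E.Gam_le hy hs, fun a ha => ?_, fun v h1 h2 => Gam_fix hs h1 ((h.nu_eq_zero_iff h0).2 h2)⟩
  rw [← E.G'.tf.range_nu E.hw'] at ha
  obtain ⟨v, rfl⟩ := ha
  rw [← h.range_nu h0]; exact e v

theorem Ext.false_of_four (E : Ext S₁ S₂ S M τ τ' w w') (h4 : 4 ≤ finrank F W)
    (h5 : 5 ≤ finrank F W ∨ ∀ a ∈ sim S₁, ∀ α β : F, (∀ u, α • a (a u) + β • a u = u) →
      ∃ (c : F) (u : U), u ≠ 0 ∧ a u = c • u) : False := by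
  have h := E.G.tf
  have : Nontrivial W := Module.nontrivial_of_finrank_pos (R := F) (by omega)
  obtain ⟨y, hy1, hy2, hy⟩ : ∃ y, S₂.B w y = 0 ∧ y ∉ F ∙ w ∧ S₂.Sing y := by
    obtain ⟨y, hy⟩ := h.nd₂.exists_eq E.hw 1
    obtain ⟨z, hz0, hz, h1, h2⟩ := exists_sing_perp_two E.G.trP h.nd₂ h4 w y
    refine ⟨z, h1, fun hm => ?_, hz⟩
    obtain ⟨c, rfl⟩ := Submodule.mem_span_singleton.1 hm
    simp [hy] at h2
    simp [h2] at hz0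
  have h0 : y ≠ 0 := by rintro rfl; simp at hy2
  have hμ : ∀ a ∈ Bw τ' w', E.G'.tf.nu w' a = 0 := fun a ha => by
    rw [TF.nu_apply, E.G'.tf.cw_Bw E.sw'.B_self ha]; simp
  obtain ⟨s, hs, hs1, hs2⟩ := E.exists_conj h4 hy h0 hy1
  obtain ⟨s₀, hs₀, hs₀1, hs₀2⟩ := E.exists_conj h4 E.sw E.hw E.sw.B_self
  have hD : Bw τ w ⊓ Bw τ' w' = ⊥ := eq_bot_iff.2 fun a ha => Bw_inf h.tens hy2 ha.1 (by
    have := hs1 a ha.2; rwa [hs2 a (hμ a ha.2) (h.cw_Bw hy1 ha.1)] at this)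
  have hker : ∀ z, S₂.Sing z → z ≠ 0 → ∀ u, E.G'.tf.nu w' (τ u z) = 0 → u = 0 := fun z hz hz0 u hu => by
    obtain ⟨E', hD'⟩ := E.of_bot hD hz hz0
    have := E'.symm.I E.sw' E.hw' E.sw'.B_self (tmul_mem_Bw u z) (by rw [hu]; exact zero_mem _)
    have : τ u z ∈ Bw τ z ⊓ Bw τ' w' := ⟨tmul_mem_Bw u z, this⟩
    rw [hD'] at this
    exact (h.tens.eq_zero this).resolve_right hz0
  have hinj : Function.Injective (E.G'.tf.nu w' ∘ₗ τ.flip w) := by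
    rw [injective_iff_map_eq_zero]; exact hker w E.sw E.hw
  have hsurj : ∀ v, ∃ u, E.G'.tf.nu w' (v - τ u w) = 0 := fun v => by
    have h1 : LinearMap.range (E.G'.tf.nu w' ∘ₗ τ.flip w) = LinearMap.range (E.G'.tf.nu w') :=
      Submodule.eq_of_le_of_finrank_le (LinearMap.range_comp_le_range _ _) (by
        rw [LinearMap.finrank_range_of_inj hinj, E.G'.tf.range_nu E.hw', finrank_Bw E.G'.tf.tens E.hw'])
    obtain ⟨u, hu⟩ : E.G'.tf.nu w' v ∈ LinearMap.range (E.G'.tf.nu w' ∘ₗ τ.flip w) := h1 ▸ ⟨v, rfl⟩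
    exact ⟨u, by rw [map_sub, ← hu]; simp⟩
  have hs₀3 : (Bw τ' w').map (s₀ : V →ₗ[F] V) = Bw τ w := by
    refine Submodule.eq_of_le_of_finrank_le (by rintro _ ⟨a, ha, rfl⟩; exact hs₀1 a ha) ?_
    rw [LinearEquiv.finrank_map_eq, finrank_Bw E.G'.tf.tens E.hw', finrank_Bw h.tens E.hw]
  have hδ1 : ∀ u, (s * s₀⁻¹) (τ u w) ∈ Bw τ y := fun u => by
    obtain ⟨a, ha, e⟩ : τ u w ∈ (Bw τ' w').map (s₀ : V →ₗ[F] V) := by rw [hs₀3]; exact ⟨u, rfl⟩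
    rw [← e]; simpa using hs1 a ha
  have hδ2 : ∀ u x, S₂.B x w = 0 → S₂.B x y = 0 → ∃ u', E.G'.tf.nu w' (τ u x - τ u' w) = 0 ∧
      (s * s₀⁻¹) (τ u x - τ u' w) = τ u x - τ u' w := fun u x h1 h2 => by
    obtain ⟨u', hu'⟩ := hsurj (τ u x)
    refine ⟨u', hu', ?_⟩
    have e0 := hs₀2 _ hu' (by simp [h1, E.sw.B_self])
    have e1 := hs2 _ hu' (by simp [h2, hy1])
    rw [LinearEquiv.mul_apply, LinearEquiv.coe_inv, (LinearEquiv.symm_apply_eq _).2 e0.symm, e1]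
  have hδM := M.mul_mem hs (M.inv_mem hs₀)
  generalize s * s₀⁻¹ = δ at hδ1 hδ2 hδM
  obtain ⟨a, b, e⟩ := E.G.move E.two E.sw E.hw h0 hδM hδ1
  obtain ⟨φ, c1, c2⟩ := C7a.exists_dual_pair hy2
  obtain ⟨χ, c3, c4⟩ : ∃ χ : Dual F W, χ w = 1 ∧ χ y = 0 := by
    obtain ⟨χ, c3, -⟩ := exists_dual_one (W := (⊥ : Submodule F W)) (x := w) (by simpa using E.hw)
    exact ⟨χ - χ y • φ, by simp [c2, c3], by simp [c1]⟩
  obtain ⟨u₀, hu₀⟩ := exists_ne (0 : U)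
  have c5 : χ (b w) = 0 := by simpa [e, hu₀] using ctr_Bw h.tens c4 (hδ1 u₀)
  have k1 : ∀ u, E.G'.tf.nu w' (τ u y + χ (b y) • τ (a u) w) = 0 ∧
      (φ (b w) * χ (b y)) • a (a u) + φ (b y) • a u = u := fun u => by
    obtain ⟨u', d1, d2⟩ := hδ2 u y (S₂.B_comm_zero hy1) hy.B_self
    have d3 := congrArg (h.tens.ctr χ) d2
    have d4 := congrArg (h.tens.ctr φ) d2
    simp only [map_sub, e, h.tens.ctr_apply, c1, c2, c3, c4, c5, zero_smul, one_smul, sub_zero, zero_sub] at d3 d4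
    obtain rfl : u' = -(χ (b y) • a u) := by rw [d3, neg_neg]
    exact ⟨by simpa using d1, by rw [add_comm]; simpa [mul_smul] using d4⟩
  obtain ⟨c, u, hu, hc⟩ : ∃ (c : F) (u : U), u ≠ 0 ∧ a u = c • u := by
    rcases h5 with h5 | h5
    · obtain ⟨y₀, hy₀, hy₀'⟩ := exists_mem_notMem_of_finrank_lt
        (U := S₂.perp (Submodule.span F {w, y})) (W := Submodule.span F {w, y}) (by
          have := h.nd₂.finrank_perp (Submodule.span F {w, y})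
          have := finrank_span_pair_le (F := F) w y
          omega)
      rw [S₂.mem_perp_span] at hy₀
      obtain ⟨ψ, hψ1, hψ2⟩ := exists_dual_one hy₀'
      obtain ⟨u', -, d2⟩ := hδ2 u₀ y₀ (hy₀ _ (by simp)) (hy₀ _ (by simp))
      have d3 := congrArg (h.tens.ctr ψ) d2
      rw [map_sub, map_sub, ctr_Bw h.tens (hψ2 _ (Submodule.subset_span (by simp))) (hδ1 u'), e] at d3
      simp only [map_sub, h.tens.ctr_apply, hψ1, hψ2 w (Submodule.subset_span (by simp)), zero_smul, one_smul,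
        sub_zero] at d3
      have d4 : ψ (b y₀) ≠ 0 := fun h0 => hu₀ (by rw [← d3, h0, zero_smul])
      exact ⟨(ψ (b y₀))⁻¹, u₀, hu₀, by rw [eq_inv_smul_iff₀ d4, d3]⟩
    · exact h5 a (h.flip.sim_of_tens (bis_le_sim (E.G.bis hδM)) (a := b) fun x u => e u x) _ _ fun u => (k1 u).2
  refine hu (hker (y + (χ (b y) * c) • w) (hy.add (E.sw.smul _) (by simp [S₂.B_comm_zero hy1])) (fun h0 => hy2 ?_) u ?_)
  · rw [eq_neg_of_add_eq_zero_left h0]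
    exact neg_mem (Submodule.smul_mem _ _ (Submodule.mem_span_singleton_self w))
  · simpa [hc, mul_smul] using (k1 u).1

theorem eqv_or_comm_of_gd (G : Gd S₁ S₂ S M τ) (L : Lk M τ τ') (h3 : 3 ≤ finrank F W)
    (odd : (2 : F) = 0 → OddRel S₂)
    (h : (∃ a : F, a ≠ 0 ∧ a ≠ 1 ∧ ∀ c ∈ P₂.Λ, a * c ∈ P₂.Λ) ∨ 5 ≤ finrank F W ∨ 4 ≤ finrank F W ∧
      ∀ a ∈ sim S₁, ∀ α β : F, (∀ u, α • a (a u) + β • a u = u) → ∃ (c : F) (u : U), u ≠ 0 ∧ a u = c • u) :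
    Eqv τ τ' ∨ Comm τ τ' := by
  by_contra hc
  obtain ⟨ρ, ρ', x, x', E⟩ := exists_ext G L (not_or.1 hc) (by omega) fun h2 => ⟨h3, odd h2⟩
  rcases h with ⟨a, h1, h2, h4⟩ | h | ⟨h1, h2⟩
  · exact E.false_of_three h3 h1 h2 h4
  · exact E.false_of_four (by omega) (Or.inl h)
  · exact E.false_of_four h1 (Or.inr h2)

end Cfsg.Agent.H1.C7h
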