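import Cfsg.Agent.H1.C7e
import Cfsg.Agent.H1.C7g

/-!
A normaliser criterion for tensor stabilisers and the parabolic analysis for small second factors.
-/

set_option autoImplicit false
set_option linter.unusedSectionVars false
set_option linter.unusedSimpArgs false

namespace Cfsg.Agent.H1.C7i

open Module Cfsg.Agent.H7 Cfsg.Agent.Form Cfsg.Agent.H3.TenLin Cfsg.Agent.H3.RootGeo Cfsg.Agent.H3.TenForm
  Cfsg.Agent.H3.TenGeo Cfsg.Agent.H3.TenGlue Cfsg.Agent.H3.TenPar Cfsg.Agent.H1.C7a Cfsg.Agent.H1.C7e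
  Cfsg.Agent.H1.C7g

variable {F : Type*} [Field F] {V : Type*} [AddCommGroup V] [Module F V]
  {U : Type*} [AddCommGroup U] [Module F U] {W : Type*} [AddCommGroup W] [Module F W]
  {P P₁ P₂ : FP F} {S₁ : PQ P₁ U} {S₂ : PQ P₂ W} {S : PQ P V} {τ : U →ₗ[F] W →ₗ[F] V}
  {M : Subgroup (V ≃ₗ[F] V)}

theorem exists_lft (h : IsTens τ) [Nontrivial W] {X : End F V} (hX : ∀ ψ x, Commute X (rk h ψ x)) :
    ∃ Z : End F U, X = lft h Z := by
  obtain ⟨w, hw⟩ := exists_ne (0 : W)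
  obtain ⟨χ, hχ, -⟩ := exists_dual_one (W := (⊥ : Submodule F W)) (x := w) (by simpa using hw)
  refine ⟨h.ctr χ ∘ₗ X ∘ₗ τ.flip w, h.ext fun u y => ?_⟩
  have := LinearMap.congr_fun (hX χ y).eq (τ u w)
  rw [End.mul_apply, End.mul_apply, rk_tmul, hχ, one_smul, rk_apply] at this
  rw [this, lft_apply]; rfl

variable [FiniteDimensional F U] [FiniteDimensional F W] [Nontrivial U] [Nontrivial W]

theorem eqv_flip_of_comm (h : IsTens τ) {σ : W →ₗ[F] U →ₗ[F] V} (h' : IsTens σ)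
    (hc : ∀ χ u ψ x, Commute (rk h' χ u) (rk h ψ x)) : Eqv τ.flip σ := by
  choose Z hZ using fun χ u => exists_lft h (hc χ u)
  obtain ⟨u₀, hu₀⟩ := exists_ne (0 : U)
  obtain ⟨w, hw⟩ := exists_ne (0 : W)
  obtain ⟨χ₀, h0, -⟩ := exists_dual_one (W := (⊥ : Submodule F U)) (x := u₀) (by simpa using hu₀)
  obtain ⟨φ, h1, -⟩ := exists_dual_one (W := (⊥ : Submodule F W)) (x := w) (by simpa using hw)
  obtain ⟨s, hs⟩ : ∃ s, Z χ₀ u₀ s ≠ 0 := by
    by_contra hh
    push Not at hh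
    have := LinearMap.congr_fun (hZ χ₀ u₀) (σ w u₀)
    rw [show Z χ₀ u₀ = 0 from LinearMap.ext hh] at this
    simp [h0, h'.ne_zero hw hu₀] at this
  let p := h'.ctr χ₀ (τ s w)
  let b : End F U := h.ctr φ ∘ₗ σ p
  have h2 : ∀ u, σ p u = τ (Z χ₀ u s) w := fun u => by rw [← lft_apply h, ← hZ]; rfl
  have h3 : ∀ u, σ p u = τ (b u) w := fun u => by
    change _ = τ (h.ctr φ (σ p u)) w
    rw [h2, h.ctr_apply, h1, one_smul]
  have h4 : p ≠ 0 := fun e => h.ne_zero hs hw (by rw [← h2, e]; simp)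
  have h5 : Function.Injective b := by
    rw [injective_iff_map_eq_zero]
    intro u hu
    exact (h'.eq_zero (by rw [h3, hu]; simp)).resolve_left h4
  let b' := LinearEquiv.ofInjectiveEndo b h5
  have h6 : Eqv τ.flip (act (h.tcongr b' 1) τ.flip) := ⟨1, b', fun y u => by simp⟩
  refine h6.trans (eqv_of_rk (tens_act h.flip _) h' fun χ u => (tens_act h.flip (h.tcongr b' 1)).ext fun y u' => ?_)
  rw [rk_tmul, hZ]
  have : Z χ u (b u') = χ u' • b u := eq_of_tmul_eq h hw (by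
    rw [← lft_apply h, ← hZ, ← h3, rk_tmul, h3]; simp)
  simp [b', this]

theorem mem_TStab_of_norm (h : IsTens τ) {x : V ≃ₗ[F] V} {A : Set (End F W)}
    (hA : ∀ Z : End F W, (∀ b ∈ A, ∀ y, Z (b y) = b (Z y)) → ∃ c : F, ∀ y, Z y = c • y)
    (hx : ∀ b ∈ A, ∃ b' : End F W, ∀ u y, x (τ u (b y)) = h.tmap LinearMap.id b' (x (τ u y))) : x ∈ TStab τ := by
  have h1 : ∀ Y : End F V, (∀ b ∈ A, ∀ u y, Y (τ u (b y)) = h.tmap LinearMap.id b (Y (τ u y))) →
      ∀ ψ z, Commute Y (rk h ψ z) := by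
    intro Y hY ψ z
    have k1 : ∀ (χ : Dual F U) (b : End F W) v, h.flip.ctr χ (h.tmap LinearMap.id b v) = b (h.flip.ctr χ v) :=
      fun χ b v => h.flip.induction v (by simp) (fun y u => by
        rw [h.flip.ctr_apply, LinearMap.flip_apply, h.tmap_apply, ← LinearMap.flip_apply τ, h.flip.ctr_apply]; simp)
        fun a b ha hb => by simp [ha, hb]
    refine h.ext fun u y => h.flip.eq_zero_of_ctr (x := _ - _) (fun χ => ?_) |> sub_eq_zero.1
    obtain ⟨c, hc⟩ := hA (h.flip.ctr χ ∘ₗ Y ∘ₗ τ u) fun b hb y => by simp [hY b hb, k1]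
    have k2 : rk h ψ z = h.tmap LinearMap.id (ψ.smulRight z) := h.ext fun u y => by simp
    simp only [LinearMap.comp_apply] at hc
    simp [k2, k1, hc, smul_smul, mul_comm]
  obtain ⟨a, b, e⟩ := eqv_flip_of_comm h (tens_act h.flip x⁻¹) fun χ u => h1 _ fun b hb u' y => by
    obtain ⟨b', e⟩ := hx b hb
    have k3 : ∀ v, x (h.tmap LinearMap.id b v) = h.tmap LinearMap.id b' (x v) := fun v =>
      h.induction v (by simp) (fun u y => by simp [e]) fun a b ha hb => by simp [ha, hb]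
    have k4 : ∀ v, rk (tens_act h.flip x⁻¹) χ u v = x⁻¹ (rk h.flip χ u (x v)) := fun v => by
      rw [← rk_act h.flip]; simp
    have k5 : ∀ v, rk h.flip χ u (h.tmap LinearMap.id b' v) = h.tmap LinearMap.id b' (rk h.flip χ u v) := fun v =>
      h.flip.induction v (by simp) (fun y u => by
        rw [rk_tmul, LinearMap.flip_apply, h.tmap_apply, ← LinearMap.flip_apply τ, rk_tmul]; simp)
        fun a b ha hb => by simp [ha, hb]
    apply x.injective
    simp [k3, k4, e, k5]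
  exact (TStab τ).inv_mem_iff.1 ⟨b, a, fun u y => e y u⟩

variable [FiniteDimensional F V]

theorem parabolic_small (h : TF S₁ S₂ S τ) (hP : TrP P₂) (hb : M ≤ bis S) (hM : sisom S₂ ≤ snd τ M) {w : W}
    (hw : S₂.Sing w) (h0 : w ≠ 0) (h3 : (∀ y, S₂.B y w = 0 → y ∈ F ∙ w) ∨ ∃ a, P₂.σ a ≠ a)
    (hQ : ∀ q ∈ M, InQ h w q → q ∈ TStab τ) {t : W ≃ₗ[F] W} (ht : t ∈ sisom S₂) {l κ : F}
    (hl : l * P₂.σ l ≠ 1) (h1 : t w = l • w) (h2 : ∀ y, S₂.B y w = 0 → t y - κ • y ∈ F ∙ w)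
    {x : V ≃ₗ[F] V} (hx : x ∈ M) (hxw : ∀ u, x (τ u w) ∈ Bw τ w) : x ∈ TStab τ := by
  obtain ⟨φ, hφ, -⟩ := exists_dual_one (W := (⊥ : Submodule F W)) (x := w) (by simpa using h0)
  have k1 : ∀ q ∈ M, InQ h w q → ∃ b : W ≃ₗ[F] W, ∀ u y, q (τ u y) = τ u (b y) := fun q hq hq' =>
    exists_snd_of h.tens (hQ q hq hq') hφ fun u => by simp [hq'.fix]
  have k2 : ∀ {q : V ≃ₗ[F] V} {b : W ≃ₗ[F] W}, (∀ u y, q (τ u y) = τ u (b y)) →
      ∀ v, q v = h.tens.tmap LinearMap.id b v := fun e v =>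
    h.tens.induction v (by simp) (fun u y => by simp [e]) fun a b ha hb => by simp [ha, hb]
  have htb : t ∈ bis S₂ := isom_le_bis ht.1
  refine mem_TStab_of_norm h.tens
    (A := {(t : End F W)} ∪ {b | ∃ q ∈ M, InQ h w q ∧ ∀ u y, q (τ u y) = τ u (b y)}) (fun Z hZ => ?_) ?_
  · obtain ⟨z, hz⟩ := h.nd₂.exists_eq h0 1
    have a1 : ∀ y, Z (t y) = t (Z y) := hZ _ (Or.inl rfl)
    have a2 : ∀ y, S₂.B y w = 0 → ∀ s, Z (s + (S₂.B s y - P₂.ε * S₂.Q y * S₂.B s w) • w - (P₂.ε * S₂.B s w) • y) =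
        Z s + (S₂.B (Z s) y - P₂.ε * S₂.Q y * S₂.B (Z s) w) • w - (P₂.ε * S₂.B (Z s) w) • y := fun y hy s => by
      obtain ⟨e, he, -, e1, e2⟩ := exists_eich (h := h) hM hw hy
      simpa using hZ (S₂.eichL w y (S₂.Q y)) (Or.inr ⟨e, he, e1, fun u s => by simp [e2]; module⟩) s
    obtain ⟨c, hc, hc0⟩ := hP.ex
    have hρ := rootE_mem (hν := h.nu_sq hw) hc
    have a3 : ∀ s, S₂.B s w • Z w = S₂.B (Z s) w • w := fun s => by
      have := hZ (1 + c • (S₂.lin w).smulRight w) (Or.inr ⟨_, h.R_le hM hw hρ, ⟨h.R_le_bis hw hρ,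
        fun u => R_fix (hw := hw) hρ (by simp [hw.B_self]), fun v hv => by rw [R_fix (hw := hw) hρ hv]; simp⟩,
        fun u y => by simp [TF.nu_apply]⟩) s
      simpa [hc0] using this
    have a4 : Z w = S₂.B (Z z) w • w := by simpa [hz] using a3 z
    generalize S₂.B (Z z) w = α at a4
    have a5 : ∀ s, S₂.B (Z s) w = α * S₂.B s w := fun s =>
      smul_left_injective F h0 (by simp only [← a3, a4, smul_smul, mul_comm])
    have a6 : ∀ y, S₂.B y w = 0 → Z y - α • y = -(P₂.ε * S₂.B (Z z - α • z) y) • w := fun y hy => by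
      have := a2 y hy z
      simp only [map_sub, map_add, map_smul, a4, a5, hz, mul_one] at this
      rw [← one_smul F (Z y - α • y), ← P₂.εε, PQ.B_sub_left, PQ.B_smul_left]
      linear_combination (norm := module) -P₂.ε • this
    have a7 : ∀ y, S₂.B y w = 0 → S₂.B (Z z - α • z) y = 0 := fun y hy => by
      rcases h3 with h3 | ⟨a, ha⟩
      · obtain ⟨s, rfl⟩ := Submodule.mem_span_singleton.1 (h3 y hy)
        simp [a5]
      · have b1 := a6 (a • y) (by simp [hy])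
        rw [map_smul, smul_comm α, ← smul_sub, a6 y hy, smul_smul, PQ.B_smul_right] at b1
        have b2 := smul_left_injective F h0 b1
        refine mul_left_cancel₀ (sub_ne_zero.2 ha) ?_
        linear_combination P₂.ε * b2 - (P₂.σ a - a) * S₂.B (Z z - α • z) y * P₂.εε
    obtain ⟨β, hβ⟩ : ∃ β : F, β • w = Z z - α • z := Submodule.mem_span_singleton.1 (by
      rw [← h.nd₂.perp_perp (F ∙ w)]
      exact fun y hy => a7 y (S₂.mem_perp_span_singleton.1 hy))
    have a8 : ∀ s, Z s = α • s + (β * S₂.B s w) • w := fun s => by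
      have := a6 (s - S₂.B s w • z) (by simp [hz])
      rw [a7 _ (by simp [hz]), map_sub, map_smul] at this
      linear_combination (norm := module) this - S₂.B s w • hβ
    have a9 : P₂.σ l * S₂.B (t z) w = 1 := by rw [← PQ.B_smul_right, ← h1, htb, hz]
    have a10 := a1 z
    rw [a8, a8 z, map_add, map_smul, map_smul, h1, smul_smul, add_right_inj, hz] at a10
    have a11 : β = 0 := mul_left_cancel₀ (sub_ne_zero.2 hl) (by
      linear_combination β * a9 - P₂.σ l * smul_left_injective F h0 a10)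
    exact ⟨α, fun s => by simp [a8, a11]⟩
  · rintro _ (rfl | ⟨q, hq, hq', e⟩)
    · obtain ⟨g, hg, e⟩ := hM ht
      obtain ⟨a, ha⟩ := exists_of_map_Bw h.tens h0 h0 hxw
      have hl0 : l ≠ 0 := by rintro rfl; simp [h0] at h1
      have a1 : ∀ v, h.cw w v = 0 → g v - κ • v ∈ Bw τ w := fun v hv => by
        obtain ⟨z, hz⟩ := h.nd₂.exists_eq h0 1
        have := H3.TenGen.mem_of_cw h hz (A := (Bw τ w).comap ((g : End F V) - κ • 1)) (fun u y hy => by
          obtain ⟨c, hc⟩ := Submodule.mem_span_singleton.1 (h2 y hy)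
          exact ⟨c • u, by simpa [e] using congrArg (τ u) hc⟩) v
        simpa [hv] using this
      have a2 : ∀ v ∈ Bw τ w, g v = l • v := by rintro _ ⟨u, rfl⟩; simp [e, h1]
      obtain ⟨b, eb⟩ := k1 (x * g * x⁻¹ * g⁻¹) (M.mul_mem (M.mul_mem (M.mul_mem hx hg) (M.inv_mem hx)) (M.inv_mem hg))
        ⟨hb (M.mul_mem (M.mul_mem (M.mul_mem hx hg) (M.inv_mem hx)) (M.inv_mem hg)), fun u => by
          obtain ⟨u, rfl⟩ := a.surjective u
          have : g.symm (τ (a u) w) = x (τ (l⁻¹ • u) w) := by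
            rw [LinearEquiv.symm_apply_eq, ha, e, h1]; simp [smul_smul, hl0]
          simp only [LinearEquiv.mul_apply, LinearEquiv.coe_inv, this, LinearEquiv.symm_apply_apply, e, h1]
          simp [smul_smul, hl0, ha], fun v hv => by
          have b1 : h.cw w (g.symm v) = 0 :=
            (h.cw_stab h0 h0 (bis_le_sim (hb hg)) fun u => ⟨l • u, by simp [e, h1]⟩).1 (by simpa using hv)
          have b2 : h.cw w (x.symm (g.symm v)) = 0 := (h.cw_stab h0 h0 (bis_le_sim (hb hx)) hxw).1 (by simpa using b1)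
          obtain ⟨u, hu⟩ := a1 _ b2
          have b3 := sub_mem (hxw u) (a1 _ b1)
          rw [LinearMap.flip_apply] at hu
          simpa [hu] using b3⟩
      refine ⟨(b : End F W) * t, fun u y => ?_⟩
      have := k2 eb (g (x (τ u y)))
      simp only [LinearEquiv.mul_apply, LinearEquiv.coe_inv, LinearEquiv.symm_apply_apply, e] at this
      rw [LinearEquiv.coe_coe, this, k2 e]
      generalize x (τ u y) = v
      exact h.tens.induction v (by simp) (fun u y => by simp) fun a b ha hb => by simp [ha, hb]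
    · obtain ⟨b', e'⟩ := k1 _ (M.mul_mem (M.mul_mem hx hq) (M.inv_mem hx)) (hq'.conj h0 (bis_le_sim (hb hx)) hxw)
      exact ⟨b', fun u y => by rw [← k2 e', ← e]; simp⟩

end Cfsg.Agent.H1.C7i
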