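import Cfsg.Agent.H1.C7d

/-!
Pure products in an algebra generated by commuting copies of a matrix algebra.
-/

set_option autoImplicit false
set_option linter.unusedSectionVars false
set_option linter.unusedSimpArgs false

namespace Cfsg.Agent.H1.C7j

open Module Cfsg.Agent.H7 Cfsg.Agent.H3.TenLin Cfsg.Agent.H3.TenSL Cfsg.Agent.H1.C7d
open scoped Pointwise

variable {F : Type*} [Field F] {W : Type*} [AddCommGroup W] [Module F W] [FiniteDimensional F W]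
  {R : Type*} [Ring R] [Algebra F R]

/-- rank one operators of a factor -/
noncomputable def Nn (ι : End F W →ₐ[F] R) : Dual F W →ₗ[F] W →ₗ[F] R := (rk1 F W).compr₂ ι.toLinearMap

theorem Nn_apply (ι : End F W →ₐ[F] R) (ψ : Dual F W) (x : W) : Nn ι ψ x = ι (rk1 F W ψ x) := rfl

theorem sum_rk1 (a : End F W) : ∑ l, rk1 F W ((finBasis F W).coord l) (a (finBasis F W l)) = a := by
  ext x
  conv_rhs => rw [← (finBasis F W).sum_repr x, map_sum]
  simp [LinearMap.sum_apply, -Basis.sum_repr]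

theorem sys_Nn (ι : End F W →ₐ[F] R) : Sys (Nn ι) :=
  ⟨fun ψ u χ v => by simp only [Nn_apply, ← map_mul, rk1_mul, map_smul], by
    simp only [Nn_apply, ← map_sum]
    rw [← map_one ι, ← sum_rk1 1]; rfl⟩

theorem mem_of_rk1 {A : Submodule F (End F W)} (h : ∀ ψ x, rk1 F W ψ x ∈ A) (a : End F W) : a ∈ A := by
  rw [← sum_rk1 a]; exact A.sum_mem fun _ _ => h _ _

/-- `X` commutes with a factor -/
def Cm (ι : End F W →ₐ[F] R) (X : R) : Prop := ∀ a, Commute X (ι a)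

theorem cm_of_Nn {ι : End F W →ₐ[F] R} {X : R} (h : ∀ ψ x, Commute X (Nn ι ψ x)) : Cm ι X := fun a => by
  rw [← sum_rk1 a, map_sum]; exact Commute.sum_right _ _ _ fun _ _ => h _ _

theorem Cm.mul {ι : End F W →ₐ[F] R} {X Y : R} (h : Cm ι X) (h' : Cm ι Y) : Cm ι (X * Y) :=
  fun a => (h a).mul_left (h' a)

theorem Cm.smul {ι : End F W →ₐ[F] R} {X : R} (h : Cm ι X) (c : F) : Cm ι (c • X) := fun a => (h a).smul_left c

theorem cm_one (ι : End F W →ₐ[F] R) : Cm ι 1 := fun _ => Commute.one_left _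

theorem cm_E (ι : End F W →ₐ[F] R) (ψ : Dual F W) (u : W) (X : R) : Cm ι (E (Nn ι) ψ u X) :=
  cm_of_Nn fun χ v => by rw [Commute, SemiconjBy, (sys_Nn ι).E_mul, (sys_Nn ι).mul_E]

theorem comm_E {ι : End F W →ₐ[F] R} {C X : R} (h : Commute C X) (hC : Cm ι C) (ψ : Dual F W) (u : W) :
    Commute C (E (Nn ι) ψ u X) := E_comm (fun _ _ => hC _) h ψ u

theorem mem_of_span (ι : End F W →ₐ[F] R) {T : Set (End F W)} (hT : Submodule.span F T = ⊤) {A : Submodule F R}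
    {X : R} (h : ∀ t ∈ T, ∀ Y, Cm ι Y → (∀ C, Commute C X → Cm ι C → Commute C Y) → ι t * Y ∈ A) : X ∈ A := by
  rw [(sys_Nn ι).expand X]
  refine A.sum_mem fun a _ => A.sum_mem fun b _ => ?_
  rw [Nn_apply, (cm_E ι _ _ X _).eq]
  have : Submodule.span F T ≤ A.comap (LinearMap.mulRight F
      (E (Nn ι) ((finBasis F W).coord a) (finBasis F W b) X) ∘ₗ ι.toLinearMap) :=
    Submodule.span_le.2 fun t ht => h t ht _ (cm_E ι _ _ X) fun C h1 h2 => comm_E h1 h2 _ _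
  exact this (hT ▸ Submodule.mem_top)

/-- closure under conjugation by a group of a factor -/
def Cj (G : Subgroup (W ≃ₗ[F] W)) (ι : End F W →ₐ[F] R) (Z : AddSubgroup R) : Prop :=
  ∀ g ∈ G, ∀ X ∈ Z, ι g * X * ι g.symm ∈ Z

/-- closure under scalars -/
def Re (K : Set F) (Z : AddSubgroup R) : Prop := ∀ a ∈ K, ∀ X ∈ Z, a • X ∈ Z

/-- the extraction property -/
def Ex (G : Subgroup (W ≃ₗ[F] W)) (K : Set F) (𝒯 : Set (Set (End F W))) (ι : End F W →ₐ[F] R) : Prop :=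
  ∀ Z : AddSubgroup R, Cj G ι Z → Re K Z → ∀ X ∈ Z, ¬ Cm ι X →
    ∃ T ∈ 𝒯, ∃ t ∈ T, ∃ Y, Y ≠ 0 ∧ Cm ι Y ∧ (∀ C, Commute C X → Cm ι C → Commute C Y) ∧ ι t * Y ∈ Z

/-- transitivity on a type -/
def Tr (G : Subgroup (W ≃ₗ[F] W)) (K : Set F) (T : Set (End F W)) : Prop :=
  ∀ t ∈ T, ∀ t' ∈ T, ∃ g ∈ G, ∃ a ∈ K, t' = a • ((g : End F W) * t * (g.symm : End F W))

variable {G : Subgroup (W ≃ₗ[F] W)} {K : Set F} {𝒯 : Set (Set (End F W))} {Z : AddSubgroup R}

theorem Cj.comap {ι : End F W →ₐ[F] R} (h : Cj G ι Z) {C : R} (hC : Cm ι C) :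
    Cj G ι (Z.comap (AddMonoidHom.mulLeft C)) := fun g hg X hX => by
  have := h g hg _ hX
  simp only [AddMonoidHom.coe_mulLeft, ← mul_assoc, ← (hC _).eq] at this
  simpa [mul_assoc] using this

theorem Re.comap (h : Re K Z) (C : R) : Re K (Z.comap (AddMonoidHom.mulLeft C)) := fun a ha X hX => by
  simpa using h a ha _ hX

variable {I : Type*} [DecidableEq I] {ι : I → End F W →ₐ[F] R}

/-- pure products -/
def Pu (ι : I → End F W →ₐ[F] R) : List (I × Set (End F W)) → Set R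
  | [] => {1}
  | p :: l => {X | ∃ t ∈ p.2, ∃ H ∈ Pu ι l, X = ι p.1 t * H}

theorem Pu.comm {l : List (I × Set (End F W))} {C : R} (hC : ∀ p ∈ l, Cm (ι p.1) C) {H : R} (h : H ∈ Pu ι l) :
    Commute C H := by
  induction l generalizing H with
  | nil => obtain rfl : H = 1 := h; exact Commute.one_right _
  | cons p l ih =>
    obtain ⟨t, -, H, h, rfl⟩ := h
    exact (hC p (by simp) t).mul_right (ih (fun q hq => hC q (by simp [hq])) h)

variable (hc : ∀ i j, i ≠ j → ∀ a, Cm (ι j) (ι i a))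
include hc

theorem Pu.cm {l : List (I × Set (End F W))} {i : I} (hi : i ∉ l.map Prod.fst) {H : R} (h : H ∈ Pu ι l) :
    Cm (ι i) H := fun a =>
  (Pu.comm (fun p hp => hc i p.1 (by rintro rfl; exact hi (List.mem_map_of_mem hp)) a) h).symm

theorem exists_pu (hs : ∀ X, (∀ i, Cm (ι i) X) → ∃ c : F, X = c • 1) (ex : ∀ i, Ex G K 𝒯 (ι i)) (r : Finset I) :
    ∀ Z : AddSubgroup R, (∀ j ∈ r, Cj G (ι j) Z) → Re K Z → ∀ X ∈ Z, X ≠ 0 → (∀ i ∉ r, Cm (ι i) X) →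
      ∃ l : List (I × Set (End F W)), (l.map Prod.fst).Nodup ∧ (∀ p ∈ l, p.1 ∈ r ∧ p.2 ∈ 𝒯) ∧
        (l = [] → ∃ c : F, X = c • 1) ∧ ∃ H ∈ Pu ι l, ∃ c : F, c ≠ 0 ∧ c • H ∈ Z := by
  induction r using Finset.induction_on with
  | empty =>
    intro Z _ _ X hX h0 h
    obtain ⟨c, rfl⟩ := hs X fun i => h i (by simp)
    exact ⟨[], by simp, by simp, fun _ => ⟨c, rfl⟩, 1, rfl, c, fun e => h0 (by simp [e]), hX⟩
  | insert j r hj ih =>
    intro Z h1 h2 X hX h0 h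
    have h3 : ∀ k ∈ r, Cj G (ι k) Z := fun k hk => h1 k (Finset.mem_insert_of_mem hk)
    by_cases hn : Cm (ι j) X
    · obtain ⟨l, a1, a2, a3⟩ := ih Z h3 h2 X hX h0 fun i hi => by
        by_cases hij : i = j
        · rwa [hij]
        · exact h i (by simp [hij, hi])
      exact ⟨l, a1, fun p hp => ⟨Finset.mem_insert_of_mem (a2 p hp).1, (a2 p hp).2⟩, a3⟩
    obtain ⟨T, hT, t, ht, Y, b1, b2, b3, b4⟩ := ex j Z (h1 j (by simp)) h2 X hX hn
    obtain ⟨l, a1, a2, -, H, a3, c, a4, a5⟩ := ih (Z.comap (AddMonoidHom.mulLeft (ι j t)))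
      (fun k hk => (h3 k hk).comap (hc j k (by rintro rfl; exact hj hk) t)) (h2.comap _) Y b4 b1 fun i hi => by
        by_cases hij : i = j
        · rwa [hij]
        · exact fun a => (b3 _ (h i (by simp [hij, hi]) a).symm (hc i j hij a)).symm
    refine ⟨(j, T) :: l, List.nodup_cons.2 ⟨fun hm => ?_, a1⟩, ?_, by simp, _, ⟨t, ht, H, a3, rfl⟩, c, a4,
      by simpa using a5⟩
    · obtain ⟨p, hp, rfl⟩ := List.mem_map.1 hm
      exact hj (a2 p hp).1
    · rintro p (_ | ⟨_, hp⟩)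
      · exact ⟨by simp, hT⟩
      · exact ⟨Finset.mem_insert_of_mem (a2 p hp).1, (a2 p hp).2⟩

theorem pu_trans {l : List (I × Set (End F W))} (hl : (l.map Prod.fst).Nodup)
    (h : ∀ p ∈ l, Tr G K p.2 ∧ Cj G (ι p.1) Z) (hZ : Re K Z) {H H' : R} (h1 : H ∈ Pu ι l) (h2 : H' ∈ Pu ι l)
    {c : F} (h3 : c • H ∈ Z) : c • H' ∈ Z := by
  induction l generalizing Z H H' with
  | nil => obtain rfl : H = 1 := h1; obtain rfl : H' = 1 := h2; exact h3
  | cons p l ih =>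
    obtain ⟨t, ht, H, h1, rfl⟩ := h1
    obtain ⟨t', ht', H', h2, rfl⟩ := h2
    rw [List.map_cons, List.nodup_cons] at hl
    obtain ⟨g, hg, a, ha, e⟩ := (h p (by simp)).1 t ht t' ht'
    have h4 := hZ a ha _ ((h p (by simp)).2 g hg _ h3)
    simpa using ih (Z := Z.comap (AddMonoidHom.mulLeft (ι p.1 t'))) hl.2 (fun q hq => ⟨(h q (by simp [hq])).1,
      (h q (by simp [hq])).2.comap (hc _ _ (by rintro e; exact hl.1 (e ▸ List.mem_map_of_mem hq)) _)⟩)
      (hZ.comap _) h1 h2 (by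
        rw [AddSubgroup.mem_comap]
        convert h4 using 1
        simp [e, mul_assoc, (Pu.cm hc hl.1 h1 _).eq, smul_comm a c])

theorem pu_sq {l : List (I × Set (End F W))} (hl : (l.map Prod.fst).Nodup) {H : R}
    (h : H ∈ Pu ι (l.map fun p => (p.1, p.2 * p.2))) : ∃ H₁ ∈ Pu ι l, ∃ H₂ ∈ Pu ι l, H = H₁ * H₂ := by
  induction l generalizing H with
  | nil => exact ⟨1, rfl, 1, rfl, by rw [one_mul]; exact h⟩
  | cons p l ih =>
    obtain ⟨_, ⟨t, ht, t', ht', rfl⟩, H, h, rfl⟩ := h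
    rw [List.map_cons, List.nodup_cons] at hl
    obtain ⟨H₁, h1, H₂, h2, rfl⟩ := ih hl.2 h
    refine ⟨_, ⟨t, ht, H₁, h1, rfl⟩, _, ⟨t', ht', H₂, h2, rfl⟩, ?_⟩
    simp only [map_mul, mul_assoc]
    rw [← mul_assoc H₁, (Pu.cm hc hl.1 h1 _).eq, mul_assoc]

theorem pu_mul_self {l : List (I × Set (End F W))} (hl : (l.map Prod.fst).Nodup) (h0 : l ≠ [])
    (h : ∀ p ∈ l, ∀ t ∈ p.2, t * t = 0) {H : R} (h1 : H ∈ Pu ι l) : H * H = 0 := by
  obtain ⟨p, l, rfl⟩ := List.exists_cons_of_ne_nil h0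
  obtain ⟨t, ht, H, h1, rfl⟩ := h1
  rw [List.map_cons, List.nodup_cons] at hl
  rw [mul_assoc, ← mul_assoc H, (Pu.cm hc hl.1 h1 _).eq, ← mul_assoc, ← mul_assoc, ← map_mul,
    h p (by simp) t ht]; simp

theorem mem_of_pu (hs : ∀ X, (∀ i, Cm (ι i) X) → ∃ c : F, X = c • 1) {l : List (I × Set (End F W))}
    (h : ∀ p ∈ l, Submodule.span F p.2 = ⊤) {A : Submodule F R} (hA : ∀ H ∈ Pu ι l, H ∈ A) {X : R}
    (hX : ∀ i ∉ l.map Prod.fst, Cm (ι i) X) : X ∈ A := by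
  induction l generalizing A X with
  | nil =>
    obtain ⟨c, rfl⟩ := hs X fun i => hX i (by simp)
    exact A.smul_mem c (hA 1 rfl)
  | cons p l ih =>
    refine mem_of_span (ι p.1) (h p (by simp)) fun t ht Y h1 h2 =>
      ih (A := A.comap (LinearMap.mulLeft F (ι p.1 t))) (fun q hq => h q (by simp [hq]))
        (fun H hH => hA _ ⟨t, ht, H, hH, rfl⟩) fun i hi => ?_
    by_cases hij : i = p.1
    · rwa [hij]
    · exact fun a => (h2 _ (hX i (by rw [List.map_cons, List.mem_cons]; tauto) a).symm (hc i _ hij a)).symm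

end Cfsg.Agent.H1.C7j
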