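import Cfsg.Agent.H1.C7j
import Cfsg.Agent.H3.TenSU

/-!
Levels of a group containing commuting copies of a classical group.
-/

set_option autoImplicit false
set_option linter.unusedSectionVars false
set_option linter.unusedSimpArgs false

namespace Cfsg.Agent.H1.C7k

open Module Cfsg.Agent.H7 Cfsg.Agent.Form Cfsg.Agent.H3.TenLin Cfsg.Agent.H3.TenSL Cfsg.Agent.H3.TenSU
  Cfsg.Agent.H3.TenGen Cfsg.Agent.H1.C7d Cfsg.Agent.H1.C7j
open scoped Pointwise

variable {F : Type*} [Field F] {W : Type*} [AddCommGroup W] [Module F W] [FiniteDimensional F W]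
  {R : Type*} [Ring R] [Algebra F R] {I : Type*} [DecidableEq I]

section gen
variable {P : FP F} {S : PQ P W}

theorem lin_add (x y : W) : S.lin (x + y) = S.lin x + S.lin y := by ext; simp

theorem lin_smul (a : F) (x : W) : S.lin (a • x) = P.σ a • S.lin x := by ext; simp

theorem rk_mul (a b c d : W) : rk S a b * rk S c d = S.B d a • rk S c b := rk1_mul _ _ _ _

theorem eq_zero_of_mul (hS : S.Nondeg) {ι : End F W →ₐ[F] R} {Y : R} (hY : Cm ι Y) {a b : W} (ha : a ≠ 0)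
    (hb : b ≠ 0) (h : Y * ι (rk S a b) = 0) : Y = 0 := by
  obtain ⟨z, hz⟩ := hS.exists_eq ha 1
  obtain ⟨φ, hφ, -⟩ := exists_dual_one (W := (⊥ : Submodule F W)) (x := b) (by simpa using hb)
  rw [← mul_one Y, ← (sys_Nn ι).one, Finset.mul_sum]
  refine Finset.sum_eq_zero fun l _ => ?_
  have : rk1 F W ((finBasis F W).coord l) (finBasis F W l) =
      rk1 F W φ (finBasis F W l) * rk S a b * rk1 F W ((finBasis F W).coord l) z := by
    ext; simp [hz, hφ]
  rw [Nn_apply, this, map_mul, map_mul, ← mul_assoc, ← mul_assoc, (hY _).eq, mul_assoc _ Y, h]; simp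

theorem Cm.one_add_mul {ι : End F W →ₐ[F] R} {Y : R} (h : Cm ι Y) (X : R) (n m : End F W) :
    (1 + X * ι n) * (1 + Y * ι m) = 1 + X * ι n + Y * ι m + X * Y * ι (n * m) := by
  rw [map_mul, mul_assoc X Y, ← mul_assoc Y, (h n).eq]; noncomm_ring

/-- the standing hypotheses -/
structure Lv (S : PQ P W) (G : Subgroup (W ≃ₗ[F] W)) (ι : I → End F W →ₐ[F] R) (𝕄 : Submonoid R)
    (st : R →+ R) : Prop where
  nd : S.Nondeg
  hc : ∀ i j, i ≠ j → ∀ a, Cm (ι j) (ι i a)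
  hs : ∀ X, (∀ i, Cm (ι i) X) → ∃ c : F, X = c • 1
  inv : ∀ X ∈ 𝕄, ∃ Y ∈ 𝕄, X * Y = 1 ∧ Y * X = 1
  mem : ∀ j, ∀ g ∈ G, ι j g ∈ 𝕄
  smul : ∀ (c : F) X, st (c • X) = P.σ c • st X
  mul : ∀ X Y, st (X * Y) = st Y * st X
  one : st 1 = 1
  srk : ∀ j a b, st (ι j (rk S a b)) = P.ε • ι j (rk S b a)
  uni : ∀ X ∈ 𝕄, st X * X = 1

variable {G : Subgroup (W ≃ₗ[F] W)} {ι : I → End F W →ₐ[F] R} {𝕄 : Submonoid R} {st : R →+ R}

theorem Lv.div (L : Lv S G ι 𝕄 st) {X Y T : R} (hX : X ∈ 𝕄) (hY : Y ∈ 𝕄) (e : X = T * Y) : T ∈ 𝕄 := by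
  obtain ⟨Y', h1, h2, -⟩ := L.inv Y hY
  convert 𝕄.mul_mem hX h1 using 1
  rw [e, mul_assoc, h2, mul_one]

theorem Lv.cm_st (L : Lv S G ι 𝕄 st) {j : I} {X : R} (h : Cm (ι j) X) : Cm (ι j) (st X) := cm_of_Nn fun ψ x => by
  obtain ⟨a, rfl⟩ := L.nd.exists_lin ψ
  have := congrArg (fun Y => P.ε • st Y) (h (rk S x a)).eq
  simp only [L.mul, L.srk, mul_smul_comm, smul_mul_assoc, smul_smul, P.εε, one_smul] at this
  exact this.symm

/-- multipliers of an element `X` -/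
def Lv.Ym (L : Lv S G ι 𝕄 st) (o : I) {X : R} (h : Cm (ι o) X) (h2 : X * X = 0) : AddSubgroup (End F W) where
  carrier := {n | 1 + X * ι o n ∈ 𝕄}
  add_mem' := fun {n m} h1 h3 => by
    simpa [Cm.one_add_mul h, h2, mul_add, add_assoc] using 𝕄.mul_mem h1 h3
  zero_mem' := by simp
  neg_mem' := fun {n} h1 => L.div 𝕄.one_mem h1 (by simp [Cm.one_add_mul h, h2, -map_neg]; simp)

/-- the level group -/
def Lv.Z (L : Lv S G ι 𝕄 st) (o : I) : AddSubgroup R where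
  carrier := {X | Cm (ι o) X ∧ ∀ w, S.Sing w → 1 + X * ι o (rk S w w) ∈ 𝕄}
  add_mem' := fun {X Y} h1 h2 => ⟨fun a => (h1.1 a).add_left (h2.1 a), fun w hw => by
    simpa [Cm.one_add_mul h2.1, rk_mul, hw.B_self, add_mul, add_assoc] using 𝕄.mul_mem (h1.2 w hw) (h2.2 w hw)⟩
  zero_mem' := ⟨fun a => Commute.zero_left _, fun w _ => by simp⟩
  neg_mem' := fun {X} h1 => ⟨fun a => (h1.1 a).neg_left, fun w hw => L.div 𝕄.one_mem (h1.2 w hw) (by
    rw [Cm.one_add_mul h1.1]; simp [rk_mul, hw.B_self])⟩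

variable (L : Lv S G ι 𝕄 st) {o : I}

theorem Lv.mem_Z {X : R} : X ∈ L.Z o ↔ Cm (ι o) X ∧ ∀ w, S.Sing w → 1 + X * ι o (rk S w w) ∈ 𝕄 := Iff.rfl

theorem Lv.conj_mem {s s' X : R} (hs : s ∈ 𝕄) (hs' : s' ∈ 𝕄) (e : s * s' = 1) (h1 : Cm (ι o) s) (h2 : Cm (ι o) s')
    (hX : X ∈ L.Z o) : s * X * s' ∈ L.Z o := ⟨(h1.mul hX.1).mul h2, fun w hw => by
  convert 𝕄.mul_mem (𝕄.mul_mem hs (hX.2 w hw)) hs' using 1
  simp only [mul_add, add_mul, mul_one, e, mul_assoc, (h2 _).eq]⟩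

theorem coe_mul_symm (g : W ≃ₗ[F] W) : (g : End F W) * (g.symm : End F W) = 1 := by ext; simp

theorem coe_symm_mul (g : W ≃ₗ[F] W) : (g.symm : End F W) * (g : End F W) = 1 := by ext; simp

theorem Lv.cj {j : I} (hj : j ≠ o) : Cj G (ι j) (L.Z o) := fun g hg _ hX =>
  L.conj_mem (L.mem j g hg) (L.mem j _ (G.inv_mem hg)) (by rw [← map_mul, coe_mul_symm, map_one])
    (L.hc j o hj _) (L.hc j o hj _) hX

theorem Lv.smul_mem (a : F) {X : R} (hX : X ∈ L.Z o) : (a * P.σ a) • X ∈ L.Z o := ⟨hX.1.smul _, fun w hw => by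
  convert hX.2 _ (hw.smul a) using 2
  rw [smul_mul_assoc, ← mul_smul_comm, ← map_smul]
  congr 2; ext; simp [smul_smul]; ring_nf⟩

theorem Lv.st_eq {w : W} (hw : S.Sing w) (h0 : w ≠ 0) {X : R} (hX : X ∈ L.Z o) : st X = -P.ε • X := by
  have h1 := L.uni _ (hX.2 w hw)
  have h2 := L.cm_st hX.1
  rw [map_add, L.one, L.mul, L.srk, smul_mul_assoc, ← (h2 _).eq, ← smul_mul_assoc, Cm.one_add_mul hX.1, rk_mul,
    hw.B_self] at h1
  have h4 := eq_zero_of_mul L.nd (Y := P.ε • st X + X) (fun a => ((h2 a).smul_left _).add_left (hX.1 a)) h0 h0 (by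
    simpa [add_mul, add_assoc] using h1)
  rw [← one_smul F (st X), ← P.εε, mul_smul, eq_neg_of_add_eq_zero_left h4]; simp

theorem Lv.mem_Z_of {w : W} (htr : ∀ y, S.Sing y → y ≠ 0 → ∃ g ∈ G, g ∈ S.isom ∧ g w = y) {X : R}
    (h : Cm (ι o) X) (hX : 1 + X * ι o (rk S w w) ∈ 𝕄) : X ∈ L.Z o := ⟨h, fun y hy => by
  by_cases h0 : y = 0
  · rw [show rk S y y = 0 by ext; simp [h0]]; simp
  obtain ⟨g, hg, hg', rfl⟩ := htr y hy h0
  convert 𝕄.mul_mem (𝕄.mul_mem (L.mem o g hg) hX) (L.mem o _ (G.inv_mem hg)) using 1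
  rw [← cj_rk hg', mul_add, add_mul, mul_one, ← map_mul, ← mul_assoc, ← (h _).eq, mul_assoc, mul_assoc, ← map_mul,
    ← map_mul]
  congr 1
  rw [← map_one (ι o)]; congr 1; exact (coe_mul_symm g).symm⟩

/-- the hermitian closure of the level group -/
def Lv.Zh (L : Lv S G ι 𝕄 st) (o : I) : Submodule F R where
  carrier := {Y | ∀ a : F, a • Y - (P.ε * P.σ a) • st Y ∈ L.Z o}
  add_mem' := fun h1 h2 a => by
    convert add_mem (h1 a) (h2 a) using 1
    rw [map_add]; module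
  zero_mem' := fun a => by simp
  smul_mem' := fun c Y h a => by
    convert h (a * c) using 1
    rw [L.smul, map_mul]; module

/-- the transvection type -/
def Tn (S : PQ P W) : Set (End F W) := {t | ∃ u, S.Sing u ∧ u ≠ 0 ∧ t = rk S u u}

theorem sq_Tn {t : End F W} (h : t ∈ Tn S) : t * t = 0 := by
  obtain ⟨u, hu, -, rfl⟩ := h
  simp [rk_mul, hu.B_self]

theorem span_Tn (hP : TrP P) (hS : S.Nondeg) (h2 : 2 ≤ finrank F W) : Submodule.span F (Tn S * Tn S) = ⊤ := by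
  set A := Submodule.span F (Tn S * Tn S)
  have k1 : ∀ a b, S.Sing a → S.Sing b → S.B a b ≠ 0 → rk S b a ∈ A := fun a b ha hb h => by
    refine (A.smul_mem_iff fun e => h (S.B_comm_zero e)).1 (rk_mul (S := S) a a b b ▸ Submodule.subset_span ?_)
    exact Set.mul_mem_mul ⟨a, ha, by rintro rfl; simp at h, rfl⟩ ⟨b, hb, by rintro rfl; simp at h, rfl⟩
  have k2 : ∀ b a, S.Sing b → b ≠ 0 → rk S b a ∈ A := fun b a hb h0 => by
    obtain ⟨z, hz, e⟩ := exists_sing_partner hS hb h0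
    obtain ⟨l, hl, hl0⟩ := hP.ex
    refine le_of_sing_ne (H := ⊤) (A := A.comap (rk1 F W (S.lin b))) hb trivial ?_ ⟨z, trivial, by simp [e]⟩
      (fun x _ hx h => k1 x b hx hb h) (Submodule.mem_top (x := a))
    have := sub_mem (k1 (z + l • b) b ((hP.sing_iff S _).2 (by
      simp [hz.B_self, hb.B_self, e, S.B_swap z b, σ_of_mem hl, mul_comm])) hb (by simp [e, hb.B_self]))
      (k1 z b hz hb (by simp [e]))
    refine (Submodule.smul_mem_iff _ hl0).1 ?_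
    rw [Submodule.mem_comap]
    convert this using 1
    ext; simp [smul_comm l]
  refine eq_top_iff.2 fun t _ => mem_of_rk1 (fun ψ x => ?_) t
  obtain ⟨c, rfl⟩ := hS.exists_lin ψ
  let A' : Submodule F W :=
    { carrier := {c | rk1 F W (S.lin c) x ∈ A}
      add_mem' := fun h h' => by simpa [lin_add] using add_mem h h'
      zero_mem' := by simp [show S.lin 0 = 0 by ext; simp]
      smul_mem' := fun a c h => by simpa [lin_smul] using A.smul_mem _ h }
  by_contra hn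
  have h3 : A' ≠ ⊤ := fun e => hn (show c ∈ A' from e ▸ Submodule.mem_top)
  obtain ⟨d, hd, h4, -⟩ := hP.exists_sing_notMem hS h2 h3 h3
  exact h4 (k2 d x hd fun e => h4 (e ▸ A'.zero_mem))

theorem Lv.smul_one_mem (L : Lv S (sisom S) ι 𝕄 st) {c : F} (hc : c ∈ P.Λ) : c • (1 : R) ∈ L.Z o :=
  ⟨(cm_one _).smul c, fun w hw => by
    convert L.mem o _ (tau_mem_sisom S hw c (tauOK_of_sing hw hc)) using 1
    rw [smul_mul_assoc, one_mul, ← map_smul, ← map_one (ι o), ← map_add]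
    congr 1; ext; simp [mul_smul]⟩

theorem Lv.swap {j k : I} {s : R} (hs : s ∈ 𝕄) (h1 : Cm (ι o) s) (h2 : ∀ a, s * ι j a = ι k a * s) {c : F}
    {a : End F W} (h : c • ι j a ∈ L.Z o) : c • ι k a ∈ L.Z o := by
  obtain ⟨s', b1, b2, b3⟩ := L.inv s hs
  convert L.conj_mem hs b1 b2 h1 (fun a => ?_) h using 1
  · rw [mul_smul_comm, h2, smul_mul_assoc, mul_assoc, b2, mul_one]
  · calc s' * ι o a = s' * (ι o a * s) * s' := by rw [mul_assoc, mul_assoc, b2, mul_one]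
      _ = _ := by rw [← (h1 a).eq, ← mul_assoc, b3, one_mul]

end gen

variable {σ : F →+* F} {hσ : ∀ a, σ (σ a) = a} {S : PQ (FP.unit σ hσ) W} {Q : Type*} [AddCommGroup Q] [Module F Q]

theorem lemN (hS : S.Nondeg) (p : Dual F W →ₗ[F] W →ₗ[F] Q) {Y : AddSubgroup Q}
    (hr : ∀ a, σ a = a → ∀ x, S.Sing x → a • p (S.lin x) x ∈ Y) {w y : W} (hw : S.Sing w)
    (h0 : w ≠ 0) (hy : S.B y w = 0) {l : F} (hl : l + σ l = 0) : l • (p (S.lin y) w - p (S.lin w) y) ∈ Y := by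
  have hl' : σ l = -l := eq_neg_of_add_eq_zero_right hl
  have h : ∀ x, S.Sing x → p (S.lin x) x ∈ Y := fun x hx => by simpa using hr 1 (map_one σ) x hx
  have k : ∀ x, S.Sing x → S.B x w = 1 → l • (p (S.lin x) w - p (S.lin w) x) ∈ Y := fun x hx e => by
    have e' : S.B w x = 1 := by rw [S.unit_B_swap, e, map_one]
    convert sub_mem (sub_mem (h (x + l • w) ((S.unit_sing _).2 (by simp [hx.B_self, hw.B_self, e, e', hl'])))
      (h x hx)) (hr (l * σ l) (by simp [hσ, mul_comm]) w hw) using 1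
    simp [lin_add, lin_smul, hl']; module
  obtain ⟨z, hz, e⟩ := exists_sing_partner hS hw h0
  obtain ⟨r, hr'⟩ := S.exists_sing_add hw (z := z + y) (by simp [e, hy]) 0
  convert sub_mem (sub_mem (k _ (sing_of_zero_sub hr') (by simp [e, hy, hw.B_self])) (k z hz e))
    (hr (l * (σ r - r)) (by simp [hσ, hl']; ring) w hw) using 1
  simp [lin_add, lin_smul]; module

variable [Finite F] (hne : ∃ a, σ a ≠ a) (h3 : 3 ≤ finrank F W)
include hne h3

theorem lemN' (hS : S.Nondeg) (p : Dual F W →ₗ[F] W →ₗ[F] Q) {A : Submodule F Q}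
    (h : ∀ x, S.Sing x → p (S.lin x) x ∈ A) (ψ : Dual F W) (x : W) (h0 : ψ x = 0) : p ψ x ∈ A := by
  obtain ⟨l, hl0, hl⟩ := H6.SU.exists_tr_zero hne hσ
  have k : ∀ w y, S.Sing w → S.B y w = 0 → p (S.lin y) w ∈ A ∧ p (S.lin w) y ∈ A := fun w y hw hy => by
    by_cases hw0 : w = 0
    · subst hw0; simp [show S.lin 0 = 0 by ext; simp]
    obtain ⟨a, ha⟩ := hne
    have k1 := fun y hy => (A.smul_mem_iff hl0).1
      (lemN hS p (Y := A.toAddSubgroup) (fun a _ x hx => A.smul_mem a (h x hx)) (y := y) hw hw0 hy hl)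
    have k2 : p (S.lin y) w ∈ A := (A.smul_mem_iff (sub_ne_zero.2 ha)).1 (by
      convert sub_mem (k1 (a • y) (by simp [hy])) (A.smul_mem a (k1 y hy)) using 1
      simp [lin_smul]; module)
    exact ⟨k2, by simpa using sub_mem k2 (k1 y hy)⟩
  obtain ⟨a, rfl⟩ := hS.exists_lin ψ
  by_cases ha : S.B a a = 0
  · exact (k a x (H6.SU.sing ha) h0).2
  refine H6.SU.le_of_sing hne ((S.nondegOn_span_singleton ha).perp hS) (A := A.comap (p (S.lin a))) (by
    have := hS.finrank_perp (F ∙ a)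
    have := finrank_span_singleton_le (F := F) a
    omega) (fun y hy h1 => (k y a (H6.SU.sing h1) ?_).1) (S.mem_perp_span_singleton.2 h0)
  exact S.B_comm_zero (S.mem_perp_span_singleton.1 hy)

omit hne [Finite F] in
theorem exists_pair (hS : S.Nondeg) (u : W) (θ : F) : ∃ y y', S.B y u = 0 ∧ S.B y' u = 0 ∧ S.B y' y = θ := by
  obtain ⟨y, hy, hy'⟩ := exists_mem_notMem_of_finrank_lt (U := S.perp (F ∙ u)) (W := F ∙ u) (by
    have := hS.finrank_perp (F ∙ u)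
    have := finrank_span_singleton_le (F := F) u
    omega)
  obtain ⟨y', h1, h2⟩ := hS.exists_perp_eq hy' (σ θ)
  exact ⟨y, y', S.mem_perp_span_singleton.1 hy, S.mem_perp_span_singleton.1 h1, by rw [S.unit_B_swap, h2, hσ]⟩

theorem su_ex (hS : S.Nondeg) (ι : End F W →ₐ[F] R) : Ex (sisom S) {a | σ a = a} {Tn S} ι := by
  intro Z h1 _ X hX hn
  obtain ⟨u, hu, h2⟩ : ∃ u, S.Sing u ∧ ι (rk S u u) * X * ι (rk S u u) ≠ 0 := by
    by_contra hh
    push Not at hh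
    refine hn (cm_of_Nn ((sys_Nn ι).comm_of h3 fun ψ x h0 => ?_))
    refine lemN' hne h3 hS ((LinearMap.mul F R).compl₁₂ (LinearMap.mulRight F X ∘ₗ (Nn ι).flip x) (Nn ι ψ))
      (A := ⊥) (fun u hu => ?_) ψ x h0
    by_cases hu0 : u = 0
    · simp [hu0]
    obtain ⟨z, hz⟩ := hS.exists_eq hu0 1
    obtain ⟨φ, hφ, -⟩ := exists_dual_one (W := (⊥ : Submodule F W)) (x := u) (by simpa using hu0)
    have := congrArg (fun Y => Nn ι φ x * Y * Nn ι ψ z) (hh u hu)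
    simp only [← mul_assoc, show ι (rk S u u) = Nn ι (S.lin u) u from rfl, (sys_Nn ι).mul, hφ, one_smul,
      mul_zero, zero_mul] at this
    rw [mul_assoc, (sys_Nn ι).mul, PQ.lin_apply, hz, one_smul] at this
    simpa using this
  obtain ⟨l, hl0, hl⟩ := H6.SU.exists_tr_zero hne hσ
  obtain ⟨θ, hθ⟩ := hne
  obtain ⟨y, y', a1, a2, a3⟩ := exists_pair h3 hS u θ
  have hc' := tauOK_of_sing hu ((FP.unit_mem σ hσ l).2 hl)
  have e1 : (S.tau u l hc' : End F W) = 1 + l • rk S u u := by ext; simp [mul_smul]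
  have e2 : ((S.tau u l hc').symm : End F W) = 1 - l • rk S u u := by
    ext; simp [PQ.tau_symm_apply, eq_neg_of_add_eq_zero_right hl, mul_smul, sub_eq_add_neg]
  have k1 : l • (ι (rk S u u) * X - X * ι (rk S u u)) - (l * l) • (ι (rk S u u) * X * ι (rk S u u)) ∈ Z := by
    convert sub_mem (h1 _ (tau_mem_sisom S hu l hc') X hX) hX using 1
    simp only [e1, e2, map_add, map_sub, map_one, map_smul, mul_sub, add_mul, smul_mul_assoc, mul_smul_comm,
      one_mul, mul_one]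
    module
  have k2 : ∀ {A B : R} {s : F}, l • (ι (rk S u u) * A - B * ι (rk S u u)) -
      s • (ι (rk S u u) * X * ι (rk S u u)) ∈ Z → ∀ {y q} (hE : S.EichOK u y q),
      l • (ι (rk S u u) * (A * ι (((S.eich u y q hE).symm : End F W) - 1)) -
        ι ((S.eich u y q hE : End F W) - 1) * B * ι (rk S u u)) -
        (0 : F) • (ι (rk S u u) * X * ι (rk S u u)) ∈ Z := fun {A B s} H y q hE => by
    have b1 : ι (S.eich u y q hE) * ι (rk S u u) = ι (rk S u u) := by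
      rw [← map_mul]; congr 1; ext; simp [hu.B_self, S.B_comm_zero hE.perp]
    have b2 : ι (rk S u u) * ι (S.eich u y q hE).symm = ι (rk S u u) := by
      rw [← map_mul]; congr 1; ext x
      have := PQ.B_isom (S.eich_mem _ _ _ hE) ((S.eich u y q hE).symm x) u
      simp [-PQ.eich_apply] at this
      simp [← this, hu.B_self, S.B_comm_zero hE.perp]
    convert sub_mem (h1 _ (eich_mem_sisom S _ _ _ hE) _ H) H using 1
    simp only [map_sub, map_one, mul_sub, sub_mul, smul_mul_assoc, mul_smul_comm, one_mul, mul_one, ← mul_assoc, b1]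
    simp only [mul_assoc, b2]
    module
  have hE := H6.SU.exists_eichOK S hu.B_self a1
  have hE' := H6.SU.exists_eichOK S hu.B_self a2
  have k3 := k2 (k2 k1 hE) hE'
  have e3 : (((S.eich u y _ hE).symm : End F W) - 1) * (((S.eich u y' _ hE').symm : End F W) - 1) =
      -θ • rk S u u := by
    rw [show (S.eich u y _ hE).symm = _ from PQ.eich_inv .., show (S.eich u y' _ hE').symm = _ from PQ.eich_inv ..]
    ext; simp [hu.B_self, a1, a2, S.B_comm_zero a1, a3, smul_smul, mul_comm]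
  have e4 : ((S.eich u y' _ hE' : End F W) - 1) * ((S.eich u y _ hE : End F W) - 1) = -σ θ • rk S u u := by
    ext; simp [hu.B_self, a1, a2, S.B_comm_zero a2, S.unit_B_swap y' y, a3, smul_smul, mul_comm]
  rw [mul_assoc X, ← mul_assoc (ι _) (ι _) X, ← map_mul, ← map_mul, e3, e4] at k3
  refine ⟨_, rfl, _, ⟨u, hu, by rintro rfl; exact h2 (by simp [show rk S 0 0 = 0 by ext; simp]), rfl⟩,
    (l * (σ θ - θ)) • E (Nn ι) (S.lin u) u X, smul_ne_zero (mul_ne_zero hl0 (sub_ne_zero.2 hθ)) fun e => h2 ?_,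
    (cm_E ι _ _ X).smul _, fun C b1 b2 => (comm_E b1 b2 _ _).smul_right _, ?_⟩
  · exact ((sys_Nn ι).E_mul ..).symm.trans (by rw [e, zero_mul])
  · convert k3 using 1
    rw [mul_smul_comm, show ι (rk S u u) = Nn ι (S.lin u) u from rfl, (sys_Nn ι).mul_E]
    simp only [map_smul, smul_mul_assoc, mul_smul_comm, mul_assoc, show ι (rk S u u) = Nn ι (S.lin u) u from rfl]
    module

variable {ι : I → End F W →ₐ[F] R} {𝕄 : Submonoid R} {st : R →+ R} (L : Lv S (sisom S) ι 𝕄 st) {o : I}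

omit h3 in
theorem su_re : Re {a | σ a = a} (L.Z o) := fun a ha X hX => by
  obtain ⟨t, rfl⟩ := exists_norm_eq σ hσ hne a ha
  exact L.smul_mem t hX

theorem su_tr (hS : S.Nondeg) : Tr (sisom S) {a | σ a = a} (Tn S) := by
  rintro _ ⟨u, hu, h0, rfl⟩ _ ⟨u', hu', h0', rfl⟩
  obtain ⟨g, hg, rfl⟩ := su_trans hne hS h3 h0 h0' (by rw [hu.B_self, hu'.B_self])
  exact ⟨g, hg, 1, map_one σ, by rw [one_smul, ← cj_rk hg.1]; rfl⟩

theorem lemP {X X' : R} (hX : X ∈ L.Z o) (hX' : X' ∈ L.Z o) (h2 : X * X = 0) (h2' : X' * X' = 0) :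
    X * X' ∈ L.Zh o := fun a => by
  have : Nontrivial W := Module.nontrivial_of_finrank_pos (R := F) (by omega)
  obtain ⟨w₀, -, h0, hw₀⟩ := (trP_unit σ hσ hne).exists_sing_of_two_le S ⊤ (by rw [finrank_top]; omega)
  rw [L.mul, L.st_eq hw₀ h0 hX, L.st_eq hw₀ h0 hX']
  have hY : Cm (ι o) (a • (X * X') - σ a • (X' * X)) := fun b =>
    (((hX.1.mul hX'.1) b).smul_left _).sub_left (((hX'.1.mul hX.1) b).smul_left _)
  simp only [FP.unit_ε, FP.unit_σ, neg_smul, one_smul, one_mul, neg_mul_neg]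
  refine ⟨hY, fun w hw => ?_⟩
  by_cases hw0 : w = 0
  · rw [show rk S w w = 0 by ext; simp [hw0]]; simp
  obtain ⟨l, hl0, hl⟩ := H6.SU.exists_tr_zero hne hσ
  obtain ⟨y, y', a1, a2, a3⟩ := exists_pair h3 L.nd w (-a / (l * l))
  have k : ∀ {X} (hX : X ∈ L.Z o), X * X = 0 → ∀ y, S.B y w = 0 → 1 + X * ι o (l • (rk S y w - rk S w y)) ∈ 𝕄 :=
    fun hX h2 y hy => lemN L.nd (rk1 F W) (Y := L.Ym o hX.1 h2) (fun a ha x hx => by
      change 1 + _ * ι o (a • rk S x x) ∈ 𝕄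
      simpa using (su_re hne L a ha _ hX).2 x hx) hw hw0 hy hl
  have k1 := k hX h2 y a1
  have k2 := k hX' h2' y' a2
  have e1 : l • (rk S y w - rk S w y) * l • (rk S y' w - rk S w y') = a • rk S w w := by
    ext; simp [hw.B_self, a1, a2, S.B_comm_zero a1, a3, smul_smul]; rw [← neg_smul]; congr 1; field_simp
  have e2 : l • (rk S y' w - rk S w y') * l • (rk S y w - rk S w y) = σ a • rk S w w := by
    ext; simp [hw.B_self, a1, a2, S.B_comm_zero a2, S.unit_B_swap y' y, a3, smul_smul,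
      eq_neg_of_add_eq_zero_right hl]; rw [← neg_smul]; congr 1; field_simp
  have e3 : ∀ y, S.B y w = 0 → rk S w w * l • (rk S y w - rk S w y) = 0 := fun y hy => by
    ext; simp [hw.B_self, hy]
  refine L.div (L.div (𝕄.mul_mem k1 k2) k1 ?_) k2 rfl
  rw [Cm.one_add_mul hX'.1, Cm.one_add_mul hX'.1, e3 y' a2, map_zero, mul_zero, add_zero,
    add_right_comm 1 (_ * ι o (rk S w w)), add_mul _ (_ * ι o (rk S w w)), Cm.one_add_mul hX.1, e1, e2, mul_add, mul_one,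
    mul_assoc (_ - _) _ (X * _), ← mul_assoc (ι o _) X, ← (hX.1 _).eq, mul_assoc X (ι o _), ← map_mul, e3 y a1]
  simp only [map_smul, map_zero, mul_zero, sub_mul, mul_smul_comm, smul_mul_assoc]
  abel

theorem su_levels [Fintype I]
    (hsw : ∀ j k, j ≠ o → k ≠ o → ∃ s ∈ 𝕄, Cm (ι o) s ∧ ∀ a, s * ι j a = ι k a * s) {X : R} (hX : X ∈ L.Z o)
    (hns : ∀ c : F, X ≠ c • 1) {Y : R} (hY : Cm (ι o) Y) : Y ∈ L.Zh o := by
  have hP := trP_unit σ hσ hne
  have key : ∀ l : List (I × Set (End F W)), (l.map Prod.fst).Nodup → l ≠ [] → (∀ p ∈ l, p.2 = Tn S) →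
      (∀ H ∈ Pu ι l, ∃ c : F, c ≠ 0 ∧ c • H ∈ L.Z o) → ∀ Y, (∀ i ∉ l.map Prod.fst, Cm (ι i) Y) → Y ∈ L.Zh o := by
    intro l h1 h2 h4 h5 Y hY
    refine mem_of_pu L.hc L.hs (l := l.map fun p => (p.1, p.2 * p.2)) (by
      simp only [List.mem_map]
      rintro _ ⟨p, hp, rfl⟩
      rw [h4 p hp]; exact span_Tn hP L.nd (by omega)) (fun H hH => ?_) (by simpa using hY)
    obtain ⟨H₁, a1, H₂, a2, rfl⟩ := pu_sq L.hc h1 hH
    obtain ⟨c, b1, b2⟩ := h5 _ a1
    obtain ⟨d, b3, b4⟩ := h5 _ a2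
    have k := fun H hH => pu_mul_self L.hc h1 h2 (fun p hp t ht => sq_Tn (h4 p hp ▸ ht)) (H := H) hH
    simpa [smul_smul, Submodule.smul_mem_iff, b1, b3] using
      lemP hne h3 L b2 b4 (by simp [k _ a1]) (by simp [k _ a2])
  have herm : ∀ Y ∈ L.Zh o, st Y = Y → ∃ c : F, c ≠ 0 ∧ c • Y ∈ L.Z o := fun Y hY e => by
    obtain ⟨a, ha⟩ := hne
    exact ⟨a - σ a, sub_ne_zero.2 ha.symm, by simpa [e, sub_smul] using hY a⟩
  obtain ⟨l, a1, a2, a3, H, a4, c, a5, a6⟩ := exists_pu L.hc L.hs (fun i => su_ex hne h3 L.nd (ι i))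
    (Finset.univ.erase o) _ (fun j hj => L.cj (Finset.ne_of_mem_erase hj)) (su_re hne L) X hX
    (fun e => hns 0 (by simp [e])) fun i hi => by
      obtain rfl : i = o := by simpa using hi
      exact hX.1
  have a7 : l ≠ [] := fun e => (a3 e).elim hns
  obtain ⟨⟨j, T⟩, hj⟩ := List.exists_mem_of_ne_nil l a7
  have hjo : j ≠ o := Finset.ne_of_mem_erase (a2 _ hj).1
  have k1 : ∀ k ≠ o, ∀ t ∈ Tn S, ∃ c : F, c ≠ 0 ∧ c • ι k t ∈ L.Z o := fun k hk t ht => by
    obtain ⟨u, -, -, rfl⟩ := ht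
    obtain ⟨d, b1, b2⟩ := herm _ (key l a1 a7 (fun p hp => (a2 p hp).2) (fun H' hH' => ⟨c, a5,
      pu_trans L.hc a1 (fun p hp => ⟨(a2 p hp).2 ▸ su_tr hne h3 L.nd, L.cj (Finset.ne_of_mem_erase (a2 p hp).1)⟩)
        (su_re hne L) a4 hH' a6⟩) (ι j (rk S u u)) fun i hi =>
      L.hc j i (by rintro rfl; exact hi (List.mem_map_of_mem hj)) _) (by simp [L.srk])
    obtain ⟨s, b3, b4, b5⟩ := hsw j k hjo hk
    exact ⟨d, b1, L.swap b3 b4 b5 b2⟩
  have k2 : ∀ l : List (I × Set (End F W)), (l.map Prod.fst).Nodup → (∀ p ∈ l, p.1 ≠ o ∧ p.2 = Tn S) →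
      ∀ H ∈ Pu ι l, st H = H ∧ ∃ c : F, c ≠ 0 ∧ c • H ∈ L.Z o := by
    intro l
    induction l with
    | nil =>
      rintro - - _ rfl
      obtain ⟨c, b1, b2⟩ := hP.ex
      exact ⟨L.one, c, b2, L.smul_one_mem b1⟩
    | cons p l ih =>
      rintro b1 b2 _ ⟨t, ht, H, hH, rfl⟩
      rw [List.map_cons, List.nodup_cons] at b1
      obtain ⟨b3, d, b4, b5⟩ := ih b1.2 (fun q hq => b2 q (by simp [hq])) H hH
      rw [(b2 p (by simp)).2] at ht
      have b6 : st (ι p.1 t * H) = ι p.1 t * H := by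
        obtain ⟨u, -, -, rfl⟩ := ht
        rw [L.mul, b3, L.srk, FP.unit_ε, one_smul, (Pu.cm L.hc b1.1 hH _).eq]
      obtain ⟨d', b7, b8⟩ := k1 _ (b2 p (by simp)).1 t ht
      refine ⟨b6, ?_⟩
      by_cases hl : l = []
      · subst hl
        obtain rfl : H = 1 := hH
        exact ⟨d', b7, by simpa using b8⟩
      refine herm _ ?_ b6
      simpa [smul_smul, Submodule.smul_mem_iff, b4, b7] using lemP hne h3 L b8 b5 (by simp [← map_mul, sq_Tn ht])
        (by simp [pu_mul_self L.hc b1.2 hl (fun q hq t ht => sq_Tn ((b2 q (by simp [hq])).2 ▸ ht)) hH])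
  have b1 : (((Finset.univ.erase o).toList.map fun j => (j, Tn S)).map Prod.fst).Nodup := by
    simpa [Function.comp_def] using Finset.nodup_toList _
  refine key _ b1 (List.ne_nil_of_mem (a := (j, Tn S)) (by simp [hjo])) (by simp)
    (fun H hH => (k2 _ b1 (by simp) H hH).2) Y fun i hi => ?_
  obtain rfl : i = o := by simpa using hi
  exact hY

end Cfsg.Agent.H1.C7k
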