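import Cfsg.Agent.H1.C7h
import Cfsg.Agent.H1.C7i
import Cfsg.Agent.H1.C7k

/-!
From tensor structures to levels; good structures are permuted.
-/

set_option autoImplicit false
set_option linter.unusedSectionVars false
set_option linter.unusedSimpArgs false

namespace Cfsg.Agent.H1.C7l

open Module Cfsg.Agent.H7 Cfsg.Agent.Form Cfsg.Agent.H3.TenLin Cfsg.Agent.H3.RootGeo Cfsg.Agent.H3.TenForm
  Cfsg.Agent.H3.TenGeo Cfsg.Agent.H3.TenGlue Cfsg.Agent.H3.TenPar Cfsg.Agent.H3.TenSL Cfsg.Agent.H1.C7a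
  Cfsg.Agent.H1.C7e Cfsg.Agent.H1.C7g Cfsg.Agent.H1.C7i Cfsg.Agent.H1.C7j Cfsg.Agent.H1.C7k

variable {F : Type*} [Field F] {V : Type*} [AddCommGroup V] [Module F V]
  {U : Type*} [AddCommGroup U] [Module F U] {W : Type*} [AddCommGroup W] [Module F W]
  {P P₁ P₂ : FP F} {S₁ : PQ P₁ U} {S₂ : PQ P₂ W} {S : PQ P V} {M : Subgroup (V ≃ₗ[F] V)}
  [FiniteDimensional F U] [FiniteDimensional F W] [FiniteDimensional F V]

section two
variable {ρ σ₁ σ₂ : U →ₗ[F] W →ₗ[F] V}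

/-- `a ↦ 1 ⊗ a` -/
noncomputable def rgt (h : IsTens ρ) : End F W →ₐ[F] End F V := lft h.flip

@[simp] theorem rgt_apply (h : IsTens ρ) (a : End F W) (u : U) (w : W) : rgt h a (ρ u w) = ρ u (a w) :=
  lft_apply h.flip a w u

theorem rk_eq (h : IsTens ρ) (ψ : Dual F W) (x : W) : rk h ψ x = C7j.Nn (rgt h) ψ x :=
  h.ext fun u w => by simp [Nn_apply]

theorem cm_lft (h : IsTens ρ) (X : End F U) : Cm (rgt h) (lft h X) := fun a => h.ext fun u w => by simp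

theorem lft_inj [Nontrivial W] (h : IsTens ρ) : Function.Injective (lft h) := fun Y Z e => LinearMap.ext fun u => by
  obtain ⟨w, hw⟩ := exists_ne (0 : W)
  exact eq_of_tmul_eq h hw (by simpa using LinearMap.congr_fun e (ρ u w))

theorem eqv_of_comm_comm [Nontrivial U] [Nontrivial W] (hd : finrank F U = finrank F W) (h : IsTens ρ)
    (h1 : IsTens σ₁) (h2 : IsTens σ₂) (c1 : Comm ρ σ₁) (c2 : Comm ρ σ₂) : Eqv σ₁ σ₂ := by
  let e : U ≃ₗ[F] W := LinearEquiv.ofFinrankEq U W hd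
  have k : ∀ {σ : U →ₗ[F] W →ₗ[F] V}, IsTens σ → Comm ρ σ →
      Eqv ρ.flip (σ.compl₁₂ (e.symm : W →ₗ[F] U) (e : U →ₗ[F] W)) := fun {σ} h' c => by
    have h3 : IsTens (σ.compl₁₂ (e.symm : W →ₗ[F] U) (e : U →ₗ[F] W)) :=
      IsTens.of_equiv ((TensorProduct.congr e.symm e).trans h'.equiv) fun a b => by simp
    refine eqv_flip_of_comm h h3 fun χ u ψ x => ?_
    rw [show rk h3 χ u = rk h' (χ ∘ₗ (e.symm : W →ₗ[F] U)) (e u) from h3.ext fun a b => by rw [rk_tmul]; simp]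
    exact LinearMap.ext fun v => (c _ _ _ _ _ _ v).symm
  obtain ⟨a, b, f⟩ := (k h1 c1).symm.trans (k h2 c2)
  exact ⟨e ≪≫ₗ a ≪≫ₗ e.symm, e.symm ≪≫ₗ b ≪≫ₗ e, fun u w => by simpa using f (e u) (e.symm w)⟩

end two

/-- a linear group as a submonoid of the endomorphism ring -/
def mon (M : Subgroup (V ≃ₗ[F] V)) : Submonoid (End F V) :=
  M.toSubmonoid.map LinearEquiv.automorphismGroup.toLinearMapMonoidHom

theorem mem_mon {X : End F V} : X ∈ mon M ↔ ∃ g ∈ M, (g : End F V) = X := Iff.rfl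

/-- the adjoint, additively -/
noncomputable def adjH (hS : S.Nondeg) : End F V →+ End F V :=
  AddMonoidHom.mk' (adj hS) fun X Y => adj_eq hS fun u a => by simp [B_adj]

theorem adjH_eq (hS : S.Nondeg) {X Y : End F V} (h : ∀ u a, S.B (X u) a = S.B u (Y a)) : adjH hS X = Y := adj_eq hS h

theorem adjH_tens {ρ : U →ₗ[F] W →ₗ[F] V} (h : TF S₁ S₂ S ρ) (hS : S.Nondeg) {X Y : End F V}
    (e : ∀ u w u' w', S.B (X (ρ u w)) (ρ u' w') = S.B (ρ u w) (Y (ρ u' w'))) : adjH hS X = Y :=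
  adjH_eq hS fun x y => h.tens.induction x (by simp) (fun u w => h.tens.induction y (by simp) (e u w)
    fun a b ha hb => by simp [ha, hb]) fun a b ha hb => by simp [ha, hb]

variable {I : Type*} [Fintype I] [DecidableEq I] {τ : I → U →ₗ[F] W →ₗ[F] V}

theorem lv_of (h : ∀ i, TF S₁ S₂ S (τ i)) (hS : S.Nondeg) (hσ : ∀ a, P₂.σ a = P.σ a)
    (hc : ∀ i j, i ≠ j → Comm (τ i) (τ j))
    (hs : ∀ X : End F V, (∀ i ψ x, Commute X (rk (h i).tens ψ x)) → ∃ c : F, X = c • 1) (hS₂ : S₂.Nondeg)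
    (hb : M ≤ bis S) {G : Subgroup (W ≃ₗ[F] W)} (hG : ∀ i, G ≤ snd (τ i) M) :
    Lv S₂ G (fun i => rgt (h i).tens) (mon M) (adjH hS) where
  nd := hS₂
  hc i j hij a := cm_of_Nn fun ψ x => (cm_of_Nn (fun χ y => by
    rw [← rk_eq, ← rk_eq]; exact LinearMap.ext (hc j i hij.symm _ _ _ _ _ _)) a).symm
  hs X hX := hs X fun i ψ x => by rw [rk_eq]; exact hX i _
  inv := by
    rintro _ ⟨g, hg, rfl⟩
    exact ⟨_, ⟨g⁻¹, M.inv_mem hg, rfl⟩, coe_mul_symm g, coe_symm_mul g⟩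
  mem j g hg := by
    obtain ⟨k, hk, e⟩ := hG j hg
    exact ⟨k, hk, (h j).tens.ext fun u w => by simp [e]⟩
  smul c X := by rw [hσ]; exact adj_smul hS c X
  mul X Y := adjH_eq hS fun u a => by simp [adjH, B_adj]
  one := adjH_eq hS fun _ _ => rfl
  srk j a b := adjH_tens (h j) hS fun u w u' w' => by
    simp [(h j).form, ← hσ, S₂.B_swap w' b]; ring
  uni := by
    rintro _ ⟨g, hg, rfl⟩
    exact LinearMap.ext fun v => hS.ext_right fun u => by simp [adjH, B_adj, hb hg _ _]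

theorem one_add_mem {ρ : U →ₗ[F] W →ₗ[F] V} (h : TF S₁ S₂ S ρ) {X : End F U} {w : W} :
    1 + lft h.tens X * rgt h.tens (H3.TenSU.rk S₂ w w) ∈ mon M ↔ HasQ ρ M (X ∘ₗ h.cw w) w := by
  have : ∀ v, (1 + lft h.tens X * rgt h.tens (H3.TenSU.rk S₂ w w)) v = v + ρ ((X ∘ₗ h.cw w) v) w := fun v =>
    h.tens.induction v (by simp) (fun u y => by simp) fun a b ha hb => by
      rw [map_add, ha, hb]; simp only [map_add, LinearMap.add_apply]; abel
  exact exists_congr fun g => and_congr_right fun _ => by simp only [LinearMap.ext_iff, this]; rfl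

variable [Nontrivial U] [Nontrivial W]

/-- exact swaps of factors -/
def Sw (h : ∀ i, IsTens (τ i)) (M : Subgroup (V ≃ₗ[F] V)) : Prop :=
  ∀ o j k, j ≠ o → k ≠ o → ∃ s ∈ M, (∀ ψ x v, s (rk (h o) ψ x v) = rk (h o) ψ x (s v)) ∧
    ∀ ψ x v, s (rk (h j) ψ x v) = rk (h k) ψ x (s v)

theorem Sw.mon {h : ∀ i, IsTens (τ i)} (hs : Sw h M) (o j k : I) (hj : j ≠ o) (hk : k ≠ o) :
    ∃ s ∈ mon M, Cm (rgt (h o)) s ∧ ∀ a, s * rgt (h j) a = rgt (h k) a * s := by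
  obtain ⟨s, h1, h2, h3⟩ := hs o j k hj hk
  refine ⟨s, ⟨s, h1, rfl⟩, cm_of_Nn fun ψ x => by rw [← rk_eq]; exact LinearMap.ext (h2 ψ x), fun a => ?_⟩
  rw [← sum_rk1 a, map_sum, map_sum, Finset.mul_sum, Finset.sum_mul]
  refine Finset.sum_congr rfl fun l _ => ?_
  rw [← Nn_apply, ← Nn_apply, ← rk_eq, ← rk_eq]
  exact LinearMap.ext (h3 _ _)

theorem Sw.link {h : ∀ i, IsTens (τ i)} (hs : Sw h M) (h3 : 3 ≤ Fintype.card I) (i j : I) :
    ∃ s ∈ M, Eqv (τ i) (act s (τ j)) := by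
  obtain ⟨o, h1, h2⟩ : ∃ o, o ≠ i ∧ o ≠ j := by
    by_contra hh
    push Not at hh
    have := Finset.card_le_card (s := Finset.univ) (t := {i, j}) fun o _ => by
      by_cases e : o = i
      · simp [e]
      · simp [hh o e]
    have := Finset.card_le_two (a := i) (b := j)
    simp only [Finset.card_univ] at *
    omega
  obtain ⟨s, a1, -, a2⟩ := hs o j i h2.symm h1.symm
  refine ⟨s, a1, eqv_of_rk (h i) (tens_act (h j) s) fun ψ x => LinearMap.ext fun v => ?_⟩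
  obtain ⟨v, rfl⟩ := s.surjective v
  rw [rk_act (h j), a2]

theorem wr_of (h : ∀ i, IsTens (τ i)) (h2 : 2 ≤ finrank F W) (hc : ∀ i j, i ≠ j → Comm (τ i) (τ j))
    (hs : ∀ X : End F V, (∀ i ψ x, Commute X (rk (h i) ψ x)) → ∃ c : F, X = c • 1)
    (hl : (∀ i j, ∃ s ∈ M, Eqv (τ i) (act s (τ j))) ∨ finrank F U = finrank F W ∧ Nontrivial I)
    (AC : ∀ i, ∀ s ∈ M, ∀ g ∈ M, Eqv (act s (τ i)) (act g (τ i)) ∨ Comm (act s (τ i)) (act g (τ i)))
    {g : V ≃ₗ[F] V} (hg : g ∈ M) : Wr τ g := by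
  obtain ⟨x, hx⟩ := exists_ne (0 : W)
  obtain ⟨y, hy⟩ := exists_notMem_of_ne_top (span_singleton_ne_top h2 x)
  obtain ⟨ψ, a1, a2⟩ := C7a.exists_dual_pair hy
  replace a1 : ψ ≠ 0 := by rintro rfl; simp at a1
  have k1 : ∀ j, ∃ i, Eqv (τ i) (act g (τ j)) := fun j => by
    by_contra hh
    push Not at hh
    rcases hl with hl | ⟨hd, hI⟩
    · obtain ⟨c, hc'⟩ := hs (rk (tens_act (h j) g) ψ x) fun i χ y => LinearMap.ext fun v => by
        obtain ⟨s, b1, b2⟩ := hl i j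
        exact (((AC j s b1 g hg).resolve_left fun e => hh i (b2.trans e)).symm.eqv (tens_act (h j) s) b2.symm) _ _ _ _ _ _ _
      exact not_comm_rk (tens_act (h j) g) a2 a1 hx fun χ y v => by simp [hc']
    · obtain ⟨i, hi⟩ := exists_ne j
      exact hh i (eqv_of_comm_comm hd (h j) (h i) (tens_act (h j) g) (hc j i hi.symm)
        ((AC j 1 M.one_mem g hg).resolve_left (hh j)))
  choose σ hσ using k1
  have k2 : Function.Injective σ := fun j k e => by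
    by_contra hjk
    have := ((hc j k hjk).act (h j) (h k) g).eqv (tens_act (h k) g) ((hσ k).symm.trans (e ▸ hσ j))
    exact not_comm_rk (tens_act (h j) g) a2 a1 hx fun χ y v => this ..
  exact ⟨Equiv.ofBijective σ (Finite.injective_iff_bijective.1 k2), hσ⟩

theorem wr_of_gd (G : ∀ i, Gd S₁ S₂ S M (τ i)) (h2 : 2 ≤ finrank F W) (hc : ∀ i j, i ≠ j → Comm (τ i) (τ j))
    (hs : ∀ X : End F V, (∀ i ψ x, Commute X (rk (G i).tf.tens ψ x)) → ∃ c : F, X = c • 1)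
    (hl : (∀ i j, ∃ s ∈ M, Eqv (τ i) (act s (τ j))) ∨ finrank F U = finrank F W ∧ Nontrivial I)
    (AC : ∀ ρ ρ', Gd S₁ S₂ S M ρ → Lk M ρ ρ' → Eqv ρ ρ' ∨ Comm ρ ρ') {g : V ≃ₗ[F] V} (hg : g ∈ M) : Wr τ g :=
  wr_of (fun i => (G i).tf.tens) h2 hc hs hl (fun i s h1 g h2 => AC _ _ ((G i).act h1)
    ⟨g * s⁻¹, M.mul_mem h2 (M.inv_mem h1), by rw [act_act, inv_mul_cancel_right]⟩) hg

end Cfsg.Agent.H1.C7l
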