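import Cfsg.Agent.H1.C7l
import Cfsg.Agent.H1.C7f
import Cfsg.Agent.H3.TenSU2

/-!
Tensor wreath products in unitary groups.
-/

set_option autoImplicit false
set_option linter.unusedSectionVars false
set_option linter.unusedSimpArgs false

namespace Cfsg.Agent.H1.C7m

open Module Cfsg.Agent.H7 Cfsg.Agent.Form Cfsg.Agent.H3.TenLin Cfsg.Agent.H3.RootGeo Cfsg.Agent.H3.TenForm
  Cfsg.Agent.H3.TenGeo Cfsg.Agent.H3.TenGlue Cfsg.Agent.H3.TenPar Cfsg.Agent.H3.TenGen Cfsg.Agent.H1.C7a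
  Cfsg.Agent.H1.C7e Cfsg.Agent.H1.C7f Cfsg.Agent.H1.C7g Cfsg.Agent.H1.C7h Cfsg.Agent.H1.C7i Cfsg.Agent.H1.C7j
  Cfsg.Agent.H1.C7k Cfsg.Agent.H1.C7l

section abs
variable {F : Type*} [Field F] {V : Type*} [AddCommGroup V] [Module F V]
  {U : Type*} [AddCommGroup U] [Module F U] {W : Type*} [AddCommGroup W] [Module F W]
  [FiniteDimensional F U] [FiniteDimensional F W] [FiniteDimensional F V] {M : Subgroup (V ≃ₗ[F] V)}

theorem eigen_of_mul [Nontrivial U] {a : U ≃ₗ[F] U} {r s : F} (h : ∀ u, a (a u) - (r + s) • a u + (r * s) • u = 0) :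
    ∃ (c : F) (u : U), u ≠ 0 ∧ a u = c • u := by
  obtain ⟨u, hu⟩ := exists_ne (0 : U)
  by_cases h1 : a u - s • u = 0
  · exact ⟨s, u, hu, sub_eq_zero.1 h1⟩
  · exact ⟨r, _, h1, by rw [map_sub, map_smul]; linear_combination (norm := module) h u⟩

variable {σ : F →+* F} {hσ : ∀ a, σ (σ a) = a} {S₁ : PQ (FP.unit σ hσ) U} {S₂ : PQ (FP.unit σ hσ) W}
  {S : PQ (FP.unit σ hσ) V}

include hσ in
theorem four_facts (h : ∀ a, σ a = a → a ≠ 0 → a = 1) :
    (2 : F) = 0 ∧ (∀ x, x ≠ 0 → x * σ x = 1) ∧ ∀ x, σ x ≠ x → x + σ x = 1 := by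
  have h2 : (2 : F) = 0 := by linear_combination -h (-1) (by simp) (by simp)
  refine ⟨h2, fun x hx => h _ (by simp [hσ, mul_comm]) (by simp [hx]), fun x hx => h _ (by simp [hσ, add_comm]) ?_⟩
  exact fun e => hx (by linear_combination e - x * h2)

theorem eigen_four [Nontrivial U] (hne : ∃ a, σ a ≠ a) (h : ∀ a, σ a = a → a ≠ 0 → a = 1) (hS : S₁.Nondeg)
    {a : U ≃ₗ[F] U} (ha : a ∈ sim S₁) (α β : F) (e : ∀ u, α • a (a u) + β • a u = u) :
    ∃ (c : F) (u : U), u ≠ 0 ∧ a u = c • u := by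
  obtain ⟨h2, h3, h4⟩ := four_facts (hσ := hσ) h
  obtain ⟨u₀, hu₀⟩ := exists_ne (0 : U)
  obtain ⟨m, hm, k⟩ := ha
  obtain rfl : m = 1 := h m (by
    obtain ⟨y, hy⟩ := hS.exists_eq hu₀ 1
    have := S₁.unit_B_swap (a y) (a u₀)
    rw [k, k, S₁.unit_B_swap y, hy] at this
    simpa using this.symm) hm
  by_cases hα : α = 0
  · have hβ : β ≠ 0 := by rintro rfl; exact hu₀ (by simpa [hα] using (e u₀).symm)
    exact ⟨β⁻¹, u₀, hu₀, by rw [eq_inv_smul_iff₀ hβ]; simpa [hα] using e u₀⟩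
  have k1 := h3 α hα
  by_cases hβ : β = 0
  · by_cases h5 : σ α = α
    · exact eigen_of_mul (r := 1) (s := 1) fun u => by
        have := e u
        rw [h α h5 hα, hβ] at this
        linear_combination (norm := module) this + h2 • u - h2 • a u
    · exact eigen_of_mul (r := α) (s := α) fun u => by
        have := e u
        rw [hβ] at this
        linear_combination (norm := module) σ α • this - k1 • a (a u) - (α * h2) • a u +
          (α * h4 α h5 - k1 + h4 α h5) • u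
  have k2 : σ β = σ α * β := by
    have b1 : ∀ v, σ α • v + σ β • a v = a (a v) := fun v => hS.ext_right fun u => by
      have := congrArg (S₁.B · (a (a v))) (e u)
      simpa [k, hσ] using this
    have b2 : (σ β + σ α * β) • a u₀ = 0 := by
      linear_combination (norm := module) σ α • e u₀ + b1 u₀ - k1 • a (a u₀)
    have := (smul_eq_zero.1 b2).resolve_right (by simpa using hu₀)
    linear_combination this - σ α * β * h2
  obtain ⟨ω, hω⟩ := hne
  have k3 := h3 ω (by rintro rfl; simp at hω)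
  exact eigen_of_mul (r := ω * σ β) (s := σ ω * σ β) fun u => by
    linear_combination (norm := module) σ α • e u - k1 • a (a u) -
      (σ β * h4 ω hω + k2 + σ α * β * h2) • a u +
      (σ β * σ β * k3 + σ β * k2 + σ α * h3 β hβ + σ α * h2) • u

variable [Finite F]

theorem oddRel (hne : ∃ a, σ a ≠ a) (hS : S₂.Nondeg) (h3 : 3 ≤ finrank F W)
    (hq : (∃ a, σ a = a ∧ a ≠ 0 ∧ a ≠ 1) ∨ 4 ≤ finrank F W) (h2 : (2 : F) = 0) : OddRel S₂ := by
  have hP := trP_unit σ hσ hne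
  obtain ⟨w, -, h0, hw⟩ := hP.exists_sing_of_two_le S₂ ⊤ (by rw [finrank_top]; omega)
  have k : ∀ a, σ a = a → a ∈ (FP.unit σ hσ).Λ := fun a ha => by rw [FP.unit_mem, ha, ← two_mul, h2, zero_mul]
  by_cases h : ∃ a, σ a = a ∧ a ≠ 0 ∧ a ≠ 1
  · obtain ⟨a, a1, a2, a3⟩ := h
    refine ⟨[(w, 1), (w, a), (w, 1 + a)], ⟨1, rfl⟩, ?_, fun x => ?_⟩
    · have : 1 + a ≠ 0 := fun e => a3 (by linear_combination e - h2)
      simp [-FP.unit_mem, hw, h0, hw.B_self, k 1, k a a1, k (1 + a) (by simp [a1]), a2, this]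
    · simp only [List.map_cons, List.map_nil, List.sum_cons, List.sum_nil]
      linear_combination (norm := module) ((1 + a) * S₂.B x w * h2) • w
  push Not at h
  obtain ⟨-, h4, h5⟩ := four_facts (hσ := hσ) h
  obtain ⟨z, -, hz⟩ := exists_sing_partner hS hw h0
  obtain ⟨y, y0, hy, a1, a2⟩ := exists_sing_perp_two hP hS (hq.resolve_left fun ⟨a, b1, b2, b3⟩ => b3 (h a b1 b2)) w z
  obtain ⟨ω, hω⟩ := hne
  have k1 : ∀ a : F, S₂.Sing (w + a • y) ∧ w + a • y ≠ 0 := fun a => ⟨hw.add (hy.smul a) (by simp [a1]), fun e => by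
    simpa [hz, a2] using congrArg (S₂.B z) e⟩
  refine ⟨[(w, 1), (y, 1), (w + (1 : F) • y, 1), (w + ω • y, 1), (w + σ ω • y, 1)], ⟨2, rfl⟩, ?_, fun x => ?_⟩
  · simp [-FP.unit_mem, -one_smul, hw, h0, hy, y0, hw.B_self, hy.B_self, k 1, k1, a1, S₂.B_comm_zero a1]
  · have k3 := h4 ω (by rintro rfl; simp at hω)
    have k4 := h5 ω hω
    simp only [List.map_cons, List.map_nil, List.sum_cons, List.sum_nil, PQ.B_add_right, PQ.B_smul_right,
      FP.unit_σ, hσ, map_one]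
    linear_combination (norm := module) (2 * S₂.B x w * h2 + S₂.B x y * (k4 + h2)) • w +
      (S₂.B x w * (k4 + h2) + S₂.B x y * (2 * k3 + 2 * h2)) • y

theorem exists_Zs [Nontrivial U] (hne : ∃ a, σ a ≠ a) {ρ : U →ₗ[F] W →ₗ[F] V} (h : TF S₁ S₂ S ρ)
    (hM₂ : sisom S₂ ≤ snd ρ M) {w₀ : W} (hw₀ : S₂.Sing w₀) (h0 : w₀ ≠ 0) {q : V ≃ₗ[F] V} (hq : q ∈ M)
    (hQ : InQ h w₀ q) (hqT : q ∉ TStab ρ) : ∃ X ∈ Zs h M hw₀.B_self, ∀ c : F, X ≠ c • LinearMap.id := by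
  refine (exists_Z_or_eta hM₂ hw₀ h0 hq hQ hqT).elim id fun ⟨y, hy, η, e, hη⟩ => ?_
  by_contra hc
  push Not at hc
  obtain ⟨a, ha⟩ := hne
  obtain ⟨c, h1⟩ := hc _ (hasQ_eta hM₂ hw₀ hy hq hQ e)
  obtain ⟨d, h2⟩ := hc _ (hasQ_eta hM₂ hw₀ (y := a • y) (η := a • η) (by simp [hy]) hq hQ fun u => by simp [e])
  rw [adj_smul] at h2
  refine hη ((d - σ a * c) / (σ a - a)) ?_
  apply smul_right_injective _ (sub_ne_zero.2 ha)
  simp only [smul_smul, mul_div_cancel₀ _ (sub_ne_zero.2 ha)]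
  simp only [FP.unit_σ, FP.unit_ε, one_smul] at h1 h2
  linear_combination (norm := module) h2 - σ a • h1

theorem gd_of [Nontrivial U] (hne : ∃ a, σ a ≠ a) {ρ : U →ₗ[F] W →ₗ[F] V} (h : TF S₁ S₂ S ρ) (h3 : 3 ≤ finrank F W)
    (hq : (∃ a, σ a = a ∧ a ≠ 0 ∧ a ≠ 1) ∨ 4 ≤ finrank F W) (hb : M ≤ bis S) (hM₂ : sisom S₂ ≤ snd ρ M)
    (hQ : ∀ w, S₂.Sing w → w ≠ 0 → ∀ q ∈ M, InQ h w q → q ∈ TStab ρ) : Gd S₁ S₂ S M ρ := by
  have hP := trP_unit σ hσ hne
  have : Nontrivial W := Module.nontrivial_of_finrank_pos (R := F) (by omega)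
  refine ⟨h, hP, hb, hM₂, fun w hw h0 x hx e => ?_⟩
  by_cases h4 : 4 ≤ finrank F W
  · exact parabolic hP h4 (hb.trans bis_le_sim) hM₂ hQ hw h0 hx e
  obtain ⟨a, a1, a2, a3⟩ := hq.resolve_right h4
  obtain ⟨l, rfl⟩ := exists_norm_eq σ hσ hne a a1
  obtain ⟨t, ht, e1⟩ := H3.TenSU.su_trans hne h.nd₂ h3 h0 (y := l • w) (by simp [h0, left_ne_zero_of_mul a2])
    (by simp [hw.B_self])
  obtain ⟨w₁, b1, -, b2⟩ := H3.TenSU2.exists_perp_three h.nd₂ (by omega) h0 hw.B_self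
  obtain ⟨α, κ, b3⟩ := b2 (t w₁) (by
    have := PQ.B_isom ht.1 w₁ w
    rw [e1, PQ.B_smul_right, b1] at this
    exact (mul_eq_zero.1 this).resolve_left (right_ne_zero_of_mul a2))
  refine parabolic_small h hP hb hM₂ hw h0 (Or.inr hne) (hQ w hw h0) ht a3 e1 (κ := κ) (fun y hy => ?_) hx e
  obtain ⟨s, r, rfl⟩ := b2 y hy
  exact Submodule.mem_span_singleton.2 ⟨s * (l - κ) + r * α, by rw [map_add, map_smul, map_smul, e1, b3]; module⟩

variable {I : Type*} [Fintype I] [DecidableEq I] {τ : I → U →ₗ[F] W →ₗ[F] V}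

theorem su_wreath (hne : ∃ a, σ a ≠ a) (h : ∀ i, TF S₁ S₂ S (τ i)) (h3 : 3 ≤ finrank F W) (hU : 2 ≤ finrank F U)
    (hq : (∃ a, σ a = a ∧ a ≠ 0 ∧ a ≠ 1) ∨ 4 ≤ finrank F W) (hc : ∀ i j, i ≠ j → Comm (τ i) (τ j))
    (hs : ∀ X : End F V, (∀ i ψ x, Commute X (rk (h i).tens ψ x)) → ∃ c : F, X = c • 1)
    (hM : M ≤ sisom S) (hM₂ : ∀ i, sisom S₂ ≤ snd (τ i) M) (hsw : Sw (fun i => (h i).tens) M)
    (hl : 3 ≤ Fintype.card I ∨ finrank F U = finrank F W ∧ Nontrivial I) :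
    (∀ g ∈ M, Wr τ g) ∨ sisom S ≤ M := by
  have : Nontrivial U := Module.nontrivial_of_finrank_pos (R := F) (by omega)
  have : Nontrivial W := Module.nontrivial_of_finrank_pos (R := F) (by omega)
  have hP := trP_unit σ hσ hne
  have hb : M ≤ bis S := fun g hg => isom_le_bis (hM hg).1
  by_cases hQ : ∀ i w, S₂.Sing w → w ≠ 0 → ∀ q ∈ M, InQ (h i) w q → q ∈ TStab (τ i)
  · refine Or.inl fun g hg => wr_of_gd (fun i => gd_of hne (h i) h3 hq hb (hM₂ i) (hQ i)) (by omega) hc hs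
      (hl.imp_left fun h3 => hsw.link h3) (fun ρ ρ' G L => eqv_or_comm_of_gd G L h3 (oddRel hne G.tf.nd₂ h3 hq) ?_) hg
    by_cases h5 : ∃ a, σ a = a ∧ a ≠ 0 ∧ a ≠ 1
    · obtain ⟨a, a1, a2, a3⟩ := h5
      exact Or.inl ⟨a, a2, a3, fun c hc => by rw [FP.unit_mem] at hc ⊢; rw [map_mul, a1, ← mul_add, hc, mul_zero]⟩
    · exact Or.inr (Or.inr ⟨hq.resolve_left h5, fun a ha =>
        eigen_four hne (fun a b1 b2 => by_contra fun b3 => h5 ⟨a, b1, b2, b3⟩) G.tf.nd₁ ha⟩)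
  right
  push Not at hQ
  obtain ⟨o, w₀, hw₀, h0, q, hq', hQ, hqT⟩ := hQ
  obtain ⟨X, hX, hns⟩ := exists_Zs hne (h o) (hM₂ o) hw₀ h0 hq' hQ hqT
  have L := lv_of h (h o).nd (fun _ => rfl) hc hs (h o).nd₂ hb hM₂
  have k := fun Y => su_levels hne h3 L (hsw.mon o) (L.mem_Z_of (fun y hy y0 => by
    obtain ⟨g, hg, e⟩ := H3.TenSU.su_trans hne L.nd h3 h0 y0 (by rw [hw₀.B_self, hy.B_self])
    exact ⟨g, hg, hg.1, e⟩) (cm_lft _ X) ((one_add_mem (h o)).2 hX)) (fun c e => hns c (lft_inj (h o).tens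
      (e.trans ((h o).tens.ext fun u w => by simp)))) (cm_lft (h o).tens Y)
  have hC : ∀ u w, S₁.Sing u → S₂.Sing w → Ctr S M (τ o u w) := fun u w hu hw => by
    refine ⟨(S.unit_sing _).2 (by simp [(h o).form, hu.B_self]), fun c hc => ?_⟩
    have hc' : c + σ c = 0 := H6.SU.tr_of_tauOK (by simp [(h o).form, hu.B_self]) hc
    obtain ⟨θ, hθ⟩ := exists_trace_one σ hσ hne
    have k1 := (k (H3.TenSU.rk S₁ u u) (c * θ)).2 w hw
    rw [adjH_tens (h o) _ (Y := lft (h o).tens (H3.TenSU.rk S₁ u u)) (fun a b a' b' => by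
      simp [(h o).form, S₁.unit_B_swap a' u]; ring), ← sub_smul, ← map_smul] at k1
    obtain ⟨g, hg, e⟩ := (one_add_mem (h o)).1 k1
    convert hg using 1
    ext v
    simp only [e, PQ.tau_apply, (h o).B_tmul, LinearMap.comp_apply, LinearMap.smul_apply, H3.TenSU.rk_apply,
      map_smul, smul_smul, FP.unit_ε, FP.unit_σ, map_mul, eq_neg_of_add_eq_zero_right hc']
    congr 2
    linear_combination -c * S₁.B ((h o).cw w v) u * hθ
  have h4 : 4 ≤ finrank F V := by rw [(h o).tens.finrank_eq]; nlinarith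
  rcases hq with hq | hq
  · exact (H3.TenSU2.full_of_ctr hne hq (h o) hU h3 hC).sisom_le hne (h o).nd h4
  · obtain ⟨u, -, hu0, hu⟩ := hP.exists_sing_of_two_le S₁ ⊤ (by rwa [finrank_top])
    exact hP.sisom_le_of_all_ctr (h o).nd (Or.inl h4) (ctr_all (h o) hP hP (Or.inl hq) (by omega) hC hu hu0)

theorem exists_fst {P P₂ : FP F} {S : PQ P V} {S₂ : PQ P₂ W} {ρ : U →ₗ[F] W →ₗ[F] V} (h : IsTens ρ) [Nontrivial W]
    (hS : S.Nondeg) (hS₂ : S₂.Nondeg) (hσ : ∀ a, P₂.σ a = P.σ a) {f : U → U → F}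
    (hf : ∀ u w u' w', S.B (ρ u w) (ρ u' w') = f u u' * S₂.B w w') :
    (∀ x y v, f (x + y) v = f x v + f y v) ∧ (∀ (c : F) x v, f (c • x) v = c * f x v) ∧
      (∀ x y, f x y = P.ε * P₂.ε * P.σ (f y x)) ∧ ∀ x, (∀ y, f x y = 0) → x = 0 := by
  obtain ⟨w, hw⟩ := exists_ne (0 : W)
  obtain ⟨z, hz⟩ := hS₂.exists_eq hw 1
  have k : ∀ x y, f x y = S.B (ρ x z) (ρ y w) := fun x y => by rw [hf, hz, mul_one]
  refine ⟨by simp [k], by simp [k], fun x y => ?_, fun x hx => (h.eq_zero (hS _ fun v => ?_)).resolve_right hw⟩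
  · rw [k x, S.B_swap, hf, S₂.B_swap z w, hz, map_mul, ← hσ (_ * _)]; simp; ring
  · exact h.induction v (by simp) (fun a b => by simp [hf, hx]) fun a b ha hb => by simp [ha, hb]

end abs

section std
open Cfsg.Agent.Asch
open scoped Matrix MatrixGroups
variable {F : Type*} [Field F] {s : ℕ} {κ : Type} [Fintype κ] [DecidableEq κ]

/-- the tensor power form -/
def pw {n : ℕ} (c : F) (G : Matrix κ κ F) (σ : F → F) (x y : (Fin n → κ) → F) : F :=
  c * ∑ a, ∑ b, x a * (∏ i, G (a i) (b i)) * σ (y b)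

theorem pw_fac {P : FP F} (S : PQ P (κ → F)) (c : F) (i : Fin (s + 1)) (u u' : (Fin s → κ) → F) (w w' : κ → F) :
    pw c (Geo.gramMatrix S.B) P.σ (fac κ F i u w) (fac κ F i u' w') =
      pw c (Geo.gramMatrix S.B) P.σ u u' * S.B w w' := by
  rw [pw, pw, form_eq_sum S, mul_assoc, Finset.sum_mul_sum, ← (Fin.insertNthEquiv (fun _ => κ) i).sum_comp,
    Fintype.sum_prod_type, Finset.sum_comm]
  congr 1
  refine Finset.sum_congr rfl fun a _ => Finset.sum_congr rfl fun a' _ => ?_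
  rw [Finset.sum_mul_sum, ← (Fin.insertNthEquiv (fun _ => κ) i).sum_comp, Fintype.sum_prod_type, Finset.sum_comm]
  refine Finset.sum_congr rfl fun b _ => Finset.sum_congr rfl fun b' _ => ?_
  rw [Fin.prod_univ_succAbove _ i]
  simp [fac_apply, Fin.insertNthEquiv]; ring

theorem fp_apply (π : Equiv.Perm (Fin s)) (x : (Fin s → κ) → F) (a : Fin s → κ) :
    toLE (fp κ F π) x a = x (a ∘ π) := by
  change (fpM κ F π *ᵥ x) a = _
  simp [fpM, Matrix.mulVec, dotProduct]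

theorem pw_fp (c : F) (G : Matrix κ κ F) (σ : F → F) (π : Equiv.Perm (Fin s)) (x y : (Fin s → κ) → F) :
    pw c G σ (toLE (fp κ F π) x) (toLE (fp κ F π) y) = pw c G σ x y := by
  simp only [pw, fp_apply]
  congr 1
  refine Fintype.sum_equiv (Equiv.arrowCongr π.symm (Equiv.refl κ)) _ _ fun a => ?_
  refine Fintype.sum_equiv (Equiv.arrowCongr π.symm (Equiv.refl κ)) _ _ fun b => ?_
  rw [← Equiv.prod_comp π]; rfl

theorem exists_swap' [Nonempty κ] (i j k : Fin (s + 1)) (hj : j ≠ i) (hk : k ≠ i) :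
    ∃ g : ((Fin (s + 1) → κ) → F) ≃ₗ[F] ((Fin (s + 1) → κ) → F), LinearEquiv.det g = 1 ∧
      ∃ ε : F, (ε = 1 ∨ ε = -1) ∧ ∀ v, g v = ε • toLE (fp κ F (Equiv.swap j k)) v := by
  let g := toLE (fp κ F (Equiv.swap j k))
  obtain ⟨a, ha⟩ := exists_of_comm (tens_fac i) (g := g) fun ψ x v => by
    rw [fp_rk, Equiv.swap_apply_of_ne_of_ne hj.symm hk.symm]
  have h1 : g = (tens_fac i).tcongr a 1 := LinearEquiv.toLinearMap_injective ((tens_fac i).ext fun u w => by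
    simp [ha])
  have h3 : a * a = 1 := by
    obtain ⟨w, hw⟩ := exists_ne (0 : κ → F)
    ext u : 1
    refine eq_of_tmul_eq (tens_fac i) hw ?_
    rw [LinearEquiv.mul_apply, ← ha, ← ha]
    funext x
    simp [g, fp_apply, Function.comp_def]
  have h4 : LinearEquiv.det a ^ 2 = 1 := by rw [sq, ← map_mul, h3, map_one]
  refine ⟨(tens_fac i).tcongr (LinearEquiv.smulOfUnit (LinearEquiv.det a)) 1 * g, ?_, LinearEquiv.det a,
    mul_self_eq_one_iff.1 (by rw [← sq, ← Units.val_pow_eq_pow_val, h4, Units.val_one]), fun v => ?_⟩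
  · have : LinearEquiv.det (LinearEquiv.smulOfUnit (LinearEquiv.det a) : ((Fin s → κ) → F) ≃ₗ[F] _) =
        LinearEquiv.det a ^ (Fintype.card κ ^ s) := by
      ext
      rw [LinearEquiv.coe_det]
      have : (LinearEquiv.smulOfUnit (LinearEquiv.det a) : ((Fin s → κ) → F) ≃ₗ[F] _).toLinearMap =
        (LinearEquiv.det a : F) • LinearMap.id := rfl
      rw [this, LinearMap.det_smul]; simp
    rw [map_mul, h1, IsTens.det_tcongr, IsTens.det_tcongr, this]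
    simp only [map_one, one_pow, mul_one, finrank_fintype_fun_eq_card, ← pow_mul, ← pow_add, ← Nat.succ_mul]
    obtain ⟨n, hn⟩ : Even ((Fintype.card κ ^ s).succ * Fintype.card κ) := by
      rcases Nat.even_or_odd (Fintype.card κ) with h | h
      · exact h.mul_left _
      · exact (h.pow.add_one).mul_right _
    rw [hn, ← two_mul, pow_mul, h4, one_pow]
  · rw [LinearEquiv.mul_apply]
    generalize g v = v
    exact (tens_fac (κ := κ) (F := F) i).induction v (by simp) (fun u w => by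
      rw [IsTens.tcongr_apply]; simp [LinearEquiv.smulOfUnit, Units.smul_def])
      fun x y hx hy => by rw [map_add, hx, hy, smul_add]

theorem wr_of_rk [Nonempty κ] {g : ((Fin (s + 1) → κ) → F) ≃ₗ[F] ((Fin (s + 1) → κ) → F)} (π : Equiv.Perm (Fin (s + 1)))
    (h : ∀ i (ψ : Dual F (κ → F)) x v, g (rk (tens_fac i) ψ x v) = rk (tens_fac (π i)) ψ x (g v)) : Wr (fac κ F) g :=
  ⟨π, fun i => eqv_of_rk (tens_fac _) (tens_act (tens_fac i) _) fun ψ x => LinearMap.ext fun v => by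
    obtain ⟨v, rfl⟩ := g.surjective v
    rw [rk_act (tens_fac i), h]⟩

theorem wr_snd [Nonempty κ] (i : Fin (s + 1)) (b : (κ → F) ≃ₗ[F] (κ → F)) :
    Wr (fac κ F) ((tens_fac i).tcongr 1 b) := ⟨1, fun j => by
  by_cases hj : j = i
  · subst hj; exact tcongr_mem ..
  · obtain ⟨a, ha⟩ := exists_of_comm (tens_fac j) (g := (tens_fac i).tcongr 1 b) fun ψ x v => by
      have k : ∀ v, (tens_fac i).tcongr 1 b v = emb i (LinearMap.toMatrix' (b : End F (κ → F))) *ᵥ v := fun v =>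
        (tens_fac (κ := κ) (F := F) i).induction v (by simp) (fun u w => by
          rw [emb_fac, ← Matrix.toLin'_apply]; simp) fun a b ha hb => by rw [map_add, Matrix.mulVec_add, ha, hb]
      simp only [k, rk_fac, Matrix.mulVec_mulVec, emb_comm hj]
    exact ⟨a, 1, ha⟩⟩

theorem sw_fac [Nonempty κ] {P : FP F} {S : PQ P ((Fin (s + 1) → κ) → F)} {c : F} {G : Matrix κ κ F}
    (hS : ∀ x y, S.B x y = pw c G P.σ x y) {M : Subgroup (((Fin (s + 1) → κ) → F) ≃ₗ[F] ((Fin (s + 1) → κ) → F))}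
    (hM : ∀ g, Wr (fac κ F) g → g ∈ bis S → LinearEquiv.det g = 1 → g ∈ M) : Sw (fun i => tens_fac (κ := κ) i) M := by
  intro o j k hj hk
  obtain ⟨g, h1, ε, h2, e⟩ := exists_swap' (κ := κ) (F := F) o j k hj hk
  have h3 : ∀ i (ψ : Dual F (κ → F)) x v,
      g (rk (tens_fac i) ψ x v) = rk (tens_fac (Equiv.swap j k i)) ψ x (g v) := fun i ψ x v => by
    rw [e, e, fp_rk, map_smul]
  refine ⟨g, hM g (wr_of_rk _ h3) (fun x y => ?_) h1, fun ψ x v => ?_, fun ψ x v => by rw [h3, Equiv.swap_apply_left]⟩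
  · rw [e, e, PQ.B_smul_left, PQ.B_smul_right, hS, pw_fp, hS]
    rcases h2 with rfl | rfl <;> simp
  · rw [h3, Equiv.swap_apply_of_ne_of_ne hj.symm hk.symm]

theorem isMaximalIn_wr {ι : Type} [Fintype ι] [DecidableEq ι] {m : ℕ} (hm : 0 < m) (e : ι ≃ (Fin (s + 1) → Fin m))
    (P : GL ι F) {K : Subgroup (GL ι F)} (K' : Subgroup (((Fin (s + 1) → Fin m) → F) ≃ₗ[F] _))
    (hK : ∀ g, g ∈ K ↔ theta e P g ∈ K') (hne : ¬ K ≤ Geo.tensorWreathSubgroup m (s + 1) e P)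
    (h : ∀ M ≤ K', (∀ g, Wr (fac (Fin m) F) g → g ∈ K' → g ∈ M) → (∀ g ∈ M, Wr (fac (Fin m) F) g) ∨ K' ≤ M) :
    Geo.IsMaximalIn K (Geo.tensorWreathSubgroup m (s + 1) e P ⊓ K) :=
  isMaximalIn_of_equiv (theta e P) _ _ (fun g => g ∈ K')
    (fun g => toLE.symm g ∈ Geo.tensorWreathStandard m (s + 1) F ∧ g ∈ K') hK
    (fun g => by rw [Subgroup.mem_inf, hK, Geo.tensorWreathSubgroup, mem_transport_iff])
    (fun g hg => hg.2) (fun h => hne (h.trans inf_le_left)) fun M h1 h2 =>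
      (h M h2 fun g a b => h1 g ⟨mem_of_wr hm _ (by simpa using a), b⟩).imp_left fun h g hg =>
        ⟨mem_of_wr hm _ (by simpa using h g hg), h2 g hg⟩

theorem theta_mem_isom {ι : Type} [Fintype ι] [DecidableEq ι] {κ : Type} (e : ι ≃ κ) (P : GL ι F) {P' : FP F}
    (S : PQ P' (ι → F)) (g : GL ι F) : theta e P g ∈ (S.comap (psi e P : (κ → F) →ₗ[F] (ι → F))).isom ↔
      toLE g ∈ S.isom := by
  simp only [PQ.mem_isom, PQ.IsIso, PQ.comap_B, PQ.comap_Q, theta_apply, LinearEquiv.coe_coe,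
    LinearEquiv.apply_symm_apply, (psi e P).surjective.forall]

theorem comap_nondeg {V V' : Type*} [AddCommGroup V] [Module F V] [AddCommGroup V'] [Module F V'] {P : FP F}
    {S : PQ P V} (hS : S.Nondeg) (f : V' ≃ₗ[F] V) : (S.comap (f : V' →ₗ[F] V)).Nondeg := fun x hx =>
  f.map_eq_zero_iff.1 (hS _ fun y => by simpa using hx (f.symm y))

theorem isMaximalIn_SU [Fintype F] {q : ℕ} (hF : Fintype.card F = q ^ 2) {n k t : ℕ} (hk : 3 ≤ k) (ht : 2 ≤ t)
    (hex : ¬ (q = 2 ∧ k = 3)) (e : Fin n ≃ (Fin t → Fin k)) (P : GL (Fin n) F) (f₁ : (Fin k → F) → (Fin k → F) → F)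
    (hf₁ : Geo.IsUnitaryFormPow q f₁) (hT : Geo.IsTensorPowerFormStructure (fun x : F => x ^ q) (hermForm n F q) f₁ e P) :
    Geo.IsMaximalIn (GU n F q ⊓ Geo.specialLinear (Fin n) F)
      (Geo.tensorWreathSubgroup k t e P ⊓ (GU n F q ⊓ Geo.specialLinear (Fin n) F)) := by
  obtain ⟨s, rfl⟩ : ∃ s, t = s + 1 := ⟨t - 1, by omega⟩
  have : Nonempty (Fin k) := ⟨⟨0, by omega⟩⟩
  have hks : k ≤ k ^ s := Nat.le_self_pow (by omega) k
  have hn : 3 ≤ n := by
    have := Fintype.card_congr e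
    simp at this
    exact this ▸ hk.trans (Nat.le_self_pow (by omega) k)
  obtain ⟨c, -, hT⟩ := hT
  have u₂ := isUnitaryForm_of_pow hF hf₁
  have hne := H6.SU.std_ne hF
  let S := (H6.SU.std hF n).comap (psi e P).toLinearMap
  have hS : ∀ x y, S.B x y = pw c (Geo.gramMatrix f₁) (frobQ hF : F →+* F) x y := hT
  have hf : ∀ i u w u' w', S.B (fac (Fin k) F i u w) (fac (Fin k) F i u' w') =
      pw c (Geo.gramMatrix f₁) (frobQ hF : F →+* F) u u' * (unitPQ u₂).B w w' := fun i u w u' w' =>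
    (hS _ _).trans (pw_fac (unitPQ u₂) c i u u' w w')
  obtain ⟨a1, a2, a3, a4⟩ := exists_fst (tens_fac 0) (comap_nondeg (H6.SU.std_nondeg hF n) _) (unitPQ_nondeg u₂)
    (fun _ => rfl) (hf 0)
  obtain ⟨θ, hθ⟩ := exists_trace_one _ (unit_invol u₂) hne
  have h : ∀ i, TF (PQ.ofHerm _ (unit_invol u₂) θ hθ _ a1 a2 fun x y => by simpa using a3 x y) (unitPQ u₂) S
      (fac (Fin k) F i) := fun i => ⟨tens_fac i, fun _ => rfl, fun _ => rfl, by simp, hf i, a4, unitPQ_nondeg u₂⟩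
  refine isMaximalIn_wr (by omega) e P (sisom S) (fun g => by
    rw [mem_SU_iff hF, mem_sisom, mem_sisom, theta_mem_isom, det_theta])
    (SU_not_le_tensorWreathSubgroup hF hn (by omega) ht e P) fun M h1 h2 => ?_
  refine su_wreath hne h (by simpa) (by simp; omega) ?_ comm_fac scalar_fac h1 (fun i b hb => ⟨_, h2 _ (wr_snd i b)
    (tcongr_mem_sisom (h i) (trP_unit _ _ hne) (one_mem _) hb), (tens_fac i).tcongr_apply 1 b⟩)
    (sw_fac hS fun g a b c => h2 g a (mem_sisom.2 ⟨(trP_unit _ _ hne).mem_isom S b, c⟩)) ?_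
  · by_cases hq : q = 2
    · right; simp; omega
    · exact Or.inl (H3.TenSU.exists_real hF hq)
  · by_cases hs : s = 1
    · subst hs; exact Or.inr ⟨by simp, inferInstance⟩
    · left; simp; omega

end std

end Cfsg.Agent.H1.C7m
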