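import Cfsg.Agent.H1.C7k
import Cfsg.Agent.H3.TenSpSp
import Cfsg.Agent.H3.TenSpO2

/-!
Levels for a symplectic factor: extraction of pure elements.
-/

set_option autoImplicit false
set_option linter.unusedSectionVars false
set_option linter.unusedSimpArgs false

namespace Cfsg.Agent.H1.C7n

open Module Cfsg.Agent.H7 Cfsg.Agent.Form Cfsg.Agent.H3.TenLin Cfsg.Agent.H3.TenSL Cfsg.Agent.H3.TenSU
  Cfsg.Agent.H3.TenGen Cfsg.Agent.H1.C7d Cfsg.Agent.H1.C7j Cfsg.Agent.H1.C7k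
open scoped Pointwise

variable {F : Type*} [Field F] {W : Type*} [AddCommGroup W] [Module F W] [FiniteDimensional F W]
  {R : Type*} [Ring R] [Algebra F R] {I : Type*} [DecidableEq I]

theorem comm_of {N : Dual F W →ₗ[F] W →ₗ[F] R} (S : Sys N) [Nontrivial W] {X : R}
    (h1 : ∀ ψ u, ψ u = 0 → E N ψ u X = 0) (χ : Dual F W) (v : W) : Commute X (N χ v) := by
  replace h1 : ∀ ψ u, ψ u = 0 → ∀ χ v, N ψ v * X * N χ u = 0 := fun ψ u h χ v => by
    rw [← S.E_mul, h1 ψ u h, zero_mul]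
  have h2 : ∀ ψ u φ w χ v, φ w • (N ψ v * X * N χ u) = ψ u • (N φ v * X * N χ w) := by
    have h4 : ∀ ψ φ w χ v, φ w • (N ψ v * X * N χ w) = ψ w • (N φ v * X * N χ w) := fun ψ φ w χ v => by
      simpa [sub_mul, sub_eq_zero] using h1 (φ w • ψ - ψ w • φ) w (by simp [mul_comm]) χ v
    have h5 : ∀ ψ u w χ v, ψ w • (N ψ v * X * N χ u) = ψ u • (N ψ v * X * N χ w) := fun ψ u w χ v => by
      simpa [mul_sub, sub_eq_zero] using h1 ψ (ψ w • u - ψ u • w) (by simp [mul_comm]) χ v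
    intro ψ u φ w χ v
    by_cases a1 : ψ u = 0
    · simp [a1, h1 ψ u a1]
    by_cases a2 : φ w = 0
    · simp [a2, h1 φ w a2]
    by_cases a3 : ψ w = 0
    · have k1 := h5 (ψ + φ) u w χ v
      have k2 := h4 ψ φ u χ v
      have k3 := h5 φ u w χ v
      have k4 := h1 ψ w a3 χ v
      simp only [map_add, LinearMap.add_apply, add_mul, a3, zero_add, k4, smul_add, add_smul, k3] at k1
      exact add_right_cancel k1
    · refine smul_right_injective _ a3 ?_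
      simp only
      rw [smul_comm, h5, smul_comm, h4, smul_comm]
  let c := finBasis F W
  have k1 : X * N χ v = ∑ l, N (c.coord l) (c l) * X * N χ v := by
    rw [← Finset.sum_mul, ← Finset.sum_mul, S.one, one_mul]
  have k2 : N χ v * X = ∑ l, N χ v * X * N (c.coord l) (c l) := by rw [← Finset.mul_sum, S.one, mul_one]
  obtain ⟨w, hw⟩ := exists_ne (0 : W)
  obtain ⟨φ, hφ, -⟩ := exists_dual_one (W := (⊥ : Submodule F W)) (x := w) (by simpa using hw)
  have k3 : ∀ ψ u χ v, N ψ v * X * N χ u = ψ u • (N φ v * X * N χ w) := fun ψ u χ v => by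
    rw [← h2, hφ, one_smul]
  change X * N χ v = N χ v * X
  rw [k1, k2]
  simp only [k3 (c.coord _), k3 χ]
  rw [sumR]
  simp only [mul_assoc]
  exact sumL ..

theorem E_add_left (N : Dual F W →ₗ[F] W →ₗ[F] R) (ψ χ : Dual F W) (u : W) (X : R) :
    E N (ψ + χ) u X = E N ψ u X + E N χ u X := by simp [E, add_mul, Finset.sum_add_distrib]

theorem E_smul_left (N : Dual F W →ₗ[F] W →ₗ[F] R) (c : F) (ψ : Dual F W) (u : W) (X : R) :
    E N (c • ψ) u X = c • E N ψ u X := by simp [E, Finset.smul_sum]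

theorem E_zero (N : Dual F W →ₗ[F] W →ₗ[F] R) (ψ : Dual F W) (X : R) : E N ψ 0 X = 0 := by simp [E]

theorem cancel {ι : End F W →ₐ[F] R} {Y : R} (hY : Cm ι Y) {t : End F W} (ht : t ≠ 0) (h : ι t * Y = 0) : Y = 0 := by
  obtain ⟨x, hx⟩ : ∃ x, t x ≠ 0 := by
    by_contra hh; push Not at hh; exact ht (LinearMap.ext hh)
  obtain ⟨φ, hφ, -⟩ := exists_dual_one (W := (⊥ : Submodule F W)) (x := t x) (by simpa using hx)
  rw [← mul_one Y, ← (sys_Nn ι).one, Finset.mul_sum]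
  refine Finset.sum_eq_zero fun l _ => ?_
  have : rk1 F W ((finBasis F W).coord l) (finBasis F W l) =
      rk1 F W φ (finBasis F W l) * t * rk1 F W ((finBasis F W).coord l) x := by
    ext; simp [hφ]
  rw [Nn_apply, this, map_mul, map_mul, ← mul_assoc, ← mul_assoc, (hY _).eq, mul_assoc _ Y, (hY t).eq, h]; simp

theorem li_pair {w y : W} (h0 : w ≠ 0) (h1 : y ∉ F ∙ w) : LinearIndependent F ![w, y] :=
  (LinearIndependent.pair_iff' h0).2 fun a e => h1 (Submodule.mem_span_singleton.2 ⟨a, e⟩)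

theorem conj_rk {P : FP F} {S : PQ P W} (ι : End F W →ₐ[F] R) {g : W ≃ₗ[F] W} (hg : g ∈ S.isom) (a b : W) :
    ι g * ι (rk S a b) * ι g.symm = ι (rk S (g a) (g b)) := by
  rw [← map_mul, ← map_mul, ← cj_rk hg]; rfl

variable {S : PQ (FP.symp F) W}

theorem witt_pair (hS : S.Nondeg) {w y w' y' : W} (h0 : w ≠ 0) (h1 : y ∉ F ∙ w) (h2 : S.B y w = 0) (k0 : w' ≠ 0)
    (k1 : y' ∉ F ∙ w') (k2 : S.B y' w' = 0) : ∃ g ∈ S.isom, g w = w' ∧ g y = y' := by
  obtain ⟨b, hb, e⟩ := hS.witt_family _ _ (li_pair h0 h1) (li_pair k0 k1) (by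
    simp [Fin.forall_fin_two, h2, k2, S.B_comm_zero h2, S.B_comm_zero k2]) fun _ => trivial
  exact ⟨b, hb, e 0, e 1⟩

/-- the bivector type -/
def Ts (S : PQ (FP.symp F) W) : Set (End F W) :=
  {t | ∃ u v, u ≠ 0 ∧ v ∉ F ∙ u ∧ S.B v u = 0 ∧ t = rk S u v - rk S v u}

theorem sq_Ts {t : End F W} (h : t ∈ Ts S) : t * t = 0 := by
  obtain ⟨u, v, -, -, h, rfl⟩ := h
  ext; simp [h, S.B_comm_zero h]

theorem tr_Tn (hS : S.Nondeg) : Tr S.isom Set.univ (Tn S) := by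
  rintro _ ⟨u, hu, h0, rfl⟩ _ ⟨u', hu', h0', rfl⟩
  obtain ⟨g, hg, rfl⟩ := H3.TenSpO1.sp_trans' hS h0 h0'
  exact ⟨g, hg.1, 1, trivial, by rw [one_smul, ← cj_rk hg.1]; rfl⟩

theorem tr_Ts (hS : S.Nondeg) : Tr S.isom Set.univ (Ts S) := by
  rintro _ ⟨u, v, a1, a2, a3, rfl⟩ _ ⟨u', v', b1, b2, b3, rfl⟩
  obtain ⟨g, hg, rfl, rfl⟩ := witt_pair hS a1 a2 a3 b1 b2 b3
  exact ⟨g, hg, 1, trivial, by rw [one_smul, mul_sub, sub_mul, ← cj_rk hg, ← cj_rk hg]; rfl⟩

theorem conj_tv {ι : End F W →ₐ[F] R} {Z : AddSubgroup R} (h : Cj S.isom ι Z) {X : R} (hX : X ∈ Z) (u : W) (c : F) :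
    c • (ι (rk S u u) * X - X * ι (rk S u u)) - (c * c) • (ι (rk S u u) * X * ι (rk S u u)) ∈ Z := by
  have e1 : (tv S u c : End F W) = 1 + c • rk S u u := by ext; simp [mul_smul]
  have e2 : ((tv S u c).symm : End F W) = 1 - c • rk S u u := by
    rw [show (tv S u c).symm = _ from tv_inv u c]; ext; simp [mul_smul, sub_eq_add_neg]
  convert sub_mem (h _ (tv_mem u c) X hX) hX using 1
  simp only [e1, e2, map_add, map_sub, map_one, map_smul, mul_sub, add_mul, smul_mul_assoc, mul_smul_comm,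
    one_mul, mul_one]
  module

theorem rk_E (ι : End F W →ₐ[F] R) (a b c d : W) (X : R) :
    ι (rk S a b) * X * ι (rk S c d) = ι (rk S c b) * E (Nn ι) (S.lin a) d X := ((sys_Nn ι).mul_E ..).symm

theorem ex_two (hS : S.Nondeg) (h2 : finrank F W = 2) (hc : (2 : F) ≠ 0) (ι : End F W →ₐ[F] R) :
    Ex S.isom Set.univ {Tn S} ι := by
  intro Z h1 h3 X hX hn
  have : Nontrivial W := Module.nontrivial_of_finrank_pos (R := F) (by omega)
  obtain ⟨u, hu⟩ : ∃ u, E (Nn ι) (S.lin u) u X ≠ 0 := by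
    by_contra hh
    push Not at hh
    refine hn (cm_of_Nn (comm_of (sys_Nn ι) fun ψ x h0 => ?_))
    by_cases hx : x = 0
    · rw [hx, E_zero]
    obtain ⟨a, rfl⟩ := hS.exists_lin ψ
    obtain ⟨t, rfl⟩ := H3.TenSpO2.exists_smul_of_perp hS h2 hx (sB_self x) (S.B_comm_zero h0)
    rw [lin_smul, E_smul_left, hh, smul_zero]
  refine ⟨_, rfl, _, ⟨u, trivial, by rintro rfl; exact hu (E_zero ..), rfl⟩, _, hu, cm_E ι _ _ X,
    fun C b1 b2 => comm_E b1 b2 _ _, ?_⟩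
  convert h3 (-2⁻¹) trivial _ (add_mem (conj_tv h1 hX u 1) (conj_tv h1 hX u (-1))) using 1
  rw [← rk_E]; match_scalars <;> field_simp <;> ring

theorem exists_perp (hS : S.Nondeg) (h3 : 3 ≤ finrank F W) (u : W) : ∃ v, v ∉ F ∙ u ∧ S.B v u = 0 := by
  obtain ⟨y, hy, hy'⟩ := exists_mem_notMem_of_finrank_lt (U := S.perp (F ∙ u)) (W := F ∙ u) (by
    have := hS.finrank_perp (F ∙ u)
    have := finrank_span_singleton_le (F := F) u
    omega)
  exact ⟨y, hy', S.mem_perp_span_singleton.1 hy⟩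

theorem not_mem_swap {u v : W} (h0 : u ≠ 0) (h : v ∉ F ∙ u) : v ≠ 0 ∧ u ∉ F ∙ v := by
  refine ⟨by rintro rfl; simp at h, fun hm => ?_⟩
  obtain ⟨c, rfl⟩ := Submodule.mem_span_singleton.1 hm
  exact h (Submodule.mem_span_singleton.2 ⟨c⁻¹, by rw [smul_smul, inv_mul_cancel₀ (left_ne_zero_of_smul h0), one_smul]⟩)

theorem ex_four (hS : S.Nondeg) (h3 : 3 ≤ finrank F W) (ι : End F W →ₐ[F] R) :
    Ex S.isom Set.univ {Tn S, Ts S} ι := by
  intro Z h1 _ X hX hn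
  have : Nontrivial W := Module.nontrivial_of_finrank_pos (R := F) (by omega)
  obtain ⟨u, v, a1, a2, a3, a4⟩ : ∃ u v, u ≠ 0 ∧ v ∉ F ∙ u ∧ S.B v u = 0 ∧ E (Nn ι) (S.lin v) u X ≠ 0 := by
    by_contra hh
    push Not at hh
    refine hn (cm_of_Nn (comm_of (sys_Nn ι) fun ψ x h0 => ?_))
    by_cases hx : x = 0
    · rw [hx, E_zero]
    obtain ⟨a, rfl⟩ := hS.exists_lin ψ
    by_cases ha : a ∈ F ∙ x
    · obtain ⟨v, b1, b2⟩ := exists_perp hS h3 x
      have := hh x (a + v) hx (by rwa [Submodule.add_mem_iff_right _ ha]) (by simp [b2, S.B_comm_zero h0])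
      rwa [lin_add, E_add_left, hh x v hx b1 b2, add_zero] at this
    · exact hh x a hx ha (S.B_comm_zero h0)
  obtain ⟨a5, a6⟩ := not_mem_swap a1 a2
  have k1 : ι (rk S u v) * E (Nn ι) (S.lin v) u X + ι (rk S v u) * E (Nn ι) (S.lin u) v X ∈ Z := by
    have e1 : ι (rk S v v) * ι (rk S u u) = 0 := by rw [← map_mul, rk_mul, S.B_comm_zero a3]; simp
    have e2 : ι (rk S u u) * ι (rk S v v) = 0 := by rw [← map_mul, rk_mul, a3]; simp
    convert neg_mem (conj_tv h1 (conj_tv h1 hX u 1) v 1) using 1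
    simp only [← rk_E, one_smul, mul_one, mul_sub, sub_mul, ← mul_assoc, e1, zero_mul]
    simp only [mul_assoc, e2, mul_zero]
    abel
  have hc := cm_E ι (S.lin v) u X
  have hc' := cm_E ι (S.lin u) v X
  by_cases h : E (Nn ι) (S.lin v) u X + E (Nn ι) (S.lin u) v X = 0
  · refine ⟨_, Or.inr rfl, _, ⟨u, v, a1, a2, a3, rfl⟩, _, a4, hc, fun C b1 b2 => comm_E b1 b2 _ _, ?_⟩
    rwa [eq_neg_of_add_eq_zero_right h, mul_neg, ← sub_eq_add_neg, ← sub_mul, ← map_sub] at k1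
  obtain ⟨g, hg, e1, e2⟩ := witt_pair hS a5 a6 (S.B_comm_zero a3) a5 (y' := u + v)
    (by rwa [Submodule.add_mem_iff_left _ (Submodule.mem_span_singleton_self v)]) (by simp [S.B_comm_zero a3])
  refine ⟨_, Or.inl rfl, _, ⟨v, trivial, a5, rfl⟩, _, h, fun a => (hc a).add_left (hc' a),
    fun C b1 b2 => (comm_E b1 b2 _ _).add_right (comm_E b1 b2 _ _), ?_⟩
  convert sub_mem (h1 g hg _ k1) k1 using 1
  rw [mul_add (ι g), add_mul, ← mul_assoc, ← mul_assoc, mul_assoc _ _ (ι g.symm), mul_assoc _ _ (ι g.symm),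
    (hc _).eq, (hc' _).eq, ← mul_assoc, ← mul_assoc, conj_rk ι hg, conj_rk ι hg, e1, e2,
    show rk S (u + v) v = rk S u v + rk S v v by ext; simp [add_smul],
    show rk S v (u + v) = rk S v u + rk S v v by ext; simp]
  simp only [map_add, add_mul, mul_add]; abel

end Cfsg.Agent.H1.C7n
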