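import Cfsg.Agent.H1.C7n

/-!
Levels for a symplectic factor of dimension at least four.
-/

set_option autoImplicit false
set_option linter.unusedSectionVars false
set_option linter.unusedSimpArgs false

namespace Cfsg.Agent.H1.C7o

open Module Cfsg.Agent.H7 Cfsg.Agent.Form Cfsg.Agent.H3.TenLin Cfsg.Agent.H3.TenSL Cfsg.Agent.H3.TenSU
  Cfsg.Agent.H3.TenGen Cfsg.Agent.H1.C7d Cfsg.Agent.H1.C7j Cfsg.Agent.H1.C7k Cfsg.Agent.H1.C7n
open scoped Pointwise

variable {F : Type*} [Field F] {W : Type*} [AddCommGroup W] [Module F W] [FiniteDimensional F W]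
  {R : Type*} [Ring R] [Algebra F R] {I : Type*} [DecidableEq I] {S : PQ (FP.symp F) W}

theorem mm {ι : End F W →ₐ[F] R} {Y : R} (h : Cm ι Y) (X : R) (n m : End F W) :
    X * ι n * (Y * ι m) = X * Y * ι (n * m) := by
  rw [map_mul, mul_assoc X Y, ← mul_assoc Y, (h n).eq]; noncomm_ring

theorem cjm {P : FP F} {S : PQ P W} {ι : End F W →ₐ[F] R} {X : R} (h : Cm ι X) {g : W ≃ₗ[F] W} (hg : g ∈ S.isom)
    (a b : W) : ι g * (X * ι (rk S a b)) * ι g.symm = X * ι (rk S (g a) (g b)) := by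
  rw [← conj_rk ι hg, ← mul_assoc, ← (h _).eq]; simp only [mul_assoc]

/-- the Eichler type element -/
def Nv (S : PQ (FP.symp F) W) (ι : End F W →ₐ[F] R) (st : R →+ R) (η : R) (y w : W) : R :=
  η * ι (rk S y w) + st η * ι (rk S w y)

theorem Nv_add (ι : End F W →ₐ[F] R) (st : R →+ R) (η : R) (y z w : W) :
    Nv S ι st η (y + z) w = Nv S ι st η y w + Nv S ι st η z w := by
  simp only [Nv, show rk S (y + z) w = rk S y w + rk S z w by ext; simp [add_smul],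
    show rk S w (y + z) = rk S w y + rk S w z by ext; simp, map_add, mul_add]; abel

theorem Nv_neg (ι : End F W →ₐ[F] R) (st : R →+ R) (η : R) (y w : W) :
    Nv S ι st η (-y) w = -Nv S ι st η y w := by
  simp only [Nv, show rk S (-y) w = -rk S y w by ext; simp, show rk S w (-y) = -rk S w y by ext; simp, map_neg,
    mul_neg, neg_add]

variable {ι : I → End F W →ₐ[F] R} {𝕄 : Submonoid R} {st : R →+ R} (L : Lv S S.isom ι 𝕄 st) {o : I}
include L

theorem gmul {η ζ X X' : R} (h : Cm (ι o) ζ) (hX : Cm (ι o) X') {y z w : W} (hy : S.B y w = 0) (hz : S.B z w = 0) :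
    (1 + Nv S (ι o) st η y w + X * ι o (rk S w w)) * (1 + Nv S (ι o) st ζ z w + X' * ι o (rk S w w)) =
      1 + (Nv S (ι o) st η y w + Nv S (ι o) st ζ z w) + (X + X' + S.B z y • (η * st ζ)) * ι o (rk S w w) := by
  simp only [Nv, mul_add, add_mul, mm h, mm hX, mm (L.cm_st h), rk_mul, hy, hz, S.B_comm_zero hy, S.B_comm_zero hz,
    sB_self, zero_smul, map_zero, mul_zero, mul_one, one_mul, map_smul, mul_smul_comm, smul_mul_assoc]
  abel

theorem gmul0 {η ζ : R} (h : Cm (ι o) ζ) {y z w : W} (hy : S.B y w = 0) (hz : S.B z w = 0) :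
    (1 + Nv S (ι o) st η y w) * (1 + Nv S (ι o) st ζ z w) =
      1 + (Nv S (ι o) st η y w + Nv S (ι o) st ζ z w) + (S.B z y • (η * st ζ)) * ι o (rk S w w) := by
  simpa using gmul L (η := η) (X := 0) (X' := 0) h (fun _ => Commute.zero_left _) hy hz

theorem numul {η X Y : R} (h : Cm (ι o) η) (hY : Cm (ι o) Y) {y w : W} (hy : S.B y w = 0) :
    (1 + X * ι o (rk S w w)) * (1 + Nv S (ι o) st η y w + Y * ι o (rk S w w)) =
      1 + Nv S (ι o) st η y w + (X + Y) * ι o (rk S w w) := by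
  simpa [Nv] using gmul L (η := 0) (X := X) (y := 0) h hY (by simp) hy

/-- Eichler levels -/
def Ev (o : I) : Submodule F R where
  carrier := {η | Cm (ι o) η ∧ ∀ w y, S.B y w = 0 → 1 + Nv S (ι o) st η y w ∈ 𝕄}
  add_mem' := fun {η ζ} h1 h2 => ⟨fun a => (h1.1 a).add_left (h2.1 a), fun w y e => by
    convert 𝕄.mul_mem (h1.2 w y e) (h2.2 w y e) using 1
    rw [gmul0 L h2.1 e e]; simp [Nv, add_mul]; abel⟩
  zero_mem' := ⟨fun a => Commute.zero_left _, fun w y _ => by simp [Nv]⟩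
  smul_mem' := fun c η h => ⟨h.1.smul c, fun w y e => by
    convert h.2 w (c • y) (by simp [e]) using 2
    simp [Nv, L.smul, show rk S (c • y) w = c • rk S y w by ext; simp [mul_smul, smul_comm c],
      show rk S w (c • y) = c • rk S w y by ext; simp [smul_comm c]]⟩

omit L in
/-- enough isotropic vectors -/
def Fat (S : PQ (FP.symp F) W) : Prop :=
  ∀ w z, z ∉ F ∙ w → S.B z w = 0 → ∃ z', S.B z' w = 0 ∧ S.B z' z = 0 ∧ z' ∉ F ∙ w ∧ z + z' ∉ F ∙ w

omit L in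
theorem fat_of (hS : S.Nondeg) (h : (2 : F) ≠ 0 ∨ 6 ≤ finrank F W) : Fat S := fun w z h1 h2 => by
  rcases h with h | h
  · exact ⟨z, h2, by simp, h1, by rwa [← two_smul F, Submodule.smul_mem_iff _ h]⟩
  obtain ⟨y, y', a1, a2, a3, a4, a5⟩ := H3.TenSpSp.exists_pair hS h w z
  refine ⟨y, a1, a2, fun hm => ?_, fun hm => ?_⟩ <;> obtain ⟨c, e⟩ := Submodule.mem_span_singleton.1 hm <;>
    simpa [a3, a4, a5] using congrArg (S.B y') e

theorem mem_Z {w : W} (h0 : w ≠ 0) {X : R} (h : Cm (ι o) X) (hX : 1 + X * ι o (rk S w w) ∈ 𝕄) : X ∈ L.Z o :=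
  L.mem_Z_of (fun y _ y0 => by
    obtain ⟨g, hg, e⟩ := H3.TenSpO1.sp_trans' L.nd h0 y0
    exact ⟨g, hg.1, hg.1, e⟩) h hX

theorem mem_Ev_of (hf : Fat S) (h3 : 3 ≤ finrank F W) {w z : W} (h0 : w ≠ 0) (h1 : z ∉ F ∙ w) (h2 : S.B z w = 0)
    {η Y : R} (hη : Cm (ι o) η) (hY : Cm (ι o) Y) (h : 1 + Nv S (ι o) st η z w + Y * ι o (rk S w w) ∈ 𝕄) :
    η ∈ Ev L o := by
  have k1 : ∀ {w' z'}, w' ≠ 0 → z' ∉ F ∙ w' → S.B z' w' = 0 →
      1 + Nv S (ι o) st η z' w' + Y * ι o (rk S w' w') ∈ 𝕄 := fun b0 b1 b2 => by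
    obtain ⟨g, hg, rfl, rfl⟩ := witt_pair L.nd h0 h1 h2 b0 b1 b2
    convert 𝕄.mul_mem (𝕄.mul_mem (L.mem o g hg) h) (L.mem o _ (inv_mem hg)) using 1
    change _ = _ * ι o g.symm
    simp only [Nv, mul_add, add_mul, cjm hη hg, cjm hY hg, cjm (L.cm_st hη) hg, mul_one]
    rw [← map_mul, coe_mul_symm, map_one]
  obtain ⟨z', a1, a2, a3, a4⟩ := hf w z h1 h2
  have k2 : Y ∈ L.Z o := mem_Z L h0 hY (L.div (𝕄.mul_mem h (k1 h0 a3 a1)) (k1 h0 a4 (by simp [a1, h2])) (by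
    rw [gmul L hη hY h2 a1, numul L hη hY (by simp [a1, h2]), Nv_add]; simp [a2]))
  have k3 : ∀ {w' z'}, w' ≠ 0 → z' ∉ F ∙ w' → S.B z' w' = 0 → 1 + Nv S (ι o) st η z' w' ∈ 𝕄 :=
    fun {w' z'} b0 b1 b2 => by
    have := 𝕄.mul_mem ((neg_mem k2).2 w' trivial) (k1 b0 b1 b2)
    rw [numul L hη hY b2] at this
    simpa using this
  refine ⟨hη, fun w' y e => ?_⟩
  by_cases b0 : w' = 0
  · simp [Nv, b0, show rk S y 0 = 0 by ext; simp, show rk S 0 y = 0 by ext; simp]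
  by_cases b1 : y ∈ F ∙ w'
  · obtain ⟨v, c1, c2⟩ := exists_perp L.nd h3 w'
    obtain ⟨c, rfl⟩ := Submodule.mem_span_singleton.1 b1
    convert 𝕄.mul_mem (k3 b0 (z' := c • w' - v) (fun hm => c1 (by simpa using sub_mem b1 hm)) (by simp [c2]))
      (k3 b0 c1 c2) using 1
    rw [gmul0 L hη (by simp [c2]) c2, ← Nv_add]; simp [c2]
  · exact k3 b0 b1 e

theorem st_Z [Nontrivial W] {X : R} (hX : X ∈ L.Z o) : st X = X := by
  obtain ⟨w, hw⟩ := exists_ne (0 : W)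
  simpa using L.st_eq trivial hw hX

theorem Z_le_Ev [Nontrivial W] {X : R} (hX : X ∈ L.Z o) : X ∈ Ev L o := ⟨hX.1, fun w y e => by
  convert 𝕄.mul_mem (𝕄.mul_mem (hX.2 (y + w) trivial) ((neg_mem hX).2 y trivial)) ((neg_mem hX).2 w trivial) using 1
  have h := hX.1
  simp only [Nv, st_Z L hX, mul_add, add_mul, mm h, mul_one, one_mul, rk_mul, e,
    S.B_comm_zero e, sB_self, add_zero, zero_smul, map_zero, mul_zero, neg_mul, mul_neg, neg_zero, zero_mul,
    show rk S (y + w) (y + w) = rk S y y + rk S w w + rk S y w + rk S w y by ext; simp; module, map_add]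
  abel⟩

theorem one_mem_Z : (1 : R) ∈ L.Z o := ⟨cm_one _, fun w _ => by
  convert L.mem o _ (tv_mem w 1) using 1
  rw [one_mul, ← map_one (ι o), ← map_add]; congr 1; ext; simp⟩

theorem sp_re [Finite F] : Re (Set.univ : Set F) (L.Z o) := fun a _ X hX => by
  by_cases h2 : (2 : F) = 0
  · obtain ⟨t, rfl⟩ := FiniteField.isSquare_of_char_two (ringChar.eq_iff.2 (CharTwo.of_one_ne_zero_of_two_eq_zero
      one_ne_zero h2)) a
    exact L.smul_mem t hX
  · convert sub_mem (L.smul_mem (o := o) ((a + 1) / 2) hX) (L.smul_mem ((a - 1) / 2) hX) using 1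
    rw [← sub_smul]; congr 1; simp only [FP.symp_σ]; field_simp; ring

omit L in
theorem exists_pair (hS : S.Nondeg) (h3 : 3 ≤ finrank F W) (w : W) (a : F) :
    ∃ y z, y ∉ F ∙ w ∧ S.B y w = 0 ∧ S.B z w = 0 ∧ S.B y z = a := by
  obtain ⟨y, h1, h2⟩ := exists_perp hS h3 w
  obtain ⟨z, h4, h5⟩ := hS.exists_perp_eq h1 a
  exact ⟨y, z, h1, h2, S.mem_perp_span_singleton.1 h4, h5⟩

variable (h3 : 3 ≤ finrank F W) (hss : ∀ X, st (st X) = X)
include h3

include hss in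
theorem Ev_mul_st {η ζ : R} (h : η ∈ Ev L o) (h' : ζ ∈ Ev L o) : η * st ζ ∈ L.Zh o := fun a => by
  have hc : Cm (ι o) (a • (η * st ζ) + a • (ζ * st η)) := fun b =>
    (((h.1.mul (L.cm_st h'.1)) b).smul_left _).add_left (((h'.1.mul (L.cm_st h.1)) b).smul_left _)
  rw [L.mul, hss, FP.symp_ε, FP.symp_σ, neg_one_mul, neg_smul, sub_neg_eq_add]
  refine ⟨hc, fun w _ => ?_⟩
  obtain ⟨y, z, -, a1, a2, rfl⟩ := exists_pair L.nd h3 w a
  refine L.div (𝕄.mul_mem (h.2 w z a2) (h'.2 w y a1)) (𝕄.mul_mem (h'.2 w y a1) (h.2 w z a2)) ?_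
  rw [gmul0 L h'.1 a2 a1, gmul0 L h.1 a1 a2, sB_swap y z]
  simp only [Nv, mul_add, add_mul, mm h.1, mm h'.1, mm (L.cm_st h.1), mm (L.cm_st h'.1),
    mm ((h'.1.mul (L.cm_st h.1)).smul _), rk_mul, a1, a2, sB_self, zero_smul, map_zero, mul_zero, mul_one, one_mul,
    neg_smul, neg_mul, mul_neg]
  abel

theorem Ev_mul_Z (hf : Fat S) {η X : R} (h : η ∈ Ev L o) (hX : X ∈ L.Z o) : η * X ∈ Ev L o := by
  have : Nontrivial W := Module.nontrivial_of_finrank_pos (R := F) (by omega)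
  obtain ⟨w, hw⟩ := exists_ne (0 : W)
  obtain ⟨y, z, -, a1, a2, a3⟩ := exists_pair L.nd h3 w 1
  have k1 := 𝕄.mul_mem (𝕄.mul_mem (hX.2 z trivial) (h.2 w y a1)) ((neg_mem hX).2 z trivial)
  have k2 : (1 + X * ι o (rk S z z)) * (1 + Nv S (ι o) st η y w) * (1 + -X * ι o (rk S z z)) =
      1 + (Nv S (ι o) st (η * X) z w + Nv S (ι o) st η y w) := by
    simp only [Nv, mul_add, add_mul, mm h.1, mm hX.1, mm (L.cm_st h.1), rk_mul, a1, a2, a3, S.B_comm_zero a2,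
      sB_swap y z, sB_self, zero_smul, map_zero, mul_zero, mul_one, one_mul, neg_smul, neg_mul, mul_neg, L.mul,
      st_Z L hX, one_smul, map_neg, neg_zero, zero_mul]
    abel
  have k3 := 𝕄.mul_mem k1 (h.2 w (-y) (by simp [a1]))
  refine mem_Ev_of L hf h3 hw (z := z) (fun hm => ?_) a2 (h.1.mul hX.1)
    (Y := -(η * X * st η)) (fun a => (((h.1.mul hX.1).mul (L.cm_st h.1)) a).neg_left) ?_
  · obtain ⟨c, rfl⟩ := Submodule.mem_span_singleton.1 hm
    simp [a1] at a3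
  · convert k3 using 1
    rw [k2, Nv_neg]
    simp only [Nv, mul_add, add_mul, mm h.1, mm (L.cm_st h.1), rk_mul, a1, a2, a3, S.B_comm_zero a1,
      S.B_comm_zero a2, sB_self, zero_smul, map_zero, mul_zero, mul_one, one_mul, neg_mul, mul_neg, one_smul, neg_add]
    abel

/-- right multipliers of the Eichler levels -/
def Am (o : I) : Subalgebra F R where
  carrier := {a | Cm (ι o) a ∧ ∀ η ∈ Ev L o, η * a ∈ Ev L o}
  mul_mem' := fun h h' => ⟨h.1.mul h'.1, fun η e => by rw [← mul_assoc]; exact h'.2 _ (h.2 η e)⟩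
  add_mem' := fun h h' => ⟨fun a => (h.1 a).add_left (h'.1 a), fun η e => by
    rw [mul_add]; exact add_mem (h.2 η e) (h'.2 η e)⟩
  algebraMap_mem' := fun c => by
    rw [Algebra.algebraMap_eq_smul_one]
    exact ⟨(cm_one _).smul c, fun η e => by simpa using (Ev L o).smul_mem c e⟩

omit L in
theorem nu_mem (hS : S.Nondeg) {T : Set (End F W)} (hT : T ∈ ({Tn S, Ts S} : Set _)) {t : End F W} (ht : t ∈ Tn S) :
    t ∈ Submodule.span F (T * T) := by
  rcases hT with rfl | rfl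
  · rw [span_Tn trP_symp hS (by omega)]; trivial
  obtain ⟨u, -, h0, rfl⟩ := ht
  obtain ⟨y, z, a1, a2, a3, a4⟩ := exists_pair hS h3 u 1
  refine Submodule.subset_span ⟨_, ⟨u, y, h0, a1, a2, rfl⟩, _, ⟨u, z, h0, fun hm => ?_, a3, rfl⟩, ?_⟩
  · obtain ⟨c, rfl⟩ := Submodule.mem_span_singleton.1 hm
    simp [a2] at a4
  · ext; simp [a3, a4, sB_swap y z, S.B_comm_zero a2]

omit L in
theorem span_four (hS : S.Nondeg) {T : Set (End F W)} (hT : T ∈ ({Tn S, Ts S} : Set _)) :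
    Submodule.span F (T * T * (T * T)) = ⊤ := by
  rw [eq_top_iff, ← span_Tn trP_symp hS (by omega), ← Submodule.span_mul_span, ← Submodule.span_mul_span]
  exact mul_le_mul' (Submodule.span_le.2 fun t => nu_mem h3 hS hT) (Submodule.span_le.2 fun t => nu_mem h3 hS hT)

theorem alg_of_pu {l : List (I × Set (End F W))} (hl : (l.map Prod.fst).Nodup)
    (hT : ∀ p ∈ l, p.2 ∈ ({Tn S, Ts S} : Set _)) {A : Subalgebra F R} (h : ∀ H ∈ Pu ι l, H ∈ A) {Y : R}
    (hY : ∀ i ∉ l.map Prod.fst, Cm (ι i) Y) : Y ∈ A := by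
  refine mem_of_pu L.hc L.hs (A := A.toSubmodule)
    (l := (l.map fun p => (p.1, p.2 * p.2)).map fun p => (p.1, p.2 * p.2)) (by
      simp only [List.mem_map]
      rintro _ ⟨_, ⟨p, hp, rfl⟩, rfl⟩
      exact span_four h3 L.nd (hT p hp)) (fun H hH => ?_) (by simpa using hY)
  obtain ⟨H₁, a1, H₂, a2, rfl⟩ := pu_sq L.hc (by simpa [Function.comp_def] using hl) hH
  obtain ⟨H₃, a3, H₄, a4, rfl⟩ := pu_sq L.hc hl a1
  obtain ⟨H₅, a5, H₆, a6, rfl⟩ := pu_sq L.hc hl a2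
  exact A.mul_mem (A.mul_mem (h _ a3) (h _ a4)) (A.mul_mem (h _ a5) (h _ a6))

omit L h3 in
/-- the span of the products of two pure elements -/
def sp (ι : I → End F W →ₐ[F] R) (l : List (I × Set (End F W))) : Submodule F R :=
  Submodule.span F (Pu ι (l.map fun p => (p.1, p.2 * p.2)))

omit L h3 in
theorem sp_cons {p : I × Set (End F W)} {l : List (I × Set (End F W))} {a : End F W}
    (ha : a ∈ Submodule.span F (p.2 * p.2)) {Y : R} (hY : Y ∈ sp ι l) : ι p.1 a * Y ∈ sp ι (p :: l) :=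
  (Submodule.span_le.2 fun t ht => (Submodule.span_le.2 fun H hH => Submodule.subset_span ⟨t, ht, H, hH, rfl⟩ :
    sp ι l ≤ (sp ι (p :: l)).comap (LinearMap.mulLeft F (ι p.1 t))) hY :
    _ ≤ (sp ι (p :: l)).comap (LinearMap.mulRight F Y ∘ₗ (ι p.1).toLinearMap)) ha

omit h3 in
theorem sp_cm {l : List (I × Set (End F W))} {i : I} (hi : i ∉ l.map Prod.fst) {Y : R} (hY : Y ∈ sp ι l) :
    Cm (ι i) Y := by
  induction hY using Submodule.span_induction with
  | mem H hH => exact Pu.cm L.hc (by simpa using hi) hH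
  | zero => exact fun _ => Commute.zero_left _
  | add _ _ _ _ h h' => exact fun a => (h a).add_left (h' a)
  | smul c _ _ h => exact h.smul c

omit L h3 in
theorem rk_ne (hS : S.Nondeg) {a b : W} (ha : a ≠ 0) (hb : b ≠ 0) : rk S a b ≠ 0 := fun e => by
  obtain ⟨x, hx⟩ := hS.exists_eq ha 1
  simpa [hx, hb] using LinearMap.congr_fun e x

theorem exists_N [Nontrivial R] {l : List (I × Set (End F W))} (hl : (l.map Prod.fst).Nodup)
    (hT : ∀ p ∈ l, p.2 ∈ ({Tn S, Ts S} : Set _)) : ∃ N ∈ sp ι l, N ≠ 0 ∧ ∃ s : F, st N = s • N := by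
  have : Nontrivial W := Module.nontrivial_of_finrank_pos (R := F) (by omega)
  obtain ⟨u, hu⟩ := exists_ne (0 : W)
  induction l with
  | nil => exact ⟨1, Submodule.subset_span rfl, one_ne_zero, 1, by simp [L.one]⟩
  | cons p l ih =>
    rw [List.map_cons, List.nodup_cons] at hl
    obtain ⟨N, a1, a2, s, a3⟩ := ih hl.2 fun q hq => hT q (by simp [hq])
    have hc := sp_cm L hl.1 a1
    refine ⟨_, sp_cons (nu_mem h3 L.nd (hT p (by simp)) ⟨u, trivial, hu, rfl⟩) a1,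
      fun e => a2 (cancel hc (rk_ne L.nd hu hu) e), -s, ?_⟩
    rw [L.mul, a3, L.srk]; simp [(hc _).eq]

omit L h3 in
/-- a good element of `sp` -/
def Gs (ι : I → End F W →ₐ[F] R) (st : R →+ R) (l : List (I × Set (End F W))) : Prop :=
  ∃ Y ∈ sp ι l, ∀ s : F, Y + s • st Y ≠ 0 ∧ (Y + s • st Y) * (Y + s • st Y) = 0

omit L h3 in
theorem sq_zero {κ : End F W →ₐ[F] R} {Y : R} (h : Cm κ Y) {t : End F W} (ht : t * t = 0) :
    κ t * Y * (κ t * Y) = 0 := by
  rw [← (h t).eq, mm h, ht]; simp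

theorem gs_cons [Nontrivial R] {p : I × Set (End F W)} {l : List (I × Set (End F W))}
    (hl : ((p :: l).map Prod.fst).Nodup) (hT : ∀ p ∈ l, p.2 ∈ ({Tn S, Ts S} : Set _)) {a b : W} (h0 : a ≠ 0)
    (h1 : b ∉ F ∙ a) (h2 : S.B b a = 0) (h : rk S a b ∈ Submodule.span F (p.2 * p.2)) : Gs ι st (p :: l) := by
  rw [List.map_cons, List.nodup_cons] at hl
  obtain ⟨N, a1, a2, s, a3⟩ := exists_N L h3 hl.2 hT
  have hc := sp_cm L hl.1 a1
  refine ⟨_, sp_cons h a1, fun r => ?_⟩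
  rw [show ι p.1 (rk S a b) * N + r • st (ι p.1 (rk S a b) * N) = ι p.1 (rk S a b - (r * s) • rk S b a) * N by
    rw [L.mul, a3, L.srk]; simp [(hc _).eq, add_mul, mul_smul, sub_eq_add_neg]]
  refine ⟨fun e => a2 (cancel hc (fun e' => h1 ?_) e), sq_zero hc (by ext; simp [h2, S.B_comm_zero h2])⟩
  obtain ⟨x, hx⟩ := L.nd.exists_eq h0 1
  have := LinearMap.congr_fun e' x
  simp only [LinearMap.sub_apply, rk_apply, hx, one_smul, LinearMap.smul_apply, smul_smul, LinearMap.zero_apply,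
    sub_eq_zero] at this
  exact this ▸ Submodule.smul_mem _ _ (Submodule.mem_span_singleton_self a)

theorem gs_or [Nontrivial R] {l : List (I × Set (End F W))} (hl : (l.map Prod.fst).Nodup)
    (hT : ∀ p ∈ l, p.2 ∈ ({Tn S, Ts S} : Set _)) : Gs ι st l ∨ ∀ p ∈ l, p.2 = Ts S := by
  have : Nontrivial W := Module.nontrivial_of_finrank_pos (R := F) (by omega)
  obtain ⟨u, hu⟩ := exists_ne (0 : W)
  induction l with
  | nil => simp
  | cons p l ih =>
    have hT' : ∀ q ∈ l, q.2 ∈ ({Tn S, Ts S} : Set _) := fun q hq => hT q (by simp [hq])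
    rcases hT p (by simp) with h | h
    · obtain ⟨v, a1, a2⟩ := exists_perp L.nd h3 u
      exact Or.inl (gs_cons L h3 hl hT' hu a1 a2 (by rw [h, span_Tn trP_symp L.nd (by omega)]; trivial))
    rw [List.map_cons, List.nodup_cons] at hl
    rcases ih hl.2 hT' with ⟨Y, a1, a2⟩ | a1
    · have hc := sp_cm L hl.1 a1
      refine Or.inl ⟨_, sp_cons (nu_mem h3 L.nd (hT p (by simp)) ⟨u, trivial, hu, rfl⟩) a1, fun r => ?_⟩
      have hc' : Cm (ι p.1) (Y + -r • st Y) := fun a => (hc a).add_left ((L.cm_st hc).smul _ a)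
      rw [show ι p.1 (rk S u u) * Y + r • st (ι p.1 (rk S u u) * Y) = ι p.1 (rk S u u) * (Y + -r • st Y) by
        rw [L.mul, L.srk]; simp [(L.cm_st hc _).eq, mul_add]]
      exact ⟨fun e => (a2 _).1 (cancel hc' (rk_ne L.nd hu hu) e), sq_zero hc' (by simp [rk_mul])⟩
    · exact Or.inr (by simpa [a1] using ⟨h, fun a b hab => a1 _ hab⟩)

omit h3 in
theorem pu_Ts [Nontrivial R] {l : List (I × Set (End F W))} (hl : (l.map Prod.fst).Nodup) (hT : ∀ p ∈ l, p.2 = Ts S)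
    {H : R} (h : H ∈ Pu ι l) : H ≠ 0 ∧ st H = H := by
  induction l generalizing H with
  | nil => obtain rfl : H = 1 := h; exact ⟨one_ne_zero, L.one⟩
  | cons p l ih =>
    obtain ⟨t, ht, H, h, rfl⟩ := h
    rw [List.map_cons, List.nodup_cons] at hl
    obtain ⟨a1, a2⟩ := ih hl.2 (fun q hq => hT q (by simp [hq])) h
    have hc := Pu.cm L.hc hl.1 h
    rw [hT p (by simp)] at ht
    obtain ⟨u, v, b1, b2, -, rfl⟩ := ht
    refine ⟨fun e => a1 (cancel hc (fun e' => b2 ?_) e), ?_⟩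
    · obtain ⟨x, hx⟩ := L.nd.exists_eq b1 1
      have := LinearMap.congr_fun e' x
      simp only [LinearMap.sub_apply, rk_apply, hx, one_smul, LinearMap.zero_apply, sub_eq_zero] at this
      exact this ▸ Submodule.smul_mem _ _ (Submodule.mem_span_singleton_self u)
    · rw [L.mul, a2, ← (hc _).eq, map_sub, map_sub, L.srk, L.srk]; simp [sub_eq_add_neg, add_comm]

omit L h3 in
theorem not_scalar {X : R} (h0 : X ≠ 0) (h : X * X = 0) (c : F) : X ≠ c • 1 := by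
  rintro rfl
  have hc : c ≠ 0 := by rintro rfl; simp at h0
  exact h0 (by simpa [hc] using h)

omit h3 in
theorem pu_st {l : List (I × Set (End F W))} (hl : (l.map Prod.fst).Nodup)
    (hT : ∀ p ∈ l, p.2 ∈ ({Tn S, Ts S} : Set _)) {H : R} (h : H ∈ Pu ι l) : st H = H ∨ st H = -H := by
  induction l generalizing H with
  | nil => obtain rfl : H = 1 := h; exact Or.inl L.one
  | cons p l ih =>
    obtain ⟨t, ht, H, h, rfl⟩ := h
    rw [List.map_cons, List.nodup_cons] at hl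
    have hc := Pu.cm L.hc hl.1 h
    have a1 := ih hl.2 (fun q hq => hT q (by simp [hq])) h
    rw [L.mul, ← (hc _).eq]
    rcases hT p (by simp) with e | e <;> rw [e] at ht
    · obtain ⟨u, -, -, rfl⟩ := ht
      rcases a1 with a1 | a1 <;> simp [a1, L.srk]
    · obtain ⟨u, v, -, -, -, rfl⟩ := ht
      have : st (ι p.1 (rk S u v - rk S v u)) = ι p.1 (rk S u v - rk S v u) := by
        rw [map_sub, map_sub, L.srk, L.srk]; simp [sub_eq_add_neg, add_comm]
      rcases a1 with a1 | a1 <;> simp [a1, this, -map_sub]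

variable [Fintype I] [Finite F]

omit h3 in
theorem exists_pure {𝒯 : Set (Set (End F W))} (ex : ∀ i, Ex S.isom Set.univ 𝒯 (ι i))
    (tr : ∀ T ∈ 𝒯, Tr S.isom Set.univ T) {Z : AddSubgroup R} (h1 : ∀ j ≠ o, Cj S.isom (ι j) Z)
    (h2 : Re (Set.univ : Set F) Z) {X : R} (hX : X ∈ Z) (hc : Cm (ι o) X) (hns : ∀ c : F, X ≠ c • 1) :
    ∃ l : List (I × Set (End F W)), (l.map Prod.fst).Nodup ∧ l ≠ [] ∧ (∀ p ∈ l, p.1 ≠ o ∧ p.2 ∈ 𝒯) ∧
      ∀ H ∈ Pu ι l, H ∈ Z := by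
  obtain ⟨l, a1, a2, a3, H, a4, c, a5, a6⟩ := exists_pu L.hc L.hs ex (Finset.univ.erase o) _
    (fun j hj => h1 j (Finset.ne_of_mem_erase hj)) h2 X hX (fun e => hns 0 (by simp [e])) fun i hi => by
      obtain rfl : i = o := by simpa using hi
      exact hc
  refine ⟨l, a1, fun e => (a3 e).elim hns, fun p hp => ⟨Finset.ne_of_mem_erase (a2 p hp).1, (a2 p hp).2⟩,
    fun H' hH' => ?_⟩
  simpa [smul_smul, a5] using h2 c⁻¹ trivial _ (pu_trans L.hc a1 (fun p hp => ⟨tr _ (a2 p hp).2,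
    h1 _ (Finset.ne_of_mem_erase (a2 p hp).1)⟩) h2 a4 hH' a6)

omit L h3 in
theorem tr_both (hS : S.Nondeg) : ∀ T ∈ ({Tn S, Ts S} : Set _), Tr S.isom Set.univ T := by
  rintro _ (rfl | rfl)
  exacts [tr_Tn hS, tr_Ts hS]

omit h3 in
theorem cj_Ev {j : I} (hj : j ≠ o) : Cj S.isom (ι j) (Ev L o).toAddSubgroup := fun g hg X hX => by
  have h1 := L.hc j o hj (g : End F W)
  have h2 := L.hc j o hj (g.symm : End F W)
  have e1 : ι j g * ι j g.symm = 1 := by rw [← map_mul, coe_mul_symm, map_one]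
  have e2 : st (ι j g) = ι j g.symm := by rw [← mul_one (st _), ← e1, ← mul_assoc, L.uni _ (L.mem j g hg), one_mul]
  have e3 : st (ι j g.symm) = ι j g := by
    have := L.uni _ (L.mem j _ (inv_mem hg))
    rw [← mul_one (st _), ← map_one (ι j), ← coe_symm_mul g, map_mul, ← mul_assoc]
    exact (congrArg (· * _) this).trans (one_mul _)
  refine ⟨(h1.mul hX.1).mul h2, fun w y e => ?_⟩
  convert 𝕄.mul_mem (𝕄.mul_mem (L.mem j g hg) (hX.2 w y e)) (L.mem j _ (inv_mem hg)) using 1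
  change _ = _ * ι j g.symm
  simp only [Nv, L.mul, e2, e3, mul_add, add_mul, mul_one, e1, mul_assoc, (h2 _).eq]

include hss in
theorem exists_Z (hq : (2 : F) ≠ 0 ∨ 6 ≤ finrank F W) {η : R} (h : η ∈ Ev L o) (hns : ∀ c : F, η ≠ c • 1) :
    ∃ X ∈ L.Z o, ∀ c : F, X ≠ c • 1 := by
  have : Nontrivial W := Module.nontrivial_of_finrank_pos (R := F) (by omega)
  have : Nontrivial R := ⟨⟨_, _, hns 0⟩⟩
  obtain ⟨l, a1, a2, a3, a4⟩ := exists_pure L (fun i => ex_four L.nd h3 (ι i)) (tr_both L.nd)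
    (fun j hj => cj_Ev L hj) (fun a _ X hX => (Ev L o).smul_mem a hX) h h.1 hns
  have k1 : Gs ι st l → ∃ X ∈ L.Z o, ∀ c : F, X ≠ c • 1 := fun ⟨Y, b1, b2⟩ => by
    refine ⟨_, ?_, not_scalar (b2 1).1 (b2 1).2⟩
    have : Y ∈ L.Zh o := (Submodule.span_le.2 fun H hH => by
      obtain ⟨H₁, c1, H₂, c2, rfl⟩ := pu_sq L.hc a1 hH
      have := Ev_mul_st L h3 hss (a4 _ c1) (a4 _ c2)
      rcases pu_st L a1 (fun p hp => (a3 p hp).2) c2 with e | e
      · rwa [e] at this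
      · simpa [e] using this : sp ι l ≤ L.Zh o) b1
    simpa using this 1
  rcases hq with h2 | h6
  · refine (gs_or L h3 a1 fun p hp => (a3 p hp).2).elim k1 fun b1 => ?_
    obtain ⟨H, hH⟩ : ∃ H, H ∈ Pu ι l := by
      clear a1 a2 a3 a4 k1
      induction l with
      | nil => exact ⟨1, rfl⟩
      | cons p l ih =>
        obtain ⟨H, hH⟩ := ih fun q hq => b1 q (by simp [hq])
        obtain ⟨u, hu⟩ := exists_ne (0 : W)
        obtain ⟨v, c1, c2⟩ := exists_perp L.nd h3 u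
        exact ⟨_, _, by rw [b1 p (by simp)]; exact ⟨u, v, hu, c1, c2, rfl⟩, H, hH, rfl⟩
    obtain ⟨b2, b3⟩ := pu_Ts L a1 b1 hH
    refine ⟨H, ?_, not_scalar b2 (pu_mul_self L.hc a1 a2 (fun p hp t ht => sq_Ts (b1 p hp ▸ ht)) hH)⟩
    convert Ev_mul_st L h3 hss (a4 H hH) (Z_le_Ev L (one_mem_Z L)) 2⁻¹ using 1
    simp only [L.one, mul_one, b3, FP.symp_ε, FP.symp_σ]
    match_scalars; field_simp; ring
  · obtain ⟨p, l, rfl⟩ := List.exists_cons_of_ne_nil a2
    obtain ⟨a, ha⟩ := exists_ne (0 : W)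
    obtain ⟨b, c1, c2⟩ := exists_perp L.nd h3 a
    refine k1 (gs_cons L h3 a1 (fun q hq => (a3 q (by simp [hq])).2) ha c1 c2 ?_)
    rcases (a3 p (by simp)).2 with e | e <;> rw [e]
    · rw [span_Tn trP_symp L.nd (by omega)]; trivial
    obtain ⟨y, y', d1, d2, d3, d4, d5⟩ := H3.TenSpSp.exists_pair L.nd h6 a b
    refine Submodule.subset_span ⟨_, ⟨y, b, by rintro rfl; simp at d5, fun hm => ?_, S.B_comm_zero d2, rfl⟩, _,
      ⟨a, y', ha, fun hm => ?_, d3, rfl⟩, ?_⟩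
    · obtain ⟨c, rfl⟩ := Submodule.mem_span_singleton.1 hm
      simp [d5] at d4
      simp [d4] at c1
    · obtain ⟨c, rfl⟩ := Submodule.mem_span_singleton.1 hm
      simp [S.B_comm_zero d1] at d5
    · ext; simp [d4, d5, S.B_comm_zero d1, S.B_comm_zero c2]

include hss in
theorem sp_levels (hq : (2 : F) ≠ 0 ∨ 6 ≤ finrank F W)
    (hsw : ∀ j k, j ≠ o → k ≠ o → ∃ s ∈ 𝕄, Cm (ι o) s ∧ ∀ a, s * ι j a = ι k a * s) {η : R} (h : η ∈ Ev L o)
    (hns : ∀ c : F, η ≠ c • 1) {Y : R} (hY : Cm (ι o) Y) : Y ∈ L.Zh o := by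
  have : Nontrivial W := Module.nontrivial_of_finrank_pos (R := F) (by omega)
  obtain ⟨X, hX, hns⟩ := exists_Z L h3 hss hq h hns
  obtain ⟨l, a1, a2, a3, a4⟩ := exists_pure L (fun i => ex_four L.nd h3 (ι i)) (tr_both L.nd)
    (fun j hj => L.cj hj) (sp_re L) hX hX.1 hns
  have k1 : ∀ X ∈ L.Z o, X ∈ Am L o := fun X hX => ⟨hX.1, fun η e => Ev_mul_Z L h3 (fat_of L.nd hq) e hX⟩
  have k2 : ∀ Y ∈ Am L o, Y ∈ L.Zh o := fun Y hY => by
    have h1 := Z_le_Ev L (one_mem_Z L (o := o))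
    simpa [L.one] using Ev_mul_st L h3 hss (hY.2 _ h1) h1
  obtain ⟨⟨j, T⟩, hj⟩ := List.exists_mem_of_ne_nil l a2
  have k3 : ∀ k ≠ o, ∀ a, ι k a ∈ Am L o := fun k hk a => by
    refine alg_of_pu L h3 (l := [(k, Ts S)]) (by simp) (by simp) ?_ fun i hi => L.hc k i (by rintro rfl; simp at hi) a
    rintro _ ⟨_, ⟨u, v, -, -, -, rfl⟩, _, rfl, rfl⟩
    obtain ⟨s, b1, b2, b3⟩ := hsw j k (a3 _ hj).1 hk
    have := k2 _ (alg_of_pu L h3 a1 (fun p hp => (a3 p hp).2) (fun H hH => k1 H (a4 H hH)) (Y := ι j (rk S u v))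
      fun i hi => L.hc j i (by rintro rfl; exact hi (List.mem_map_of_mem hj)) _) 1
    simpa using k1 _ (L.swap b1 b2 b3 (c := 1) (a := rk S u v - rk S v u) (by simpa [L.srk] using this))
  refine k2 Y (mem_of_pu L.hc L.hs (A := (Am L o).toSubmodule)
    (l := (Finset.univ.erase o).toList.map fun j => (j, Set.univ)) (by simp) ?_ fun i hi => ?_)
  · generalize hl : (Finset.univ.erase o).toList = l
    have : ∀ j ∈ l, j ≠ o := by simp [← hl]
    clear hl
    induction l with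
    | nil => rintro _ rfl; exact one_mem (Am L o)
    | cons j l ih =>
      rintro _ ⟨t, -, H, hH, rfl⟩
      exact (Am L o).mul_mem (k3 j (this j (by simp)) t) (ih (fun q hq => this q (by simp [hq])) H hH)
  · obtain rfl : i = o := by simpa using hi
    exact hY

end Cfsg.Agent.H1.C7o
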