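import Cfsg.Agent.H1.C7o

/-!
Levels for a symplectic factor of dimension two.
-/

set_option autoImplicit false
set_option linter.unusedSectionVars false
set_option linter.unusedSimpArgs false

namespace Cfsg.Agent.H1.C7p

open Module Cfsg.Agent.H7 Cfsg.Agent.Form Cfsg.Agent.H3.TenLin Cfsg.Agent.H3.TenSL Cfsg.Agent.H3.TenSU
  Cfsg.Agent.H3.TenGen Cfsg.Agent.H1.C7d Cfsg.Agent.H1.C7j Cfsg.Agent.H1.C7k Cfsg.Agent.H1.C7n Cfsg.Agent.H1.C7o
open scoped Pointwise

variable {F : Type*} [Field F] {W : Type*} [AddCommGroup W] [Module F W] [FiniteDimensional F W]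
  {R : Type*} [Ring R] [Algebra F R] {I : Type*} [DecidableEq I] {S : PQ (FP.symp F) W}

theorem decomp_two {P : FP F} {S : PQ P W} (hS : S.Nondeg) (hW : finrank F W = 2) {w z : W} (hw : S.B w w = 0)
    (hz : S.B z w = 1) (y : W) : ∃ s : F, y = s • w + S.B y w • z := by
  obtain ⟨s, hs⟩ := H3.TenSpO2.exists_smul_of_perp hS hW (w := w) (by rintro rfl; simp at hz) hw
    (y := y - S.B y w • z) (by simp [hz])
  exact ⟨s, eq_add_of_sub_eq hs.symm⟩

theorem span_two (hS : S.Nondeg) (hW : finrank F W = 2) (h2 : (2 : F) ≠ 0) :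
    Submodule.span F (insert 1 (Tn S)) = ⊤ := by
  set A := Submodule.span F (insert 1 (Tn S))
  have k1 : ∀ u, rk S u u ∈ A := fun u => by
    by_cases h : u = 0
    · rw [show rk S u u = 0 by ext; simp [h]]; exact A.zero_mem
    · exact Submodule.subset_span (Or.inr ⟨u, trivial, h, rfl⟩)
  refine eq_top_iff.2 fun t _ => mem_of_rk1 (fun ψ b => ?_) t
  obtain ⟨a, rfl⟩ := hS.exists_lin ψ
  by_cases h : a = 0
  · rw [show rk1 F W (S.lin a) b = 0 by ext; simp [h]]; exact A.zero_mem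
  obtain ⟨z, hz⟩ := hS.exists_eq h 1
  refine (A.smul_mem_iff h2).1 ?_
  convert sub_mem (sub_mem (sub_mem (k1 (a + b)) (k1 a)) (k1 b))
    (A.smul_mem (S.B a b) (Submodule.subset_span (Or.inl rfl))) using 1
  ext x
  obtain ⟨s, hs⟩ := decomp_two hS hW (sB_self a) hz x
  obtain ⟨t, ht⟩ := decomp_two hS hW (sB_self a) hz b
  generalize S.B x a = α at hs
  generalize S.B b a = β at ht
  subst hs ht
  simp [hz, sB_swap z a]; module

variable {ι : I → End F W →ₐ[F] R} {𝕄 : Submonoid R} {st : R →+ R} (L : Lv S S.isom ι 𝕄 st) {o : I} [Finite F]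
include L

/-- the Lie algebra of multipliers -/
def Li (o : I) : Submodule F R where
  carrier := {n | Cm (ι o) n ∧ ∀ Y ∈ L.Z o, n * Y + Y * st n ∈ L.Z o}
  add_mem' := fun h h' => ⟨fun a => (h.1 a).add_left (h'.1 a), fun Y e => by
    convert add_mem (h.2 Y e) (h'.2 Y e) using 1
    simp only [map_add, mul_add, add_mul]; abel⟩
  zero_mem' := ⟨fun _ => Commute.zero_left _, by simp⟩
  smul_mem' := fun c n h => ⟨h.1.smul c, fun Y e => by simpa [L.smul] using sp_re L c trivial _ (h.2 Y e)⟩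

theorem lie_mem {n m : R} (h : n ∈ Li L o) (h' : m ∈ Li L o) : n * m - m * n ∈ Li L o :=
  ⟨fun a => (h.1.mul h'.1 a).sub_left (h'.1.mul h.1 a), fun Y e => by
    convert sub_mem (h.2 _ (h'.2 Y e)) (h'.2 _ (h.2 Y e)) using 1
    simp only [map_sub, L.mul]; noncomm_ring⟩

theorem Li_le {n : R} (h : n ∈ Li L o) : n ∈ L.Zh o := fun a => by
  simpa [L.smul] using ((Li L o).smul_mem a h).2 1 (one_mem_Z L)

theorem half (h2 : (2 : F) ≠ 0) {X : R} (h : (2 : F) • X ∈ L.Z o) : X ∈ L.Z o := by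
  simpa [smul_smul, h2] using sp_re L 2⁻¹ trivial _ h

theorem nu_Li (h2 : (2 : F) ≠ 0) {j : I} (hj : j ≠ o) (u : W) : ι j (rk S u u) ∈ Li L o :=
  ⟨L.hc j o hj _, fun Y e => half L h2 (by
    convert sub_mem (conj_tv (L.cj hj) e u 1) (conj_tv (L.cj hj) e u (-1)) using 1
    rw [L.srk]; simp only [FP.symp_ε, mul_smul_comm]; module)⟩

theorem jordan [Nontrivial W] (h2 : (2 : F) ≠ 0) {X : R} (hX : X ∈ L.Z o) (h : X * X = 0) : X ∈ Li L o := by
  refine ⟨hX.1, fun Y hY => half L h2 ?_⟩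
  obtain ⟨w, hw⟩ := exists_ne (0 : W)
  obtain ⟨z, hz⟩ := L.nd.exists_eq hw 1
  have k : ∀ c : F, Y + c • (X * Y + Y * X) + (c * c) • (X * Y * X) ∈ L.Z o := fun c => by
    have k1 : ∀ c : F, 1 + (c • ι o (rk S w w) + -c • (X * ι o (rk S w z + rk S z w))) ∈ 𝕄 := fun c => by
      convert 𝕄.mul_mem (𝕄.mul_mem (hX.2 z trivial) ((sp_re L c trivial _ (one_mem_Z L (o := o))).2 w trivial))
        ((neg_mem hX).2 z trivial) using 1
      have e : ∀ n m, ι o n * (X * ι o m) = X * ι o (n * m) := fun n m => by simpa using mm hX.1 1 n m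
      simp only [mul_add, add_mul, mm hX.1, mul_one, one_mul, neg_mul, mul_neg, smul_mul_assoc, mul_smul_comm, e,
        mul_assoc X (ι o _) (ι o _), ← map_mul, rk_mul, h, zero_mul, hz, sB_swap z w, sB_self, map_add, one_smul,
        neg_smul, map_neg, smul_add, smul_zero, neg_zero, zero_smul, map_zero, mul_zero, smul_neg]
      abel
    refine mem_Z L hw (fun a => ((hY.1 a).add_left (((hX.1.mul hY.1 a).add_left (hY.1.mul hX.1 a)).smul_left _)).add_left
      ((((hX.1.mul hY.1).mul hX.1) a).smul_left _)) ?_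
    convert 𝕄.mul_mem (𝕄.mul_mem (k1 c) (hY.2 w trivial)) (k1 (-c)) using 1
    have e : ∀ n m, ι o n * (X * ι o m) = X * ι o (n * m) := fun n m => by simpa using mm hX.1 1 n m
    have e' : ∀ n m, ι o n * (Y * ι o m) = Y * ι o (n * m) := fun n m => by simpa using mm hY.1 1 n m
    simp only [mul_add, add_mul, mm hX.1, mm hY.1, mul_one, one_mul, neg_mul, mul_neg, smul_mul_assoc, mul_smul_comm,
      e, e', mul_assoc _ (ι o _) (ι o _), ← map_mul, rk_mul, h, zero_mul, hz, sB_swap z w, sB_self, map_add, one_smul,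
      neg_smul, map_neg, smul_add, smul_zero, neg_zero, zero_smul, map_zero, mul_zero, smul_neg]
    module
  convert sub_mem (k 1) (k (-1)) using 1
  rw [st_Z L hX]; module

theorem conjZ {s X X' : R} (hs : s ∈ 𝕄) (h1 : Cm (ι o) s) (e : s * X = X' * s) (h : X ∈ L.Z o) : X' ∈ L.Z o := by
  obtain ⟨s', b1, b2, b3⟩ := L.inv s hs
  convert L.conj_mem hs b1 b2 h1 (fun a => ?_) h using 1
  · rw [e, mul_assoc, b2, mul_one]
  · calc s' * ι o a = s' * (ι o a * s) * s' := by rw [mul_assoc, mul_assoc, b2, mul_one]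
      _ = _ := by rw [← (h1 a).eq, ← mul_assoc, b3, one_mul]

theorem sp_levels_two [Fintype I] (hW : finrank F W = 2) (h2 : (2 : F) ≠ 0)
    (hsw : ∀ j k, j ≠ o → k ≠ o → ∃ s ∈ 𝕄, ∀ i a, s * ι i a = ι (Equiv.swap j k i) a * s) {X : R} (hX : X ∈ L.Z o)
    (hns : ∀ c : F, X ≠ c • 1) {Y : R} (hY : Cm (ι o) Y) : Y ∈ L.Zh o := by
  have : Nontrivial W := Module.nontrivial_of_finrank_pos (R := F) (by omega)
  have : Nontrivial R := ⟨⟨_, _, hns 0⟩⟩
  obtain ⟨l, a1, a2, a3, a4⟩ := exists_pure L (fun i => ex_two L.nd hW h2 (ι i)) (fun T hT => hT ▸ tr_Tn L.nd)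
    (fun j hj => L.cj hj) (sp_re L) hX hX.1 hns
  have k1 : ∀ Y, (∀ i ∉ l.map Prod.fst, Cm (ι i) Y) → Y ∈ L.Zh o := fun Y hY => by
    refine mem_of_pu L.hc L.hs (l := l.map fun p => (p.1, p.2 * p.2)) (by
      simp only [List.mem_map]
      rintro _ ⟨p, hp, rfl⟩
      rw [(a3 p hp).2]; exact span_Tn trP_symp L.nd hW.ge) (fun H hH => ?_) (by simpa using hY)
    obtain ⟨H₁, b1, H₂, b2, rfl⟩ := pu_sq L.hc a1 hH
    intro a
    simpa [L.mul, st_Z L (a4 _ b1), st_Z L (a4 _ b2)] using sp_re L a trivial _ ((jordan L h2 (a4 _ b1)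
      (pu_mul_self L.hc a1 a2 (fun p hp t ht => sq_Tn ((a3 p hp).2 ▸ ht)) b1)).2 _ (a4 _ b2))
  let Pr : I → I → Prop := fun j k => ∀ a ∈ Tn S, ∀ b ∈ Tn S, ι j a * ι k b ∈ L.Z o
  obtain ⟨j₀, k₀, b1, b2, b3, b4⟩ : ∃ j k, j ≠ o ∧ k ≠ o ∧ j ≠ k ∧ Pr j k := by
    obtain ⟨p, l, rfl⟩ := List.exists_cons_of_ne_nil a2
    rcases l with _ | ⟨q, l⟩
    · obtain ⟨u, hu⟩ := exists_ne (0 : W)
      have := st_Z L (a4 _ ⟨_, by rw [(a3 p (by simp)).2]; exact ⟨u, trivial, hu, rfl⟩, 1, rfl, rfl⟩)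
      rw [mul_one, L.srk, FP.symp_ε, neg_one_smul, neg_eq_iff_add_eq_zero, ← two_smul F, smul_eq_zero_iff_right h2,
        ← mul_one (ι _ _)] at this
      exact absurd (cancel (cm_one _) (rk_ne L.nd hu hu) this) one_ne_zero
    have hne : p.1 ≠ q.1 := by simp at a1; exact a1.1.1
    refine ⟨p.1, q.1, (a3 p (by simp)).1, (a3 q (by simp)).1, hne, ?_⟩
    rintro _ ⟨u, -, -, rfl⟩ _ ⟨v, -, -, rfl⟩
    refine half L h2 ?_
    convert k1 (ι p.1 (rk S u u) * ι q.1 (rk S v v)) (fun i hi => (L.hc _ i (by rintro rfl; simp at hi) _).mul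
      (L.hc _ i (by rintro rfl; simp at hi) _)) 1 using 1
    simp [L.mul, L.srk, (L.hc _ _ hne _ _).eq, two_smul]
  have k2 : ∀ a b, a ≠ o → b ≠ o → ∀ j k, Pr j k → Pr (Equiv.swap a b j) (Equiv.swap a b k) := by
    intro a b ha hb j k h x hx y hy
    obtain ⟨s, c1, c2⟩ := hsw a b ha hb
    refine conjZ L c1 (fun n => ?_) (by rw [← mul_assoc, c2, mul_assoc, c2, mul_assoc]) (h x hx y hy)
    simpa [Equiv.swap_apply_of_ne_of_ne ha.symm hb.symm, commute_iff_eq] using c2 o n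
  have k3 : ∀ j k, j ≠ o → k ≠ o → j ≠ k → Pr j k := fun j k hj hk hjk => by
    have c1 : Equiv.swap j₀ j k₀ ≠ j := fun e => b3 ((Equiv.swap j₀ j).injective (by rw [e, Equiv.swap_apply_left]))
    have := k2 (Equiv.swap j₀ j k₀) k (fun e => b2 ((Equiv.swap j₀ j).injective
      (by rw [e, Equiv.swap_apply_of_ne_of_ne b1.symm hj.symm]))) hk _ _ (k2 j₀ j b1 hj _ _ b4)
    rwa [Equiv.swap_apply_left, Equiv.swap_apply_left, Equiv.swap_apply_of_ne_of_ne c1.symm hjk] at this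
  have k4 : ∀ l : List I, l.Nodup → (∀ j ∈ l, j ≠ o) → ∀ H ∈ Pu ι (l.map fun j => (j, insert 1 (Tn S))),
      H ∈ Li L o ∧ ∀ k ∉ l, k ≠ o → ∀ z ∈ Tn S, ι k z * H ∈ Li L o := by
    intro l
    induction l with
    | nil =>
      rintro - - _ rfl
      refine ⟨⟨cm_one _, fun Y e => by simpa [L.one] using add_mem e e⟩, ?_⟩
      rintro k - hk _ ⟨u, -, -, rfl⟩
      simpa using nu_Li L h2 hk u
    | cons j l ih =>
      rintro c1 c2 _ ⟨t, ht, H, hH, rfl⟩
      rw [List.nodup_cons] at c1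
      have hj := c2 j (by simp)
      obtain ⟨c3, c4⟩ := ih c1.2 (fun q hq => c2 q (by simp [hq])) H hH
      rcases ht with rfl | ht
      · simpa using ⟨c3, fun k h1 h2 => c4 k h2⟩
      refine ⟨c4 j c1.1 hj t ht, fun k hk hko z hz => ?_⟩
      rw [List.mem_cons, not_or] at hk
      obtain ⟨u, -, hu, rfl⟩ := id ht
      obtain ⟨v, hv⟩ := L.nd.exists_eq hu 1
      have d1 : Cm (ι j) H := Pu.cm L.hc (by simpa using c1.1) hH
      have d2 : Cm (ι k) H := Pu.cm L.hc (by simpa using hk.2) hH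
      have d3 : Cm (ι j) (ι k z) := L.hc k j hk.1 z
      have d4 := lie_mem L (nu_Li L h2 hj u) (lie_mem L (c4 j c1.1 hj _ ⟨v, trivial, by rintro rfl; simp at hv, rfl⟩)
        (jordan L h2 (k3 j k hj hko (Ne.symm hk.1) _ ht z hz) (by
          rw [← (d3 _).eq, mm d3, ← map_mul, sq_Tn hz]; simp)))
      refine ((Li L o).smul_mem_iff (neg_ne_zero.2 h2)).1 ?_
      rw [← (d1 _).eq, ← (d3 _).eq, mm d3, mm d1, (d2 z).eq, ← mul_sub, ← map_sub, ← one_mul (ι j (rk S u u)),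
        mm (d3.mul d1), mm (cm_one _)] at d4
      convert d4 using 1
      simp only [← (d1 _).eq, mul_sub, sub_mul, rk_mul, hv, sB_swap v u, smul_mul_assoc, mul_smul_comm, map_smul,
        map_sub, one_mul, mul_one, mul_assoc, sB_self]
      module
  refine Li_le L (mem_of_pu L.hc L.hs (l := (Finset.univ.erase o).toList.map fun j => (j, insert 1 (Tn S)))
    (by simp [span_two L.nd hW h2]) (fun H hH => (k4 _ (Finset.nodup_toList _) (by simp) H hH).1) fun i hi => ?_)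
  obtain rfl : i = o := by simpa using hi
  exact hY

end Cfsg.Agent.H1.C7p
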