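import Cfsg.Agent.H1.C7h
import Cfsg.Agent.H1.C7b
import Cfsg.Agent.H3.TenSpO2

/-!
Linked good structures are equivalent or commute (symplectic second factor of dimension two).
-/

set_option autoImplicit false
set_option linter.unusedSectionVars false
set_option linter.unusedSimpArgs false

namespace Cfsg.Agent.H1.C7q

open Module Cfsg.Agent.H7 Cfsg.Agent.Form Cfsg.Agent.H3.TenLin Cfsg.Agent.H3.RootGeo Cfsg.Agent.H3.TenForm
  Cfsg.Agent.H3.TenGeo Cfsg.Agent.H3.TenGlue Cfsg.Agent.H3.TenPar Cfsg.Agent.H3.TenSpO2 Cfsg.Agent.H1.C7a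
  Cfsg.Agent.H1.C7g Cfsg.Agent.H1.C7h
open scoped Matrix

variable {F : Type*} [Field F] {V : Type*} [AddCommGroup V] [Module F V]
  {U : Type*} [AddCommGroup U] [Module F U] {W : Type*} [AddCommGroup W] [Module F W]
  {P P₁ : FP F} {S₁ : PQ P₁ U} {S₂ : PQ (FP.symp F) W} {S : PQ P V} {τ τ' : U →ₗ[F] W →ₗ[F] V}
  {M : Subgroup (V ≃ₗ[F] V)} {w w' : W}
  [FiniteDimensional F U] [FiniteDimensional F W] [FiniteDimensional F V] [Nontrivial U]

theorem norm_stab (h : IsTens τ) (h0 : w ≠ 0) {x : V ≃ₗ[F] V} (hx : x ∈ TStab τ) {u₀ : U} (hu : u₀ ≠ 0)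
    (e : x (τ u₀ w) ∈ Bw τ w) :
    ∃ (a : U ≃ₗ[F] U) (b : W ≃ₗ[F] W), (∀ u y, x (τ u y) = τ (a u) (b y)) ∧ b w = w := by
  obtain ⟨a, b, e'⟩ := hx
  obtain ⟨β, hβ⟩ : ∃ β : F, β • w = b w := Submodule.mem_span_singleton.1 (by
    by_contra hc
    exact h.ne_zero (a := a u₀) (b := b w) (by simpa) (by simpa) (Bw_inf h hc (e' _ _ ▸ e) ⟨_, rfl⟩))
  have hβ0 : β ≠ 0 := by rintro rfl; exact h0 (by simpa using hβ.symm)
  exact ⟨a.trans (LinearEquiv.smulOfNeZero F U _ hβ0), b.trans (LinearEquiv.smulOfNeZero F W _ (inv_ne_zero hβ0)),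
    fun u y => by simp [e', smul_smul, hβ0], by simp [← hβ, smul_smul, hβ0]⟩

theorem ker_nu (h : TF S₁ S₂ S τ) (hW : finrank F W = 2) (h0 : w ≠ 0) {v : V} : h.nu w v = 0 ↔ v ∈ Bw τ w :=
  ⟨fun e => mem_Bw_two h hW h0 (sB_self w) ((h.nu_eq_zero_iff h0).1 e), by
    rintro ⟨u, rfl⟩; simp [TF.nu_apply]⟩

variable [Finite F]

theorem false_of_ne (E : Ext S₁ S₂ S M τ τ' w w') (hW : finrank F W = 2) (h2 : (2 : F) ≠ 0) {t : F} (ht : t ≠ 0)
    (ht1 : t ^ 2 ≠ 1) (hD : Bw τ w ⊓ Bw τ' w' ≠ ⊥) : False := by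
  have h := E.G.tf
  have h0 := E.hw
  have hw := E.sw
  have key := fun b hb => E.symm.I E.sw' E.hw' (sB_self w') (t := b) hb
  have key' := fun a ha => E.I hw h0 (sB_self w) (t := a) ha
  have hGam : Gam (E.G'.tf.nu w') (h.nu w) (FP.symp F).Λ ≤ M := E.Gam_le hw
  have hμ2 := E.G'.tf.nu_sq E.sw'
  have sk : ∀ x y, S.B (E.G'.tf.nu w' x) y = -1 * S.B x (E.G'.tf.nu w' y) := H3.TenSpO1.B_nu E.G'.tf w'
  have hne : ¬ Bw τ w ≤ Bw τ' w' := fun e => E.bad.1 (E.G'.eqv_of_le E.two E.L.symm hw h0 E.hw' e).symm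
  have hkA := fun v => ker_nu E.G'.tf hW E.hw' (v := v)
  have hrA := E.G'.tf.range_nu E.hw'
  change ∀ b ∈ Bw τ w, E.G'.tf.nu w' b ∈ Bw τ w → b ∈ Bw τ' w' at key
  change ∀ a ∈ Bw τ' w', h.nu w a ∈ Bw τ' w' → a ∈ Bw τ w at key'
  generalize Bw τ' w' = A at *
  generalize E.G'.tf.nu w' = μ at *
  have hμA : ∀ a ∈ A, μ a = 0 := fun a => (hkA a).2
  have hAμ : ∀ v, μ v ∈ A := fun v => hrA ▸ ⟨v, rfl⟩
  have hAA : ∀ a ∈ A, ∀ a' ∈ A, S.B a a' = 0 := by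
    rw [← hrA]; rintro _ ⟨v, rfl⟩ _ ⟨v', rfl⟩; simp [sk, hμ2]
  set D := A.comap (τ.flip w) with hD'
  have hDm : ∀ {u}, u ∈ D ↔ τ u w ∈ A := Iff.rfl
  obtain ⟨z, hz⟩ := h.nd₂.exists_eq h0 1
  let s : End F U := h.cw w ∘ₗ μ ∘ₗ τ.flip w
  have hs : ∀ u, s u = h.cw w (μ (τ u w)) := fun _ => rfl
  have hks : LinearMap.ker s = D := by
    ext u
    exact ⟨fun hu => key _ ⟨u, rfl⟩ (mem_Bw_two h hW h0 (sB_self w) hu), fun hu => by simp [hs, hμA _ (hDm.1 hu)]⟩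
  have hrs : LinearMap.range s = S₁.perp D := by
    refine Submodule.eq_of_le_of_finrank_le ?_ ?_
    · rintro _ ⟨u, rfl⟩ x hx
      rw [hs, ← h.B_tmul, hAA _ (hAμ _) _ (hDm.1 hx)]
    · have := LinearMap.finrank_range_add_finrank_ker s
      have := h.nd₁.finrank_perp D
      rw [hks] at *
      omega
  have hDn : S₁.NondegOn D := fun x hx hx' => by
    obtain ⟨u, rfl⟩ : x ∈ LinearMap.range s := hrs ▸ hx'
    exact h.cw_Bw (sB_self w) (key' _ (hAμ _) hx)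
  have hcom := frob_adj (hν := h.nu_sq hw) (Λ := (FP.symp F).Λ) hμ2 h2 ⟨1, trivial, one_ne_zero⟩ ht ht1
    (fun _ _ => trivial) fun δ hδ hst => ?_
  · refine hne ?_
    rintro _ ⟨u, rfl⟩
    rw [LinearMap.flip_apply, ← hDm, ← hks, LinearMap.mem_ker, hs, ← h.nu_eq_zero_iff h0, ← hcom]
    simp [TF.nu_apply]
  have hfix : ∀ δ ∈ Gam μ (h.nu w) (FP.symp F).Λ, ∀ u ∈ D, δ (τ u w) = τ u w := fun δ hδ u hu =>
    Gam_fix hδ (hμA _ hu) (by simp [TF.nu_apply])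
  obtain ⟨u₀, hu₀, u₁, hu₁, hQ⟩ : ∃ u₀ ∈ D, ∃ u₁ ∈ D, S₁.B u₀ u₁ ≠ 0 := by
    by_contra hc
    push Not at hc
    refine hD (eq_bot_iff.2 ?_)
    rintro _ ⟨⟨u, rfl⟩, hu⟩
    simp [hDn u hu (hc u hu)]
  have hu0 : u₀ ≠ 0 := by rintro rfl; simp at hQ
  obtain ⟨a, b, e, hb⟩ := norm_stab h.tens h0 (E.G.stab w hw h0 δ (hGam hδ) fun u => by
    simpa [TF.nu_apply, hz, h.range_nu h0] using hst (τ u z)) hu0 (by rw [hfix δ hδ u₀ hu₀]; exact ⟨_, rfl⟩)
  have ha : ∀ u ∈ D, a u = u := fun u hu => eq_of_tmul_eq h.tens h0 (by rw [← hfix δ hδ u hu, e, hb])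
  have hbb : b ∈ bis S₂ := fun y y' => mul_left_cancel₀ hQ (by
    rw [← h.form, ← h.form, ← E.G.bis (hGam hδ) (τ u₀ y), e, e, ha u₀ hu₀, ha u₁ hu₁])
  have hρ' : h.tens.tcongr 1 b ∈ h.R hw := h.mem_R_of trP_symp hw h0
    (h.tens_mem_bis (h.tens.tcongr_apply 1 b) (one_mem _) hbb) (h.tens.tcongr_apply 1 b) fun y =>
      Submodule.mem_span_singleton.2 (exists_smul_of_perp h.nd₂ hW h0 (sB_self w) (by
        rw [PQ.B_sub_left, ← hbb y w, hb, sub_self]))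
  have hδ' : δ = h.tens.tcongr a 1 * h.tens.tcongr 1 b := h.eq_of_tens fun u y => by simp [e]
  have hκ : h.tens.tcongr a 1 ∈ Gam μ (h.nu w) (FP.symp F).Λ :=
    (Subgroup.mul_mem_cancel_right _ (RG_le_Gam hρ')).1 (hδ' ▸ hδ)
  have eκ := h.tens.tcongr_apply a 1
  generalize h.tens.tcongr a 1 = κ at *
  have cκ : ∀ v, h.cw w (κ v) = a (h.cw w v) := cw_tens eκ (one_mem _) w
  have nκ : ∀ v, κ (h.nu w v) = h.nu w (κ v) := fun v => by simp [TF.nu_apply, eκ, cκ]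
  have haa : ∀ u, a (a u) = u := fun u => by
    obtain ⟨x, hx, y, hy, rfl⟩ := Submodule.mem_sup.1
      (hDn.isCompl.sup_eq_top ▸ Submodule.mem_top (x := u))
    obtain ⟨u, rfl⟩ : y ∈ LinearMap.range s := hrs ▸ hy
    have := congrArg κ ((Gam_cen hμ2 (h.nu_sq hw) hκ).1 (τ u w))
    simp [TF.nu_apply, eκ, cκ, ← hs, eq_comm, sub_eq_zero] at this
    rw [map_add, map_add, ha x hx, ha x hx, add_right_inj]
    exact eq_of_tmul_eq h.tens h0 (sub_eq_zero.1 this.symm)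
  have hκκ : κ * κ = 1 := h.eq_of_tens fun u y => by simp [eκ, haa]
  have hκs : ∀ v, κ.symm v = κ v := fun v => by
    rw [LinearEquiv.symm_apply_eq]; exact (LinearEquiv.congr_fun hκκ v).symm
  have hκ2 : ∀ v, κ (κ v) = v := fun v => LinearEquiv.congr_fun hκκ v
  have hκb : ∀ x y, S.B (κ x) y = S.B x (κ y) := fun x y => by rw [← E.G.bis (hGam hκ), hκ2]
  refine ⟨_, hρ', κ, hδ', hκκ, fun v => ?_, nκ⟩
  obtain ⟨c1, c2⟩ := Gam_cen (Λ := (FP.symp F).Λ) (δ := κ) (h.nu_sq hw) hμ2 (by rwa [Gam_comm])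
  simp only [hκs] at c1 c2
  have k1 : ∀ v, μ (κ (μ v)) = 0 := fun v => by
    have := c2 v
    simp only [map_sub, hμ2, map_zero] at this
    refine smul_right_injective V h2 ?_
    linear_combination (norm := module) -this
  have k2 : ∀ v, μ (κ v) - κ (μ v) ∈ A := fun v => sub_mem (hAμ _) ((hkA _).1 (k1 v))
  have k3 : ∀ v, ∃ u ∈ D, μ (κ v) - κ (μ v) = τ u w := fun v => by
    obtain ⟨u, hu⟩ := key' _ (k2 v) (c1 v ▸ k2 _)
    exact ⟨u, by rw [hDm, ← LinearMap.flip_apply, hu]; exact k2 v, hu.symm⟩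
  have k4 : μ (κ (κ v - v)) - κ (μ (κ v - v)) = 0 := h.nd _ fun y => by
    obtain ⟨u, hu, e⟩ := k3 y
    have := hκb v (τ u w)
    rw [hfix κ hκ u hu, ← e] at this
    rw [PQ.B_sub_left, sk, hκb, hκb, sk]
    simp only [PQ.B_sub_left, PQ.B_sub_right] at this ⊢
    linear_combination this
  obtain ⟨u, hu, e⟩ := k3 v
  have k5 := hfix κ hκ u hu
  rw [← e] at k5
  simp only [map_sub, hκ2] at k4 k5
  refine smul_right_injective V h2 ?_
  linear_combination (norm := module) k4 + k5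

theorem split_of_bot (E : Ext S₁ S₂ S M τ τ' w w') (hW : finrank F W = 2) (hD : Bw τ w ⊓ Bw τ' w' = ⊥) (v : V) :
    ∃ x y, v = E.G.tf.nu w x + E.G'.tf.nu w' (E.G.tf.nu w y) := by
  have hinj : Function.Injective (E.G'.tf.nu w' ∘ₗ τ.flip w) := by
    rw [injective_iff_map_eq_zero]
    intro u hu
    have : τ u w ∈ Bw τ w ⊓ Bw τ' w' := ⟨⟨u, rfl⟩, (ker_nu E.G'.tf hW E.hw').1 hu⟩
    rw [hD] at this
    exact (E.G.tf.tens.eq_zero this).resolve_right E.hw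
  have h1 : LinearMap.range (E.G'.tf.nu w' ∘ₗ τ.flip w) = Bw τ' w' :=
    Submodule.eq_of_le_of_finrank_le ((LinearMap.range_comp_le_range _ _).trans (E.G'.tf.range_nu E.hw').le) (by
      rw [LinearMap.finrank_range_of_inj hinj, finrank_Bw E.G'.tf.tens E.hw'])
  obtain ⟨u, hu⟩ : E.G'.tf.nu w' v ∈ LinearMap.range (E.G'.tf.nu w' ∘ₗ τ.flip w) :=
    h1 ▸ E.G'.tf.range_nu E.hw' ▸ ⟨v, rfl⟩
  obtain ⟨u', hu'⟩ : v - τ u w ∈ LinearMap.range (E.G'.tf.nu w' ∘ₗ τ.flip w) :=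
    h1 ▸ (ker_nu E.G'.tf hW E.hw').1 (by rw [map_sub, ← hu]; simp)
  obtain ⟨z, hz⟩ := E.G.tf.nd₂.exists_eq E.hw 1
  exact ⟨τ u z, τ u' z, by simpa [E.G.tf.nu_apply, hz, sub_eq_iff_eq_add'] using hu'.symm⟩

theorem stab_of (E : Ext S₁ S₂ S M τ τ' w w') (hW : finrank F W = 2) (h2 : (2 : F) ≠ 0)
    (hD : Bw τ w ⊓ Bw τ' w' = ⊥) {k : V ≃ₗ[F] V} (hk : k ∈ Gam (E.G'.tf.nu w') (E.G.tf.nu w) (FP.symp F).Λ)
    (hn : Bw τ w ⊓ Bw (act k τ) w ≠ ⊥) (v : V) : E.G.tf.nu w (k v) = k.symm (E.G.tf.nu w v) := by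
  have h := E.G.tf
  have hν := h.nu_sq E.sw
  have hμ := E.G'.tf.nu_sq E.sw'
  have hs := split_of_bot E hW hD
  let ζ : End F V := h.nu w * (k : End F V) - (k.symm : End F V) * h.nu w
  have e : ∀ v, ζ v = h.nu w (k v) - k.symm (h.nu w v) := fun _ => rfl
  obtain ⟨c1, c2⟩ := Gam_cen hμ hν hk
  simp only [← e] at c1 c2
  have c3 : k ∈ cent ζ := H3.RootGeo.Gam_le (hμ := hμ) (hν := hν)
    (by rintro g ⟨c, -, f⟩ v; simp only [f, c1, map_add, map_smul])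
    (by rintro g ⟨c, -, f⟩ v; simp only [f, c2, map_add, map_smul]) hk
  suffices H : ∀ v, ζ (h.nu w v) = 0 by
    obtain ⟨x, y, rfl⟩ := hs v
    rw [← sub_eq_zero, ← e, map_add, ← c1, H, H, map_zero, add_zero]
  intro v
  by_cases hb : Bad τ (act k τ)
  · have := E.max _ _ w w E.G (lk_act (E.Gam_le E.sw hk)) hb E.sw E.hw E.sw E.hw
    rw [hD, finrank_bot] at this
    exact absurd (Submodule.finrank_eq_zero.1 (Nat.le_zero.1 this)) hn
  rcases not_and_or.1 hb with hb | hb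
  · obtain ⟨_, ⟨h1, u, rfl⟩, h3⟩ := Submodule.exists_mem_ne_zero_of_ne_bot hn
    obtain ⟨a, b, f, hb⟩ := norm_stab h.tens E.hw (not_not.1 hb) (u₀ := u) (by rintro rfl; simp at h3) h1
    simp [e, TF.nu_apply, f, hb]
  have c4 : ∀ v, k (ζ (h.nu w (k v))) = -ζ (h.nu w v) := fun v => by
    have := not_not.1 hb h.tens (tens_act h.tens k) (S₂.lin w) w (S₂.lin w) w (k v)
    rw [rk_act h.tens, ← k.apply_symm_apply (rk h.tens _ w (k v)), rk_act h.tens] at this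
    rw [← c2, e, e, hν, map_zero, sub_zero, map_sub, hν, zero_sub, map_neg]
    exact congrArg Neg.neg this.symm
  have c5 : ∀ v, k (ζ (ζ v)) = -(2 : F) • ζ (h.nu w v) := fun v => by
    rw [c3, e v, map_sub, map_sub, ← c3, c4, k.apply_symm_apply]; module
  have c6 : ∀ v, ζ (ζ v) = 0 := fun v => by
    have : ∀ v, ζ (ζ (h.nu w v)) = 0 := fun v => k.injective (by simp [c5, hν])
    obtain ⟨x, y, rfl⟩ := hs v
    rw [map_add, map_add, ← c1, ← c1, this, this, map_zero, add_zero]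
  simpa [c6, h2] using (c5 v).symm

theorem false_of_bot (E : Ext S₁ S₂ S M τ τ' w w') (hW : finrank F W = 2) (h2 : (2 : F) ≠ 0) {t : F} (ht : t ≠ 0)
    (ht1 : t ^ 2 ≠ 1) (hD : Bw τ w ⊓ Bw τ' w' = ⊥) : False := by
  have h := E.G.tf
  have h0 := E.hw
  have hν := h.nu_sq E.sw
  have hμ := E.G'.tf.nu_sq E.sw'
  have hs := split_of_bot E hW hD
  have hU := fun k hk => stab_of E hW h2 hD (k := k) hk
  have hG : Gam (E.G'.tf.nu w') (h.nu w) (FP.symp F).Λ ≤ M := E.Gam_le E.sw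
  have hA := fun v => ker_nu E.G'.tf hW E.hw' (v := v)
  have hB := fun v => ker_nu h hW h0 (v := v)
  have hμ0 := E.G'.tf.nu_ne_zero E.hw'
  have hle : ∀ x, x ≠ 0 → ¬ Bw τ' w' ≤ Bw τ x := fun x hx e => E.bad.1 (E.G.eqv_of_le E.two E.L E.sw' E.hw' hx e)
  have hr := E.G'.tf.range_nu E.hw'
  change ∀ v, ∃ x y, v = h.nu w x + _ at hs
  change ∀ k ∈ Gam _ (h.nu w) _, _ → ∀ v, h.nu w (k v) = k.symm (h.nu w v) at hU
  generalize E.G'.tf.nu w' = μ at *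
  have i0 : ∀ v, h.nu w v = 0 → μ v = 0 → v = 0 := fun v h1 h2 => (Submodule.mem_bot F).1 (hD ▸ ⟨(hB v).1 h1, (hA v).1 h2⟩)
  have hT : ∀ k ∈ Gam μ (h.nu w) (FP.symp F).Λ, (∀ v, h.nu w (k v) = k.symm (h.nu w v)) →
      ∃ (a : U ≃ₗ[F] U) (b : W ≃ₗ[F] W), (∀ u y, k (τ u y) = τ (a u) (b y)) ∧ b w = w := fun k hk e => by
    have : ∀ u, k (τ u w) ∈ Bw τ w := fun u => (hB _).1 (by simp [e, TF.nu_apply])
    obtain ⟨u, hu⟩ := exists_ne (0 : U)
    exact norm_stab h.tens h0 (E.G.stab w E.sw h0 k (hG hk) this) hu (this u)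
  obtain ⟨K, _, _, _, c, l, hc, hl, e⟩ := C7b.exists_eigen (A := μ * h.nu w) (by
    rintro ⟨n, hn⟩
    have : ∀ n : ℕ, ∀ v, ((μ * h.nu w) ^ n) (μ v) = 0 → μ v = 0 := fun n => by
      induction n with
      | zero => exact fun v e => e
      | succ n ih => exact fun v e => i0 _ (i0 _ (hν _) (ih _ (by rwa [pow_succ] at e))) (hμ v)
    exact hμ0 (LinearMap.ext fun v => this n v (by simp [hn])))
  replace e : ∀ v, l (μ (h.nu w v)) = c * l v := e
  have e0 : ∀ v, l (h.nu w v) = 0 := fun v => by simpa [hν, hc] using (e (h.nu w v)).symm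
  obtain ⟨v₀, hv₀⟩ : ∃ v, l v ≠ 0 := by
    by_contra h; push Not at h; exact hl (LinearMap.ext h)
  replace hU : ∀ k ∈ Gam μ (h.nu w) (FP.symp F).Λ, ∀ d : K, (∀ v, l (k v) = d * l v) →
      ∀ v, h.nu w (k v) = k.symm (h.nu w v) := fun k hk d hd => hU k hk fun hb => by
    have k1 := Submodule.finrank_sup_add_finrank_inf_eq (Bw τ w) (Bw (act k τ) w)
    rw [hb, finrank_bot, finrank_Bw h.tens h0, finrank_Bw (tens_act h.tens k) h0] at k1
    have k2 : Bw τ w ⊔ Bw (act k τ) w = ⊤ :=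
      Submodule.eq_top_of_finrank_eq (by rw [h.tens.finrank_eq, hW]; omega)
    have k3 : Bw τ w ≤ LinearMap.ker l := by rw [← h.range_nu h0]; rintro _ ⟨v, rfl⟩; exact e0 v
    refine hv₀ (sup_le k3 ?_ (k2 ▸ Submodule.mem_top (x := v₀)))
    rintro _ ⟨u, rfl⟩
    exact (hd _).trans (mul_eq_zero_of_right _ (k3 ⟨u, rfl⟩))
  let π : V → Fin 2 → K := fun v => ![l (μ v), l v]
  let L : Subgroup (GL (Fin 2) K) :=
    { carrier := {g | ∃ k ∈ Gam μ (h.nu w) (FP.symp F).Λ, ∀ v, π (k v) = g.val *ᵥ π v}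
      one_mem' := ⟨1, one_mem _, fun v => by simp⟩
      mul_mem' := by
        rintro a b ⟨k, hk, e1⟩ ⟨k', hk', e2⟩
        exact ⟨k * k', mul_mem hk hk', fun v => by
          rw [LinearEquiv.mul_apply, e1, e2, Matrix.mulVec_mulVec, Units.val_mul]⟩
      inv_mem' := by
        rintro a ⟨k, hk, e1⟩
        refine ⟨k⁻¹, inv_mem hk, fun v => ?_⟩
        have := e1 (k.symm v)
        rw [LinearEquiv.apply_symm_apply] at this
        rw [this, Matrix.mulVec_mulVec]; simp }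
  have m1 : ∀ s, rootE _ hν s ∈ Gam μ (h.nu w) (FP.symp F).Λ := fun s => RG_le_Gam (rootE_mem (hν := hν) trivial)
  have m2 : ∀ s, rootE _ hμ s ∈ Gam μ (h.nu w) (FP.symp F).Λ := fun s => RG_le_Gam' (rootE_mem (hν := hμ) trivial)
  obtain ⟨⟨k, hk, ek⟩, -⟩ := H8.Dickson.inv_mem_upper L (by
    have h3 : Function.Injective fun s : F => s • c := smul_left_injective F hc
    refine le_trans ?_ (Set.ncard_le_ncard (s := (fun s : F => s • c) '' {0, 1, -1, t}) ?_)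
    · have a1 : (1 : F) ≠ -1 := fun e => h2 (by linear_combination e)
      have a2 : 1 ≠ t := by rintro rfl; simp at ht1
      have a3 : -1 ≠ t := by rintro rfl; simp at ht1
      rw [Set.ncard_image_of_injective _ h3]
      simp [Set.ncard_insert_of_notMem, a1, a2, a3, ht.symm]
    · rintro _ ⟨s, -, rfl⟩
      exact ⟨_, m1 s, fun v => by
        ext i; fin_cases i <;> simp [π, e, e0, H8.Dickson.xu, Matrix.mulVec, dotProduct]⟩)
    ⟨_, m2 1, fun v => by ext i; fin_cases i <;> simp [π, hμ, H8.Dickson.xl, Matrix.mulVec, dotProduct, add_comm]⟩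
  have ek1 : ∀ v, l (μ (k v)) = l (μ v) + l v := fun v => by
    simpa [π, H8.Dickson.xu, Matrix.mulVec, dotProduct] using congrFun (ek v) 0
  have ek2 : ∀ v, l (k v) = l v := fun v => by
    simpa [π, H8.Dickson.xu, Matrix.mulVec, dotProduct] using congrFun (ek v) 1
  obtain ⟨z, hz⟩ := h.nd₂.exists_eq h0 1
  have hdec : ∀ v, ∃ u, v = τ u w + τ (h.cw w v) z := fun v => by
    obtain ⟨u, hu⟩ := mem_Bw_two h hW h0 (sB_self w) (v := v - τ (h.cw w v) z) (by simp [hz])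
    exact ⟨u, eq_add_of_sub_eq hu.symm⟩
  obtain ⟨r, hr0⟩ : ∃ r : F, r • c = 1 := by
    have k1 := hU k hk 1 (by simp [ek2])
    obtain ⟨a, b, f, hb⟩ := hT k hk k1
    obtain ⟨x, hx⟩ := exists_smul_of_perp h.nd₂ hW h0 (sB_self w) (y := b z - S₂.B (b z) w • z) (by simp [hz])
    replace hx := eq_add_of_sub_eq hx.symm
    generalize S₂.B (b z) w = m at hx
    have k2 : ∀ u, m • a (a u) = u := fun u => eq_of_tmul_eq h.tens h0 (by
      simpa [f, hx, TF.nu_apply, hz, hb] using congrArg k (k1 (τ u z)))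
    have k3 : ∀ u, l (τ u w) = 0 := fun u => by simpa [TF.nu_apply, hz] using e0 (τ u z)
    obtain rfl : m = 1 := by
      obtain ⟨u, hu⟩ := hdec v₀
      have k4 := (ek2 _).trans (ek2 (τ (h.cw w v₀) z))
      rw [hu, map_add, k3, zero_add] at hv₀
      simp only [f, map_add, map_smul, hb, hx, k3, smul_zero, zero_add] at k4
      have k5 := congrArg (fun u => l (τ u z)) (k2 (h.cw w v₀))
      simp only [map_smul, LinearMap.smul_apply] at k5
      rw [k5] at k4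
      exact smul_left_injective F hv₀ (k4.trans (one_smul F _).symm)
    rw [one_smul] at hx
    simp only [one_smul] at k2
    have k4 : k (k v₀) = v₀ + (2 * x) • h.nu w v₀ := by
      obtain ⟨u, hu⟩ := hdec v₀
      rw [TF.nu_apply]
      generalize h.cw w v₀ = u' at hu
      simp only [hu, map_add, f, hx, hb, k2, map_smul]; module
    have k5 := ek1 (k v₀)
    rw [ek1 v₀, ek2, k4, map_add, map_smul, map_add, map_smul, e] at k5
    refine ⟨x, mul_right_cancel₀ hv₀ (smul_right_injective K h2 ?_)⟩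
    simp only [Algebra.smul_def, map_mul, map_ofNat] at k5 ⊢
    linear_combination k5
  have hr1 : r ≠ 0 := by rintro rfl; simp at hr0
  have ht2 : 1 - t ≠ 0 := fun e => ht1 (by rw [← sub_eq_zero.1 e]; simp)
  obtain ⟨k, hk, ek⟩ : ∃ k ∈ Gam μ (h.nu w) (FP.symp F).Λ, ∀ v, k v = v + (1 - t) • μ v +
      (r * (t⁻¹ - 1)) • (h.nu w v - t • h.nu w (μ v) + μ (h.nu w v) - t • μ (h.nu w (μ v))) :=
    ⟨_, mul_mem (mul_mem (m2 1) (m1 (r * (t⁻¹ - 1)))) (m2 (-t)), fun v => by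
      simp only [LinearEquiv.mul_apply, rootE_apply, map_add, map_smul, hμ]; module⟩
  have ec : ∀ v, l (μ (h.nu w v)) = r⁻¹ • l v := fun v => by
    rw [e, eq_inv_smul_iff₀ hr1, ← smul_mul_assoc, hr0, one_mul]
  have k1 := hU k hk (algebraMap F K t⁻¹) fun v => by
    simp only [ek, map_add, map_sub, map_smul, ec, e0, ← Algebra.smul_def]
    match_scalars <;> field_simp <;> ring
  obtain ⟨a, b, f, hb⟩ := hT k hk k1
  have k2 : ∀ v, h.nu w (μ (h.nu w v)) = r⁻¹ • h.nu w v := fun v => by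
    have := k1 (h.nu w v)
    simp only [ek, map_add, map_sub, map_smul, hν, map_zero] at this
    rw [← sub_eq_zero]
    refine i0 _ (by simp [hν]) (i0 _ (smul_right_injective V (mul_ne_zero ht2 hr1) ?_) (hμ _))
    simp only [map_sub, map_smul, smul_zero]
    rw [← neg_zero, ← this]
    match_scalars <;> field_simp <;> ring
  have k3 : ∀ v, μ (h.nu w (μ v)) = r⁻¹ • μ v := fun v => by
    obtain ⟨x, y, rfl⟩ := hs v
    simp [hμ, k2]
  have k4 : ∀ u, a u = t • u := fun u => eq_of_tmul_eq h.tens h0 (by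
    have e1 : τ u w = h.nu w (τ u z) := by simp [TF.nu_apply, hz]
    rw [map_smul, LinearMap.smul_apply, ← hb, ← f, hb, e1]
    simp only [ek, hν, k2, map_zero, map_smul]
    match_scalars <;> field_simp <;> ring)
  have k5 : t - t⁻¹ ≠ 0 := fun e => ht1 (by field_simp at e; linear_combination e)
  obtain ⟨x, hx⟩ := exists_smul_of_perp h.nd₂ hW h0 (sB_self w) (y := b z - S₂.B (b z) w • z) (by simp [hz])
  replace hx := eq_add_of_sub_eq hx.symm
  refine hle (z - ((t * x - r * (t⁻¹ - 1)) / (t - t⁻¹)) • w) (fun e => by simpa [hz] using congrArg (S₂.B · w) e) ?_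
  rw [← hr]
  rintro _ ⟨v, rfl⟩
  obtain ⟨u, hu⟩ := hdec (μ v)
  have k6 : k (μ v) = t⁻¹ • μ v + (r * (t⁻¹ - 1)) • h.nu w (μ v) := by
    simp only [ek, hμ, k3, map_zero]
    match_scalars <;> field_simp <;> ring
  rw [TF.nu_apply] at k6
  refine ⟨h.cw w (μ v), ?_⟩
  generalize h.cw w (μ v) = u' at hu k6
  have k7 := congrArg (h.cw z) k6
  generalize S₂.B (b z) w = m at hx
  simp only [hu, map_add, map_smul, f, hb, hx, k4, h.cw_apply, sB_swap z w, hz, sB_self, LinearMap.smul_apply] at k7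
  have k8 : u = -((t * x - r * (t⁻¹ - 1)) / (t - t⁻¹)) • u' := by
    rw [← neg_div, div_eq_inv_mul, mul_smul, eq_inv_smul_iff₀ k5]
    linear_combination (norm := module) -k7
  rw [hu, k8]; simp [sub_eq_neg_add]

theorem eqv_or_comm_two (G : Gd S₁ S₂ S M τ) (L : Lk M τ τ') (hW : finrank F W = 2) (h2 : (2 : F) ≠ 0) {t : F}
    (ht : t ≠ 0) (ht1 : t ^ 2 ≠ 1) : Eqv τ τ' ∨ Comm τ τ' := by
  by_contra hc
  obtain ⟨ρ, ρ', x, x', E⟩ := exists_ext G L (not_or.1 hc) hW.ge fun h => absurd h h2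
  exact false_of_ne E hW h2 ht ht1 (false_of_bot E hW h2 ht ht1)

end Cfsg.Agent.H1.C7q
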