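import Cfsg.Agent.H1.C7m
import Cfsg.Agent.H1.C7p
import Cfsg.Agent.H1.C7q

/-!
Tensor wreath products with symplectic factors.
-/

set_option autoImplicit false
set_option linter.unusedSectionVars false
set_option linter.unusedSimpArgs false

namespace Cfsg.Agent.H1.C7r

open Module Cfsg.Agent.H7 Cfsg.Agent.Form Cfsg.Agent.H3.TenLin Cfsg.Agent.H3.RootGeo Cfsg.Agent.H3.TenForm
  Cfsg.Agent.H3.TenGeo Cfsg.Agent.H3.TenGlue Cfsg.Agent.H3.TenPar Cfsg.Agent.H3.TenGen Cfsg.Agent.H1.C7a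
  Cfsg.Agent.H1.C7e Cfsg.Agent.H1.C7f Cfsg.Agent.H1.C7g Cfsg.Agent.H1.C7h Cfsg.Agent.H1.C7i Cfsg.Agent.H1.C7j
  Cfsg.Agent.H1.C7k Cfsg.Agent.H1.C7l Cfsg.Agent.H1.C7m Cfsg.Agent.H1.C7o Cfsg.Agent.H1.C7p Cfsg.Agent.H1.C7q

section abs
variable {F : Type*} [Field F] {V : Type*} [AddCommGroup V] [Module F V]
  {U : Type*} [AddCommGroup U] [Module F U] {W : Type*} [AddCommGroup W] [Module F W]
  [FiniteDimensional F U] [FiniteDimensional F W] [FiniteDimensional F V] {M : Subgroup (V ≃ₗ[F] V)}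
  {I : Type*} [Fintype I] [DecidableEq I] {τ : I → U →ₗ[F] W →ₗ[F] V}

/-- exact swaps compatible with all factors -/
def Sw2 (h : ∀ i, IsTens (τ i)) (M : Subgroup (V ≃ₗ[F] V)) : Prop :=
  ∀ o j k, j ≠ o → k ≠ o → ∃ s ∈ M, ∀ i ψ x v, s (rk (h i) ψ x v) = rk (h (Equiv.swap j k i)) ψ x (s v)

theorem Sw2.sw {h : ∀ i, IsTens (τ i)} (hs : Sw2 h M) : Sw h M := fun o j k hj hk => by
  obtain ⟨s, h1, h2⟩ := hs o j k hj hk
  have e : ∀ {i i'}, i = i' → ∀ ψ x v, rk (h i) ψ x v = rk (h i') ψ x v := by rintro _ _ rfl _ _ _; rfl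
  exact ⟨s, h1, fun ψ x v => (h2 ..).trans (e (Equiv.swap_apply_of_ne_of_ne hj.symm hk.symm) ..),
    fun ψ x v => (h2 ..).trans (e (Equiv.swap_apply_left j k) ..)⟩

theorem Sw2.mon {h : ∀ i, IsTens (τ i)} (hs : Sw2 h M) (o j k : I) (hj : j ≠ o) (hk : k ≠ o) :
    ∃ s ∈ mon M, ∀ i a, s * rgt (h i) a = rgt (h (Equiv.swap j k i)) a * s := by
  obtain ⟨s, h1, h2⟩ := hs o j k hj hk
  refine ⟨s, ⟨s, h1, rfl⟩, fun i a => ?_⟩
  rw [← sum_rk1 a, map_sum, map_sum, Finset.mul_sum, Finset.sum_mul]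
  refine Finset.sum_congr rfl fun l _ => ?_
  rw [← Nn_apply, ← Nn_apply, ← rk_eq, ← rk_eq]
  exact LinearMap.ext (h2 _ _ _)

variable {P P₁ : FP F} {S₁ : PQ P₁ U} {S₂ : PQ (FP.symp F) W} {S : PQ P V}

theorem oddRel_sp (hS : S₂.Nondeg) (h6 : 6 ≤ finrank F W) (h2 : (2 : F) = 0) : OddRel S₂ := by
  have : Nontrivial W := Module.nontrivial_of_finrank_pos (R := F) (by omega)
  obtain ⟨w, hw⟩ := exists_ne (0 : W)
  obtain ⟨z, hz⟩ := hS.exists_eq hw 1
  obtain ⟨y, y', a1, a2, a3, a4, a5⟩ := H3.TenSpSp.exists_pair hS h6 w z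
  obtain ⟨x, hx, x0⟩ := exists_mem_notMem_of_finrank_lt
    (U := S₂.perp (Submodule.span F {w, z} ⊔ Submodule.span F {y, y'})) (W := ⊥) (by
      have := hS.finrank_perp (Submodule.span F {w, z} ⊔ Submodule.span F {y, y'})
      have := finrank_span_pair_le (F := F) w z
      have := finrank_span_pair_le (F := F) y y'
      have := Submodule.finrank_add_le_finrank_add_finrank (Submodule.span F {w, z}) (Submodule.span F {y, y'})
      rw [finrank_bot]; omega)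
  rw [S₂.perp_sup, Submodule.mem_inf, S₂.mem_perp_span, S₂.mem_perp_span] at hx
  have b1 := hx.1 w (by simp)
  have b2 := S₂.B_comm_zero (hx.1 z (by simp))
  have b3 := hx.2 y (by simp)
  have b4 := S₂.B_comm_zero (hx.2 y' (by simp))
  have c1 : ∀ v, S₂.B z v = 1 → v ≠ 0 := by rintro _ h rfl; simp at h
  have c2 : ∀ v, S₂.B y' v = 1 → v ≠ 0 := by rintro _ h rfl; simp at h
  replace a2 := S₂.B_comm_zero a2
  refine ⟨[(w, 1), (y, 1), (x, 1), (w + y, 1), (w + x, 1), (y + x, 1), (w + y + x, 1)], ⟨3, rfl⟩, ?_, fun v => ?_⟩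
  · simp [hw, c2 y a5, show x ≠ 0 from x0, c1 (w + y), c1 (w + x), c2 (y + x), c1 (w + y + x), hz, a2, b2, b4, a5, a1,
      b1, b3, S₂.B_comm_zero a1, S₂.B_comm_zero b1, S₂.B_comm_zero b3, S₂.symp_sing]
  · simp only [List.map_cons, List.map_nil, List.sum_cons, List.sum_nil, PQ.B_add_right]
    linear_combination (norm := module) ((2 * S₂.B v w + S₂.B v y + S₂.B v x) * h2) • w +
      ((2 * S₂.B v y + S₂.B v w + S₂.B v x) * h2) • y + ((2 * S₂.B v x + S₂.B v y + S₂.B v w) * h2) • x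

theorem st_lft {ρ : U →ₗ[F] W →ₗ[F] V} (h : TF S₁ S₂ S ρ) (hS : S.Nondeg) (X : End F U) :
    adjH hS (lft h.tens X) = lft h.tens (adj h.nd₁ X) :=
  adjH_tens h hS fun u w u' w' => by simp [h.form, B_adj]

theorem hasE_mon {ρ : U →ₗ[F] W →ₗ[F] V} (h : TF S₁ S₂ S ρ) (hS : S.Nondeg) {η Y : End F U} {y w : W}
    (e : HasE h M η (adj h.nd₁ η) Y y w) : 1 + Nv S₂ (rgt h.tens) (adjH hS) (lft h.tens η) y w +
      lft h.tens Y * rgt h.tens (H3.TenSU.rk S₂ w w) ∈ mon M := by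
  obtain ⟨k, hk, e⟩ := e
  exact ⟨k, hk, h.tens.ext fun u x => by simp [e, Nv, st_lft h]; abel⟩

variable [Finite F]

theorem sp_core [Nontrivial U] (h : ∀ i, TF S₁ S₂ S (τ i))
    (hq : 6 ≤ finrank F W ∨ (2 : F) ≠ 0 ∧ (4 ≤ finrank F W ∨ finrank F W = 2 ∧ ∃ t : F, t ≠ 0 ∧ t ^ 2 ≠ 1))
    (hc : ∀ i j, i ≠ j → Comm (τ i) (τ j))
    (hs : ∀ X : End F V, (∀ i ψ x, Commute X (rk (h i).tens ψ x)) → ∃ c : F, X = c • 1)
    (hb : M ≤ bis S) (hM₂ : ∀ i, S₂.isom ≤ snd (τ i) M) (hsw : Sw2 (fun i => (h i).tens) M)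
    (hl : 3 ≤ Fintype.card I ∨ finrank F U = finrank F W ∧ Nontrivial I) :
    (∀ g ∈ M, Wr τ g) ∨ ∃ o, ∀ X w, HasQ (τ o) M ((X + adj (h o).nd₁ X) ∘ₗ (h o).cw w) w := by
  have h4 : 4 ≤ finrank F W ∨ (2 : F) ≠ 0 ∧ finrank F W = 2 ∧ ∃ t : F, t ≠ 0 ∧ t ^ 2 ≠ 1 := by
    rcases hq with a | ⟨a, b | b⟩
    exacts [Or.inl (by omega), Or.inl b, Or.inr ⟨a, b⟩]
  have h2 : 2 ≤ finrank F W := by omega
  have : Nontrivial W := Module.nontrivial_of_finrank_pos (R := F) (by omega)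
  have hM₃ : ∀ i, sisom S₂ ≤ snd (τ i) M := fun i => inf_le_left.trans (hM₂ i)
  by_cases hQ : ∀ i w, S₂.Sing w → w ≠ 0 → ∀ q ∈ M, InQ (h i) w q → q ∈ TStab (τ i)
  · refine Or.inl fun g hg => wr_of_gd (fun i => ⟨h i, trP_symp, hb, hM₃ i, fun w hw h0 x hx e => ?_⟩) h2 hc hs
      (hl.imp_left fun h3 => hsw.sw.link h3) (fun ρ ρ' G L => ?_) hg
    · rcases h4 with h4 | ⟨-, hW, l, hl, hl1⟩
      · exact parabolic trP_symp h4 (hb.trans bis_le_sim) (hM₃ i) (hQ i) hw h0 hx e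
      have k := fun y => H3.TenSpO2.exists_smul_of_perp (h i).nd₂ hW h0 (sB_self w) (y := y)
      obtain ⟨t, ht, e1⟩ := H3.TenSpO1.sp_trans' (h i).nd₂ h0 (smul_ne_zero hl h0)
      refine parabolic_small (h i) trP_symp hb (hM₃ i) hw h0
        (Or.inl fun y hy => Submodule.mem_span_singleton.2 (k y hy)) (hQ i w hw h0) ht (by rwa [sq] at hl1) e1
        (κ := l) (fun y hy => ?_) hx e
      obtain ⟨s, rfl⟩ := k y hy
      simp [e1, smul_comm s]
    · rcases hq with a | ⟨a, b | ⟨b, t, ht, ht1⟩⟩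
      · exact eqv_or_comm_of_gd G L (by omega) (oddRel_sp G.tf.nd₂ a) (Or.inr (Or.inl (by omega)))
      · exact eqv_or_comm_of_gd G L (by omega) (fun e => absurd e a)
          (Or.inl ⟨-1, by simp, fun e => a (by linear_combination -e), fun _ _ => trivial⟩)
      · exact eqv_or_comm_two G L b a ht ht1
  right
  push Not at hQ
  obtain ⟨o, w₀, hw₀, h0, q, hq', hQ, hqT⟩ := hQ
  have L := lv_of h (h o).nd (h o).σ₂ hc hs (h o).nd₂ hb hM₂
  have ns : ∀ {X : End F U}, (∀ c : F, X ≠ c • LinearMap.id) → ∀ c : F, lft (h o).tens X ≠ c • 1 :=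
    fun hns c e => hns c (lft_inj (h o).tens (e.trans ((h o).tens.ext fun u w => by simp)))
  have hq6 : (2 : F) ≠ 0 ∨ 6 ≤ finrank F W := hq.symm.imp_left And.left
  have k : ∀ Y, lft (h o).tens Y ∈ L.Zh o := fun Y => by
    rcases exists_Z_or_eta (hM₃ o) hw₀ h0 hq' hQ hqT with ⟨X, hX, hns⟩ | ⟨y, hy, η, e, hη⟩
    · have hZ := mem_Z L h0 (cm_lft _ X) ((one_add_mem (h o)).2 hX)
      rcases h4 with h4 | ⟨a, hW, -⟩
      · exact sp_levels L (by omega) (H3.TenSpSp.adj_adj (h o).nd) hq6 (hsw.sw.mon o) (Z_le_Ev L hZ) (ns hns) (cm_lft _ Y)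
      · exact sp_levels_two L hW a (hsw.mon o) hZ (ns hns) (cm_lft _ Y)
    have hyw : y ∉ F ∙ w₀ := fun hm => by
      obtain ⟨t, rfl⟩ := Submodule.mem_span_singleton.1 hm
      refine hη 0 (LinearMap.ext fun u => ?_)
      simpa using ((h o).tens.eq_zero (a := η u) (b := w₀) (by simpa [hQ.fix] using e u)).resolve_right h0
    rcases h4 with h4 | ⟨a, hW, -⟩
    · have k1 := hasE_of_eta (hM₃ o) (S₂.symp_sing y) hy hq' hQ e (c := 1) trivial
      simp only [one_smul] at k1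
      exact sp_levels L (by omega) (H3.TenSpSp.adj_adj (h o).nd) hq6 (hsw.sw.mon o)
        (mem_Ev_of L (fat_of L.nd hq6) (by omega) h0 hyw hy (cm_lft _ _) (cm_lft _ _) (hasE_mon (h o) _ k1))
        (ns hη) (cm_lft _ Y)
    · exact absurd (Submodule.mem_span_singleton.2 (H3.TenSpO2.exists_smul_of_perp L.nd hW h0 (sB_self _) hy)) hyw
  refine ⟨o, fun X w => (one_add_mem (h o)).1 ?_⟩
  simpa [st_lft (h o)] using (k X 1).2 w trivial

theorem sp_final {S₁ : PQ (FP.orth F) U} {S : PQ (FP.symp F) V} {ρ : U →ₗ[F] W →ₗ[F] V} (h : TF S₁ S₂ S ρ)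
    (h2 : (2 : F) ≠ 0) (hU : 3 ≤ finrank F U) (hW : 2 ≤ finrank F W)
    (k : ∀ X w, HasQ ρ M ((X + adj h.nd₁ X) ∘ₗ h.cw w) w) : S.isom ≤ M := by
  obtain ⟨u, -, hu0, hu⟩ := H3.OrthLem.exists_sing S₁ (H := ⊤) (by rwa [finrank_top])
  refine isom_le_of_ctr h.nd fun v => ctr_all h trP_symp trP_symp (Or.inr fun _ => trivial) hW
    (fun u w _ _ => ctr_iff.2 fun c => ?_) ((S₁.orth_sing u).2 hu) hu0 v trivial
  obtain ⟨g, hg, e⟩ := k ((c / 2) • H3.TenSU.rk S₁ u u) w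
  rw [adj_eq (Y := (c / 2) • H3.TenSU.rk S₁ u u) _ fun x y => by simp [S₁.orth_B_swap u y, mul_comm, mul_left_comm]] at e
  convert hg using 1
  ext v
  simp [e, h.B_tmul]
  match_scalars <;> field_simp <;> ring

open Cfsg.Agent.H3.TenSpSp Cfsg.Agent.H9.FClass in
theorem om_final {S₁ : PQ (FP.symp F) U} {S : PQ (FP.orth F) V} {ρ : U →ₗ[F] W →ₗ[F] V} (h : TF S₁ S₂ S ρ)
    (hQ : ∀ u w, S.Q (ρ u w) = 0) (hU : 3 ≤ finrank F U) (hW : 2 ≤ finrank F W)
    (k : ∀ X w, HasQ ρ M ((X + adj h.nd₁ X) ∘ₗ h.cw w) w) : Om S ≤ M := by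
  have k1 : ∀ u w a, ρ a w ∈ H8.MS (toQF S) M (ρ u w) := fun u w a => by
    refine ⟨by simp [polar_toQF, h.form], fun c => ?_⟩
    obtain ⟨g, hg, e⟩ := k (c • H3.TenSU.rk S₁ u a) w
    rw [adj_eq (Y := -c • H3.TenSU.rk S₁ a u) _ fun x y => by simp [sB_swap a y, mul_comm, mul_left_comm]] at e
    convert hg using 1
    ext v
    rw [H8.siegel_apply (hQ u w) (by simp [polar_toQF, h.form]), e]
    simp [polar_toQF, toQF_apply, hQ, h.B_tmul, S.orth_Q_smul]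
    module
  have mv : ∀ {u w a x c d y}, ρ a x ∈ H8.MS (toQF S) M (ρ u w) → S₁.B u c * S₂.B w y = 0 →
      S₁.B u d * S₂.B w y = 0 → S₁.B a c = 0 → S₁.B a d * S₂.B x y ≠ 0 → ρ c y ∈ H8.MS (toQF S) M (ρ u w) := by
    intro u w a x c d y h1 h2 h3 h4 h5
    have h6 := H8.MS_fix (H8.siegel_mem_OG _ _) (H8.MS_siegel (k1 c y d))
      (H8.siegel_fix (by rwa [polar_toQF, h.form]) (by rwa [polar_toQF, h.form])) h1
    rw [H8.siegel_apply (hQ _ _) (by simp [polar_toQF, h.form])] at h6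
    refine (Submodule.smul_mem_iff _ h5).1 ?_
    simpa [polar_toQF, toQF_apply, hQ, h.form, h4] using sub_mem h1 h6
  have k2 : ∀ u w, w ≠ 0 → ∀ c y, S₁.B c u = 0 → ρ c y ∈ H8.MS (toQF S) M (ρ u w) := fun u w hw c y hc => by
    obtain ⟨d, d1, d2⟩ := exists_perp_notMem h.nd₁ u (F ∙ c) (by
      have := finrank_span_singleton_le (F := F) c; omega)
    obtain ⟨a, a1, a2⟩ := h.nd₁.exists_perp_eq d2 1
    have key : ∀ y, S₂.B w y ≠ 0 → ρ c y ∈ H8.MS (toQF S) M (ρ u w) := fun y hy =>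
      mv (d := d) (k1 u w a) (by simp [S₁.B_comm_zero hc]) (by simp [S₁.B_comm_zero d1])
        (S₁.mem_perp_span_singleton.1 a1) (mul_ne_zero (sB_ne_comm (by simp [a2])) hy)
    obtain ⟨z, hz⟩ := h.nd₂.exists_ne hw
    by_cases hy : S₂.B w y = 0
    · simpa using sub_mem (key (y + z) (by simpa [hy] using sB_ne_comm hz)) (key z (sB_ne_comm hz))
    · exact key y hy
  have k3 : ∀ u w, w ≠ 0 → ∀ c y, S₂.B y w = 0 → ρ c y ∈ H8.MS (toQF S) M (ρ u w) := fun u w hw c y hy => by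
    by_cases h0 : y = 0
    · simp [h0]
    obtain ⟨a, a1, a2⟩ := exists_mem_notMem_of_finrank_lt (U := S₁.perp (Submodule.span F {u, c})) (W := ⊥) (by
      have := h.nd₁.finrank_perp (Submodule.span F {u, c})
      have := finrank_span_pair_le (F := F) u c
      rw [finrank_bot]; omega)
    rw [S₁.mem_perp_span] at a1
    obtain ⟨d, hd⟩ := h.nd₁.exists_ne (x := a) a2
    obtain ⟨x, hx⟩ := h.nd₂.exists_ne h0
    exact mv (d := d) (k2 u w hw a x (a1 u (by simp))) (by simp [S₂.B_comm_zero hy]) (by simp [S₂.B_comm_zero hy])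
      (a1 c (by simp)) (mul_ne_zero (sB_ne_comm hd) hx)
  have k4 : ∀ u w, w ≠ 0 → ∀ v, H8.siegel (toQF S) (ρ u w) v ∈ M := fun u w hw => by
    refine H8.siegel_all_of_MS fun v hv => ?_
    obtain ⟨z, hz⟩ := h.nd₂.exists_eq hw 1
    rw [polar_toQF, S.orth_B_swap, h.B_tmul] at hv
    simpa using add_mem (mem_of_cw h hz (k3 u w hw) v) (k2 u w hw _ z hv)
  have : Nontrivial U := Module.nontrivial_of_finrank_pos (R := F) (by omega)
  have : Nontrivial W := Module.nontrivial_of_finrank_pos (R := F) (by omega)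
  obtain ⟨u, hu⟩ := exists_ne (0 : U)
  obtain ⟨w, hw⟩ := exists_ne (0 : W)
  obtain ⟨u', hu'⟩ := h.nd₁.exists_eq hu 1
  obtain ⟨w', hw'⟩ := h.nd₂.exists_eq hw 1
  exact H8.Om_le_of_two (nd_toQF h.nd) (by rw [h.tens.finrank_eq]; nlinarith) (hQ u' w') (hQ u w)
    (by simp [polar_toQF, h.form, hu', hw']) (k4 _ _ (by rintro rfl; simp at hw')) (k4 _ _ hw)

end abs

section std
open Cfsg.Agent.Asch Cfsg.Agent.H3.TenSpSp Cfsg.Agent.H9.FClass
open scoped Matrix MatrixGroups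
variable {F : Type*} [Field F] {s : ℕ} {κ : Type} [Fintype κ] [DecidableEq κ]

theorem sw2_fac [Nonempty κ] {P : FP F} {S : PQ P ((Fin (s + 1) → κ) → F)} {c : F} {G : Matrix κ κ F}
    (hS : ∀ x y, S.B x y = pw c G P.σ x y) {M : Subgroup (((Fin (s + 1) → κ) → F) ≃ₗ[F] ((Fin (s + 1) → κ) → F))}
    (hM : ∀ g, Wr (fac κ F) g → g ∈ bis S → ∀ o (a : ((Fin s → κ) → F) ≃ₗ[F] ((Fin s → κ) → F)),
      (∀ u w, g (fac κ F o u w) = fac κ F o (a u) w) → g ∈ M) : Sw2 (fun i => tens_fac (κ := κ) i) M := by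
  intro o j k hj hk
  obtain ⟨a, ha⟩ := exists_of_comm (tens_fac o) (g := toLE (fp κ F (Equiv.swap j k))) fun ψ x v => by
    rw [fp_rk, Equiv.swap_apply_of_ne_of_ne hj.symm hk.symm]
  exact ⟨_, hM _ (wr_of_rk _ (fp_rk _)) (fun x y => by rw [hS, pw_fp, hS]) o a ha, fp_rk _⟩

/-- the orthogonal space of a symmetric form -/
def ofSym {V : Type*} [AddCommGroup V] [Module F V] (h2 : (2 : F) ≠ 0) (f : V → V → F)
    (hadd : ∀ x y v, f (x + y) v = f x v + f y v) (hsmul : ∀ (c : F) x v, f (c • x) v = c * f x v)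
    (hs : ∀ v w, f v w = f w v) : PQ (FP.orth F) V where
  B := f
  B_add_left := hadd
  B_smul_left := hsmul
  B_swap x y := by simp [hs y x]
  Q x := f x x / 2
  Q_add x y := by
    rw [FP.orth_mem, hadd, hs x, hs y, hadd, hadd, hs y x]
    field_simp; ring
  Q_smul a x := by
    rw [FP.orth_mem, hsmul, hs, hsmul, FP.orth_σ]
    ring
  B_self x := by simp only [FP.orth_ε, FP.orth_σ]; field_simp; ring

theorem even_of_symp {k : ℕ} {f : (Fin k → F) → (Fin k → F) → F} (hf : Geo.IsSymplecticForm f) : Even k := by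
  have e := even_finrank_symp ((sympPQ hf).nondegOn_top.2 (sympPQ_nondeg hf))
  simp only [finrank_top, finrank_fintype_fun_eq_card, Fintype.card_fin] at e
  exact e ▸ even_two_mul _

theorem isMaximalIn_Sp [Fintype F] {m k t : ℕ} (hm : 0 < m) (hodd : Odd (Fintype.card F)) (ht : 3 ≤ t)
    (hex : ¬ (Fintype.card F = 3 ∧ k = 2)) (e : (Fin m ⊕ Fin m) ≃ (Fin t → Fin k)) (P : GL (Fin m ⊕ Fin m) F)
    (f₁ : (Fin k → F) → (Fin k → F) → F) (hf₁ : Geo.IsSymplecticForm f₁)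
    (hT : Geo.IsTensorPowerFormStructure id (sympForm m F) f₁ e P) :
    Geo.IsMaximalIn (spGL m F) (Geo.tensorWreathSubgroup k t e P ⊓ spGL m F) := by
  obtain ⟨s, rfl⟩ : ∃ s, t = s + 1 := ⟨t - 1, by omega⟩
  have h2 := two_ne_zero_of_odd_card hodd
  have hn : m + m = k ^ s * k := by simpa [pow_succ] using Fintype.card_congr e
  have hk : 2 ≤ k := by
    obtain ⟨r, rfl⟩ := even_of_symp hf₁
    rcases r with _ | r
    · simp at hn; omega
    · omega
  have hks : 2 ^ 2 ≤ k ^ s := (Nat.pow_le_pow_left hk 2).trans (Nat.pow_le_pow_right (by omega) (by omega))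
  have : Nonempty (Fin k) := ⟨⟨0, by omega⟩⟩
  obtain ⟨c, -, hT⟩ := hT
  let S := (sympPQ (isSymplecticForm_sympForm m F)).comap (psi e P).toLinearMap
  have hS : ∀ x y, S.B x y = pw c (Geo.gramMatrix f₁) (FP.symp F).σ x y := hT
  have hf : ∀ i u w u' w', S.B (fac (Fin k) F i u w) (fac (Fin k) F i u' w') =
      pw c (Geo.gramMatrix f₁) (FP.symp F).σ u u' * (sympPQ hf₁).B w w' := fun i u w u' w' =>
    (hS _ _).trans (pw_fac (sympPQ hf₁) c i u u' w w')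
  obtain ⟨a1, a2, a3, a4⟩ := exists_fst (tens_fac 0) (comap_nondeg (sympPQ_nondeg _) _) (sympPQ_nondeg hf₁)
    (fun _ => rfl) (hf 0)
  have h : ∀ i, TF (ofSym h2 _ a1 a2 fun x y => by simpa using a3 x y) (sympPQ hf₁) S (fac (Fin k) F i) :=
    fun i => ⟨tens_fac i, fun _ => rfl, fun _ => rfl, by simp, hf i, a4, sympPQ_nondeg hf₁⟩
  refine isMaximalIn_wr (by omega) e P S.isom (fun g => by rw [mem_spGL_iff, theta_mem_isom]; rfl)
    (Sp_not_le_tensorWreathSubgroup (by nlinarith) hk (by omega) e P) fun M h1 h3 => ?_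
  refine (sp_core h (Or.inr ⟨h2, ?_⟩) comm_fac scalar_fac (h1.trans isom_le_bis) (fun i b hb => ⟨_, h3 _ (wr_snd i b)
    ((S.symp_mem_isom _).2 ((h i).tens_mem_bis ((tens_fac i).tcongr_apply 1 b) (one_mem _) (isom_le_bis hb))),
    (tens_fac i).tcongr_apply 1 b⟩) (sw2_fac hS fun g a b _ _ _ => h3 g a ((S.symp_mem_isom _).2 b))
    (Or.inl (by simp; omega))).imp_right fun ⟨o, ho⟩ => sp_final (h o) h2 (by simp; omega) (by simpa) ho
  by_cases h4 : k = 2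
  · exact Or.inr ⟨by simpa, H3.TenSpO2.exists_sq_ne_one h2 fun e => hex ⟨e, h4⟩⟩
  · obtain ⟨r, rfl⟩ := even_of_symp hf₁
    left; simp; omega

theorem theta_mem_Om {ι : Type} [Fintype ι] [DecidableEq ι] (e : ι ≃ κ) (P : GL ι F) {Q : (ι → F) → F}
    (hQ : Geo.IsNondegenerateQuadraticForm Q) (g : GL ι F) :
    g ∈ Geo.omegaGL Q ↔ theta e P g ∈ Om ((quadPQ hQ).comap (psi e P : (κ → F) →ₗ[F] (ι → F))) := by
  have : ((quadPQ hQ).comap (psi e P : (κ → F) →ₗ[F] (ι → F))).isom =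
      (quadPQ hQ).isom.map (conjLE (psi e P)).symm.toMonoidHom := by
    ext g
    obtain ⟨g, rfl⟩ := (theta e P).surjective g
    rw [theta_mem_isom]
    exact (Subgroup.mem_map_iff_mem (f := (conjLE (psi e P)).symm.toMonoidHom) (MulEquiv.injective _)).symm
  rw [mem_omegaGL_iff hQ, Om, Om_toQF, this, ← Subgroup.map_commutator]
  exact (Subgroup.mem_map_iff_mem (f := (conjLE (psi e P)).symm.toMonoidHom) (MulEquiv.injective _)).symm

theorem fac_single (i : Fin (s + 1)) (a : Fin s → κ) (w : κ → F) : fac κ F i (Pi.single a 1) w =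
    fun x => ∏ j, (i.insertNth w fun j => Pi.single (a j) 1 : Fin (s + 1) → κ → F) j (x j) := by
  funext x
  rw [fac_apply, Fin.prod_univ_succAbove _ i, mul_comm]
  simp only [Fin.insertNth_apply_same, Fin.insertNth_apply_succAbove]
  congr 1
  by_cases h : i.removeNth x = a
  · subst h; simp [Fin.removeNth]
  · obtain ⟨j, hj⟩ := Function.ne_iff.1 h
    rw [Pi.single_eq_of_ne h, Finset.prod_eq_zero (Finset.mem_univ j) (Pi.single_eq_of_ne hj _)]

theorem isMaximalIn_Om [Fintype F] {ι : Type} [Fintype ι] [DecidableEq ι] {Q : (ι → F) → F}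
    (hQ : Geo.IsNondegenerateQuadraticForm Q) (hn : 8 ≤ Fintype.card ι) {k t : ℕ} (ht : 2 ≤ t)
    (hex : ¬ (Fintype.card F = 3 ∧ k = 2)) (hex' : ¬ Odd (Fintype.card F) → 6 ≤ k) (e : ι ≃ (Fin t → Fin k))
    (P : GL ι F) (f₁ : (Fin k → F) → (Fin k → F) → F) (hf₁ : Geo.IsSymplecticForm f₁)
    (hT : Geo.IsTensorPowerFormStructure id (QuadraticMap.polar Q) f₁ e P)
    (hpure : ∀ xs : Fin t → Fin k → F, Q ((P : Matrix ι ι F) *ᵥ ((fun a : Fin t → Fin k => ∏ i, xs i (a i)) ∘ e)) = 0) :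
    Geo.IsMaximalIn (Geo.omegaGL Q) (Geo.tensorWreathSubgroup k t e P ⊓ Geo.omegaGL Q) := by
  obtain ⟨s, rfl⟩ : ∃ s, t = s + 1 := ⟨t - 1, by omega⟩
  have hn' : Fintype.card ι = k ^ s * k := by simpa [pow_succ] using Fintype.card_congr e
  have hk : 2 ≤ k := by
    obtain ⟨r, rfl⟩ := even_of_symp hf₁
    rcases r with _ | r
    · simp at hn'; omega
    · omega
  have hks : 3 ≤ k ^ s := by
    by_cases h : k = 2
    · subst h; omega
    · exact le_trans (by omega) (Nat.le_self_pow (by omega) k)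
  have : Nonempty (Fin k) := ⟨⟨0, by omega⟩⟩
  obtain ⟨c, -, hT⟩ := hT
  let S := (quadPQ hQ).comap (psi e P).toLinearMap
  have hS : ∀ x y, S.B x y = pw c (Geo.gramMatrix f₁) (FP.orth F).σ x y := hT
  have hf : ∀ i u w u' w', S.B (fac (Fin k) F i u w) (fac (Fin k) F i u' w') =
      pw c (Geo.gramMatrix f₁) (FP.symp F).σ u u' * (sympPQ hf₁).B w w' := fun i u w u' w' =>
    (hS _ _).trans (pw_fac (sympPQ hf₁) c i u u' w w')
  have hq : ∀ i u w, S.Q (fac (Fin k) F i u w) = 0 := fun i u w => by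
    rw [pi_eq_sum_univ' u]
    refine Finset.sum_induction _ (fun u => S.Q (fac (Fin k) F i u w) = 0)
      (fun u u' h1 h2 => by simp [S.orth_Q_add, h1, h2, hf]) (by simpa using S.orth_Q_zero) fun a _ => ?_
    rw [map_smul, LinearMap.smul_apply, S.orth_Q_smul, fac_single]
    exact mul_eq_zero_of_right _ (hpure _)
  obtain ⟨a1, a2, a3, a4⟩ := exists_fst (tens_fac 0) (comap_nondeg (quadPQ_nondeg hQ) _) (sympPQ_nondeg hf₁)
    (fun _ => rfl) (hf 0)
  have a5 : ∀ u : (Fin s → Fin k) → F, pw c (Geo.gramMatrix f₁) (FP.symp F).σ u u = 0 := fun u => by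
    obtain ⟨w, hw⟩ := exists_ne (0 : Fin k → F)
    obtain ⟨z, hz⟩ := (sympPQ_nondeg hf₁).exists_eq hw 1
    have := hq 0 u (z + w)
    rwa [map_add, S.orth_Q_add, hq, hq, hf, hz, mul_one, zero_add, zero_add] at this
  have h : ∀ i, TF (PQ.ofAlt _ a1 a2 (fun x y => by simpa using a3 x y) a5) (sympPQ hf₁) S (fac (Fin k) F i) :=
    fun i => ⟨tens_fac i, fun _ => rfl, fun _ => rfl, by simp, hf i, a4, sympPQ_nondeg hf₁⟩
  have h5 : 5 ≤ finrank F ((Fin (s + 1) → Fin k) → F) := by simp [pow_succ]; omega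
  refine isMaximalIn_wr (by omega) e P (Om S) (theta_mem_Om e P hQ)
    (H8.omega_not_le_tensorWreathSubgroup hQ hn hk ht e P) fun M h1 h3 => ?_
  refine (sp_core h ?_ comm_fac scalar_fac ((h1.trans (Om_le S)).trans isom_le_bis) (fun i b hb => ?_)
    (sw2_fac hS fun g a b o x e => h3 g a ?_) ?_).imp_right
    fun ⟨o, ho⟩ => om_final (h o) (hq o) (by simpa) (by simpa) ho
  · by_cases hodd : Odd (Fintype.card F)
    · refine Or.inr ⟨two_ne_zero_of_odd_card hodd, ?_⟩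
      by_cases h4 : k = 2
      · exact Or.inr ⟨by simpa, H3.TenSpO2.exists_sq_ne_one (two_ne_zero_of_odd_card hodd) fun e => hex ⟨e, h4⟩⟩
      · obtain ⟨r, rfl⟩ := even_of_symp hf₁
        left; simp; omega
    · left; simpa using hex' hodd
  · obtain ⟨g, hg, e⟩ := snd_Om (h i) (hq i) h5 hb
    refine ⟨g, h3 g ?_ hg, e⟩
    rw [(h i).eq_of_tens (g := g) (k := (tens_fac i).tcongr 1 b) fun u w => by simp [e]]
    exact wr_snd i b
  · obtain ⟨g', hg, e'⟩ := snd_Om (h o).flip (fun w u => hq o u w) h5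
      ((PQ.symp_mem_isom _ _).2 ((h o).flip.snd_bis b (b := x) fun w u => e u w))
    rwa [(h o).eq_of_tens (g := g) (k := g') fun u w => (e u w).trans (e' w u).symm]
  · by_cases hs : s = 1
    · subst hs; exact Or.inr ⟨by simp, inferInstance⟩
    · left; simp; omega

end std

end Cfsg.Agent.H1.C7r
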