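import Cfsg.Agent.H1.Fill
import Cfsg.Agent.H7.Proper

/-!
The similarity groups of symplectic, unitary and (odd characteristic) orthogonal forms are maximal in
the special linear group, in dimension at least six.
-/

set_option autoImplicit false

namespace Cfsg.Agent.H1.C8

open Module Cfsg.Agent.Form Cfsg.Agent.H7 Cfsg.Agent.H1.Fill
open scoped Matrix MatrixGroups

section abstract
variable {F : Type*} [Field F] {P : FP F} {V : Type*} [AddCommGroup V] [Module F V]
  [FiniteDimensional F V] {S : PQ P V}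

theorem trP_max (hP : TrP P) (hS : S.Nondeg) (hn : 6 ≤ finrank F V) {K : Subgroup (V ≃ₗ[F] V)}
    (hK : sisom S ≤ K) :
    (∀ g ∈ K, ∃ c : F, c ≠ 0 ∧ ∀ x y, S.B (g x) (g y) = c * S.B x y) ∨
      ∀ g, LinearEquiv.det g = 1 → g ∈ K := by
  have hk : SingK S 2 := fun U hU => hP.exists_sing_of_two_le S U hU
  by_cases h : ∀ g ∈ K, ∀ v, S.Sing v → ∀ x, S.B x v = 0 → S.B (g x) (g v) = 0
  · exact Or.inl fun g hg => sim_of_perp hS hk (by omega) g (h g hg)
  right
  push Not at h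
  obtain ⟨g, hg, v, hv, x, hx, hgx⟩ := h
  obtain ⟨c, hc, hc0⟩ := hP.ex
  have h1 : Has K (c • S.lin v) v :=
    ⟨_, hK (tau_mem_sisom S hv c (tauOK_of_sing hv hc)), fun z => by simp⟩
  have h2 := h1.conj hg
  obtain ⟨u0, hu0⟩ := hS.exists_lin ((c • S.lin v) ∘ₗ (g.symm : V →ₗ[F] V))
  rw [← hu0] at h2
  have h3 : ∀ z, S.B (g z) u0 = c * S.B z v := fun z => by
    simpa using LinearMap.congr_fun hu0 (g z)
  have hgv : g v ≠ 0 := fun h => hgx (by rw [h]; simp)
  refine mem_of_has hS hk (fun d y q h => hK (eich_mem_sisom S d y q h)) hgv h2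
    (by rw [h3, hv.B_self, mul_zero]) ?_ (Or.inl hn)
  intro hm
  obtain ⟨a, rfl⟩ := Submodule.mem_span_singleton.1 hm
  have h4 := h3 x
  rw [hx, mul_zero, S.B_smul_right] at h4
  have ha : a = 0 := P.σ_eq_zero.1 ((mul_eq_zero.1 h4).resolve_right hgx)
  apply hgv
  have : v = 0 := hS.right v fun z => by
    have := h3 z
    rw [ha, zero_smul, S.B_zero_right] at this
    exact (mul_eq_zero.1 this.symm).resolve_left hc0
  rw [this, map_zero]

theorem exists_nonsing {S : PQ (FP.orth F) V} (hS : S.Nondeg) {U : Submodule F V}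
    (h : finrank F V < 2 * finrank F U) : ∃ a ∈ U, S.Q a ≠ 0 := by
  by_contra hc
  push Not at hc
  have := ((S.orth_ts U).2 hc).two_mul_finrank_le hS
  omega

theorem orth_max {S : PQ (FP.orth F) V} (h2 : (2 : F) ≠ 0) (hS : S.Nondeg) (hk : SingK S 3)
    (hn : 6 ≤ finrank F V) {K : Subgroup (V ≃ₗ[F] V)} (hK : sisom S ≤ K) :
    (∀ g ∈ K, ∃ c : F, c ≠ 0 ∧ ∀ x, S.Q (g x) = c * S.Q x) ∨
      ∀ g, LinearEquiv.det g = 1 → g ∈ K := by
  have hiso : ∀ x, S.B x x = 0 → S.Sing x := fun x hx => by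
    rw [S.orth_B_self] at hx
    exact (S.orth_sing x).2 ((mul_eq_zero.1 hx).resolve_left h2)
  by_cases h : ∀ g ∈ K, ∀ v, S.Sing v → S.Sing (g v)
  · left
    intro g hg
    obtain ⟨c, hc, hc'⟩ := sim_of_perp hS hk (by omega) g (fun v hv x hx => by
      let A : AddSubgroup V := (S.lin (g v) ∘ₗ (g : V →ₗ[F] V)).toAddMonoidHom.ker
      refine mem_of_sing' hS hk hiso (Z := F ∙ v) (A := A) ?_ ?_ (S.mem_perp_span_singleton.2 hx)
      · have h3 := finrank_span_singleton_le (F := F) v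
        have := Submodule.finrank_mono (inf_le_left : ((F ∙ v) ⊓ S.perp (F ∙ v) : Submodule F V) ≤ F ∙ v)
        omega
      · intro d hd hds
        have h4 := (S.orth_sing _).1 (h g hg _ (hds.add hv (S.mem_perp_span_singleton.1 hd)))
        rw [map_add, S.orth_Q_add, (S.orth_sing _).1 (h g hg _ hds), (S.orth_sing _).1 (h g hg _ hv)] at h4
        change S.B (g d) (g v) = 0
        simpa using h4)
    refine ⟨c, hc, fun x => ?_⟩
    have := hc' x x
    rw [S.orth_B_self, S.orth_B_self] at this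
    apply mul_left_cancel₀ h2
    linear_combination this
  right
  push Not at h
  obtain ⟨g, hg, v, hv, hw⟩ := h
  set w := g v with hwdef
  have hQw : S.Q w ≠ 0 := fun h => hw ((S.orth_sing w).2 h)
  have hww : S.B w w ≠ 0 := by rw [S.orth_B_self]; exact mul_ne_zero h2 hQw
  have hw0 : w ≠ 0 := fun h => hww (by rw [h]; simp)
  let β : Dual F V := S.lin v ∘ₗ (g.symm : V →ₗ[F] V)
  have hβ : ∀ x, β (g x) = S.B x v := fun x => by simp [β]
  have hβw : β w = 0 := by rw [hwdef, hβ, hv.B_self]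
  obtain ⟨a, ⟨ha1, ha2⟩, hQa⟩ := exists_nonsing hS
    (U := LinearMap.ker β ⊓ LinearMap.ker (S.lin w)) (by
      have := finrank_le_finrank_ker_inf_ker β (S.lin w); omega)
  replace ha1 : β a = 0 := ha1
  replace ha2 : S.B a w = 0 := ha2
  have hwa : S.B w a = 0 := S.B_comm_zero ha2
  have haa : S.B a a ≠ 0 := by rw [S.orth_B_self]; exact mul_ne_zero h2 hQa
  let s : V ≃ₗ[F] V := S.tau w _ (S.orth_tauOK hQw) * S.tau a _ (S.orth_tauOK hQa)
  have hsK : s ∈ K := by
    refine hK ⟨mul_mem (S.tau_mem _ _ _) (S.tau_mem _ _ _), ?_⟩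
    change LinearEquiv.det s = 1
    apply Units.ext
    rw [map_mul, Units.val_mul, det_tau, det_tau, S.orth_B_self, S.orth_B_self, Units.val_one]
    field_simp; ring
  have hs : ∀ x, s x = x - ((S.Q a)⁻¹ * S.B x a) • a - ((S.Q w)⁻¹ * S.B x w) • w := fun x => by
    simp only [s, LinearEquiv.mul_apply, PQ.tau_apply, S.B_add_left, S.B_smul_left, ha2]
    module
  have hsw : s w = -w := by
    rw [hs, hwa, S.orth_B_self, ← mul_assoc, mul_comm _ 2, mul_assoc, inv_mul_cancel₀ hQw]; module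
  have hsβ : ∀ x, β (s x) = β x := fun x => by simp [hs, ha1, hβw]
  let W : Submodule F V := (LinearMap.ker β ⊓ LinearMap.ker (S.lin w)) ⊓ LinearMap.ker (S.lin a)
  have hsW : ∀ x ∈ W, s x = x := fun x hx => by
    have e1 : S.B x w = 0 := hx.1.2
    have e2 : S.B x a = 0 := hx.2
    simp [hs, e1, e2]
  -- the pull-back of `W` is not totally isotropic
  obtain ⟨x, hx, y, hy, hxy⟩ : ∃ x, g x ∈ W ∧ ∃ y, g y ∈ W ∧ S.B x y ≠ 0 := by
    by_contra hc
    push Not at hc
    let W' : Submodule F V := W.comap (g : V →ₗ[F] V)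
    have hvW : v ∉ W' := fun h => hww h.1.2
    have hd : finrank F W' = finrank F W := by
      have : W' = W.map (g.symm : V →ₗ[F] V) := by
        ext z; simp [W', Submodule.mem_map_equiv]
      rw [this]; exact LinearEquiv.finrank_map_eq g.symm W
    have hd2 : finrank F V ≤ finrank F W + 3 := by
      have := finrank_le_finrank_ker_inf_ker β (S.lin w)
      have := finrank_le_finrank_inf_ker (LinearMap.ker β ⊓ LinearMap.ker (S.lin w)) (S.lin a)
      simp only [W]; omega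
    have hd3 := Submodule.finrank_sup_span_singleton hvW
    have hle : W' ⊔ F ∙ v ≤ S.perp (W' ⊔ F ∙ v) := by
      have hv' : ∀ z ∈ W', S.B z v = 0 := fun z hz => by rw [← hβ]; exact hz.1.1
      intro z0 hz0 z1 hz1
      obtain ⟨z, hz, b, rfl⟩ := mem_sup_span_iff.1 hz0
      obtain ⟨z', hz', b', rfl⟩ := mem_sup_span_iff.1 hz1
      simp [hc z hz z' hz', hv' z hz, S.B_comm_zero (hv' z' hz'), hv.B_self]
    have := Submodule.finrank_mono hle
    have := hS.finrank_perp (W' ⊔ F ∙ v)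
    omega
  have hyv : S.B y v = 0 := by rw [← hβ]; exact hy.1.1
  have hE : S.EichOK v y (S.Q y) := ⟨hv, hyv, by simp⟩
  let e : V ≃ₗ[F] V := g * S.eich v y _ hE * g⁻¹
  have heK : e ∈ K := mul_mem (mul_mem hg (hK (eich_mem_sisom S _ _ _ hE))) (inv_mem hg)
  let α : Dual F V := (S.lin y - S.Q y • S.lin v) ∘ₗ (g.symm : V →ₗ[F] V)
  have he : ∀ z, e z = z + α z • w - β z • g y := fun z => by
    simp [e, α, β, hwdef]
  have hαw : α w = 0 := by simp [α, hwdef, S.B_comm_zero hyv, hv.B_self]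
  have hew : e w = w := by rw [he, hαw, hβw]; simp
  let φ : Dual F V := -((α ∘ₗ (s.symm : V →ₗ[F] V)) + α) ∘ₗ (e.symm : V →ₗ[F] V)
  have hφ : ∀ z, φ (e z) = -(α (s.symm z) + α z) := fun z => by simp [φ]
  have hhas : Has K φ w := by
    refine ⟨s * e * s⁻¹ * e⁻¹, mul_mem (mul_mem (mul_mem hsK heK) (inv_mem hsK)) (inv_mem heK), fun z => ?_⟩
    obtain ⟨z, rfl⟩ := e.surjective z
    obtain ⟨z, rfl⟩ := s.surjective z
    rw [hφ]
    simp only [LinearEquiv.mul_apply, LinearEquiv.coe_inv, LinearEquiv.symm_apply_apply]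
    rw [he z, he (s z), map_sub, map_add, map_smul, map_smul, hsw, hsW _ hy, hsβ]
    module
  have hφw : φ w = 0 := by
    have e1 : s.symm w = -w := by rw [LinearEquiv.symm_apply_eq, map_neg, hsw, neg_neg]
    rw [← hew, hφ, e1, map_neg, hαw]; simp
  have hφx : φ (e (g x)) ≠ 0 := by
    have e1 : s.symm (g x) = g x := by rw [LinearEquiv.symm_apply_eq, hsW _ hx]
    have e2 : S.B x v = 0 := by rw [← hβ]; exact hx.1.1
    have e3 : α (g x) = S.B x y := by simp [α, e2]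
    rw [hφ, e1, e3, ← two_mul]
    exact neg_ne_zero.2 (mul_ne_zero h2 hxy)
  obtain ⟨u0, hu0⟩ := hS.exists_lin φ
  rw [← hu0] at hhas hφw hφx
  refine mem_of_has hS hk (fun d y q h => hK (eich_mem_sisom S d y q h)) hw0 hhas hφw ?_
    (Or.inr ⟨hn, hww⟩)
  intro hm
  obtain ⟨b, rfl⟩ := Submodule.mem_span_singleton.1 hm
  rw [PQ.lin_apply, S.B_smul_right] at hφw
  have hb : b = 0 := (mul_eq_zero.1 hφw).resolve_right hww
  rw [hb] at hφx
  simp at hφx

end abstract

variable {ι : Type} [Fintype ι] [DecidableEq ι] {F : Type*} [Field F]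

theorem max_of_trP {P : FP F} (hP : TrP P) {S : PQ P (ι → F)} (hS : S.Nondeg) (hn : 6 ≤ Fintype.card ι) :
    Geo.IsMaximalIn (Geo.specialLinear ι F) (Geo.similarityGroup S.B ⊓ Geo.specialLinear ι F) := by
  refine isMaximalIn_of_equiv toLE _ _ (fun g => LinearEquiv.det g = 1)
    (fun g => (∃ c : F, c ≠ 0 ∧ ∀ x y, S.B (g x) (g y) = c * S.B x y) ∧ LinearEquiv.det g = 1)
    mem_SL_iff (fun g => ?_) (fun g h => h.2) (not_le_inf_of_not_le ?_) (fun M h1 h2 => ?_)
  · rw [Subgroup.mem_inf, mem_SL_iff]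
    refine and_congr_left fun _ => ⟨?_, ?_⟩
    · rintro ⟨c, hc⟩; exact ⟨c, c.ne_zero, hc⟩
    · rintro ⟨c, hc, hc'⟩; exact ⟨Units.mk0 c hc, hc'⟩
  · refine SL_not_le_similarityGroup_aux (by omega) S.B_add_left S.B_smul_left (fun v hv => ?_)
    obtain ⟨y, hy⟩ := hS.exists_ne hv
    exact ⟨⟨y, hy⟩, ⟨y, fun h => hy (S.B_comm_zero h)⟩⟩
  · rcases trP_max hP hS (K := M) (by rwa [finrank_pi'])
      (fun g hg => h1 g ⟨⟨1, one_ne_zero, fun x y => by rw [PQ.B_isom hg.1, one_mul]⟩, hg.2⟩) with h | h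
    · exact Or.inl fun g hg => ⟨h g hg, h2 g hg⟩
    · exact Or.inr h

theorem symp_max (hn : 6 ≤ Fintype.card ι) {f : (ι → F) → (ι → F) → F} (hf : Geo.IsSymplecticForm f) :
    Geo.IsMaximalIn (Geo.specialLinear ι F) (Geo.similarityGroup f ⊓ Geo.specialLinear ι F) :=
  max_of_trP trP_symp (sympPQ_nondeg hf) hn

theorem unit_max [Finite F] (hn : 6 ≤ Fintype.card ι) {σ : F ≃+* F} {f : (ι → F) → (ι → F) → F}
    (hf : Geo.IsUnitaryForm σ f) :
    Geo.IsMaximalIn (Geo.specialLinear ι F) (Geo.similarityGroup f ⊓ Geo.specialLinear ι F) :=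
  max_of_trP (trP_of_unitary hf) (unitPQ_nondeg hf) hn

theorem quad_max [Fintype F] (hn : 6 ≤ Fintype.card ι) (hodd : Odd (Fintype.card F))
    {Q : (ι → F) → F} (hQ : Geo.IsNondegenerateQuadraticForm Q) :
    Geo.IsMaximalIn (Geo.specialLinear ι F) (Geo.quadSimilarityGroup Q ⊓ Geo.specialLinear ι F) := by
  have hk : SingK (quadPQ hQ) 3 := by
    intro U hU
    obtain ⟨Q', hQ', -⟩ := H8.exists_quadraticForm hQ
    obtain ⟨v, hv, hv0, hv'⟩ := H8.exists_sing_three Q' hU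
    exact ⟨v, hv, hv0, ((quadPQ hQ).orth_sing v).2 (by rw [quadPQ_Q, ← hQ']; exact hv')⟩
  refine isMaximalIn_of_equiv toLE _ _ (fun g => LinearEquiv.det g = 1)
    (fun g => (∃ c : F, c ≠ 0 ∧ ∀ x, Q (g x) = c * Q x) ∧ LinearEquiv.det g = 1)
    mem_SL_iff (fun g => ?_) (fun g h => h.2)
    (not_le_inf_of_not_le (SL_not_le_quadSimilarityGroup (by omega) hQ)) (fun M h1 h2 => ?_)
  · rw [Subgroup.mem_inf, mem_SL_iff]
    refine and_congr_left fun _ => ⟨?_, ?_⟩
    · rintro ⟨c, hc⟩; exact ⟨c, c.ne_zero, hc⟩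
    · rintro ⟨c, hc, hc'⟩; exact ⟨Units.mk0 c hc, hc'⟩
  · rcases orth_max (two_ne_zero_of_odd_card hodd) (quadPQ_nondeg hQ) hk (K := M) (by rwa [finrank_pi'])
      (fun g hg => h1 g ⟨⟨1, one_ne_zero, fun x => by
        rw [one_mul]; exact ((quadPQ hQ).orth_mem_isom g).1 hg.1 x⟩, hg.2⟩) with h | h
    · exact Or.inl fun g hg => ⟨h g hg, h2 g hg⟩
    · exact Or.inr h

end Cfsg.Agent.H1.C8
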