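import Cfsg.Agent.H1.PermChar

set_option autoImplicit false

namespace Cfsg.Agent.H1.Commutant

open Cfsg Representation Module Cfsg.Agent.H1.Char
open scoped ComplexConjugate

variable {G V : Type*} [Group G] [Fintype G] [AddCommGroup V] [Module ℂ V] [FiniteDimensional ℂ V]

theorem mult_free_of_comm (ρ : Representation ℂ G V)
    (h : ∀ S T : End ℂ V, (∀ g, Commute S (ρ g)) → (∀ g, Commute T (ρ g)) → S * T = T * S)
    (χ : G → ℂ) (hχ : IsIrrCharacter G χ) :
    classInner ρ.character χ = 0 ∨ classInner ρ.character χ = 1 := by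
  obtain ⟨n, σ, hσ, rfl⟩ := hχ
  rw [classInner_char]
  suffices finrank ℂ (IntertwiningMap σ ρ) ≤ 1 by
    rcases Nat.le_one_iff_eq_zero_or_eq_one.1 this with h | h <;> simp [h]
  by_cases h0 : ∀ f : IntertwiningMap σ ρ, f = 0
  · rw [finrank_le_one_iff]
    exact ⟨0, fun w => ⟨0, by rw [h0 w]; simp⟩⟩
  push Not at h0
  obtain ⟨f, hf⟩ := h0
  have hinj := (IsIrreducible.injective_or_eq_zero f).resolve_right hf
  obtain ⟨p, hp1, hp2⟩ := exists_leftInverse f hinj
  rw [finrank_le_one_iff]
  refine ⟨f, fun f' => ?_⟩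
  have key : ∀ f' : IntertwiningMap σ ρ, ∀ g, Commute (f'.toLinearMap ∘ₗ p : End ℂ V) (ρ g) := by
    intro f' g
    apply LinearMap.ext
    intro v
    simp [hp1, f'.isIntertwining]
  have h1 := h _ _ (key f) (key f')
  let q : IntertwiningMap σ σ := ⟨p ∘ₗ f'.toLinearMap, fun g => LinearMap.ext fun v => by
    simp [hp1, f'.isIntertwining]⟩
  obtain ⟨c, hc⟩ := (IsIrreducible.algebraMap_intertwiningMap_bijective_of_isAlgClosed
    (ρ := σ)).2 q
  refine ⟨c, ?_⟩
  apply IntertwiningMap.ext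
  apply LinearMap.ext
  intro w
  have h2 := congr($h1 (f w))
  simp only [End.mul_apply, LinearMap.comp_apply, IntertwiningMap.coe_toLinearMap, hp2] at h2
  have h3 : p (f' w) = c • w := by
    have := congr($hc w)
    simpa [q] using this.symm
  rw [h3, map_smul] at h2
  exact h2

theorem scalar_on_atom (ρ : Representation ℂ G V)
    (h : ∀ χ, IsIrrCharacter G χ → classInner ρ.character χ = 0 ∨ classInner ρ.character χ = 1)
    {U : Subrepresentation ρ} (hU : IsAtom U) (S : End ℂ V) (hS : ∀ g, Commute S (ρ g)) :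
    ∃ c : ℂ, ∀ v ∈ U.toSubmodule, S v = c • v := by
  have hirr := isIrreducible_of_isAtom hU
  have h1 := h _ (isIrrCharacter_of_isIrreducible hirr)
  rw [classInner_char] at h1
  let ι : IntertwiningMap U.toRepresentation ρ := ⟨U.toSubmodule.subtype, fun g => rfl⟩
  have hι : ι ≠ 0 := by
    intro h0
    apply hU.1
    apply Subrepresentation.ext
    change U.toSubmodule = ⊥
    rw [eq_bot_iff]
    intro v hv
    exact congr($h0 ⟨v, hv⟩)
  have h2 : finrank ℂ (IntertwiningMap U.toRepresentation ρ) = 1 := by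
    rcases h1 with h1 | h1
    · exfalso
      have h3 : finrank ℂ (IntertwiningMap U.toRepresentation ρ) = 0 := by exact_mod_cast h1
      rw [finrank_zero_iff] at h3
      exact hι (Subsingleton.elim _ _)
    · exact_mod_cast h1
  let f : IntertwiningMap U.toRepresentation ρ := ⟨S ∘ₗ U.toSubmodule.subtype, fun g =>
    LinearMap.ext fun v => congr($(hS g) v)⟩
  obtain ⟨c, hc⟩ := (finrank_eq_one_iff_of_nonzero' ι hι).1 h2 f
  exact ⟨c, fun v hv => (congr($hc ⟨v, hv⟩)).symm⟩

theorem comm_of_mult_free (ρ : Representation ℂ G V)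
    (h : ∀ χ, IsIrrCharacter G χ → classInner ρ.character χ = 0 ∨ classInner ρ.character χ = 1)
    (S T : End ℂ V) (hS : ∀ g, Commute S (ρ g)) (hT : ∀ g, Commute T (ρ g)) : S * T = T * S := by
  let W : Subrepresentation ρ := ⟨LinearMap.ker (S * T - T * S), fun g v hv => by
    have h1 : Commute (S * T - T * S) (ρ g) :=
      ((hS g).mul_left (hT g)).sub_left ((hT g).mul_left (hS g))
    rw [LinearMap.mem_ker] at hv ⊢
    have := congr($h1 v)
    rw [End.mul_apply, End.mul_apply, hv, map_zero] at this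
    exact this⟩
  obtain ⟨W', hc⟩ := exists_compl W
  by_cases hW' : W' = ⊥
  · rw [← sub_eq_zero, ← LinearMap.ker_eq_top]
    have := hc.sup_eq_top
    rw [hW'] at this
    exact (sup_bot_eq _).symm.trans this
  exfalso
  obtain ⟨U, hU, hUW⟩ := exists_atom_le W' hW'
  obtain ⟨c, hc1⟩ := scalar_on_atom ρ h hU S hS
  obtain ⟨d, hd1⟩ := scalar_on_atom ρ h hU T hT
  apply hU.1
  apply Subrepresentation.ext
  change U.toSubmodule = ⊥
  rw [eq_bot_iff, ← hc.inf_eq_bot]
  intro v hv
  refine ⟨?_, hUW hv⟩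
  change (S * T - T * S) v = 0
  simp [hc1 v hv, hd1 v hv, smul_smul, mul_comm]

end Cfsg.Agent.H1.Commutant
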