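import Cfsg.Agent.H7.Classical

/-!
The "fill" lemma: an additive subgroup stable under the Eichler maps fixing `Z` pointwise and
containing one vector of `Z^⊥ \ Z` contains `Z^⊥`.  Consequence: a group containing all Eichler maps
and one non-isometric transvection contains the special linear group.
-/

set_option autoImplicit false

namespace Cfsg.Agent.H1.Fill

open Module Cfsg.Agent.Form Cfsg.Agent.H7

variable {F : Type*} [Field F] {P : FP F} {V : Type*} [AddCommGroup V] [Module F V]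

/-- Every subspace of dimension at least `k` contains a non-zero singular vector. -/
def SingK (S : PQ P V) (k : ℕ) : Prop :=
  ∀ U : Submodule F V, k ≤ finrank F U → ∃ x ∈ U, x ≠ 0 ∧ S.Sing x

variable [FiniteDimensional F V] {S : PQ P V} {k : ℕ}

theorem exists_sing_perp_notMem (hS : S.Nondeg) (hk : SingK S k) (Y : Submodule F V)
    (h : k + finrank F Y + finrank F (Y ⊓ S.perp Y : Submodule F V) ≤ finrank F V) :
    ∃ d ∈ S.perp Y, d ∉ Y ∧ S.Sing d := by
  obtain ⟨U, hU⟩ := Submodule.exists_isCompl (Y ⊓ S.perp Y)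
  have h1 := Submodule.finrank_sup_add_finrank_inf_eq U (S.perp Y)
  have h2 : finrank F (U ⊔ S.perp Y : Submodule F V) ≤ finrank F V := Submodule.finrank_le _
  have h3 := Submodule.finrank_add_eq_of_isCompl hU
  have h4 := hS.finrank_perp Y
  obtain ⟨x, hx, hx0, hxs⟩ := hk (U ⊓ S.perp Y) (by omega)
  refine ⟨x, hx.2, fun hY => hx0 ?_, hxs⟩
  exact (Submodule.disjoint_def.1 hU.disjoint) x ⟨hY, hx.2⟩ hx.1

theorem bound_one (Z : Submodule F V) {u : V} (hu : u ∈ S.perp Z) :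
    finrank F (Z ⊔ F ∙ u : Submodule F V) +
      finrank F ((Z ⊔ F ∙ u) ⊓ S.perp (Z ⊔ F ∙ u) : Submodule F V) ≤
      finrank F Z + finrank F (Z ⊓ S.perp Z : Submodule F V) + 2 := by
  have h1 := finrank_sup_span_le Z u
  have h2 := finrank_sup_span_le (Z ⊓ S.perp Z) u
  have h3 : ((Z ⊔ F ∙ u) ⊓ S.perp (Z ⊔ F ∙ u) : Submodule F V) ≤ (Z ⊓ S.perp Z) ⊔ F ∙ u := by
    rintro x ⟨hx, hx'⟩
    obtain ⟨z, hz, a, rfl⟩ := mem_sup_span_iff.1 hx
    refine mem_sup_span_iff.2 ⟨z, ⟨hz, ?_⟩, a, rfl⟩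
    have := sub_mem (S.perp_anti le_sup_left hx') (Submodule.smul_mem _ a hu)
    simpa using this
  have := Submodule.finrank_mono h3
  omega

theorem bound_one' (Z : Submodule F V) {u : V} (hu : u ∈ S.perp Z) (huu : S.B u u ≠ 0) :
    finrank F (Z ⊔ F ∙ u : Submodule F V) +
      finrank F ((Z ⊔ F ∙ u) ⊓ S.perp (Z ⊔ F ∙ u) : Submodule F V) ≤
      finrank F Z + finrank F (Z ⊓ S.perp Z : Submodule F V) + 1 := by
  have h1 := finrank_sup_span_le Z u
  have h3 : ((Z ⊔ F ∙ u) ⊓ S.perp (Z ⊔ F ∙ u) : Submodule F V) ≤ (Z ⊓ S.perp Z) := by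
    rintro x ⟨hx, hx'⟩
    obtain ⟨z, hz, a, rfl⟩ := mem_sup_span_iff.1 hx
    have h4 := hx' u (Submodule.mem_sup_right (Submodule.mem_span_singleton_self u))
    rw [S.B_add_left, S.B_smul_left, S.B_comm_zero (hu z hz), zero_add] at h4
    have ha : a = 0 := (mul_eq_zero.1 h4).resolve_right huu
    subst ha
    refine ⟨by simpa using hz, S.perp_anti le_sup_left hx'⟩
  have := Submodule.finrank_mono h3
  omega

theorem bound_two (Z : Submodule F V) {u v : V} (hu : u ∈ S.perp Z) (hv : v ∈ S.perp Z)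
    (huu : S.B u u = 0) (hvv : S.B v v = 0) (huv : S.B u v ≠ 0) :
    finrank F ((Z ⊔ F ∙ u) ⊔ F ∙ v : Submodule F V) +
      finrank F (((Z ⊔ F ∙ u) ⊔ F ∙ v) ⊓ S.perp ((Z ⊔ F ∙ u) ⊔ F ∙ v) : Submodule F V) ≤
      finrank F Z + finrank F (Z ⊓ S.perp Z : Submodule F V) + 2 := by
  have h1 := finrank_sup_span_le Z u
  have h2 := finrank_sup_span_le (Z ⊔ F ∙ u) v
  have hvu : S.B v u ≠ 0 := fun h => huv (S.B_comm_zero h)
  have h3 : (((Z ⊔ F ∙ u) ⊔ F ∙ v) ⊓ S.perp ((Z ⊔ F ∙ u) ⊔ F ∙ v) : Submodule F V) ≤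
      (Z ⊓ S.perp Z) := by
    rintro x ⟨hx, hx'⟩
    obtain ⟨y, hy, b, rfl⟩ := mem_sup_span_iff.1 hx
    obtain ⟨z, hz, a, rfl⟩ := mem_sup_span_iff.1 hy
    have h4 := hx' u (Submodule.mem_sup_left (Submodule.mem_sup_right (Submodule.mem_span_singleton_self u)))
    have h5 := hx' v (Submodule.mem_sup_right (Submodule.mem_span_singleton_self v))
    simp only [S.B_add_left, S.B_smul_left, S.B_comm_zero (hu z hz), S.B_comm_zero (hv z hz), huu, hvv,
      mul_zero, zero_add, add_zero] at h4 h5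
    have ha : a = 0 := (mul_eq_zero.1 h5).resolve_right huv
    have hb : b = 0 := (mul_eq_zero.1 h4).resolve_right hvu
    subst ha hb
    refine ⟨by simpa using hz, S.perp_anti (le_sup_left.trans le_sup_left) hx'⟩
  have := Submodule.finrank_mono h3
  omega

omit [FiniteDimensional F V] in
theorem notMem_sup_swap {Z : Submodule F V} {u d : V} (hu : u ∉ Z) (hd : d ∉ Z ⊔ F ∙ u) :
    u ∉ Z ⊔ F ∙ d := by
  rw [mem_sup_span_iff]
  rintro ⟨z, hz, a, rfl⟩
  have ha : a ≠ 0 := by rintro rfl; exact hu (by simpa using hz)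
  apply hd
  refine mem_sup_span_iff.2 ⟨-a⁻¹ • z, Z.smul_mem _ hz, a⁻¹, ?_⟩
  rw [smul_add, smul_smul, inv_mul_cancel₀ ha]; module

/-- A singular vector of `Z^⊥` not orthogonal to `u`. -/
theorem exists_sing_ne (hS : S.Nondeg) {Z : Submodule F V} {u d : V} (hu : u ∉ Z)
    (hd : d ∈ S.perp (Z ⊔ F ∙ u)) (hdZ : d ∉ Z) (hds : S.Sing d) :
    ∃ e ∈ S.perp Z, S.Sing e ∧ S.B u e ≠ 0 := by
  obtain ⟨y, hy, h1, h2⟩ := exists_apply_ne_ne (S.perp Z) (S.lin u).toAddMonoidHom (S.lin d).toAddMonoidHom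
    (by obtain ⟨z, hz, hz'⟩ := hS.exists_perp_ne hu; exact ⟨z, hz, fun h => hz' (S.B_comm_zero h)⟩)
    (by obtain ⟨z, hz, hz'⟩ := hS.exists_perp_ne hdZ; exact ⟨z, hz, fun h => hz' (S.B_comm_zero h)⟩)
  obtain ⟨a, ha⟩ := S.exists_sing_add hds (z := y) h2 0
  rw [S.perp_sup] at hd
  refine ⟨y + a • d, add_mem hy (Submodule.smul_mem _ _ hd.1), sing_of_zero_sub ha, fun h => h1 ?_⟩
  have := S.B_comm_zero h
  rw [S.B_add_left, S.B_smul_left, S.mem_perp_span_singleton.1 hd.2] at this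
  simpa using this

omit [FiniteDimensional F V] in
theorem mem_of_sing_ne {Z : Submodule F V} {A : AddSubgroup V}
    (hA : ∀ d ∈ S.perp Z, S.Sing d → d ∈ A) {u e : V} (hu : u ∈ S.perp Z) (he : e ∈ S.perp Z)
    (hes : S.Sing e) (hue : S.B u e ≠ 0) : u ∈ A := by
  obtain ⟨a, ha⟩ := S.exists_sing_add hes hue 0
  have h1 := hA _ (add_mem hu (Submodule.smul_mem _ a he)) (sing_of_zero_sub ha)
  have h2 := hA _ (Submodule.smul_mem _ a he) (hes.smul a)
  simpa using sub_mem h1 h2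

/-- The singular vectors of `Z^⊥` generate it additively. -/
theorem mem_of_sing (hS : S.Nondeg) (hk : SingK S k) {Z : Submodule F V}
    (hn : k + 2 + finrank F Z + finrank F (Z ⊓ S.perp Z : Submodule F V) ≤ finrank F V)
    {A : AddSubgroup V} (hA : ∀ d ∈ S.perp Z, S.Sing d → d ∈ A) {u : V} (hu : u ∈ S.perp Z) :
    u ∈ A := by
  have key : ∀ u ∈ S.perp Z, u ∉ Z → u ∈ A := by
    intro u hu huZ
    obtain ⟨d, hd, hdY, hds⟩ := exists_sing_perp_notMem hS hk (Z ⊔ F ∙ u) (by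
      have := bound_one Z hu; omega)
    obtain ⟨e, he, hes, hue⟩ := exists_sing_ne hS huZ hd (fun h => hdY (Submodule.mem_sup_left h)) hds
    exact mem_of_sing_ne hA hu he hes hue
  by_cases huZ : u ∈ Z
  · obtain ⟨x, hx, hxZ⟩ := exists_mem_notMem_of_finrank_lt (U := S.perp Z) (W := Z ⊓ S.perp Z) (by
      have := hS.finrank_perp Z; omega)
    have hxZ' : x ∉ Z := fun h => hxZ ⟨h, hx⟩
    have h1 := key _ (add_mem hu hx) (fun h => hxZ' (by simpa using sub_mem h huZ))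
    simpa using sub_mem h1 (key x hx hxZ')
  · exact key u hu huZ

/-- Sharper version when isotropic vectors are singular. -/
theorem mem_of_sing' (hS : S.Nondeg) (hk : SingK S k) (hiso : ∀ x, S.B x x = 0 → S.Sing x)
    {Z : Submodule F V}
    (hn : k + 1 + finrank F Z + finrank F (Z ⊓ S.perp Z : Submodule F V) ≤ finrank F V)
    {A : AddSubgroup V} (hA : ∀ d ∈ S.perp Z, S.Sing d → d ∈ A) {u : V} (hu : u ∈ S.perp Z) :
    u ∈ A := by
  by_cases huu : S.B u u = 0
  · exact hA u hu (hiso u huu)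
  have huZ : u ∉ Z := fun h => huu (hu u h)
  obtain ⟨d, hd, hdY, hds⟩ := exists_sing_perp_notMem hS hk (Z ⊔ F ∙ u) (by
    have := bound_one' Z hu huu; omega)
  obtain ⟨e, he, hes, hue⟩ := exists_sing_ne hS huZ hd (fun h => hdY (Submodule.mem_sup_left h)) hds
  exact mem_of_sing_ne hA hu he hes hue

/-- `A` is stable under the Eichler maps with data in `Z^⊥`. -/
def EichStable (S : PQ P V) (Z : Submodule F V) (A : AddSubgroup V) : Prop :=
  ∀ d y q (h : S.EichOK d y q), d ∈ S.perp Z → y ∈ S.perp Z → ∀ u ∈ A, S.eich d y q h u ∈ A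

theorem line_mem (hS : S.Nondeg) {Z : Submodule F V} {A : AddSubgroup V} (hA : EichStable S Z A)
    {u d : V} (hu : u ∈ A) (hd : d ∈ S.perp Z) (hds : S.Sing d) (hud : S.B u d = 0)
    (hZ : u ∉ Z ⊔ F ∙ d) (a : F) : a • d ∈ A := by
  obtain ⟨y, hy, hy'⟩ := hS.exists_perp_eq hZ a
  rw [S.perp_sup] at hy
  have hE : S.EichOK d y (S.Q y) := ⟨hds, S.mem_perp_span_singleton.1 hy.2, by simp⟩
  have h1 := hA d y _ hE hd hy.1 u hu
  rw [S.eich_apply_of_perp d y _ hE hud, hy'] at h1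
  simpa using sub_mem h1 hu

/-- The fill lemma. -/
theorem fill (hS : S.Nondeg) (hk : SingK S k) {Z : Submodule F V}
    (hn : k + 2 + finrank F Z + finrank F (Z ⊓ S.perp Z : Submodule F V) ≤ finrank F V)
    {A : AddSubgroup V} (hA : EichStable S Z A) {u0 : V} (hu0 : u0 ∈ A) (h1 : u0 ∈ S.perp Z)
    (h2 : u0 ∉ Z) {u : V} (hu : u ∈ S.perp Z) : u ∈ A := by
  have step : ∀ (Y : Submodule F V) (x : V), x ∈ A → x ∉ Z → Z ⊔ F ∙ x ≤ Y →
      finrank F Y + finrank F (Y ⊓ S.perp Y : Submodule F V) ≤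
        finrank F Z + finrank F (Z ⊓ S.perp Z : Submodule F V) + 2 →
      ∃ d ∈ S.perp Y, d ∉ Y ∧ S.Sing d ∧ d ∈ A := by
    intro Y x hx hxZ hY hb
    obtain ⟨d, hd, hdY, hds⟩ := exists_sing_perp_notMem hS hk Y (by omega)
    refine ⟨d, hd, hdY, hds, ?_⟩
    have := line_mem hS hA hx (S.perp_anti (le_sup_left.trans hY) hd) hds
      (S.B_comm_zero (hd x (hY (Submodule.mem_sup_right (Submodule.mem_span_singleton_self x)))))
      (notMem_sup_swap hxZ (fun h => hdY (hY h))) 1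
    simpa using this
  obtain ⟨d1, hd1, hd1Y, hd1s, hd1A⟩ := step _ u0 hu0 h2 le_rfl (bound_one Z h1)
  have hd1Z : d1 ∉ Z := fun h => hd1Y (Submodule.mem_sup_left h)
  have hd1p : d1 ∈ S.perp Z := S.perp_anti le_sup_left hd1
  refine mem_of_sing hS hk hn (fun d hd hds => ?_) hu
  have fin : ∀ Y : Submodule F V, Z ⊔ F ∙ d1 ≤ Y → Z ⊔ F ∙ d ≤ Y →
      finrank F Y + finrank F (Y ⊓ S.perp Y : Submodule F V) ≤
        finrank F Z + finrank F (Z ⊓ S.perp Z : Submodule F V) + 2 → d ∈ A := by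
    intro Y hY hY' hb
    obtain ⟨z, hz, hzY, -, hzA⟩ := step Y d1 hd1A hd1Z hY hb
    have := line_mem hS hA hzA hd hds
      (hz d (hY' (Submodule.mem_sup_right (Submodule.mem_span_singleton_self d)))) (fun h => hzY (hY' h)) 1
    simpa using this
  by_cases hb : S.B d1 d = 0
  · by_cases hm : d1 ∈ Z ⊔ F ∙ d
    · refine fin (Z ⊔ F ∙ d) (sup_le le_sup_left ?_) le_rfl (bound_one Z hd)
      rwa [Submodule.span_singleton_le_iff_mem]
    · simpa using line_mem hS hA hd1A hd hds hb hm 1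
  · exact fin ((Z ⊔ F ∙ d1) ⊔ F ∙ d) le_sup_left (sup_le_sup_right le_sup_left _)
      (bound_two Z hd1p hd hd1s.B_self hds.B_self hb)

/-- A group containing the Eichler maps and a transvection `x ↦ x + B(x,u) w` with `u ∉ F w` contains
the special linear group. -/
theorem mem_of_has (hS : S.Nondeg) (hk : SingK S k) {K : Subgroup (V ≃ₗ[F] V)}
    (hK : ∀ d y q (h : S.EichOK d y q), S.eich d y q h ∈ K) {u0 w : V} (hw : w ≠ 0)
    (h0 : Has K (S.lin u0) w) (h1 : S.B w u0 = 0) (h2 : u0 ∉ F ∙ w)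
    (hn : k + 4 ≤ finrank F V ∨ (k + 3 ≤ finrank F V ∧ S.B w w ≠ 0))
    (g : V ≃ₗ[F] V) (hg : LinearEquiv.det g = 1) : g ∈ K := by
  let A : AddSubgroup V :=
    { carrier := {u | S.B w u = 0 ∧ Has K (S.lin u) w}
      zero_mem' := ⟨by simp, (has_zero_left w).congr (fun z => by simp)⟩
      add_mem' := by
        rintro a b ⟨ha, ha'⟩ ⟨hb, hb'⟩
        exact ⟨by simp [ha, hb], (ha'.add_left hb' ha).congr (fun z => by simp)⟩
      neg_mem' := by
        rintro a ⟨ha, ha'⟩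
        exact ⟨by simp [ha], (ha'.neg_left ha).congr (fun z => by simp)⟩ }
  have hA : EichStable S (F ∙ w) A := by
    rintro d y q h hd hy u ⟨hu, hu'⟩
    have hd' := S.B_comm_zero (S.mem_perp_span_singleton.1 hd)
    have hy' := S.B_comm_zero (S.mem_perp_span_singleton.1 hy)
    have e1 : S.eich d y q h w = w := by simp [hd', hy']
    have hi := S.eich_mem d y q h
    refine ⟨by rw [← e1, PQ.B_isom hi, hu], ?_⟩
    have := hu'.conj (hK d y q h)
    rw [e1] at this
    refine this.congr (fun z => ?_)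
    simp only [LinearMap.comp_apply, LinearEquiv.coe_coe, PQ.lin_apply]
    rw [← PQ.B_isom hi, LinearEquiv.apply_symm_apply]
  have hb : k + 2 + finrank F (F ∙ w) + finrank F ((F ∙ w) ⊓ S.perp (F ∙ w) : Submodule F V) ≤
      finrank F V := by
    have h3 := finrank_span_singleton_le (F := F) w
    rcases hn with hn | ⟨hn, hww⟩
    · have := Submodule.finrank_mono (inf_le_left : ((F ∙ w) ⊓ S.perp (F ∙ w) : Submodule F V) ≤ F ∙ w)
      omega
    · have := bound_one' (S := S) ⊥ (u := w) (by simp) hww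
      rw [bot_sup_eq, bot_inf_eq, finrank_bot] at this
      omega
  have hwc : w ∈ fullCenters K := by
    intro φ hφ
    obtain ⟨u, rfl⟩ := hS.exists_lin φ
    exact (fill hS hk hb hA (u0 := u0) ⟨h1, h0⟩ (S.mem_perp_span_singleton.2 (S.B_comm_zero h1)) h2
      (S.mem_perp_span_singleton.2 (S.B_comm_zero hφ))).2
  refine mem_of_fullCenters_eq_top (eq_top_iff.2 fun u _ => ?_) g hg
  refine fill hS hk (Z := ⊥) (A := (fullCenters K).toAddSubgroup) (by
    rw [bot_inf_eq, finrank_bot]; omega) ?_ hwc (by simp) (by simpa using hw) (by simp)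
  intro d y q h _ _ u hu
  exact fullCenters_apply hu (hK d y q h)

/-- A singular vector not orthogonal to either of two non-zero singular vectors. -/
theorem exists_sing_ne_ne (hS : S.Nondeg) (hk : SingK S k) (hn : k + 2 ≤ finrank F V) {v v' : V}
    (hv : S.Sing v) (hv' : S.Sing v') (h0 : v ≠ 0) (h0' : v' ≠ 0) :
    ∃ z, S.Sing z ∧ S.B z v ≠ 0 ∧ S.B z v' ≠ 0 := by
  by_cases hb : S.B v v' = 0
  · obtain ⟨y, -, h1, h2⟩ := exists_apply_ne_ne (⊤ : Submodule F V) (S.lin v).toAddMonoidHom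
      (S.lin v').toAddMonoidHom
      (by obtain ⟨z, hz⟩ := hS.exists_ne h0; exact ⟨z, trivial, hz⟩)
      (by obtain ⟨z, hz⟩ := hS.exists_ne h0'; exact ⟨z, trivial, hz⟩)
    obtain ⟨a, ha⟩ := S.exists_sing_add hv (z := y) h1 0
    refine ⟨y + a • v, sing_of_zero_sub ha, ?_, ?_⟩
    · simpa [hv.B_self] using h1
    · simpa [hb] using h2
  · have hbd := bound_two (S := S) ⊥ (u := v) (v := v') (by simp) (by simp) hv.B_self hv'.B_self hb
    rw [bot_inf_eq, finrank_bot] at hbd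
    obtain ⟨d, hd, hdY, hds⟩ := exists_sing_perp_notMem hS hk ((⊥ ⊔ F ∙ v) ⊔ F ∙ v') (by omega)
    obtain ⟨y, hy, hy'⟩ := hS.exists_perp_ne hdY
    have m1 : v ∈ ((⊥ ⊔ F ∙ v) ⊔ F ∙ v' : Submodule F V) :=
      Submodule.mem_sup_left (Submodule.mem_sup_right (Submodule.mem_span_singleton_self v))
    have m2 : v' ∈ ((⊥ ⊔ F ∙ v) ⊔ F ∙ v' : Submodule F V) :=
      Submodule.mem_sup_right (Submodule.mem_span_singleton_self v')
    have h3 : S.B (v + v' + y) d ≠ 0 := by
      simp only [S.B_add_left, S.B_comm_zero (hd v m1), S.B_comm_zero (hd v' m2), zero_add]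
      exact fun h => hy' (S.B_comm_zero h)
    obtain ⟨a, ha⟩ := S.exists_sing_add hds h3 0
    refine ⟨_, sing_of_zero_sub ha, ?_, ?_⟩
    · simp only [S.B_add_left, S.B_smul_left, hd v m1, hy v m1, hv.B_self, zero_add, add_zero, mul_zero]
      exact fun h => hb (S.B_comm_zero h)
    · simpa only [S.B_add_left, S.B_smul_left, hd v' m2, hy v' m2, hv'.B_self, zero_add, add_zero,
        mul_zero] using hb

/-- A linear automorphism preserving orthogonality to singular vectors is a similarity of `B`. -/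
theorem sim_of_perp (hS : S.Nondeg) (hk : SingK S k) (hn : k + 2 ≤ finrank F V) (g : V ≃ₗ[F] V)
    (hg : ∀ v, S.Sing v → ∀ x, S.B x v = 0 → S.B (g x) (g v) = 0) :
    ∃ c : F, c ≠ 0 ∧ ∀ x y, S.B (g x) (g y) = c * S.B x y := by
  have h1 : ∀ v, S.Sing v → v ≠ 0 → ∃ c : F, c ≠ 0 ∧ ∀ x, S.B (g x) (g v) = c * S.B x v := by
    intro v hv h0
    obtain ⟨y, hy⟩ := hS.exists_eq h0 1
    have h2 : ∀ x, S.B (g x) (g v) = S.B (g y) (g v) * S.B x v := by
      intro x
      have := hg v hv (x - S.B x v • y) (by simp [hy])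
      rw [map_sub, map_smul, S.B_sub_left, S.B_smul_left] at this
      linear_combination this
    refine ⟨_, fun hc => h0 ?_, h2⟩
    apply g.injective
    rw [map_zero]
    refine hS.right _ fun x => ?_
    obtain ⟨x, rfl⟩ := g.surjective x
    rw [h2, hc, zero_mul]
  obtain ⟨v0, -, hv00, hv0⟩ := hk ⊤ (by rw [finrank_top]; omega)
  obtain ⟨c, hc, hc'⟩ := h1 v0 hv0 hv00
  refine ⟨c, hc, fun x y => ?_⟩
  let A : AddSubgroup V :=
    { carrier := {y | ∀ x, S.B (g x) (g y) = c * S.B x y}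
      zero_mem' := fun x => by simp
      add_mem' := fun {a b} ha hb x => by
        rw [map_add, S.B_add_right, S.B_add_right, ha x, hb x, mul_add]
      neg_mem' := fun {a} ha x => by rw [map_neg, S.B_neg_right, S.B_neg_right, ha x, mul_neg] }
  refine mem_of_sing hS hk (Z := ⊥) (A := A) (by rw [bot_inf_eq, finrank_bot]; omega) ?_ (by simp) x
  intro v _ hv
  by_cases h0 : v = 0
  · subst h0; exact A.zero_mem
  obtain ⟨c1, -, hc1⟩ := h1 v hv h0
  obtain ⟨z, hz, h2, h3⟩ := exists_sing_ne_ne hS hk hn hv0 hv hv00 h0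
  obtain ⟨c2, -, hc2⟩ := h1 z hz (by rintro rfl; exact h2 (by simp))
  have e1 : c = P.σ c2 := by
    have := hc' z
    rw [S.B_swap (g v0) (g z), hc2, map_mul, S.σ_B v0 z] at this
    apply mul_right_cancel₀ h2
    linear_combination -this + (P.σ c2 * S.B z v0) * P.εε
  have e2 : c1 = P.σ c2 := by
    have := hc1 z
    rw [S.B_swap (g v) (g z), hc2, map_mul, S.σ_B v z] at this
    apply mul_right_cancel₀ h3
    linear_combination -this + (P.σ c2 * S.B z v) * P.εε
  intro x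
  rw [hc1, e1, e2]

end Cfsg.Agent.H1.Fill
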