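import Mathlib

set_option autoImplicit false

namespace Cfsg.Agent.H1.GroupRing

open Finset

variable {p : ℕ} [hp : Fact p.Prime]

/-- The element of the rational group ring of `ZMod p` with given coefficients. -/
noncomputable def hat (f : ZMod p → ℚ) : AddMonoidAlgebra ℚ (ZMod p) :=
  ∑ j, AddMonoidAlgebra.single j (f j)

theorem hat_coeff (f : ZMod p → ℚ) (j : ZMod p) : (hat f).coeff j = f j := by
  simp [hat, AddMonoidAlgebra.coeff_sum, Finsupp.single_apply]

theorem hat_inj {f g : ZMod p → ℚ} (h : hat f = hat g) : f = g := by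
  funext j; rw [← hat_coeff f, h, hat_coeff]

theorem hat_surj (x : AddMonoidAlgebra ℚ (ZMod p)) : hat (fun j => x.coeff j) = x := by
  ext j; rw [hat_coeff]

theorem hat_add (f g : ZMod p → ℚ) : hat (fun j => f j + g j) = hat f + hat g := by
  simp [hat, sum_add_distrib]

theorem hat_sub (f g : ZMod p → ℚ) : hat (fun j => f j - g j) = hat f - hat g := by
  ext j; simp [hat_coeff]

theorem hat_smul (c : ℚ) (f : ZMod p → ℚ) : hat (fun j => c * f j) = c • hat f := by
  ext j; simp [hat_coeff]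

theorem hat_zero : hat (fun _ : ZMod p => 0) = 0 := by simp [hat]

theorem hat_delta : hat (fun j : ZMod p => if j = 0 then 1 else 0) = 1 := by
  ext j; simp [hat_coeff, AddMonoidAlgebra.one_def, Finsupp.single_apply, eq_comm]

theorem hat_mul (f g : ZMod p → ℚ) : hat f * hat g = hat fun j => ∑ k, f k * g (j - k) := by
  simp only [hat, sum_mul, mul_sum, AddMonoidAlgebra.single_mul_single]
  have : ∀ j : ZMod p, AddMonoidAlgebra.single j (∑ k, f k * g (j - k)) =
      ∑ k, (AddMonoidAlgebra.single j (f k * g (j - k)) : AddMonoidAlgebra ℚ (ZMod p)) := fun j =>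
    map_sum (AddMonoidAlgebra.singleAddHom j) _ _
  simp only [this]
  rw [sum_comm]
  conv_rhs => rw [sum_comm]
  refine sum_congr rfl fun k _ => ?_
  refine Fintype.sum_equiv (Equiv.addLeft k) _ _ fun j => ?_
  simp

/-- The character of `ZMod p` given by a primitive root of unity. -/
noncomputable def chr (p : ℕ) [hp : Fact p.Prime] : Multiplicative (ZMod p) →* ℂ where
  toFun j := Complex.exp (2 * Real.pi * Complex.I / p) ^ (Multiplicative.toAdd j).val
  map_one' := by simp
  map_mul' i j := by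
    rw [← pow_add, toAdd_mul, ZMod.val_add]
    have := (Complex.isPrimitiveRoot_exp p hp.out.ne_zero)
    rw [← pow_mod_orderOf _ (_ + _), ← this.eq_orderOf]

noncomputable def ev (p : ℕ) [Fact p.Prime] : AddMonoidAlgebra ℚ (ZMod p) →ₐ[ℚ] ℂ :=
  AddMonoidAlgebra.lift ℚ ℂ (ZMod p) (chr p)

noncomputable def aug (p : ℕ) [Fact p.Prime] : AddMonoidAlgebra ℚ (ZMod p) →ₐ[ℚ] ℚ :=
  AddMonoidAlgebra.lift ℚ ℚ (ZMod p) 1

theorem aug_hat (f : ZMod p → ℚ) : aug p (hat f) = ∑ j, f j := by
  simp [aug, hat]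

theorem ev_hat_eq_zero_iff (f : ZMod p → ℚ) : ev p (hat f) = 0 ↔ ∀ i j, f i = f j := by
  obtain ⟨n, rfl⟩ : ∃ n, p = n + 1 := ⟨p - 1, by have := hp.out.pos; omega⟩
  refine Iff.trans ?_ (IsPrimitiveRoot.sum_eq_zero_iff_forall_eq hp.out
    (Complex.isPrimitiveRoot_exp (n + 1) hp.out.ne_zero) f)
  simp only [ev, hat, map_sum, AddMonoidAlgebra.lift_single, chr]
  simp [Algebra.smul_def]
  rfl

theorem eq_zero_of_ev_aug {x : AddMonoidAlgebra ℚ (ZMod p)} (h1 : ev p x = 0) (h2 : aug p x = 0) :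
    x = 0 := by
  rw [← hat_surj x] at h1 h2 ⊢
  rw [ev_hat_eq_zero_iff] at h1
  rw [aug_hat, sum_congr rfl (fun j _ => h1 j 0), sum_const, card_univ, ZMod.card,
    nsmul_eq_mul] at h2
  have h3 : x.coeff 0 = 0 := (mul_eq_zero.1 h2).resolve_left (by exact_mod_cast hp.out.ne_zero)
  rw [← hat_zero]
  congr 1
  funext j
  rw [h1 j 0, h3]

end Cfsg.Agent.H1.GroupRing
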