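import Mathlib

/-!
A finite group of order prime to `7` and to the characteristic that is normalised by a regular diagonal element of
order seven in dimension at most five is diagonal.
-/

set_option autoImplicit false
set_option linter.unusedSectionVars false

namespace Cfsg.Agent.H1.HH7

open Matrix Finset

theorem fib {G : Type*} [Group G] [Fintype G] {R : Type*} [AddCommMonoid R] (C : Subgroup G) [Fintype C]
    (f : G × C → G) (h1 : ∀ p q, f p = f q → p.1⁻¹ * q.1 ∈ C) (h2 : ∀ y c c', f (y, c) = f (y, c') → c = c')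
    (g : G → R) : ∑ p, g (f p) = Fintype.card C • ∑ x, g x := by
  let Φ : G × C → G × C := fun p => (f p, ⟨(Quotient.out (p.1 : G ⧸ C))⁻¹ * p.1,
    QuotientGroup.eq.1 (QuotientGroup.out_eq' _)⟩)
  have hΦ : Function.Injective Φ := by
    rintro ⟨y, c⟩ ⟨y', c'⟩ e
    have e1 := congrArg Prod.fst e
    have e2 := congrArg (·.2.1) e
    have e3 : (y : G ⧸ C) = y' := QuotientGroup.eq.2 (h1 _ _ e1)
    simp only [Φ, e3, mul_right_inj] at e2
    subst e2
    rw [h2 _ _ _ e1]
  have := (Finite.injective_iff_bijective.1 hΦ).sum_comp fun p => g p.1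
  rw [show ∑ p, g (f p) = _ from this, Fintype.sum_prod_type, smul_sum]
  simp

variable {F : Type*} [Field F] {ι : Type} [Fintype ι] [DecidableEq ι] {G : Type*} [Group G] [Fintype G]

/-- the data -/
structure Dt (F : Type*) [Field F] (ι : Type) [Fintype ι] [DecidableEq ι] (G : Type*) [Group G] [Fintype G] where
  ψ : AddChar (ZMod 7) F
  prim : ψ.IsPrimitive
  d : ι → ZMod 7
  hd : Function.Injective d
  M : G →* Matrix ι ι F
  inj : Function.Injective M
  α : ZMod 7 → G → G
  hα : ∀ i x a b, M (α i x) a b = ψ (i * (d a - d b)) * M x a b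
  hG : (Fintype.card G : F) ≠ 0

namespace Dt

variable (o : Dt F ι G)

theorem ψ1 {t : ZMod 7} (h : o.ψ t = 1) : t = 0 := (o.prim.zmod_char_eq_one_iff 7 t).1 h

theorem ψ0 (t : ZMod 7) : o.ψ t ≠ 0 := fun e => by
  have := o.ψ.map_add_eq_mul t (-t)
  simp [e] at this

theorem α_mul (i : ZMod 7) (x y : G) : o.α i (x * y) = o.α i x * o.α i y := o.inj (by
  ext a b
  simp only [o.hα, map_mul, mul_apply, mul_sum]
  refine sum_congr rfl fun c _ => ?_
  rw [show i * (o.d a - o.d b) = i * (o.d a - o.d c) + i * (o.d c - o.d b) by ring, o.ψ.map_add_eq_mul]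
  ring)

/-- the automorphism as a homomorphism -/
def A (i : ZMod 7) : G →* G := MonoidHom.mk' (o.α i) (o.α_mul i)

theorem hA (i x a b) : o.M (o.A i x) a b = o.ψ (i * (o.d a - o.d b)) * o.M x a b := o.hα i x a b

theorem A_bij (i : ZMod 7) : Function.Bijective (o.A i) := Finite.injective_iff_bijective.1 fun x y e => o.inj (by
  ext a b
  have := congrArg (o.M · a b) e
  simp only [hA] at this
  exact mul_left_cancel₀ (o.ψ0 _) this)

/-- averaging -/
def P (X : Matrix ι ι F) : Matrix ι ι F := ∑ x, o.M x * X * o.M x⁻¹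

/-- weight -/
def Wt (X : Matrix ι ι F) (j : ZMod 7) : Prop := ∀ a b, X a b ≠ 0 → o.d a - o.d b = j

theorem P_comm (X : Matrix ι ι F) (y : G) : o.M y * o.P X = o.P X * o.M y := by
  rw [P, mul_sum, sum_mul, ← Equiv.sum_comp (Equiv.mulLeft y) fun x => o.M x * X * o.M x⁻¹ * o.M y]
  refine sum_congr rfl fun x _ => ?_
  rw [Equiv.coe_mulLeft, mul_assoc _ _ (o.M y), ← map_mul o.M, map_mul o.M y x]
  simp [mul_assoc]

theorem P_apply (X : Matrix ι ι F) (c e : ι) : o.P X c e = ∑ x, ∑ b, ∑ a, o.M x c a * X a b * o.M x⁻¹ b e := by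
  simp only [P, Matrix.sum_apply, mul_apply, sum_mul]

theorem Wt.P {X : Matrix ι ι F} {j : ZMod 7} (h : o.Wt X j) : o.Wt (o.P X) j := fun c e h0 => by
  have : o.P X c e = o.ψ (o.d c - o.d e - j) * o.P X c e := by
    conv_lhs => rw [P_apply, ← (o.A_bij 1).sum_comp]
    simp only [P_apply, ← map_inv, hA, mul_sum]
    refine sum_congr rfl fun x _ => sum_congr rfl fun b _ => sum_congr rfl fun a _ => ?_
    by_cases hX : X a b = 0
    · simp [hX]
    rw [← h a b hX, show o.d c - o.d e - (o.d a - o.d b) = 1 * (o.d c - o.d a) + 1 * (o.d b - o.d e) by ring,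
      o.ψ.map_add_eq_mul]
    ring
  exact sub_eq_zero.1 (o.ψ1 (mul_right_cancel₀ h0 (this.symm.trans (one_mul _).symm)))

/-- edges -/
def r (b c : ι) : Prop := ∃ x, o.M x c b ≠ 0

open Classical in
/-- coordinate projection -/
noncomputable def E (F : Type*) [Field F] (S : ι → Prop) : Matrix ι ι F := diagonal fun a => if S a then 1 else 0

theorem P_E {S : ι → Prop} (h : ∀ b c, o.r b c → S b → S c) : o.P (E F S) = (Fintype.card G : F) • E F S := by
  have k : ∀ x, E F S * o.M x * E F S = o.M x * E F S := fun x => by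
    ext a b
    simp only [E, mul_diagonal, diagonal_mul]
    by_cases h3 : o.M x a b = 0
    · simp [h3]
    by_cases h1 : S b
    · simp [h1, h b a ⟨x, h3⟩ h1]
    · simp [h1]
  have h1 : E F S * o.P (E F S) = o.P (E F S) := by
    simp only [P, mul_sum, ← mul_assoc, k]
  have h2 : o.P (E F S) * E F S = (Fintype.card G : F) • E F S := by
    simp only [P, sum_mul, mul_assoc]
    simp only [← mul_assoc (E F S), k]
    simp [← mul_assoc, ← map_mul, Nat.cast_smul_eq_nsmul]
  have h3 : o.Wt (o.P (E F S)) 0 := Wt.P o fun a b h => by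
    by_cases e : a = b
    · simp [e]
    · exact (h (diagonal_apply_ne _ e)).elim
  rw [← h2]
  ext a b
  by_cases e : o.P (E F S) a b = 0
  · simp [E, mul_diagonal, show o.P (diagonal _) a b = 0 from e]
  obtain rfl := o.hd (sub_eq_zero.1 (h3 a b e))
  have := congrFun (congrFun h1 a) a
  rw [← this]
  nth_rewrite 1 [E]
  nth_rewrite 3 [E]
  rw [mul_diagonal, diagonal_mul, mul_comm]

theorem E_comm {S : ι → Prop} (h : ∀ b c, o.r b c → S b → S c) (x : G) : o.M x * E F S = E F S * o.M x := by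
  have := o.P_comm (E F S) x
  rw [o.P_E h, Matrix.mul_smul, Matrix.smul_mul] at this
  exact smul_right_injective _ o.hG this

theorem back {S : ι → Prop} (h : ∀ b c, o.r b c → S b → S c) {b c : ι} (hr : o.r b c) (hc : S c) : S b := by
  obtain ⟨x, hx⟩ := hr
  have := congrFun (congrFun (o.E_comm h x) c) b
  simp only [E, mul_diagonal, diagonal_mul, hc, if_true] at this
  by_contra hb
  simp [hb] at this
  exact hx this.symm

/-- the component of an index -/
abbrev B (j : ι) : ι → Prop := Relation.ReflTransGen o.r j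

theorem B_cl (j b c : ι) (h : o.r b c) (hb : o.B j b) : o.B j c := hb.tail h

theorem spread {S : ι → Prop} (h : ∀ b c, o.r b c → S b → S c) {j b c : ι} (hb : o.B j b) (hc : o.B j c) (s : S b) :
    S c := by
  have : S j := by
    induction hb with
    | refl => exact s
    | tail _ h2 ih => exact ih (o.back h h2 s)
  induction hc with
  | refl => exact this
  | tail _ h2 ih => exact h _ _ h2 ih

theorem P_single (a b c e : ι) : o.P (single a b 1) c e = ∑ x, o.M x c a * o.M x⁻¹ b e := by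
  simp only [P, Matrix.sum_apply]
  refine sum_congr rfl fun x _ => ?_
  rw [mul_apply, sum_eq_single b (fun l _ hl => by simp [hl]) (by simp)]
  simp

theorem wt_single (a b : ι) : o.Wt (o.P (single a b 1)) (o.d a - o.d b) := Wt.P o fun c e h => by
  by_cases k : a = c ∧ b = e
  · rw [k.1, k.2]
  · exact (h (single_apply_of_ne _ _ _ _ _ k)).elim

theorem off (h5 : Fintype.card ι ≤ 5) {j a b : ι} (ha : o.B j a) (hb : o.B j b) (hab : a ≠ b) :
    ∑ x, o.M x a a * o.M x⁻¹ b b = 0 := by
  have : Fact (Nat.Prime 7) := ⟨by norm_num⟩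
  rw [← P_single]
  have w := o.wt_single a b
  have c := o.P_comm (single a b 1)
  have s : ∀ c e, o.P (single a b 1) c e ≠ 0 → o.B j c := fun c e h => by
    rw [P_single] at h
    obtain ⟨x, -, hx⟩ := exists_ne_zero_of_sum_ne_zero h
    exact ha.tail ⟨x, left_ne_zero_of_mul hx⟩
  generalize o.P (single a b 1) = X at w c s
  by_contra h0
  have h1 : ∀ e, o.B j e → ∃ c, X c e ≠ 0 := fun e he => by
    by_contra! h1
    refine h0 (o.spread (S := fun e => ∀ c, X c e = 0) ?_ he hb h1 a)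
    rintro b e ⟨x, hx⟩ hb l
    by_contra hl
    have := congrFun (congrFun (c x) l) b
    rw [mul_apply, mul_apply, sum_eq_zero (fun _ _ => by simp [hb]), sum_eq_single e (fun e' _ he' => by
      by_contra h
      exact he' (o.hd (sub_right_injective ((w _ _ (left_ne_zero_of_mul h)).trans (w _ _ hl).symm)))) (by simp)] at this
    exact mul_ne_zero hl hx this.symm
  have h2 : ∀ n : ℕ, ∃ c, o.B j c ∧ o.d c = o.d j + n * (o.d a - o.d b) := fun n => by
    induction n with
    | zero => exact ⟨j, .refl, by simp⟩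
    | succ n ih =>
      obtain ⟨e, e1, e2⟩ := ih
      obtain ⟨l, hl⟩ := h1 e e1
      exact ⟨l, s _ _ hl, by have := w _ _ hl; push_cast; linear_combination this + e2⟩
  have h3 : Function.Surjective o.d := fun y => by
    obtain ⟨l, -, hl⟩ := h2 ((y - o.d j) / (o.d a - o.d b)).val
    refine ⟨l, ?_⟩
    rw [hl, ZMod.natCast_zmod_val, div_mul_cancel₀ _ (sub_ne_zero.2 (o.hd.ne hab)), add_sub_cancel]
  have := Fintype.card_le_of_surjective _ h3
  rw [ZMod.card] at this
  omega

open Classical in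
theorem dg (j : ι) : ∑ a with o.B j a, ∑ x, o.M x a a * o.M x⁻¹ a a = Fintype.card G := by
  have h1 : ∀ a, o.B j a → o.P (single a a 1) a a = o.P (single a a 1) j j := fun a ha => by
    have w := o.wt_single a a
    have c := o.P_comm (single a a 1)
    generalize o.P (single a a 1) = X at w c
    have z : ∀ b e, b ≠ e → X b e = 0 := fun b e h => by
      by_contra k
      exact h (o.hd (sub_eq_zero.1 ((w _ _ k).trans (sub_self _))))
    refine o.spread (S := fun e => X e e = X j j) ?_ .refl ha rfl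
    rintro b e ⟨x, hx⟩ hb
    have := congrFun (congrFun (c x) e) b
    rw [mul_apply, mul_apply, sum_eq_single b (fun l _ hl => by simp [z _ _ hl]) (by simp),
      sum_eq_single e (fun l _ hl => by simp [z _ _ hl.symm]) (by simp), mul_comm] at this
    exact (mul_right_cancel₀ hx this).symm.trans hb
  have h2 := congrFun (congrFun (o.P_E (o.B_cl j)) j) j
  have h3 : E F (o.B j) = ∑ a with o.B j a, single a a 1 := by
    ext a b
    by_cases e : a = b
    · simp [E, Matrix.sum_apply, single_apply, e]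
    · rw [E, diagonal_apply_ne _ e, Matrix.sum_apply, sum_eq_zero fun l _ =>
        single_apply_of_ne _ _ _ _ _ fun k => e (k.1.symm.trans k.2)]
  rw [sum_congr rfl fun a ha => ((o.P_single a a a a).symm.trans (h1 a (mem_filter.1 ha).2))]
  nth_rewrite 1 [h3] at h2
  simp only [P, mul_sum, sum_mul, Matrix.sum_apply] at h2 ⊢
  rw [sum_comm, h2]
  simp [E, Relation.ReflTransGen.refl]

/-- the diagonal elements -/
def C : Subgroup G := (o.A 1).eqLocus (MonoidHom.id G)

theorem mem_C {x : G} : x ∈ o.C ↔ ∀ a b, a ≠ b → o.M x a b = 0 := by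
  refine ⟨fun h a b hab => ?_, fun h => o.inj ?_⟩
  · by_contra k
    have := congrArg (o.M · a b) (show o.A 1 x = x from h)
    simp only [hA, one_mul] at this
    exact hab (o.hd (sub_eq_zero.1 (o.ψ1 (mul_right_cancel₀ k (this.trans (one_mul _).symm)))))
  · ext a b
    by_cases e : a = b <;> simp [hA, e, h]

theorem C_mul (c : o.C) (x : G) (a b : ι) : o.M (c * x) a b = o.M c a a * o.M x a b := by
  rw [map_mul, mul_apply, sum_eq_single a (fun l _ hl => by simp [o.mem_C.1 c.2 _ _ hl.symm]) (by simp)]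

theorem mul_C (c : o.C) (x : G) (a b : ι) : o.M (x * c) a b = o.M x a b * o.M c b b := by
  rw [map_mul, mul_apply, sum_eq_single b (fun l _ hl => by simp [o.mem_C.1 c.2 _ _ hl]) (by simp)]

/-- diagonal characters -/
def χ (a : ι) : o.C →* F where
  toFun c := o.M c a a
  map_one' := by simp
  map_mul' c c' := o.C_mul c c' a a

/-- quotients of diagonal characters -/
def κ (a b : ι) : o.C →* F where
  toFun c := o.χ a c * o.χ b c⁻¹
  map_one' := by simp
  map_mul' c c' := by simp only [_root_.mul_inv_rev, map_mul]; ring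

theorem tw (h7 : ¬ 7 ∣ Fintype.card G) {i : ZMod 7} (hi : i ≠ 0) (p q : G × o.C)
    (h : p.1 * p.2 * (o.A i p.1)⁻¹ = q.1 * q.2 * (o.A i q.1)⁻¹) : p.1⁻¹ * q.1 ∈ o.C := by
  have : Fact (Nat.Prime 7) := ⟨by norm_num⟩
  have h1 : p.2 * o.A i (p.1⁻¹ * q.1) = p.1⁻¹ * q.1 * q.2 := by
    rw [map_mul, map_inv, ← mul_left_inj (o.A i q.1)⁻¹, ← mul_right_inj p.1]
    simpa [mul_assoc] using h
  refine o.mem_C.2 fun a b hab => ?_
  by_contra k
  have h2 := congrArg (o.M · a b) h1
  simp only [C_mul, mul_C, hA] at h2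
  have h3 : o.χ a p.2 * o.ψ (i * (o.d a - o.d b)) = o.χ b q.2 :=
    mul_right_cancel₀ k (by rw [mul_assoc]; exact h2.trans (mul_comm _ _))
  have h4 : ∀ a c, o.χ a c ^ Fintype.card G = 1 := fun a c => by
    rw [← map_pow, show c ^ Fintype.card G = 1 from Subtype.ext pow_card_eq_one, map_one]
  have h5 := congrArg (· ^ Fintype.card G) h3
  simp only [mul_pow, h4, one_mul, ← AddChar.map_nsmul_eq_pow, nsmul_eq_mul] at h5
  exact mul_ne_zero (mt (ZMod.natCast_eq_zero_iff _ 7).1 h7) (mul_ne_zero hi (sub_ne_zero.2 (o.hd.ne hab))) (o.ψ1 h5)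

/-- powers of the diagonal element -/
def D (i : ZMod 7) : Matrix ι ι F := diagonal fun a => o.ψ (i * o.d a)

theorem A_D (i : ZMod 7) (y : G) : o.M (o.A i y) * o.D i = o.D i * o.M y := by
  ext a b
  rw [D, mul_diagonal, diagonal_mul, hA, mul_right_comm, ← o.ψ.map_add_eq_mul]
  ring_nf

theorem D_A (i : ZMod 7) (y : G) : o.D (-i) * o.M (o.A i y) = o.M y * o.D (-i) := by
  ext a b
  rw [D, mul_diagonal, diagonal_mul, hA, ← mul_assoc, ← o.ψ.map_add_eq_mul, mul_comm (o.M y a b)]
  ring_nf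

theorem tr_conj (j : ι) (y : G) (Z : Matrix ι ι F) :
    trace (E F (o.B j) * (o.M y * Z * o.M y⁻¹)) = trace (E F (o.B j) * Z) := by
  rw [← mul_assoc, ← mul_assoc, ← o.E_comm (o.B_cl j), trace_mul_comm]
  simp [← mul_assoc, ← map_mul]

open Classical in
theorem ident (h5 : Fintype.card ι ≤ 5) (h7 : ¬ 7 ∣ Fintype.card G) (j : ι) {i : ZMod 7} (hi : i ≠ 0) :
    ∑ p : ι × ι with o.B j p.1 ∧ o.B j p.2 ∧ o.κ p.1 p.2 = 1, o.ψ (i * (o.d p.1 - o.d p.2)) = 1 := by
  let φ : G → F := fun x => trace (E F (o.B j) * (o.M x * o.D i)) * trace (E F (o.B j) * (o.D (-i) * o.M x⁻¹))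
  have h1 := fib o.C (fun p => p.1 * p.2 * (o.A i p.1)⁻¹) (o.tw h7 hi) (fun y c c' e => by simpa using e) φ
  have h2 : ∀ p : G × o.C, φ (p.1 * p.2 * (o.A i p.1)⁻¹) = φ p.2 := fun p => by
    simp only [φ, _root_.mul_inv_rev, inv_inv, map_mul]
    rw [← map_inv, mul_assoc _ _ (o.D i), A_D, ← mul_assoc (o.D (-i)), D_A, ← o.tr_conj j p.1 (o.M p.2 * _),
      ← o.tr_conj j p.1 (o.D (-i) * _)]
    simp only [mul_assoc]
  have h3 : ∀ x, φ x = ∑ a with o.B j a, ∑ b with o.B j b,
      o.ψ (i * (o.d a - o.d b)) * (o.M x a a * o.M x⁻¹ b b) := fun x => by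
    simp only [φ, trace, Matrix.diag, E, D, diagonal_mul, mul_diagonal, ite_mul, one_mul, zero_mul, ← sum_filter, sum_mul_sum]
    refine sum_congr rfl fun a _ => sum_congr rfl fun b _ => ?_
    rw [show i * (o.d a - o.d b) = i * o.d a + -i * o.d b by ring, o.ψ.map_add_eq_mul]
    ring
  have h4 : ∑ x, φ x = Fintype.card G := by
    simp only [h3]
    rw [sum_comm, ← o.dg j]
    refine sum_congr rfl fun a ha => ?_
    rw [sum_comm, sum_eq_single_of_mem a ha fun b hb hab => by
      rw [← mul_sum, o.off h5 (mem_filter.1 ha).2 (mem_filter.1 hb).2 hab.symm, mul_zero]]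
    simp
  have h5 : ∑ c : o.C, φ c = Fintype.card o.C *
      ∑ p : ι × ι with o.B j p.1 ∧ o.B j p.2 ∧ o.κ p.1 p.2 = 1, o.ψ (i * (o.d p.1 - o.d p.2)) := by
    simp only [h3]
    rw [sum_comm, mul_sum, sum_filter fun p : ι × ι => _ ∧ _, Fintype.sum_prod_type, sum_filter]
    refine sum_congr rfl fun a _ => ?_
    split_ifs with ha
    swap
    · simp [ha]
    rw [sum_comm, sum_filter]
    refine sum_congr rfl fun b _ => ?_
    have := sum_hom_units (o.κ a b)
    by_cases hb : o.B j b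
    · rw [if_pos hb, ← mul_sum, show ∑ c : o.C, o.M c a a * o.M (c : G)⁻¹ b b = _ from this]
      simp [ha, hb, mul_comm]
    · simp [hb]
  simp only [h2, h4, Fintype.sum_prod_type, h5, sum_const, card_univ, nsmul_eq_mul] at h1
  have hC : (Fintype.card o.C : F) ≠ 0 := fun e => o.hG (by
    obtain ⟨k, hk⟩ := o.C.card_subgroup_dvd_card
    rw [← Nat.card_eq_fintype_card, hk, Nat.card_eq_fintype_card, Nat.cast_mul, e, zero_mul])
  exact mul_left_cancel₀ (mul_ne_zero o.hG hC) (by linear_combination h1)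

theorem main (h5 : Fintype.card ι ≤ 5) (hp : ∀ n : ℕ, 0 < n → n ≤ 7 → (n : F) ≠ 0) (h7 : ¬ 7 ∣ Fintype.card G)
    (x : G) {a j : ι} (h : a ≠ j) : o.M x a j = 0 := by
  classical
  by_contra h0
  let R : Finset (ι × ι) := {p | o.B j p.1 ∧ o.B j p.2 ∧ o.κ p.1 p.2 = 1}
  let S : Finset ι := {c | o.B j c}
  let N : ZMod 7 → ℕ := fun t => #{p ∈ R | o.d p.1 - o.d p.2 = t}
  have h1 : ∀ t, ∑ i, o.ψ (i * -t) * ∑ p ∈ R, o.ψ (i * (o.d p.1 - o.d p.2)) = 7 * N t := fun t => by
    simp only [mul_sum, ← o.ψ.map_add_eq_mul, ← mul_add]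
    rw [sum_comm]
    simp only [AddChar.sum_mulShift _ o.prim, neg_add_eq_zero, N, card_filter, ZMod.card]
    push_cast
    rw [mul_sum]
    exact sum_congr rfl fun p _ => by simp [eq_comm]
  have h2 : ∀ t, t ≠ 0 → (N 0 : F) = N t + 1 := fun t ht => by
    have e1 := AddChar.sum_mulShift (-t) o.prim
    have e4 : ∑ i, (1 - o.ψ (i * -t)) * ∑ p ∈ R, o.ψ (i * (o.d p.1 - o.d p.2)) = ∑ i, (1 - o.ψ (i * -t)) :=
      sum_congr rfl fun i _ => by
        by_cases hi : i = 0
        · simp [hi]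
        · rw [show ∑ p ∈ R, _ = _ from o.ident h5 h7 j hi, mul_one]
    have e2 := h1 t
    have e3 := h1 0
    simp only [sub_mul, sum_sub_distrib, e2, e1, neg_eq_zero, ht] at e4
    simp at e3 e4
    exact mul_left_cancel₀ (hp 7 (by simp) le_rfl) (by push_cast; linear_combination e4 - e3)
  have h3 : ∀ t, N t ≤ #S := fun t => card_le_card_of_injOn Prod.fst (fun p hp => by
    simp [R, S] at hp ⊢; exact hp.1.1) fun p hp q hq e => by
    simp only [coe_filter, Set.mem_setOf_eq] at hp hq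
    exact Prod.ext e (o.hd (by have := hp.2; have := hq.2; grind))
  have h4 : #S ≤ N 0 := card_le_card_of_injOn (fun c => (c, c)) (fun c hc => by
    simp only [R, S, coe_filter, mem_filter, mem_univ, true_and, Set.mem_setOf_eq, sub_self, and_true] at hc ⊢
    exact ⟨hc, hc, MonoidHom.ext fun c => (map_mul _ _ _).symm.trans (by simp)⟩) fun _ _ _ _ e => congrArg Prod.fst e
  have h6 : #S ≤ 5 := (card_le_univ _).trans h5
  have h8 : 1 < #S := one_lt_card.2 ⟨a, by simpa [S] using Relation.ReflTransGen.single ⟨x, h0⟩, j, by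
    simpa [S] using Relation.ReflTransGen.refl, h⟩
  have h9 : ∀ t, t ≠ 0 → #S ≤ N t + 1 := fun t ht => by
    by_contra k
    have := h3 0
    exact hp (N 0 - (N t + 1)) (by omega) (by omega) (by rw [Nat.cast_sub (by omega), h2 t ht]; simp)
  have e1 : #R = ∑ t, N t := card_eq_sum_card_fiberwise fun _ _ => mem_univ _
  have e2 : #R ≤ #S * #S := by
    rw [← card_product]
    exact card_le_card fun p hp => by simp [R, S] at hp ⊢; exact ⟨hp.1, hp.2.1⟩
  have e3 := sum_le_sum (s := univ.erase (0 : ZMod 7)) fun t ht => h9 t (mem_erase.1 ht).1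
  rw [← add_sum_erase _ _ (mem_univ 0)] at e1
  simp [sum_add_distrib] at e3
  generalize #S = m at *
  interval_cases m <;> omega

end Dt

theorem hh {F : Type*} [Field F] {ι : Type} [Fintype ι] [DecidableEq ι] (h5 : Fintype.card ι ≤ 5)
    (hp : ∀ n : ℕ, 0 < n → n ≤ 7 → (n : F) ≠ 0) {ω : F} (hω : IsPrimitiveRoot ω 7)
    {d : ι → ZMod 7} (hd : Function.Injective d) {U : GL ι F} (hU : U.val = Matrix.diagonal fun i => ω ^ (d i).val)
    {J : Subgroup (GL ι F)} [Finite J] (hJ : (Nat.card J : F) ≠ 0) (h7 : ¬ 7 ∣ Nat.card J)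
    (hn : ∀ x ∈ J, U * x * U⁻¹ ∈ J) {x} (hx : x ∈ J) {i j : ι} (hij : i ≠ j) : x.val i j = 0 := by
  have := Fintype.ofFinite J
  rw [Nat.card_eq_fintype_card] at hJ h7
  let ψ := AddChar.zmodChar 7 hω.pow_eq_one
  have hk : ∀ (k : ℕ), ∀ x ∈ J, ∃ y ∈ J, ∀ a b, y.val a b = ψ (k * (d a - d b)) * x.val a b := fun k => by
    induction k with
    | zero => exact fun x hx => ⟨x, hx, by simp⟩
    | succ k ih =>
      intro x hx
      obtain ⟨y, y1, y2⟩ := ih x hx
      refine ⟨_, hn y y1, fun a b => ?_⟩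
      have := congrArg (fun g : GL ι F => g.val a b) (inv_mul_cancel_right (U * y) U)
      rw [Units.val_mul, Units.val_mul U y, hU, mul_diagonal, diagonal_mul, y2] at this
      refine mul_right_cancel₀ (pow_ne_zero (d b).val (hω.ne_zero (by simp))) (this.trans ?_)
      change ψ (d a) * _ = _ * ψ (d b)
      rw [mul_right_comm, ← mul_assoc, ← ψ.map_add_eq_mul, ← ψ.map_add_eq_mul]
      push_cast
      ring_nf
  choose α h1 h2 using hk
  exact Dt.main (G := J) ⟨ψ, AddChar.zmodChar_primitive_of_primitive_root 7 hω, d, hd, (Units.coeHom (Matrix ι ι F)).comp J.subtype,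
    fun x y e => Subtype.ext (Units.ext e), fun i x => ⟨α i.val x x.2, h1 _ _ _⟩,
    fun i x a b => (h2 i.val x x.2 a b).trans (by rw [ZMod.natCast_zmod_val]; rfl), hJ⟩ h5 hp h7 ⟨x, hx⟩ hij

end Cfsg.Agent.H1.HH7
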