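import Cfsg.Agent.H1.Basic

set_option autoImplicit false

namespace Cfsg.Agent.H1.Homog

open MulAction
open scoped Pointwise

theorem homog_iff {G α : Type*} [Group G] [MulAction G α] [DecidableEq α] {k : ℕ} :
    IsPretransitive G (Set.powersetCard α k) ↔
      ∀ s t : Finset α, s.card = k → t.card = k → ∃ g : G, g • s = t := by
  constructor
  · intro h s t hs ht
    obtain ⟨g, hg⟩ := exists_smul_eq G (⟨s, hs⟩ : Set.powersetCard α k) ⟨t, ht⟩
    exact ⟨g, congrArg Subtype.val hg⟩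
  · intro h
    constructor
    rintro ⟨s, hs⟩ ⟨t, ht⟩
    obtain ⟨g, hg⟩ := h s t hs ht
    exact ⟨g, Subtype.ext hg⟩

theorem two_homog_iff {G α : Type*} [Group G] [MulAction G α] [DecidableEq α] :
    IsPretransitive G (Set.powersetCard α 2) ↔
      ∀ a b c d : α, a ≠ b → c ≠ d →
        ∃ g : G, (g • a = c ∧ g • b = d) ∨ (g • a = d ∧ g • b = c) := by
  rw [homog_iff]
  constructor
  · intro h a b c d hab hcd
    obtain ⟨g, hg⟩ := h {a, b} {c, d} (Finset.card_pair hab) (Finset.card_pair hcd)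
    refine ⟨g, ?_⟩
    have ha : g • a ∈ ({c, d} : Finset α) := hg ▸ Finset.smul_mem_smul_finset (by simp)
    have hb : g • b ∈ ({c, d} : Finset α) := hg ▸ Finset.smul_mem_smul_finset (by simp)
    have hne : g • a ≠ g • b := fun h => hab (smul_left_cancel g h)
    simp only [Finset.mem_insert, Finset.mem_singleton] at ha hb
    rcases ha with ha | ha <;> rcases hb with hb | hb
    · exact absurd (ha.trans hb.symm) hne
    · exact Or.inl ⟨ha, hb⟩
    · exact Or.inr ⟨ha, hb⟩
    · exact absurd (ha.trans hb.symm) hne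
  · intro h s t hs ht
    obtain ⟨a, b, hab, rfl⟩ := Finset.card_eq_two.1 hs
    obtain ⟨c, d, hcd, rfl⟩ := Finset.card_eq_two.1 ht
    obtain ⟨g, hg⟩ := h a b c d hab hcd
    refine ⟨g, ?_⟩
    rcases hg with ⟨h1, h2⟩ | ⟨h1, h2⟩
    · simp [Finset.smul_finset_insert, h1, h2]
    · simp [Finset.smul_finset_insert, h1, h2, Finset.pair_comm]

theorem two_trans_of_even {G α : Type*} [Group G] [Finite G] [MulAction G α] [FaithfulSMul G α]
    [DecidableEq α] (h2 : IsPretransitive G (Set.powersetCard α 2)) (he : Even (Nat.card G)) :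
    IsMultiplyPretransitive G α 2 := by
  rw [two_homog_iff] at h2
  have : Fact (Nat.Prime 2) := ⟨Nat.prime_two⟩
  obtain ⟨t, ht⟩ := exists_prime_orderOf_dvd_card' (G := G) 2 he.two_dvd
  have ht1 : t ≠ 1 := by rintro rfl; simp at ht
  have htt : t * t = 1 := by rw [← pow_two, ← ht, pow_orderOf_eq_one]
  obtain ⟨x, hx⟩ : ∃ x : α, t • x ≠ x := by
    by_contra hc
    push Not at hc
    exact ht1 (FaithfulSMul.eq_of_smul_eq_smul (α := α) fun x => by rw [hc, one_smul])
  have key : ∀ c d : α, c ≠ d → ∃ g : G, g • x = c ∧ g • t • x = d := by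
    intro c d hcd
    obtain ⟨g, hg | hg⟩ := h2 x (t • x) c d hx.symm hcd
    · exact ⟨g, hg⟩
    · refine ⟨g * t, by rw [mul_smul]; exact hg.2, ?_⟩
      rw [mul_smul, smul_smul t t, htt, one_smul]; exact hg.1
  rw [is_two_pretransitive_iff]
  intro a b c d hab hcd
  obtain ⟨g, hg1, hg2⟩ := key a b hab
  obtain ⟨h, hh1, hh2⟩ := key c d hcd
  refine ⟨h * g⁻¹, ?_, ?_⟩
  · rw [mul_smul, ← hg1, inv_smul_smul, hh1]
  · rw [mul_smul, ← hg2, inv_smul_smul, hh2]

theorem primitive_of_two_homog {G α : Type*} [Group G] [MulAction G α]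
    [DecidableEq α] (h2 : IsPretransitive G (Set.powersetCard α 2)) (hne : ∃ (g : G) (x : α), g • x ≠ x) :
    IsPreprimitive G α := by
  rw [two_homog_iff] at h2
  obtain ⟨t, x, hx⟩ := hne
  have htr : IsPretransitive G α := by
    constructor
    intro a b
    by_cases hab : a = b
    · exact ⟨1, by simp [hab]⟩
    obtain ⟨g, hg | hg⟩ := h2 x (t • x) a b hx.symm hab
    · exact ⟨g * t * g⁻¹, by rw [← hg.1, ← hg.2]; simp [mul_smul]⟩
    · exact ⟨g * t⁻¹ * g⁻¹, by rw [← hg.1, ← hg.2]; simp [mul_smul]⟩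
  apply IsPreprimitive.mk
  intro B hB
  rcases B.subsingleton_or_nontrivial with h | h
  · exact Or.inl h
  · right
    obtain ⟨a, ha, b, hb, hab⟩ := h
    rw [Set.eq_univ_iff_forall]
    intro c
    by_cases h' : a = c
    · rw [← h']; exact ha
    · rw [MulAction.isBlock_iff_smul_eq_of_mem] at hB
      obtain ⟨g, hg | hg⟩ := h2 a b a c hab h'
      · rw [← hB (g := g) ha (by rw [hg.1]; exact ha), ← hg.2]
        exact Set.smul_mem_smul_set hb
      · rw [← hB (g := g) hb (by rw [hg.2]; exact ha), ← hg.1]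
        exact Set.smul_mem_smul_set ha

end Cfsg.Agent.H1.Homog
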