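import Cfsg.Agent.H1.S7k
import Cfsg.Agent.H5.MH0

/-!
The Sylow step in dimension at most four in all odd characteristics, and `A₇` does not embed in `SL₃` in
characteristic five.
-/

set_option autoImplicit false
set_option linter.unusedSectionVars false

namespace Cfsg.Agent.H3.S7

variable {F : Type*} [Field F] {ι : Type} [Fintype ι] [DecidableEq ι]

section
open Matrix Finset Cfsg.Agent.H1.HH7

variable {G : Type*} [Group G] [Fintype G]

theorem main3 [Group.IsNilpotent G] (o : Dt F ι G) (h4' : Fintype.card ι ≤ 4) (p2 : (2 : F) ≠ 0) (p7 : (7 : F) ≠ 0)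
    (hd2 : ∀ t : ZMod 7, t ≠ 0 → #{p : ι × ι | o.d p.1 - o.d p.2 = t} ≤ 2) (h7 : ¬ 7 ∣ Fintype.card G)
    (x : G) {a j : ι} (h : a ≠ j) : o.M x a j = 0 := by
  classical
  have h5 : Fintype.card ι ≤ 5 := by omega
  by_contra h0
  let R : Finset (ι × ι) := {p | o.B j p.1 ∧ o.B j p.2 ∧ o.κ p.1 p.2 = 1}
  let S : Finset ι := {c | o.B j c}
  let N : ZMod 7 → ℕ := fun t => #{p ∈ R | o.d p.1 - o.d p.2 = t}
  have h1 : ∀ t, ∑ i, o.ψ (i * -t) * ∑ p ∈ R, o.ψ (i * (o.d p.1 - o.d p.2)) = 7 * N t := fun t => by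
    simp only [mul_sum, ← o.ψ.map_add_eq_mul, ← mul_add]
    rw [sum_comm]
    simp only [AddChar.sum_mulShift _ o.prim, neg_add_eq_zero, N, card_filter, ZMod.card]
    push_cast
    rw [mul_sum]
    exact sum_congr rfl fun p _ => by simp [eq_comm]
  have h2 : ∀ t, t ≠ 0 → (N 0 : F) = N t + 1 := fun t ht => by
    have e1 := AddChar.sum_mulShift (-t) o.prim
    have e4 : ∑ i, (1 - o.ψ (i * -t)) * ∑ p ∈ R, o.ψ (i * (o.d p.1 - o.d p.2)) = ∑ i, (1 - o.ψ (i * -t)) :=
      sum_congr rfl fun i _ => by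
        by_cases hi : i = 0
        · simp [hi]
        · rw [show ∑ p ∈ R, _ = _ from o.ident h5 h7 j hi, mul_one]
    have e2 := h1 t
    have e3 := h1 0
    simp only [sub_mul, sum_sub_distrib, e2, e1, neg_eq_zero, ht] at e4
    simp at e3 e4
    exact mul_left_cancel₀ p7 (by linear_combination e4 - e3)
  have h3 : ∀ t, N t ≤ #S := fun t => card_le_card_of_injOn Prod.fst (fun p hp => by
    simp [R, S] at hp ⊢; exact hp.1.1) fun p hp q hq e => by
    simp only [coe_filter, Set.mem_setOf_eq] at hp hq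
    exact Prod.ext e (o.hd (by have := hp.2; have := hq.2; grind))
  have h4 : #S ≤ N 0 := card_le_card_of_injOn (fun c => (c, c)) (fun c hc => by
    simp only [R, S, coe_filter, mem_filter, mem_univ, true_and, Set.mem_setOf_eq, sub_self, and_true] at hc ⊢
    exact ⟨hc, hc, MonoidHom.ext fun c => (map_mul _ _ _).symm.trans (by simp)⟩) fun _ _ _ _ e => congrArg Prod.fst e
  have h6 : #S ≤ 4 := (card_le_univ _).trans h4'
  have h8 : 1 < #S := one_lt_card.2 ⟨a, by simpa [S] using Relation.ReflTransGen.single ⟨x, h0⟩, j, by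
    simpa [S] using Relation.ReflTransGen.refl, h⟩
  have h9 : ∀ t, t ≠ 0 → #S ≤ N t + 1 ∨ (#S = 4 ∧ N t = 0) := fun t ht => by
    have e := h2 t ht
    rw [le_antisymm (h3 0) h4] at e
    have : N t ≤ 2 := (card_le_card (filter_subset_filter _ (subset_univ _))).trans (hd2 t ht)
    generalize #S = m at *
    generalize N t = n at *
    interval_cases m <;> interval_cases n <;> norm_num at e ⊢ <;> grind
  have e1 : #R = ∑ t, N t := card_eq_sum_card_fiberwise fun _ _ => mem_univ _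
  have e2 : #R ≤ #S * #S := by
    rw [← card_product]
    exact card_le_card fun p hp => by simp [R, S] at hp ⊢; exact ⟨hp.1, hp.2.1⟩
  by_cases k : #S = 4
  swap
  · have e3 := sum_le_sum (s := univ.erase (0 : ZMod 7)) fun t ht =>
      (h9 t (mem_erase.1 ht).1).resolve_right fun e => k e.1
    rw [← add_sum_erase _ _ (mem_univ 0)] at e1
    simp [sum_add_distrib] at e3
    generalize #S = m at *
    interval_cases m <;> omega
  have hS : ∀ b, o.B j b := fun b => by
    simpa [S] using (eq_univ_of_card S (le_antisymm (card_le_univ _) (k ▸ h4'))).ge (mem_univ b)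
  have hκ : ∀ b b', o.κ b b' = 1 → b = b' := fun b b' e => by
    by_contra hb
    have t0 := sub_ne_zero.2 (o.hd.ne hb)
    have : N _ ≤ 2 := (card_le_card (filter_subset_filter _ (subset_univ _))).trans (hd2 _ t0)
    have : 0 < N (o.d b - o.d b') := card_pos.2 ⟨(b, b'), by simp [R, hS, e]⟩
    have := h9 _ t0
    omega
  have hC : o.C = ⊤ := by
    by_contra k
    obtain ⟨n, n1, n2⟩ := SetLike.exists_of_lt (Group.normalizerCondition_of_isNilpotent o.C (lt_top_iff_ne_top.2 k))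
    have r : ∀ a b b', o.M n a b ≠ 0 → o.M n a b' ≠ 0 → b = b' := fun a b b' h1 h2 => hκ _ _ (MonoidHom.ext fun c => by
      have e : ∀ b, o.M n a b ≠ 0 → o.M (n * c * n⁻¹) a a = o.χ b c := fun b hb => by
        have := o.C_mul ⟨_, (n1 c).1 c.2⟩ n a b
        rw [inv_mul_cancel_right, o.mul_C, mul_comm] at this
        exact (mul_right_cancel₀ hb this).symm
      change o.χ b c * o.χ b' c⁻¹ = 1
      rw [← e b h1, e b' h2, ← map_mul, mul_inv_cancel, map_one])
    have w : n * (o.A 1 n)⁻¹ ∈ o.C := o.mem_C.2 fun a b hab => by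
      have e := congrArg (o.M · a b) (mul_inv_cancel n)
      simp only [map_mul, map_one, one_apply_ne hab, mul_apply] at e
      rw [← map_inv, map_mul, mul_apply]
      refine sum_eq_zero fun l _ => ?_
      by_cases hl : o.M n a l = 0
      · simp [hl]
      rw [sum_eq_single l (fun l' _ h => by
        rw [show o.M n a l' = 0 from by_contra fun k => h (r _ _ _ k hl), zero_mul]) (by simp)] at e
      rw [o.hA, mul_left_comm, e, mul_zero]
    exact n2 (by simpa using o.tw h7 (i := 1) (by decide) (n, 1) (1, ⟨_, w⟩) (by simp))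
  exact h0 (o.mem_C.1 (hC.ge trivial) _ _ h)

theorem hh3 (h4 : Fintype.card ι ≤ 4) (p2 : (2 : F) ≠ 0) {ω : F} (hω : IsPrimitiveRoot ω 7)
    {d : ι → ZMod 7} (hd : Function.Injective d)
    (hd2 : ∀ t : ZMod 7, t ≠ 0 → (Finset.univ.filter fun p : ι × ι => d p.1 - d p.2 = t).card ≤ 2) {U : GL ι F} (hU : U.val = Matrix.diagonal fun i => ω ^ (d i).val)
    {J : Subgroup (GL ι F)} [Finite J] [Group.IsNilpotent J] (hJ : (Nat.card J : F) ≠ 0) (h7 : ¬ 7 ∣ Nat.card J)
    (hn : ∀ x ∈ J, U * x * U⁻¹ ∈ J) {x} (hx : x ∈ J) {i j : ι} (hij : i ≠ j) : x.val i j = 0 := by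
  have := Fintype.ofFinite J
  rw [Nat.card_eq_fintype_card] at hJ h7
  let ψ := AddChar.zmodChar 7 hω.pow_eq_one
  have hk : ∀ (k : ℕ), ∀ x ∈ J, ∃ y ∈ J, ∀ a b, y.val a b = ψ (k * (d a - d b)) * x.val a b := fun k => by
    induction k with
    | zero => exact fun x hx => ⟨x, hx, by simp⟩
    | succ k ih =>
      intro x hx
      obtain ⟨y, y1, y2⟩ := ih x hx
      refine ⟨_, hn y y1, fun a b => ?_⟩
      have := congrArg (fun g : GL ι F => g.val a b) (inv_mul_cancel_right (U * y) U)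
      rw [Units.val_mul, Units.val_mul U y, hU, mul_diagonal, diagonal_mul, y2] at this
      refine mul_right_cancel₀ (pow_ne_zero (d b).val (hω.ne_zero (by simp))) (this.trans ?_)
      change ψ (d a) * _ = _ * ψ (d b)
      rw [mul_right_comm, ← mul_assoc, ← ψ.map_add_eq_mul, ← ψ.map_add_eq_mul]
      push_cast
      ring_nf
  choose α h1 h2 using hk
  exact main3 (G := J) ⟨ψ, AddChar.zmodChar_primitive_of_primitive_root 7 hω, d, hd, (Units.coeHom (Matrix ι ι F)).comp J.subtype,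
    fun x y e => Subtype.ext (Units.ext e), fun i x => ⟨α i.val x x.2, h1 _ _ _⟩,
    fun i x a b => (h2 i.val x x.2 a b).trans (by rw [ZMod.natCast_zmod_val]; rfl), hJ⟩ h4 p2
    (by exact_mod_cast (IsPrimitiveRoot.neZero' hω).ne) hd2 h7 ⟨x, hx⟩ hij

end

open Matrix Subgroup

theorem kl3 [Fintype F] (h4 : Fintype.card ι ≤ 4) (h2 : (2 : F) ≠ 0) {ω : F}
    (hω : IsPrimitiveRoot ω 7) {d : ι → ZMod 7} (hd : Function.Injective d)
    (hd2 : ∀ t : ZMod 7, t ≠ 0 → (Finset.univ.filter fun p : ι × ι => d p.1 - d p.2 = t).card ≤ 2) {U : GL ι F}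
    (hU : U.val = Matrix.diagonal fun i => ω ^ (d i).val) {Φ : GL ι F} (hΦ : ∀ i j, Φ.val i j ≠ 0)
    {J : Subgroup (GL ι F)} (hn : ∀ x ∈ J, U * x * U⁻¹ ∈ J) (hn2 : ∀ x ∈ J, Φ * x * Φ⁻¹ ∈ J)
    (h7 : ∀ x ∈ J, (∃ k, x ^ 7 ^ k = 1) → ∃ c : F, x.val = c • 1) {x} (hx : x ∈ J) : ∃ c : F, x.val = c • 1 := by
  cases isEmpty_or_nonempty ι
  · exact ⟨0, Subsingleton.elim _ _⟩
  have : Fact (Nat.Prime 7) := ⟨by norm_num⟩
  obtain ⟨p, hc⟩ := CharP.exists F
  have hpp := CharP.char_is_prime F p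
  have := Fact.mk hpp
  have hd' : Function.Injective fun i => ω ^ (d i).val := fun i j e =>
    hd (ZMod.val_injective 7 (hω.pow_inj (ZMod.val_lt _) (ZMod.val_lt _) e))
  let α := J.normalizerMonoidHom ⟨U, mem_normalizer_fintype hn⟩
  have hα : α ^ 7 = 1 := by
    rw [← map_pow, ← map_one J.normalizerMonoidHom]
    congr 1
    refine Subtype.ext (Units.ext ?_)
    have : ∀ i, (ω ^ (d i).val) ^ 7 = 1 := fun i => by rw [← pow_mul, mul_comm, pow_mul, hω.pow_eq_one, one_pow]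
    simp [hU, diagonal_pow, Pi.pow_def, this]
  have syl := kl_syl hα fun x hx => mem_center_iff.2 fun y => Subtype.ext (Units.ext (by
    obtain ⟨c, hc⟩ := h7 x x.2 (hx.imp fun k e => congrArg Subtype.val e)
    simp [hc]))
  have dg : ∀ s : ℕ, s.Prime → s ≠ p → ∃ P : Sylow s J, ∀ x ∈ (P : Subgroup J), ∀ i j, i ≠ j → x.1.val i j = 0 :=
    fun s hs hsp => by
    have := Fact.mk hs
    obtain ⟨P, hP⟩ := syl s
    refine ⟨P, fun x hx i j hij => ?_⟩
    by_cases e : s = 7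
    · subst e
      obtain ⟨c, hc⟩ := h7 x x.2 ((P.2 ⟨x, hx⟩).imp fun k e => congrArg (·.1.1) e)
      simp [hc, hij]
    obtain ⟨k, hk⟩ := P.2.exists_card_eq
    rw [← card_map_of_injective J.subtype_injective] at hk
    have := (P.2.map J.subtype).isNilpotent
    refine hh3 (J := (P : Subgroup J).map J.subtype) h4 h2 hω hd hd2 hU ?_ ?_ ?_ ⟨x, hx, rfl⟩ hij
    · rw [hk, Ne, CharP.cast_eq_zero_iff F p]
      exact fun h => hsp ((Nat.prime_dvd_prime_iff_eq hpp hs).1 (hpp.dvd_of_dvd_pow h)).symm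
    · rw [hk]
      exact fun h => e ((Nat.prime_dvd_prime_iff_eq Fact.out hs).1 (Nat.Prime.dvd_of_dvd_pow Fact.out h)).symm
    · rintro _ ⟨y, hy, rfl⟩
      exact ⟨_, (hP y).2 hy, rfl⟩
  obtain ⟨P, hP⟩ := syl p
  let W : Submodule F (ι → F) :=
    { carrier := {v | ∀ y ∈ (P : Subgroup J), y.1.val *ᵥ v = v}
      add_mem' := fun h1 h2 y hy => by rw [mulVec_add, h1 y hy, h2 y hy]
      zero_mem' := fun _ _ => by simp
      smul_mem' := fun c _ h y hy => by rw [mulVec_smul, h y hy] }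
  have hW : ∀ v ∈ W, diagonal (fun i => ω ^ (d i).val) *ᵥ v ∈ W := fun v hv y hy => by
    obtain ⟨y, rfl⟩ := α.surjective y
    rw [← hU, mulVec_mulVec, show (α y).1.val * U.val = U.val * y.1.val from
      congrArg Units.val (inv_mul_cancel_right (U * y) U), ← mulVec_mulVec, hv y ((hP y).1 hy)]
  obtain ⟨v, v1, v2⟩ := P.2.exists_fixed_point_of_prime_dvd_card_of_fixed_point (α := ι → F) (a := 0) (by
    obtain ⟨n, -, hn⟩ := FiniteField.card F p
    rw [Nat.card_eq_fintype_card, Fintype.card_fun, hn]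
    exact dvd_pow (dvd_pow_self _ n.ne_zero) Fintype.card_ne_zero) fun y => smul_zero y
  obtain ⟨i, hi⟩ := Function.ne_iff.1 v2.symm
  have hi := kl_coord hd' hW (fun y hy => v1 ⟨y, hy⟩) hi
  have dl : ∀ (x : GL ι F), (∀ i j, i ≠ j → x.val i j = 0) → ∀ v, x.val *ᵥ v = fun i => x.val i i * v i :=
    fun x h v => funext fun i => Finset.sum_eq_single i (fun j _ e => by simp [h _ _ e.symm]) (by simp)
  have l1 : ∀ j, Pi.single j 1 ∈ W → ∀ x ∈ J, x ∈ lineSt (Pi.single j (1 : F)) := fun j hj x hx =>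
    (kl_top (H := (lineSt (Pi.single j (1 : F))).subgroupOf J) fun s hs => by
      by_cases e : s = p
      · subst e
        exact ⟨P, fun y hy => ⟨1, (hj y hy).trans (one_smul _ _).symm⟩⟩
      · obtain ⟨Q, hQ⟩ := dg s hs e
        refine ⟨Q, fun y hy => ⟨y.1.val j j, (dl _ (hQ y hy) _).trans ?_⟩⟩
        ext l
        by_cases e : l = j <;> simp [e]).ge (mem_top ⟨x, hx⟩)
  have l2 : ∀ x ∈ J, x ∈ lineSt (Φ.val *ᵥ Pi.single i (1 : F)) := fun x hx => by
    obtain ⟨c, hc⟩ := l1 i hi (Φ⁻¹ * x * Φ) ((mem_normalizer_fintype hn2 _).2 (by simpa [mul_assoc] using hx))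
    exact ⟨c, by rw [← mulVec_smul, ← hc, mulVec_mulVec, mulVec_mulVec, ← Units.val_mul, ← Units.val_mul]; group⟩
  have l3 : Φ.val *ᵥ Pi.single i (1 : F) ∈ W := fun y hy => by
    obtain ⟨c, hc⟩ := l2 y y.2
    obtain ⟨k, hk⟩ := P.2 ⟨y, hy⟩
    have e : ∀ n : ℕ, (y.1 ^ n).val *ᵥ (Φ.val *ᵥ Pi.single i (1 : F)) = c ^ n • (Φ.val *ᵥ Pi.single i (1 : F)) :=
      fun n => by
      induction n with
      | zero => simp
      | succ n ih => rw [pow_succ, Units.val_mul, ← mulVec_mulVec, hc, mulVec_smul, ih, smul_smul, pow_succ']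
    have := congrFun (e (p ^ k)) i
    rw [show y.1 ^ p ^ k = 1 from congrArg (·.1.1) hk] at this
    simp [hΦ] at this
    rw [hc, show c = 1 from sub_eq_zero.1 (eq_zero_of_pow_eq_zero (n := p ^ k) (by
      rw [sub_pow_char_pow, this]; simp)), one_smul]
  obtain ⟨c, hc⟩ := l2 x hx
  have l4 : ∀ i j, i ≠ j → x.val i j = 0 := fun l j e => by
    obtain ⟨c, hc⟩ := l1 j (kl_coord hd' hW l3 (by simpa using hΦ j i)) x hx
    simpa [e] using congrFun hc l
  refine ⟨c, ?_⟩
  ext l j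
  by_cases e : l = j
  · simpa [e, hΦ] using congrFun ((dl x l4 _).symm.trans hc) j
  · simp [e, l4]

theorem ch3 (X : Matrix (Fin 3) (Fin 3) F) : ∃ s : F, X * X * X = X.trace • (X * X) - s • X + X.det • 1 :=
  ⟨X 0 0 * X 1 1 + X 0 0 * X 2 2 + X 1 1 * X 2 2 - X 0 1 * X 1 0 - X 0 2 * X 2 0 - X 1 2 * X 2 1, by
    ext i j
    fin_cases i <;> fin_cases j <;> simp [mul_apply, Fin.sum_univ_three, det_fin_three, trace_fin_three] <;> ring⟩

theorem det3 (X : Matrix (Fin 3) (Fin 3) F) :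
    6 * X.det = X.trace ^ 3 - 3 * X.trace * (X * X).trace + 2 * (X * X * X).trace := by
  simp [mul_apply, Fin.sum_univ_three, det_fin_three, trace_fin_three]; ring

theorem noA7 (h5 : (5 : F) = 0) {L : Subgroup (GL (Fin 3) F)} (hd : ∀ g ∈ L, g.val.det = 1)
    (hs : ∀ g ∈ L, Asch.IsSc g.val → g = 1) (e : H5.MH.PQ L ≃* alternatingGroup (Fin 7)) : False := by
  let φ : L →* alternatingGroup (Fin 7) := e.toMonoidHom.comp (QuotientGroup.mk' _)
  have inj : ∀ g, φ g = 1 → g = 1 := fun g hg => Subtype.ext (hs _ g.2 ((Asch.mem_scalars_iff _).1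
    ((QuotientGroup.eq_one_iff g).1 (e.map_eq_one_iff.1 hg))))
  have sur : Function.Surjective φ := e.surjective.comp (QuotientGroup.mk'_surjective _)
  obtain ⟨x, hx⟩ := sur ⟨Equiv.swap 0 1 * Equiv.swap 1 2, Equiv.Perm.mem_alternatingGroup.2 (by decide)⟩
  obtain ⟨y, hy⟩ := sur ⟨Equiv.swap 3 4 * Equiv.swap 4 5, Equiv.Perm.mem_alternatingGroup.2 (by decide)⟩
  have tr : ∀ i j : ℕ, i < 3 → j < 3 → i + j ≠ 0 → (x.1.val ^ i * y.1.val ^ j).trace = 0 := fun i j hi hj h => by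
    have g3 : (x ^ i * y ^ j) ^ 3 = 1 := inj _ (by
      rw [map_pow, map_mul, map_pow, map_pow, hx, hy]
      interval_cases i <;> interval_cases j <;> decide +kernel)
    have g1 : x ^ i * y ^ j ≠ 1 := fun k => by
      have := congrArg φ k
      rw [map_mul, map_pow, map_pow, hx, hy, map_one] at this
      revert this
      interval_cases i <;> interval_cases j <;> first | exact absurd rfl h | decide +kernel
    change (x ^ i * y ^ j).1.val.trace = 0
    generalize x ^ i * y ^ j = g at g1 g3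
    by_contra k
    obtain ⟨s, hs'⟩ := ch3 g.1.val
    rw [hd _ g.2, one_smul, ← pow_three', show g.1.val ^ 3 = 1 from congrArg (·.1.val) g3, eq_comm, add_eq_right,
      sub_eq_zero] at hs'
    refine g1 (Subtype.ext (hs _ g.2 ⟨(g.1.val.trace)⁻¹ * s, ?_⟩))
    have := congrArg ((g.1.val.trace)⁻¹ • · * (g.1⁻¹).val) hs'
    simpa [smul_smul, k, mul_assoc] using this
  have x3 : x.1.val ^ 3 = 1 := congrArg (·.1.val) (inj (x ^ 3) (by rw [map_pow, hx]; decide +kernel))
  have y3 : y.1.val ^ 3 = 1 := congrArg (·.1.val) (inj (y ^ 3) (by rw [map_pow, hy]; decide +kernel))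
  have xy : Commute x.1.val y.1.val := congrArg (fun g : L => g.1.val) (mul_inv_eq_one.1 (inj (x * y * (y * x)⁻¹) (by
    rw [map_mul, map_inv, map_mul, map_mul, hx, hy]; decide +kernel)))
  generalize x.1.val = X at *
  generalize y.1.val = Y at *
  have a : (1 + X + X ^ 2) * (1 + X + X ^ 2) = (3 : F) • (1 + X + X ^ 2) := by
    have : X ^ 4 = X := by rw [pow_succ, x3, one_mul]
    rw [ofNat_smul_eq_nsmul, show (1 + X + X ^ 2) * (1 + X + X ^ 2) = 1 + 2 • X + 3 • X ^ 2 + 2 • X ^ 3 + X ^ 4 by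
      noncomm_ring, this, x3]
    abel
  have b : (1 + 1 - Y - Y ^ 2) * (1 + 1 - Y - Y ^ 2) = (3 : F) • (1 + 1 - Y - Y ^ 2) := by
    have : Y ^ 4 = Y := by rw [pow_succ, y3, one_mul]
    rw [ofNat_smul_eq_nsmul, show (1 + 1 - Y - Y ^ 2) * (1 + 1 - Y - Y ^ 2) =
      4 • 1 - 4 • Y - 3 • Y ^ 2 + 2 • Y ^ 3 + Y ^ 4 by noncomm_ring, this, y3]
    abel
  have c : Commute (1 + X + X ^ 2) (1 + 1 - Y - Y ^ 2) := by
    have : Commute X (1 + 1 - Y - Y ^ 2) :=
      (((Commute.one_right _).add_right (.one_right _)).sub_right xy).sub_right (xy.pow_right 2)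
    exact ((Commute.one_left _).add_left this).add_left (this.pow_left 2)
  have t : ((1 + X + X ^ 2) * (1 + 1 - Y - Y ^ 2)).trace = 6 := by
    have t10 := tr 1 0; have t20 := tr 2 0; have t01 := tr 0 1; have t02 := tr 0 2
    have t11 := tr 1 1; have t12 := tr 1 2; have t21 := tr 2 1; have t22 := tr 2 2
    simp at t10 t20 t01 t02 t11 t12 t21 t22
    simp [add_mul, mul_sub, mul_add, *]
    norm_num
  have i : (1 + X + X ^ 2) * (1 + 1 - Y - Y ^ 2) * ((1 + X + X ^ 2) * (1 + 1 - Y - Y ^ 2)) =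
      (9 : F) • ((1 + X + X ^ 2) * (1 + 1 - Y - Y ^ 2)) := by
    rw [c.symm.mul_mul_mul_comm, a, b, smul_mul_smul_comm]; norm_num
  generalize (1 + X + X ^ 2) * (1 + 1 - Y - Y ^ 2) = E at i t
  have d1 := det3 E
  have d2 := congrArg det i
  simp only [i, smul_mul_assoc, trace_smul, t, smul_eq_mul] at d1
  rw [det_mul, det_smul, Fintype.card_fin, show E.det = 1 by linear_combination d1 + (43 - E.det) * h5] at d2
  exact one_ne_zero (α := F) (by linear_combination 3 * d2 + 437 * h5)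

end Cfsg.Agent.H3.S7
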