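import Cfsg.Agent.H1.M4G6

/-! Arithmetic of the class equation. -/

set_option autoImplicit false

namespace Cfsg.Agent.H1.Mit

open Cfsg.Agent.MH

variable {N c n e n1 e1 n2 e2 k q l μ : ℕ} {τ τ1 τ2 : ℚ}

theorem inv_eq_div {M : ℕ} {D : ℤ} (hN : 0 < N) (hM : M ∣ N) (h : (N : ℚ)⁻¹ * M = D) : D = 1 ∧ N = M := by
  obtain ⟨j, rfl⟩ := hM
  have M0 : (M : ℚ) ≠ 0 := Nat.cast_ne_zero.2 (left_ne_zero_of_mul hN.ne')
  have j0 : (j : ℚ) ≠ 0 := Nat.cast_ne_zero.2 (right_ne_zero_of_mul hN.ne')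
  have : (j : ℚ) * D = 1 := by rw [← h]; push_cast; field_simp
  have e : (j : ℤ) * D = 1 := by exact_mod_cast this
  have a := Int.eq_one_of_mul_eq_one_right (by positivity) e
  obtain rfl : j = 1 := by exact_mod_cast a
  exact ⟨by simpa using e, mul_one M⟩

theorem dvd3 {a b c : ℕ} (h1 : a ∣ N) (h2 : b ∣ N) (h3 : c ∣ N) (c1 : b.Coprime a) (c2 : c.Coprime a) (c3 : c.Coprime b) :
    a * b * c ∣ N := (c2.mul_right c3).symm.mul_dvd_of_dvd_of_dvd (c1.symm.mul_dvd_of_dvd_of_dvd h1 h2) h3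

theorem ET4.lt (h : ET4 N c n e τ) : 0 ≤ τ ∧ τ < 1 / 2 := by
  rcases h with ⟨-, rfl⟩ | ⟨-, -, -, ⟨-, h, rfl⟩ | ⟨-, h, -, -, rfl⟩⟩
  · norm_num
  · have := inv_le' 3 h
    have := inv_pos' (n := n) (by omega)
    push_cast at *
    constructor <;> linarith
  · have := inv_le' 5 h
    have := inv_pos' (n := n) (by omega)
    push_cast at *
    constructor <;> linarith

theorem ar_D24 (hk : 0 < k) (hN : 0 < N) (hd : 4 * k ∣ N) (o1 : n1 % 2 = 1) (d1 : n1 ∣ N) (c1 : n1.Coprime (4 * k)) (a1 : 3 ≤ n1)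
    (d2 : n2 ∣ N) (c2 : n2.Coprime (4 * k)) (a2 : 5 ≤ n2) (a3 : n2 % 4 = 1) (a4 : 8 ∣ 4 * k) (co : n1.Coprime n2)
    (h : (N : ℚ)⁻¹ = (k : ℚ)⁻¹ / 4 + (n1 : ℚ)⁻¹ / 2 + (n2 : ℚ)⁻¹ / 4 - 1 / 4) : N = 360 ∧ n2 = 9 := by
  have := inv_pos' hN
  have := inv_le' 5 a2
  have := inv_le' (n := k) 2 (by omega)
  have := inv_pos' (n := n2) (by omega)
  have hb := Nat.le_of_dvd hN (dvd3 hd d1 d2 c1 c2 co.symm)
  by_cases f : n1 = 3
  · subst f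
    exfalso
    have := inv_le' (n := N) 120 (by nlinarith [Nat.mul_le_mul (show 2 ≤ k by omega) a2])
    have : ¬ 3 ∣ 4 * k := fun a => absurd (Nat.Coprime.eq_one_of_dvd c1 a) (by decide)
    have : ¬ 3 ∣ n2 := fun a => absurd (Nat.Coprime.eq_one_of_dvd co a) (by decide)
    rcases (by omega : k = 2 ∨ k = 4 ∨ 8 ≤ k) with rfl | rfl | a
    · push_cast at *; linarith
    · rcases (by omega : n2 = 5 ∨ 13 ≤ n2) with rfl | b
      · push_cast at *; linarith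
      · have := inv_le' 13 b
        push_cast at *; linarith
    · have := inv_le' 8 a
      push_cast at *; linarith
  obtain rfl : n1 = 5 := by_contra fun e => by
    have := inv_le' (n := n1) 7 (by omega)
    push_cast at *
    linarith
  obtain rfl : k = 2 := by_contra fun e => by
    have := inv_le' (n := k) 4 (by omega)
    push_cast at *
    linarith
  obtain rfl : n2 = 9 := by_contra fun e => by
    have : n2 ≠ 5 := by rintro rfl; simp at co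
    have := inv_le' (n := n2) 13 (by omega)
    push_cast at *
    linarith
  exact ⟨eq_of_inv (by rw [h]; norm_num), rfl⟩

theorem ar_D0 (hk : 0 < k) (hN : 0 < N) (hd : 4 * k ∣ N) (h1 : ET4 N (4 * k) n1 e1 τ1) (h2 : ET4 N (4 * k) n2 e2 τ2)
    (co : n1.Coprime n2) (h : 1 / 2 + (k : ℚ)⁻¹ / 4 - (N : ℚ)⁻¹ = τ1 + τ2) :
    N = 60 ∨ (N = 360 ∧ ((n1 = 9 ∧ e1 = 4) ∨ (n2 = 9 ∧ e2 = 4))) := by
  have := inv_le' (4 * k) (Nat.le_of_dvd hN hd) (by omega)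
  have b1 := h1.lt.2
  have b2 := h2.lt.2
  push_cast at *
  rw [mul_inv] at *
  rcases h1 with ⟨-, rfl⟩ | ⟨o1, d1, c1, h1⟩
  · linarith
  rcases h2 with ⟨-, rfl⟩ | ⟨o2, d2, c2, h2⟩
  · linarith
  have ne : n1 ≠ n2 := by rintro rfl; simp at co; omega
  replace d1 := dvd_of_mul_right_dvd d1
  replace d2 := dvd_of_mul_right_dvd d2
  rcases h1 with ⟨rfl, a1, rfl⟩ | ⟨rfl, a1, a2, a5, rfl⟩ <;> rcases h2 with ⟨rfl, a3, rfl⟩ | ⟨rfl, a3, a4, a6, rfl⟩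
  · rcases lt_or_gt_of_ne ne with e | e
    exacts [Or.inl (arith_D22 hk hN o1 o2 a1 e (by linarith)).1, Or.inl (arith_D22 hk hN o2 o1 a3 e (by linarith)).1]
  · exact Or.inr ((ar_D24 hk hN hd o1 d1 c1 a1 d2 c2 a3 a4 a6 co (by linarith)).imp_right fun a => Or.inr ⟨a, rfl⟩)
  · exact Or.inr ((ar_D24 hk hN hd o2 d2 c2 a3 d1 c1 a1 a2 a5 co.symm (by linarith)).imp_right fun a => Or.inl ⟨a, rfl⟩)
  · have := inv_pos' (n := n1) (by omega)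
    have := inv_pos' (n := n2) (by omega)
    linarith

theorem ar_34 (k2 : k % 2 = 0) (hk : 0 < k) (hq : 7 ≤ q) (q6 : q % 6 = 1) (a2 : 5 ≤ n) (a3 : n % 4 = 1) (h3 : 3 ∣ 4 * k ∨ 3 ∣ n)
    (e : 3 * q * n + 3 * k * q + 4 * k * n = k * q * n + 3) (b : q ≤ 4 * k ∨ n ≤ 4 * k) : False := by
  rcases (by omega : q = 7 ∨ 13 ≤ q) with rfl | hq
  · obtain ⟨a, rfl⟩ : ∃ a, k = 2 * a := ⟨k / 2, by omega⟩
    obtain ⟨b, rfl⟩ : ∃ b, n = 4 * b + 1 := ⟨n / 4, by omega⟩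
    ring_nf at e
    omega
  rcases (by omega : n = 5 ∨ 9 ≤ n) with rfl | hn
  · obtain ⟨a, rfl⟩ : ∃ a, k = 6 * a := ⟨k / 6, by omega⟩
    rcases (by omega : a = 1 ∨ 2 ≤ a) with rfl | ha
    · omega
    have : q ≤ 26 := by nlinarith
    interval_cases q <;> omega
  have : k ≤ 8 := by
    by_contra f
    obtain ⟨a, rfl⟩ := Nat.exists_eq_add_of_le hq
    obtain ⟨b, rfl⟩ := Nat.exists_eq_add_of_le hn
    obtain ⟨d, rfl⟩ := Nat.exists_eq_add_of_le (show 9 ≤ k by omega)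
    ring_nf at e
    omega
  rcases (by omega : k = 2 ∨ k = 4 ∨ k = 6 ∨ k = 8) with rfl | rfl | rfl | rfl <;> rcases b with b | b <;>
    first | (interval_cases q <;> omega) | (interval_cases n <;> omega)

theorem ar_D3' (hk : 0 < k) (hN : 0 < N) (hd : 4 * k ∣ N) (hq : 7 ≤ q) (q6 : q % 6 = 1) (dq : q * 3 ∣ N) (cq : q.Coprime (4 * k))
    (h1 : ET4 N (4 * k) n e τ) (c1 : q.Coprime n) (h3 : 3 ∣ 4 * k ∨ 3 ∣ n)
    (b : ∀ L, 4 * k ≤ L → q ≤ L → n ≤ L → N ≤ 4 * k * (1 + 4 * k * L))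
    (h : 1 / 6 + (k : ℚ)⁻¹ / 4 + (q : ℚ)⁻¹ / 3 - (N : ℚ)⁻¹ = τ) : N = 168 ∧ q = 7 ∧ k = 2 ∧ n = 3 := by
  have := inv_le' (4 * k) (Nat.le_of_dvd hN hd) (by omega)
  have := inv_pos' (n := q) (by omega)
  push_cast at *
  rw [mul_inv] at *
  rcases h1 with ⟨-, rfl⟩ | ⟨o1, d1, c2, ⟨rfl, a1, rfl⟩ | ⟨rfl, a1, a2, a3, rfl⟩⟩
  · linarith
  · obtain rfl := arith_D23 hk hN o1 (by omega) a1 hq (by omega) dq c2 h3 (by linarith)
    have : q ≤ 56 := by have := Nat.le_of_dvd hN dq; omega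
    obtain rfl : q = 7 := by interval_cases q <;> omega
    have : n ≤ 84 := by have := Nat.le_of_dvd hN d1; omega
    obtain rfl : n = 3 := by interval_cases n <;> first | omega | exact absurd c1 (by decide)
    exact ⟨rfl, rfl, eq_of_inv (by push_cast at *; linarith), rfl⟩
  exfalso
  obtain ⟨r, rfl⟩ : ∃ r, q = 3 * r + 1 := ⟨q / 3, by omega⟩
  obtain ⟨f1, f2⟩ := inv_eq_div (D := (3 * r + 1) * n + k * (3 * r + 1) + k * n - k * n * r) hN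
    (dvd3 hd (dvd_of_mul_right_dvd dq) (dvd_of_mul_right_dvd d1) cq c2 c1.symm) (by
      rw [show (N : ℚ)⁻¹ = (k : ℚ)⁻¹ / 4 + ((3 * r + 1 : ℕ) : ℚ)⁻¹ / 3 + (n : ℚ)⁻¹ / 4 - 1 / 12 by linarith]
      have : (k : ℚ) ≠ 0 := by positivity
      have : (n : ℚ) ≠ 0 := by positivity
      push_cast
      field_simp
      ring)
  refine ar_34 (k := k) (by omega) hk hq q6 a1 a2 h3 (by zify; linear_combination 3 * f1) (by_contra fun f => ?_)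
  generalize 3 * r + 1 = q at *
  rw [f2, mul_assoc] at b
  rcases le_total q n with g | g
  · have := Nat.le_of_mul_le_mul_left (b n (by omega) g le_rfl) (by omega)
    nlinarith [Nat.mul_le_mul_right n (show 4 * k + 1 ≤ q by omega)]
  · have := Nat.le_of_mul_le_mul_left (b q (by omega) le_rfl g) (by omega)
    nlinarith [Nat.mul_le_mul_left q (show 4 * k + 1 ≤ n by omega)]

theorem ar_D3 (hk : 0 < k) (hN : 0 < N) (hd : 4 * k ∣ N) (hq : 7 ≤ q) (q6 : q % 6 = 1) (dq : q * 3 ∣ N) (cq : q.Coprime (4 * k))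
    (h1 : ET4 N (4 * k) n1 e1 τ1) (h2 : ET4 N (4 * k) n2 e2 τ2) (co : n1.Coprime n2) (c1 : q.Coprime n1) (c2 : q.Coprime n2)
    (h3 : 3 ∣ 4 * k ∨ 3 ∣ n1 ∨ 3 ∣ n2) (b : ∀ L, 4 * k ≤ L → q ≤ L → n1 ≤ L → n2 ≤ L → N ≤ 4 * k * (1 + 4 * k * L))
    (h : 1 / 2 + (k : ℚ)⁻¹ / 4 - (N : ℚ)⁻¹ = τ1 + τ2 + (((3 : ℕ) : ℚ)⁻¹ - (q : ℚ)⁻¹ * ((3 : ℕ) : ℚ)⁻¹)) :
    N = 168 ∧ q = 7 ∧ k = 2 ∧ n1 ∣ 3 ∧ n2 ∣ 3 := by
  by_cases f1 : n1 = 1
  · subst f1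
    obtain rfl : τ1 = 0 := h1.elim And.right fun a => by omega
    obtain ⟨a1, a2, a3, rfl⟩ := ar_D3' hk hN hd hq q6 dq cq h2 c2 (by omega) (fun L a b' c => b L a b' (by omega) c)
      (by push_cast at h; linarith)
    simp [*]
  by_cases f2 : n2 = 1
  · subst f2
    obtain rfl : τ2 = 0 := h2.elim And.right fun a => by omega
    obtain ⟨a1, a2, a3, rfl⟩ := ar_D3' hk hN hd hq q6 dq cq h1 c1 (by omega) (fun L a b' c => b L a b' c (by omega))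
      (by push_cast at h; linarith)
    simp [*]
  exfalso
  have b1 := h1.bd f1
  have b2 := h2.bd f2
  have := inv_pos' hN
  have := inv_le' 7 hq
  have := inv_le' 1 hk
  by_cases f : 8 ∣ 4 * k
  · have := inv_le' (n := k) 2 (by omega)
    push_cast at *
    linarith [b1.1, b2.1]
  · push_cast at *
    linarith [b1.2.2 f, b2.2.2 f]

theorem ar_D5 (hk : 0 < k) (hl : 5 ≤ l) (hq : 1 < q) (md : l ∣ q - 1) (qo : q % 2 = 1) (hμ : 1 ≤ μ)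
    (hN : N = q * l * (1 + q * μ)) (hd : 4 * k ∣ N) (cq : q.Coprime (4 * k)) (h1 : ET4 N (4 * k) l e1 τ1)
    (h2 : ET4 N (4 * k) n2 e2 τ2) (co : l.Coprime n2) (c1 : q.Coprime l) (c2 : q.Coprime n2) (h5 : e1 = 4 → l = 5)
    (h : 1 / 2 + (k : ℚ)⁻¹ / 4 - (N : ℚ)⁻¹ = τ1 + τ2 + ((l : ℚ)⁻¹ - (q : ℚ)⁻¹ * (l : ℚ)⁻¹)) :
    μ = 1 ∧ q = 2 * l + 1 ∧ 2 * k = l + 1 ∧ n2 = 1 := by
  have N0 : 0 < N := by subst hN; positivity
  have := inv_pos' N0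
  have := inv_le' 1 hk
  have l0 := inv_pos' (n := l) (by omega)
  have := mul_le_mul_of_nonneg_right (inv_le' 2 hq) l0.le
  rcases h1 with ⟨rfl, -⟩ | ⟨o1, d1, c3, ⟨rfl, a1, rfl⟩ | ⟨rfl, -, -, a3, rfl⟩⟩
  · omega
  · obtain ⟨rfl, rfl⟩ : n2 = 1 ∧ τ2 = 0 := h2.resolve_right fun a => by
      have b := ET4.bd (Or.inr a) (by omega)
      by_cases f : 8 ∣ 4 * k
      · have := inv_le' (n := k) 2 (by omega)
        push_cast at *
        linarith [b.1]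
      · push_cast at *
        linarith [b.2.2 f]
    obtain ⟨rfl, rfl⟩ := arith_DU1 hk (by omega) hq md qo hμ hN hd cq (Or.inr ⟨o1, d1, c3, Or.inl ⟨rfl, a1, rfl⟩⟩)
      (Or.inl rfl) (Or.inl rfl) (by linarith)
    refine ⟨rfl, rfl, eq_of_inv ?_, rfl⟩
    subst hN
    push_cast at *
    rw [mul_inv, show (k : ℚ)⁻¹ = 4 * (((2 * l + 1 : ℚ) * l * (1 + (2 * l + 1) * 1))⁻¹ + (l : ℚ)⁻¹ / 2 -
      (2 * l + 1 : ℚ)⁻¹ * (l : ℚ)⁻¹) by linarith]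
    field_simp
    ring
  exfalso
  obtain rfl := h5 rfl
  have := inv_le' (n := q) 11 (by omega)
  have := inv_pos' (n := q) (by omega)
  have := inv_le' (4 * k) (Nat.le_of_dvd N0 hd) (by omega)
  push_cast at *
  rw [mul_inv] at *
  rcases h2 with ⟨-, rfl⟩ | ⟨o2, d2, c4, ⟨rfl, a1, rfl⟩ | ⟨rfl, a1, a2, -, rfl⟩⟩
  · linarith
  · have := inv_le' 3 a1
    have := inv_le' (n := k) 2 (by omega)
    push_cast at *
    linarith
  have : n2 ≠ 5 := by rintro rfl; simp at co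
  have := inv_le' (n := n2) 9 (by omega)
  obtain rfl : k = 2 := by_contra fun f => by
    have := inv_le' (n := k) 4 (by omega)
    push_cast at *
    linarith
  obtain ⟨f1, -⟩ := inv_eq_div (D := 8 * n2 + 10 * q - q * n2) N0 (dvd3 (a := 4 * 2 * 5) (by omega)
    (hN ▸ Dvd.intro _ (mul_assoc _ _ _).symm) (dvd_of_mul_right_dvd d2) (cq.mul_right c1) (c4.mul_right co.symm) c2.symm) (by
      rw [show (N : ℚ)⁻¹ = (q : ℚ)⁻¹ / 5 + (n2 : ℚ)⁻¹ / 4 - 1 / 40 by push_cast at *; linarith]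
      have : (q : ℚ) ≠ 0 := by positivity
      have : (n2 : ℚ) ≠ 0 := by positivity
      push_cast
      field_simp
      ring)
  rcases (by omega : n2 = 9 ∨ 13 ≤ n2) with rfl | b
  · omega
  have : q ≤ 40 := by zify at *; nlinarith
  interval_cases q <;> omega

theorem ar_D6' (hk : 3 ≤ k) (hq : 1 < q) (md : 2 * k ∣ q - 1) (hμ : 1 ≤ μ) (hN : N = q * (2 * k) * (1 + q * μ))
    (h1 : ET4 N (4 * k) n e τ) (cq : q.Coprime n)
    (h : 1 / 2 - (k : ℚ)⁻¹ / 4 + (q : ℚ)⁻¹ * (k : ℚ)⁻¹ / 2 - (N : ℚ)⁻¹ = τ) : μ = 1 ∧ q = 2 * (2 * k) + 1 ∧ n = 2 * k + 1 := by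
  have := inv_le' 3 hk
  have := inv_le' (n := N) (q * (2 * k)) (hN ▸ Nat.le_mul_of_pos_right _ (by omega)) (by positivity)
  push_cast at *
  simp only [mul_inv] at *
  rcases h1 with ⟨-, rfl⟩ | ⟨o1, d1, c1, ⟨rfl, a1, rfl⟩ | ⟨rfl, a1, -, -, rfl⟩⟩
  · linarith
  swap
  · have := inv_pos' (n := n) (by omega)
    linarith
  obtain rfl := arith_DU0' (by omega) hq md hμ hN (Or.inr ⟨o1, d1, c1, Or.inl ⟨rfl, a1, rfl⟩⟩) cq (by linarith) h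
  obtain ⟨a, ha⟩ := md
  obtain rfl : q = 2 * k * a + 1 := by omega
  have e : n * a = 2 * (k * a + 1) := by
    have : (k : ℚ) ≠ 0 := by positivity
    have : (n : ℚ) ≠ 0 := by positivity
    subst hN
    push_cast at h
    field_simp at h
    have : (n * a : ℚ) = 2 * (k * a + 1) :=
      mul_left_cancel₀ (show (4 * k * (2 * k * a + 1) : ℚ) ≠ 0 by positivity) (by linear_combination -h)
    exact_mod_cast this
  have : a ∣ 2 := (Nat.dvd_add_right (Dvd.intro_left (2 * k) rfl)).1 (show a ∣ 2 * k * a + 2 from ⟨n, by linarith⟩)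
  rcases (Nat.dvd_prime Nat.prime_two).1 this with rfl | rfl <;> omega

theorem ar_D6 (hk : 3 ≤ k) (hq : 1 < q) (md : 2 * k ∣ q - 1) (hμ : 1 ≤ μ) (hN : N = q * (2 * k) * (1 + q * μ)) (hd : 4 * k ∣ N)
    (cq : q.Coprime (4 * k)) (h1 : ET4 N (4 * k) n1 e1 τ1) (h2 : ET4 N (4 * k) n2 e2 τ2) (co : n1.Coprime n2) (c1 : q.Coprime n1)
    (c2 : q.Coprime n2) (b : ∀ L, 4 * k ≤ L → q ≤ L → n1 ≤ L → n2 ≤ L → N ≤ 4 * k * (1 + 4 * k * L))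
    (h : 1 / 2 + (k : ℚ)⁻¹ / 4 - (N : ℚ)⁻¹ = τ1 + τ2 + (((2 * k : ℕ) : ℚ)⁻¹ - (q : ℚ)⁻¹ * ((2 * k : ℕ) : ℚ)⁻¹)) :
    μ = 1 ∧ q = 2 * (2 * k) + 1 ∧ n1 ∣ 2 * k + 1 ∧ n2 ∣ 2 * k + 1 := by
  push_cast at h
  simp only [mul_inv] at h
  by_cases f1 : n1 = 1
  · subst f1
    obtain rfl : τ1 = 0 := h1.elim And.right fun a => by omega
    obtain ⟨a1, a2, rfl⟩ := ar_D6' hk hq md hμ hN h2 c2 (by linarith)
    simp [*]
  by_cases f2 : n2 = 1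
  · subst f2
    obtain rfl : τ2 = 0 := h2.elim And.right fun a => by omega
    obtain ⟨a1, a2, rfl⟩ := ar_D6' hk hq md hμ hN h1 c1 (by linarith)
    simp [*]
  exfalso
  have b1 := (h1.bd f1).1
  have b2 := (h2.bd f2).1
  have N0 : 0 < N := by subst hN; positivity
  have := inv_pos' N0
  have k0 := inv_pos' (n := k) (by omega)
  have := mul_le_mul_of_nonneg_right (inv_le' 2 hq) k0.le
  rcases h1 with ⟨rfl, -⟩ | ⟨o1, d1, c3, ⟨rfl, a1, rfl⟩ | ⟨rfl, a1, a2, -, rfl⟩⟩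
  · omega
  · have := inv_le' 3 a1
    push_cast at *
    linarith
  rcases h2 with ⟨rfl, -⟩ | ⟨o2, d2, c4, ⟨rfl, a3, rfl⟩ | ⟨rfl, a3, a4, -, rfl⟩⟩
  · omega
  · have := inv_le' 3 a3
    push_cast at *
    linarith
  obtain ⟨f3, f4⟩ := inv_eq_div (D := k * q * (n1 + n2) - n1 * n2 * q + 2 * n1 * n2) N0 (dvd3 (c := n1 * n2) hd
    (hN ▸ Dvd.intro _ (mul_assoc _ _ _).symm) (co.mul_dvd_of_dvd_of_dvd (dvd_of_mul_right_dvd d1) (dvd_of_mul_right_dvd d2))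
    cq (c3.mul_left c4) (c1.symm.mul_left c2.symm)) (by
      rw [show (N : ℚ)⁻¹ = (n1 : ℚ)⁻¹ / 4 + (n2 : ℚ)⁻¹ / 4 - (k : ℚ)⁻¹ / 4 + (q : ℚ)⁻¹ * (k : ℚ)⁻¹ / 2 by linarith]
      have : (q : ℚ) ≠ 0 := by positivity
      have : (k : ℚ) ≠ 0 := by positivity
      have : (n1 : ℚ) ≠ 0 := by positivity
      have : (n2 : ℚ) ≠ 0 := by positivity
      push_cast
      field_simp
      ring)
  have hq' := Nat.le_of_dvd (by omega) md
  have f5 : k * (n1 + n2) < n1 * n2 := Nat.lt_of_mul_lt_mul_left (a := q) (by zify; nlinarith)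
  have b' : ∀ L, 2 * q ≤ L → n1 ≤ L → n2 ≤ L → q * (n1 * n2) ≤ 1 + 4 * k * L := fun L a c d =>
    Nat.le_of_mul_le_mul_left (mul_assoc (4 * k) q _ ▸ f4 ▸ b L (by omega) (by omega) c d) (by omega)
  have g : ∀ L, 4 * k * L ≤ 2 * q * L := fun L => Nat.mul_le_mul_right L (by omega)
  rcases (by omega : (2 * q ≤ n1 ∧ n2 ≤ n1) ∨ (2 * q ≤ n2 ∧ n1 ≤ n2) ∨ (n1 ≤ 2 * q ∧ n2 ≤ 2 * q)) with c | c | c
  · nlinarith [b' n1 c.1 le_rfl c.2, g n1, Nat.mul_le_mul_left (q * n1) a3]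
  · nlinarith [b' n2 c.1 c.2 le_rfl, g n2, Nat.mul_le_mul_left (q * n2) a1]
  · nlinarith [b' _ le_rfl c.1 c.2, Nat.mul_le_mul_left q f5, Nat.mul_le_mul_left (q * k) (show 10 ≤ n1 + n2 by omega)]

theorem ET4.six (h : ET4 N (24 * c) n e τ) : (n = 1 ∧ τ = 0) ∨ (e = 2 ∧ 2 / 5 ≤ τ) ∨ (e = 4 ∧ 1 / 5 ≤ τ ∧ τ < 1 / 4) := by
  refine h.imp_right ?_
  rintro ⟨o, -, c1, ⟨rfl, a, rfl⟩ | ⟨rfl, a, -, -, rfl⟩⟩
  · have : n ≠ 3 := by rintro rfl; exact absurd (Nat.Coprime.eq_one_of_dvd c1 (by omega)) (by decide)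
    have := inv_le' (n := n) 5 (by omega)
    exact Or.inl ⟨rfl, by push_cast at *; linarith⟩
  · have := inv_le' 5 a
    have := inv_pos' (n := n) (by omega)
    exact Or.inr ⟨rfl, by push_cast at *; linarith, by linarith⟩

theorem ar_N0 (hc : 3 ≤ c) (hN : 0 < N) (hd : 24 * c ∣ N) (h1 : ET4 N (24 * c) n1 e1 τ1) (h2 : ET4 N (24 * c) n2 e2 τ2)
    {τU : ℚ} (hU : τU = 0 ∨ 2 / 7 ≤ τU ∨ (0 ≤ τU ∧ 2 / 5 ≤ τ1) ∨ (1 / 10 ≤ τU ∧ 1 / 5 ≤ τ1))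
    (h : 1 / 4 + (c : ℚ)⁻¹ / 24 - (N : ℚ)⁻¹ = τ1 + τ2 + τU) : False := by
  have := inv_le' (24 * c) (Nat.le_of_dvd hN hd) (by omega)
  have := inv_le' 3 hc
  have := inv_pos' hN
  have := h1.lt.1
  have := h2.lt.1
  push_cast at *
  rw [mul_inv] at *
  rcases hU with rfl | a | a | a
  · rcases h1.six with a | a | a <;> rcases h2.six with b | b | b <;> linarith [a.2, b.2]
  all_goals linarith [a]

theorem ar_A0 (hN : 0 < N) (hd : 72 ∣ N) (h1 : ET4 N (24 * 3) n1 e1 τ1) (h2 : ET4 N (24 * 3) n2 e2 τ2) (co : n1.Coprime n2)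
    (h : 35 / 72 - (N : ℚ)⁻¹ = τ1 + τ2) : N = 2520 ∧ ((n1 = 35 ∧ e1 = 2) ∨ (n2 = 35 ∧ e2 = 2)) := by
  have := inv_le' 72 (Nat.le_of_dvd hN hd)
  have := inv_pos' hN
  have key : ∀ {n τ}, ET4 N (24 * 3) n 2 τ → 2 / 5 ≤ τ → 35 / 72 - (N : ℚ)⁻¹ = τ → N = 2520 ∧ n = 35 := fun {n τ} a b h => by
    rcases a with ⟨-, rfl⟩ | ⟨o1, d1, c1, ⟨-, a1, rfl⟩ | ⟨a, -⟩⟩
    · norm_num at b
    · obtain ⟨f1, f2⟩ := inv_eq_div (D := 36 - n) hN (c1.symm.mul_dvd_of_dvd_of_dvd hd (dvd_of_mul_right_dvd d1)) (by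
        rw [show (N : ℚ)⁻¹ = (n : ℚ)⁻¹ / 2 - 1 / 72 by linarith]
        have : (n : ℚ) ≠ 0 := by positivity
        push_cast
        field_simp
        ring)
      omega
    · omega
  push_cast at *
  rcases h1.six (c := 3) with a | ⟨rfl, a⟩ | ⟨rfl, a⟩ <;> rcases h2.six (c := 3) with b | ⟨rfl, b⟩ | ⟨rfl, b⟩
  · linarith [a.2, b.2]
  · exact (key h2 b (by linarith [a.2])).imp_right fun k => Or.inr ⟨k, rfl⟩
  · linarith [a.2, b.2]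
  · exact (key h1 a (by linarith [b.2])).imp_right fun k => Or.inl ⟨k, rfl⟩
  · linarith
  · linarith [b.1]
  · linarith [a.2, b.2]
  · linarith [a.1]
  exfalso
  rcases h1 with ⟨-, rfl⟩ | ⟨o1, d1, c1, ⟨e, -⟩ | ⟨-, a1, a2, -, rfl⟩⟩
  · linarith [a.1]
  · omega
  rcases h2 with ⟨-, rfl⟩ | ⟨o2, d2, c2, ⟨e, -⟩ | ⟨-, a3, a4, -, rfl⟩⟩
  · linarith [b.1]
  · omega
  obtain ⟨f1, -⟩ := inv_eq_div (D := 18 * n1 + 18 * n2 - n1 * n2) hN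
    (dvd3 hd (dvd_of_mul_right_dvd d1) (dvd_of_mul_right_dvd d2) c1 c2 co.symm) (by
      rw [show (N : ℚ)⁻¹ = (n1 : ℚ)⁻¹ / 4 + (n2 : ℚ)⁻¹ / 4 - 1 / 72 by linarith]
      have : (n1 : ℚ) ≠ 0 := by positivity
      have : (n2 : ℚ) ≠ 0 := by positivity
      push_cast
      field_simp
      ring)
  obtain ⟨x, rfl⟩ : ∃ x, n1 = 4 * x + 1 := ⟨n1 / 4, by omega⟩
  obtain ⟨y, rfl⟩ : ∃ y, n2 = 4 * y + 1 := ⟨n2 / 4, by omega⟩
  push_cast at f1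
  ring_nf at f1
  omega

theorem ar_A3 (hN : 0 < N) (hd : 72 ∣ N) (h1 : ET4 N (24 * 3) n1 e1 τ1) (h2 : ET4 N (24 * 3) n2 e2 τ2) (hq : 7 ≤ q)
    (q6 : q % 6 = 1) (h : 35 / 72 - (N : ℚ)⁻¹ = τ1 + τ2 + (((3 : ℕ) : ℚ)⁻¹ - (q : ℚ)⁻¹ * ((3 : ℕ) : ℚ)⁻¹)) : N = 2520 ∧ q = 7 := by
  have := inv_le' 72 (Nat.le_of_dvd hN hd)
  have := inv_pos' hN
  have := inv_le' 7 hq
  have := inv_pos' (n := q) (by omega)
  have key : ∀ {n τ}, ET4 N (24 * 3) n 4 τ → 1 / 5 ≤ τ → 11 / 72 + (q : ℚ)⁻¹ / 3 - (N : ℚ)⁻¹ = τ → N = 2520 ∧ q = 7 :=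
    fun {n τ} a b h => by
      obtain rfl : q = 7 := by_contra fun e => by
        have := inv_le' (n := q) 13 (by omega)
        push_cast at *
        linarith
      rcases a with ⟨-, rfl⟩ | ⟨o1, d1, c1, ⟨a, -⟩ | ⟨-, a1, a2, -, rfl⟩⟩
      · norm_num at b
      · omega
      obtain rfl : n = 5 := by_contra fun e => by
        have := inv_le' (n := n) 9 (by omega)
        push_cast at *
        linarith
      exact ⟨eq_of_inv (by push_cast at *; linarith), rfl⟩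
  push_cast at *
  rcases h1.six (c := 3) with a | ⟨rfl, a⟩ | ⟨rfl, a⟩ <;> rcases h2.six (c := 3) with b | ⟨rfl, b⟩ | ⟨rfl, b⟩
  · linarith [a.2, b.2]
  · linarith [a.2]
  · exact key h2 b.1 (by linarith [a.2])
  · linarith [b.2]
  · linarith
  · linarith [b.1]
  · exact key h1 a.1 (by linarith [b.2])
  · linarith [a.1]
  · linarith [a.1, b.1]

theorem ar_A5 (hN : 0 < N) (hd : 72 ∣ N) (h1 : ET4 N (24 * 3) l e1 τ1) (h2 : ET4 N (24 * 3) n2 e2 τ2) (hl : 5 ≤ l) (hq : 2 * l ≤ q)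
    (h5 : e1 = 4 → l = 5) (h : 35 / 72 - (N : ℚ)⁻¹ = τ1 + τ2 + ((l : ℚ)⁻¹ - (q : ℚ)⁻¹ * (l : ℚ)⁻¹)) : False := by
  have := inv_le' 72 (Nat.le_of_dvd hN hd)
  have := inv_pos' hN
  have := inv_le' (n := q) 10 (by omega)
  have := inv_pos' (n := q) (by omega)
  have l0 := inv_pos' (n := l) (by omega)
  have := mul_le_mul_of_nonneg_right (inv_le' (n := q) 2 (by omega)) l0.le
  have := h2.lt.1
  rcases h1 with ⟨rfl, -⟩ | ⟨o1, d1, c1, ⟨rfl, -, rfl⟩ | ⟨rfl, -, -, -, rfl⟩⟩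
  · omega
  · push_cast at *
    linarith
  obtain rfl := h5 rfl
  push_cast at *
  rcases h2.six (c := 3) with b | b | b <;> linarith [b.2]

end Cfsg.Agent.H1.Mit
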