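import Cfsg.Agent.Asch.Exit

/-! Projective symplectic representations of degree four (odd characteristic), given as a relation between group
elements and their two lifts `±X` in `Sp₄(K)`. -/

set_option autoImplicit false

namespace Cfsg.Agent.H1.Mit

open Matrix

abbrev V4 (K : Type*) := Fin 4 → K

abbrev M4 (K : Type*) := Matrix (Fin 4) (Fin 4) K

variable {T K : Type*} [Group T] [Field K]

/-- entrywise proof of identities between explicit matrices -/
scoped macro "mat4" : tactic =>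
  `(tactic| (ext i j; fin_cases i <;> fin_cases j <;> simp [Matrix.mul_apply, Fin.sum_univ_four] <;> try ring))

/-- the Gram matrix: `B e₀ e₃ = 1`, `B e₁ e₂ = 1` -/
def J (K : Type*) [Field K] : M4 K := !![0, 0, 0, 1; 0, 0, 1, 0; 0, -1, 0, 0; -1, 0, 0, 0]

/-- the alternating form -/
def B (u v : V4 K) : K := u 0 * v 3 + u 1 * v 2 - u 2 * v 1 - u 3 * v 0

/-- the adjoint with respect to `B` -/
def ad (X : M4 K) : M4 K := -(J K * Xᵀ * J K)

/-- symplectic matrices -/
def Sp (X : M4 K) : Prop := ad X * X = 1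

/-- rank at most one -/
def Rk1 (N : M4 K) : Prop := ∀ i j k l, N i j * N k l = N i l * N k j

theorem J_mul_J : J K * J K = -1 := by unfold J; mat4

theorem J_tr : (J K)ᵀ = -J K := by unfold J; mat4

theorem ad_eq (X : M4 K) : ad X = !![X 3 3, X 2 3, -X 1 3, -X 0 3; X 3 2, X 2 2, -X 1 2, -X 0 2;
    -X 3 1, -X 2 1, X 1 1, X 0 1; -X 3 0, -X 2 0, X 1 0, X 0 0] := by
  unfold ad J; ext i j; fin_cases i <;> fin_cases j <;> simp [Matrix.mul_apply, Fin.sum_univ_four, vecMul, dotProduct]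

theorem B_ad (X : M4 K) (u v : V4 K) : B (X *ᵥ u) v = B u (ad X *ᵥ v) := by
  simp [B, ad_eq, mulVec, dotProduct, Fin.sum_univ_four]; ring

theorem B_swap (u v : V4 K) : B u v = -B v u := by simp [B]; ring

@[simp] theorem B_self (u : V4 K) : B u u = 0 := by simp [B]; ring

@[simp] theorem B_add_left (u v w : V4 K) : B (u + v) w = B u w + B v w := by simp [B]; ring
@[simp] theorem B_add_right (u v w : V4 K) : B u (v + w) = B u v + B u w := by simp [B]; ring
@[simp] theorem B_sub_left (u v w : V4 K) : B (u - v) w = B u w - B v w := by simp [B]; ring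
@[simp] theorem B_sub_right (u v w : V4 K) : B u (v - w) = B u v - B u w := by simp [B]; ring
@[simp] theorem B_smul_left (c : K) (u v : V4 K) : B (c • u) v = c * B u v := by simp [B]; ring
@[simp] theorem B_smul_right (c : K) (u v : V4 K) : B u (c • v) = c * B u v := by simp [B]; ring
@[simp] theorem B_neg_left (u v : V4 K) : B (-u) v = -B u v := by simp [B]; ring
@[simp] theorem B_neg_right (u v : V4 K) : B u (-v) = -B u v := by simp [B]; ring
@[simp] theorem B_zero_left (v : V4 K) : B 0 v = 0 := by simp [B]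
@[simp] theorem B_zero_right (v : V4 K) : B v 0 = 0 := by simp [B]

theorem B_nd {v : V4 K} (h : ∀ w, B v w = 0) : v = 0 := by
  have h0 := h ![1, 0, 0, 0]
  have h1 := h ![0, 1, 0, 0]
  have h2 := h ![0, 0, 1, 0]
  have h3 := h ![0, 0, 0, 1]
  simp [B] at h0 h1 h2 h3
  ext i; fin_cases i <;> simp [*]

@[simp] theorem ad_mul (X Y : M4 K) : ad (X * Y) = ad Y * ad X := by
  simp only [ad, transpose_mul, neg_mul_neg]
  rw [show J K * Yᵀ * J K * (J K * Xᵀ * J K) = J K * Yᵀ * (J K * J K) * Xᵀ * J K by simp only [mul_assoc], J_mul_J]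
  simp [mul_assoc]

@[simp] theorem ad_ad (X : M4 K) : ad (ad X) = X := by rw [ad_eq (ad X), ad_eq X]; mat4

@[simp] theorem ad_one : ad (1 : M4 K) = 1 := by simp [ad, J_mul_J]
@[simp] theorem ad_zero : ad (0 : M4 K) = 0 := by simp [ad]
@[simp] theorem ad_neg (X : M4 K) : ad (-X) = -ad X := by simp [ad]
@[simp] theorem ad_add (X Y : M4 K) : ad (X + Y) = ad X + ad Y := by simp [ad, mul_add, add_mul, add_comm]
@[simp] theorem ad_sub (X Y : M4 K) : ad (X - Y) = ad X - ad Y := by simp [sub_eq_add_neg]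
@[simp] theorem ad_smul (c : K) (X : M4 K) : ad (c • X) = c • ad X := by simp [ad]

theorem ad_pow (X : M4 K) (n : ℕ) : ad (X ^ n) = ad X ^ n := by
  induction n with
  | zero => simp
  | succ n ih => rw [pow_succ, ad_mul, ih, pow_succ']

@[simp] theorem trace_ad (X : M4 K) : (ad X).trace = X.trace := by
  simp [ad_eq, trace, Fin.sum_univ_four]; ring

theorem ad_map {L : Type*} [Field L] (φ : K →+* L) (X : M4 K) : ad (X.map φ) = (ad X).map φ := by
  rw [ad_eq, ad_eq]; mat4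

namespace Sp

variable {X Y : M4 K}

theorem left (h : Sp X) : ad X * X = 1 := h

theorem right (h : Sp X) : X * ad X = 1 := mul_eq_one_comm.1 h

theorem one : Sp (1 : M4 K) := by simp [Sp]

theorem mul (hX : Sp X) (hY : Sp Y) : Sp (X * Y) := by
  rw [Sp, ad_mul, mul_assoc, ← mul_assoc (ad X), hX.left, one_mul, hY.left]

theorem neg (hX : Sp X) : Sp (-X) := by simpa [Sp] using hX.left

theorem inv (hX : Sp X) : Sp (ad X) := by simpa [Sp] using hX.right

theorem B_eq (h : Sp X) (u v : V4 K) : B (X *ᵥ u) (X *ᵥ v) = B u v := by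
  rw [B_ad, mulVec_mulVec, h.left, one_mulVec]

theorem det_ne (h : Sp X) : X.det ≠ 0 := fun e => by simpa [e] using congrArg det h.left

theorem mulVec_ne (h : Sp X) {v : V4 K} (hv : v ≠ 0) : X *ᵥ v ≠ 0 := fun e => hv (by
  simpa [mulVec_mulVec, h.left] using congrArg (ad X *ᵥ ·) e)

theorem ne_neg (h2 : (2 : K) ≠ 0) (h : Sp X) : X ≠ -X := fun e => by
  have : (2 : K) • X = 0 := by rw [two_smul]; exact add_eq_zero_iff_eq_neg.2 e
  exact h.det_ne (by simp [(smul_eq_zero.1 this).resolve_left h2])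

end Sp

theorem sp_of_B {X : M4 K} (h : ∀ u v, B (X *ᵥ u) (X *ᵥ v) = B u v) : Sp X := by
  refine Matrix.ext_iff_mulVec.2 fun v => ?_
  refine sub_eq_zero.1 (B_nd fun w => ?_)
  rw [B_sub_left, B_swap _ w, ← mulVec_mulVec, ← B_ad, h, one_mulVec, B_swap v, sub_self]

/-- the matrix with given columns -/
def col4 (a b c d : V4 K) : M4 K := (Matrix.of ![a, b, c, d])ᵀ

theorem col4_mulVec (a b c d x : V4 K) : col4 a b c d *ᵥ x = x 0 • a + x 1 • b + x 2 • c + x 3 • d := by
  ext i; simp [col4, mulVec, dotProduct, Fin.sum_univ_four, mul_comm]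

theorem mul_col4 (X : M4 K) (a b c d : V4 K) : X * col4 a b c d = col4 (X *ᵥ a) (X *ᵥ b) (X *ᵥ c) (X *ᵥ d) := by
  ext i j; fin_cases j <;> simp [col4, mul_apply, mulVec, dotProduct]

theorem col4_mul (a b c d : V4 K) (Y : M4 K) : col4 a b c d * Y =
    col4 (Y 0 0 • a + Y 1 0 • b + Y 2 0 • c + Y 3 0 • d) (Y 0 1 • a + Y 1 1 • b + Y 2 1 • c + Y 3 1 • d)
      (Y 0 2 • a + Y 1 2 • b + Y 2 2 • c + Y 3 2 • d) (Y 0 3 • a + Y 1 3 • b + Y 2 3 • c + Y 3 3 • d) := by
  ext i j; fin_cases j <;> simp [col4, mul_apply, Fin.sum_univ_four, mul_comm]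

/-- a symplectic basis gives a symplectic matrix -/
theorem sp_col4 {a b c d : V4 K} (h01 : B a b = 0) (h02 : B a c = 0) (h03 : B a d = 1) (h12 : B b c = 1)
    (h13 : B b d = 0) (h23 : B c d = 0) : Sp (col4 a b c d) := sp_of_B fun u v => by
  simp only [col4_mulVec, B_add_left, B_add_right, B_smul_left, B_smul_right, B_self, h01, h02, h03, h12, h13, h23,
    B_swap b a, B_swap c a, B_swap d a, B_swap c b, B_swap d b, B_swap d c]
  simp [B]; ring

/-- `R x X`: the symplectic matrix `X` is one of the two lifts `±X` of `x` -/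
structure SRep (T K : Type*) [Group T] [Field K] where
  R : T → M4 K → Prop
  ex : ∀ x, ∃ X, R x X
  one : R 1 1
  r_mul : ∀ {x y X Y}, R x X → R y Y → R (x * y) (X * Y)
  r_neg : ∀ {x X}, R x X → R x (-X)
  r_uniq : ∀ {x X Y}, R x X → R x Y → Y = X ∨ Y = -X
  r_inj : ∀ {x y X}, R x X → R y X → x = y
  r_sp : ∀ {x X}, R x X → Sp X

namespace SRep

variable {ρ : SRep T K} {x y z : T} {X Y Z : M4 K}

/-- dot-notation wrapper for `ρ.R` -/
def L (ρ : SRep T K) (x : T) (X : M4 K) : Prop := ρ.R x X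

theorem exL (ρ : SRep T K) (x : T) : ∃ X, ρ.L x X := ρ.ex x

theorem oneL (ρ : SRep T K) : ρ.L 1 1 := ρ.one

namespace L

theorem mul (hX : ρ.L x X) (hY : ρ.L y Y) : ρ.L (x * y) (X * Y) := ρ.r_mul hX hY

theorem neg (hX : ρ.L x X) : ρ.L x (-X) := ρ.r_neg hX

theorem uniq (hX : ρ.L x X) (hY : ρ.L x Y) : Y = X ∨ Y = -X := ρ.r_uniq hX hY

theorem inj (hX : ρ.L x X) (hY : ρ.L y X) : x = y := ρ.r_inj hX hY

theorem sp (hX : ρ.L x X) : Sp X := ρ.r_sp hX

theorem congr (h : ρ.L x X) (e : Y = X) : ρ.L x Y := e ▸ h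

theorem congr' (h : ρ.L x X) (e : y = x) : ρ.L y X := e ▸ h

theorem eq_iff (hX : ρ.L x X) (hY : ρ.L y Y) : x = y ↔ Y = X ∨ Y = -X :=
  ⟨fun e => hX.uniq (e ▸ hY), fun e => e.elim (fun e => hX.inj (e ▸ hY)) fun e => hX.neg.inj (e ▸ hY)⟩

theorem eq_one_iff (hX : ρ.L x X) : x = 1 ↔ X = 1 ∨ X = -1 := eq_comm.trans (ρ.oneL.eq_iff hX)

theorem inv (hX : ρ.L x X) : ρ.L x⁻¹ (ad X) := by
  obtain ⟨Y, hY⟩ := ρ.exL x⁻¹
  have := ((hY.mul hX).congr' (inv_mul_cancel x).symm).eq_one_iff.1 rfl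
  have e : Y = Y * X * ad X := by rw [mul_assoc, hX.sp.right, mul_one]
  rcases this with h | h <;> rw [h] at e
  · exact hY.congr (by simpa using e.symm)
  · exact hY.neg.congr (by simp [e])

theorem pow (hX : ρ.L x X) (n : ℕ) : ρ.L (x ^ n) (X ^ n) := by
  induction n with
  | zero => simpa using ρ.oneL
  | succ n ih => simpa [pow_succ] using ih.mul hX

theorem conj (hX : ρ.L x X) (hY : ρ.L y Y) : ρ.L (x * y * x⁻¹) (X * Y * ad X) := (hX.mul hY).mul hX.inv

theorem conj_of (hX : ρ.L x X) (hY : ρ.L y Y) (h : X * Y = Z * X) : ρ.L (x * y * x⁻¹) Z :=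
  (hX.conj hY).congr (by rw [h, mul_assoc, hX.sp.right, mul_one])

theorem comm_iff (hX : ρ.L x X) (hY : ρ.L y Y) : x * y = y * x ↔ Y * X = X * Y ∨ Y * X = -(X * Y) :=
  (hX.mul hY).eq_iff (hY.mul hX)

theorem comm_of (hX : ρ.L x X) (hY : ρ.L y Y) (h : X * Y = Y * X) : x * y = y * x :=
  (hX.comm_iff hY).2 (Or.inl h.symm)

end L

/-- change of (symplectic) basis: the columns of `P` are the new basis -/
def cj (ρ : SRep T K) (P : M4 K) (h : Sp P) : SRep T K where
  R x X := ρ.L x (P * X * ad P)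
  ex x := by
    obtain ⟨X, hX⟩ := ρ.exL x
    exact ⟨ad P * X * P, hX.congr (by simp only [← mul_assoc, h.right, one_mul]; rw [mul_assoc, h.right, mul_one])⟩
  one := ρ.oneL.congr (by simp [h.right])
  r_mul {x y X Y} hX hY := (hX.mul hY).congr (by
    calc P * (X * Y) * ad P = P * X * (ad P * P) * Y * ad P := by simp [h.left, mul_assoc]
      _ = _ := by simp only [mul_assoc])
  r_neg hX := hX.neg.congr (by simp)
  r_uniq {x X Y} hX hY := by
    have k : ∀ X : M4 K, X = ad P * (P * X * ad P) * P := fun X => by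
      simp only [← mul_assoc, h.left, one_mul]; rw [mul_assoc, h.left, mul_one]
    exact (hX.uniq hY).imp (fun e => by rw [k Y, e, ← k]) fun e => by rw [k Y, e, mul_neg, neg_mul, ← k]
  r_inj hX hY := hX.inj hY
  r_sp {x X} hX := by
    have := (h.inv.mul hX.sp).mul h
    rwa [← mul_assoc, ← mul_assoc, h.left, one_mul, mul_assoc, h.left, mul_one] at this

theorem cj_L {P : M4 K} {h : Sp P} : (ρ.cj P h).L x X ↔ ρ.L x (P * X * ad P) := Iff.rfl

theorem L.cj {P : M4 K} (h : Sp P) (hX : ρ.L x X) : (ρ.cj P h).L x (ad P * X * P) :=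
  cj_L.2 (hX.congr (by simp only [← mul_assoc, h.right, one_mul]; rw [mul_assoc, h.right, mul_one]))

theorem L.cj' {P : M4 K} (h : Sp P) (hX : ρ.L x X) (e : X * P = P * Y) : (ρ.cj P h).L x Y :=
  cj_L.2 (hX.congr (by rw [← e, mul_assoc, h.right, mul_one]))

/-- extension of the field -/
def map (ρ : SRep T K) {E : Type*} [Field E] (φ : K →+* E) : SRep T E where
  R x X := ∃ X0, ρ.L x X0 ∧ X = X0.map φ
  ex x := (ρ.exL x).elim fun X h => ⟨_, X, h, rfl⟩
  one := ⟨1, ρ.oneL, by simp⟩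
  r_mul := by
    rintro x y _ _ ⟨X, hX, rfl⟩ ⟨Y, hY, rfl⟩
    exact ⟨_, hX.mul hY, by simp [Matrix.map_mul]⟩
  r_neg := by
    rintro x _ ⟨X, hX, rfl⟩
    exact ⟨_, hX.neg, by ext; simp⟩
  r_uniq := by
    rintro x _ _ ⟨X, hX, rfl⟩ ⟨Y, hY, rfl⟩
    rcases hX.uniq hY with rfl | rfl
    exacts [Or.inl rfl, Or.inr (by ext; simp)]
  r_inj := by
    rintro x y _ ⟨X, hX, rfl⟩ ⟨Y, hY, e⟩
    exact hX.inj (hY.congr (Matrix.map_injective φ.injective e))
  r_sp := by
    rintro x _ ⟨X, hX, rfl⟩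
    rw [Sp, ad_map, ← Matrix.map_mul, hX.sp.left]; simp

theorem map_L {E : Type*} [Field E] {φ : K →+* E} {X : M4 E} :
    (ρ.map φ).L x X ↔ ∃ X0, ρ.L x X0 ∧ X = X0.map φ := Iff.rfl

theorem L.map {E : Type*} [Field E] (φ : K →+* E) (h : ρ.L x X) : (ρ.map φ).L x (X.map φ) := ⟨X, h, rfl⟩

/-- the standing hypotheses -/
structure Hyp (ρ : SRep T K) : Prop where
  two : (2 : K) ≠ 0
  simple : IsSimpleGroup T
  perf : commutator T = ⊤
  full : Asch.Full {X | ∃ x, ρ.L x X}

/-- characteristic polynomials split -/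
def Split (ρ : SRep T K) : Prop := ∀ x X, ρ.L x X → X.charpoly.Splits

/-- no transvections -/
def NoTv (ρ : SRep T K) : Prop := ∀ x X, ρ.L x X → Rk1 (X - 1) → X = 1

/-- no quadratic unipotent elements -/
def NoQ (ρ : SRep T K) : Prop := ∀ x X, ρ.L x X → (X - 1) * (X - 1) = 0 → X = 1

/-- few unipotent elements -/
def SmallU (ρ : SRep T K) : Prop := ρ.NoTv ∧ (ρ.NoQ ∨ ((3 : K) = 0 ∧ ¬ 9 ∣ Nat.card T))

/-- no roots: the only involution of the covering group is `-1` -/
def NoRoot (ρ : SRep T K) : Prop := ∀ x X, ρ.L x X → X * X = 1 → x = 1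

/-- all traces lie in `E` -/
def TrIn (ρ : SRep T K) (E : Subfield K) : Prop := ∀ x X, ρ.L x X → X.trace ∈ E

/-- `g` is a symplectic matrix normalising the covering group -/
def Nrm (ρ : SRep T K) (g : M4 K) : Prop := Sp g ∧ ∀ x X, ρ.L x X → ∃ y, ρ.L y (g * X * ad g)

/-- the normaliser of the covering group is not maximal in `Sp₄(K)` -/
def NotMax (ρ : SRep T K) : Prop := ∃ A : Submonoid (M4 K), (∀ g ∈ A, Sp g ∧ ad g ∈ A) ∧ (∀ g, ρ.Nrm g → g ∈ A) ∧
  (∃ g ∈ A, ¬ ρ.Nrm g) ∧ ∃ g, Sp g ∧ g ∉ A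

theorem Hyp.irr (h : ρ.Hyp) (U : Submodule K (V4 K)) (hU : ∀ x X, ρ.L x X → ∀ v ∈ U, X *ᵥ v ∈ U) : U = ⊥ ∨ U = ⊤ :=
  h.full.irred U fun X ⟨x, hX⟩ => hU x X hX

theorem Hyp.scalar (h : ρ.Hyp) (hZ : ∀ x X, ρ.L x X → Z * X = X * Z) : ∃ c : K, Z = c • (1 : M4 K) :=
  h.full.isSc fun X ⟨x, hX⟩ => hZ x X hX

theorem Hyp.cj (h : ρ.Hyp) {P : M4 K} (hP : Sp P) : (ρ.cj P hP).Hyp := by
  refine ⟨h.two, h.simple, h.perf, eq_top_iff.2 fun X _ => ?_⟩
  have := h.full.induction (p := fun X => ad P * X * P ∈ Submodule.span K {X | ∃ x, (ρ.cj P hP).L x X})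
    (fun X ⟨x, hX⟩ => Submodule.subset_span ⟨x, hX.cj hP⟩) (by simp)
    (fun x y hx hy => by rw [mul_add, add_mul]; exact add_mem hx hy)
    (fun c x hx => by rw [Matrix.mul_smul, Matrix.smul_mul]; exact Submodule.smul_mem _ _ hx) (P * X * ad P)
  rwa [← mul_assoc, ← mul_assoc, hP.left, one_mul, mul_assoc, hP.left, mul_one] at this

theorem Hyp.map (h : ρ.Hyp) {E : Type*} [Field E] (φ : K →+* E) : (ρ.map φ).Hyp := by
  refine ⟨fun e => h.two (φ.injective (by rw [map_ofNat, e, map_zero])), h.simple, h.perf,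
    Asch.full_of_single fun a b => ?_⟩
  have := h.full.induction (p := fun X => X.map φ ∈ Submodule.span E {X | ∃ x, (ρ.map φ).L x X})
    (fun X ⟨x, hX⟩ => Submodule.subset_span ⟨x, hX.map φ⟩) (by simp)
    (fun x y hx hy => by rw [Matrix.map_add _ (map_add φ)]; exact add_mem hx hy)
    (fun c x hx => by
      have : (c • x).map φ = φ c • x.map φ := by ext; simp
      rw [this]; exact Submodule.smul_mem _ _ hx) (Matrix.single a b 1)
  convert this using 1
  ext i j
  simp [Matrix.single, apply_ite φ]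

theorem finite (ρ : SRep T K) [Finite K] : Finite T :=
  Finite.of_injective (fun x => (ρ.exL x).choose) fun x y e =>
    (ρ.exL x).choose_spec.inj ((ρ.exL y).choose_spec.congr e)

theorem conj_cancel {P : M4 K} (hP : Sp P) (h : P * X * ad P = P * Y * ad P) : X = Y := by
  have k : ∀ X : M4 K, X = ad P * (P * X * ad P) * P := fun X => by
    simp only [← mul_assoc, hP.left, one_mul]; rw [mul_assoc, hP.left, mul_one]
  rw [k X, h, ← k]

theorem NoQ.cj (h : ρ.NoQ) {P : M4 K} (hP : Sp P) : (ρ.cj P hP).NoQ := fun x X hX e => by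
  have e1 : P * X * ad P - 1 = P * (X - 1) * ad P := by rw [mul_sub, sub_mul, mul_one, hP.right]
  refine conj_cancel hP ((h x _ hX ?_).trans (by rw [mul_one, hP.right]))
  rw [e1, show P * (X - 1) * ad P * (P * (X - 1) * ad P) = P * ((X - 1) * (ad P * P) * (X - 1)) * ad P by
    simp only [mul_assoc], hP.left, mul_one, e]
  simp

theorem NoRoot.cj (h : ρ.NoRoot) {P : M4 K} (hP : Sp P) : (ρ.cj P hP).NoRoot := fun x X hX e => h x _ hX (by
  rw [show P * X * ad P * (P * X * ad P) = P * (X * (ad P * P) * X) * ad P by simp only [mul_assoc], hP.left, mul_one, e,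
    mul_one, hP.right])

theorem Split.cj (h : ρ.Split) {P : M4 K} (hP : Sp P) : (ρ.cj P hP).Split := fun x X hX => by
  have := h x _ hX
  rwa [charpoly_mul_comm, ← mul_assoc, hP.left, one_mul] at this

end SRep

theorem Rk1.mul_left {N : M4 K} (h : Rk1 N) (P : M4 K) : Rk1 (P * N) := fun i j k l => by
  simp only [mul_apply, Finset.sum_mul_sum]
  refine Finset.sum_congr rfl fun a _ => Finset.sum_congr rfl fun b _ => ?_
  linear_combination P i a * P k b * h a j b l

theorem Rk1.mul_right {N : M4 K} (h : Rk1 N) (P : M4 K) : Rk1 (N * P) := fun i j k l => by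
  simp only [mul_apply, Finset.sum_mul_sum]
  rw [Finset.sum_comm]
  refine Finset.sum_congr rfl fun a _ => Finset.sum_congr rfl fun b _ => ?_
  linear_combination P b j * P a l * h i b k a

namespace SRep

variable {ρ : SRep T K}

theorem NoTv.cj (h : ρ.NoTv) {P : M4 K} (hP : Sp P) : (ρ.cj P hP).NoTv := fun x X hX e => by
  have e1 : P * X * ad P - 1 = P * (X - 1) * ad P := by rw [mul_sub, sub_mul, mul_one, hP.right]
  exact conj_cancel hP ((h x _ hX (e1 ▸ (e.mul_left P).mul_right _)).trans (by rw [mul_one, hP.right]))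

theorem SmallU.cj (h : ρ.SmallU) {P : M4 K} (hP : Sp P) : (ρ.cj P hP).SmallU :=
  ⟨h.1.cj hP, h.2.imp_left fun k => k.cj hP⟩

section
variable {E : Type*} [Field E] (φ : K →+* E)

theorem NoTv.map (h : ρ.NoTv) : (ρ.map φ).NoTv := by
  rintro x _ ⟨X, hX, rfl⟩ e
  rw [h x X hX fun i j k l => φ.injective (by
    simpa [Matrix.one_apply, apply_ite φ] using e i j k l)]
  simp

theorem NoQ.map (h : ρ.NoQ) : (ρ.map φ).NoQ := by
  rintro x _ ⟨X, hX, rfl⟩ e
  have e1 : X.map φ - 1 = (X - 1).map φ := by ext i j; simp [Matrix.one_apply, apply_ite φ]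
  rw [e1, ← Matrix.map_mul] at e
  rw [h x X hX (Matrix.map_injective φ.injective (e.trans (by simp)))]
  simp

theorem SmallU.map (h : ρ.SmallU) : (ρ.map φ).SmallU :=
  ⟨h.1.map φ, h.2.imp (fun k => k.map φ) fun k => ⟨by rw [← map_ofNat φ 3, k.1, map_zero], k.2⟩⟩

theorem NoRoot.map (h : ρ.NoRoot) : (ρ.map φ).NoRoot := by
  rintro x _ ⟨X, hX, rfl⟩ e
  rw [← Matrix.map_mul] at e
  exact h x X hX (Matrix.map_injective φ.injective (e.trans (by simp)))

end

universe u in
theorem exists_split {K : Type u} [Field K] (ρ : SRep T K) [Finite K] (f : Polynomial K) (hf : f ≠ 0) :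
    ∃ (E : Type u) (_ : Field E) (_ : Finite E) (φ : K →+* E), (ρ.map φ).Split ∧ (f.map φ).Splits := by
  have := Fintype.ofFinite (M4 K)
  let g : Polynomial K := f * ∏ X : M4 K, X.charpoly
  have hg : g ≠ 0 := mul_ne_zero hf (Finset.prod_ne_zero_iff.2 fun g _ => g.charpoly_monic.ne_zero)
  refine ⟨g.SplittingField, inferInstance, Module.finite_of_finite K, algebraMap _ _, ?_, ?_⟩
  · rintro x _ ⟨X, -, rfl⟩
    rw [Matrix.charpoly_map]
    exact (Polynomial.SplittingField.splits g).of_dvd (Polynomial.map_ne_zero hg)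
      (Polynomial.map_dvd _ (Dvd.dvd.mul_left (Finset.dvd_prod_of_mem _ (Finset.mem_univ X)) f))
  · exact (Polynomial.SplittingField.splits g).of_dvd (Polynomial.map_ne_zero hg)
      (Polynomial.map_dvd _ (Dvd.intro _ rfl))

end SRep

end Cfsg.Agent.H1.Mit
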