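import Cfsg.Agent.H1.M4P
import Cfsg.Agent.MH.End

/-! Group-theoretic lemmas: normal complements, transfer, counting. -/

set_option autoImplicit false

namespace Cfsg.Agent.H1.Mit

open Subgroup Cfsg.Agent.MH

variable {T : Type*} [Group T] {x y z g s t u v : T} {H : Subgroup T}

/-- odd order -/
def Od (x : T) : Prop := ∃ n, Odd n ∧ x ^ n = 1

theorem Od.one : Od (1 : T) := ⟨1, odd_one, by simp⟩

theorem Od.conj (h : Od x) (g : T) : Od (g * x * g⁻¹) := h.imp fun n k => ⟨k.1, by simp [k.2]⟩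

theorem Od.inv (h : Od x) : Od x⁻¹ := h.imp fun n k => ⟨k.1, by simp [k.2]⟩

theorem Od.pow (h : Od x) (k : ℕ) : Od (x ^ k) := h.imp fun n e => ⟨e.1, by rw [← pow_mul, mul_comm, pow_mul, e.2, one_pow]⟩

theorem Od.mul (h : Od x) (h' : Od y) (e : x * y = y * x) : Od (x * y) := by
  obtain ⟨n, hn, e1⟩ := h
  obtain ⟨m, hm, e2⟩ := h'
  exact ⟨n * m, hn.mul hm, by rw [Commute.mul_pow e, pow_mul, e1, mul_comm n, pow_mul, e2]; simp⟩

theorem Od.of_mem (ho : Odd (Nat.card H)) (hx : x ∈ H) : Od x := ⟨_, ho, pow_card_mem hx⟩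

theorem Od.eq_one (h : Od x) (e : x * x = 1) : x = 1 := h.elim fun _ k => eq_one_of_odd k.1 k.2 e

theorem Od.eq_one' (h : Od x) {k : ℕ} (e : x ^ 2 ^ k = 1) : x = 1 := h.elim fun _ a =>
  orderOf_eq_one_iff.1 (Nat.eq_one_of_dvd_coprimes ((Nat.coprime_two_left.2 a.1).pow_left k)
    (orderOf_dvd_of_pow_eq_one e) (orderOf_dvd_of_pow_eq_one a.2))

theorem Od.mem (h : Od x) {k : ℕ} (e : x ^ 2 ^ k ∈ H) : x ∈ H := by
  obtain ⟨n, hn, e1⟩ := h
  have : x ∈ zpowers (x ^ 2 ^ k) := mem_zpowers_pow_iff.2 (Nat.Coprime.coprime_dvd_right (orderOf_dvd_of_pow_eq_one e1)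
    ((Nat.coprime_two_left.2 hn).pow_left k))
  exact zpowers_le.2 e this

theorem od_or [Finite T] (x : T) : Od x ∨ ∃ k, Inv (x ^ k) := by
  rcases Nat.even_or_odd (orderOf x) with ⟨k, hk⟩ | h
  · have := orderOf_pos x
    exact Or.inr ⟨k, pow_ne_one_of_lt_orderOf (by omega) (by omega), by rw [← pow_add, ← hk, pow_orderOf_eq_one]⟩
  · exact Or.inl ⟨_, h, pow_orderOf_eq_one x⟩

theorem Od.exists_prime [Finite T] (h : Od x) (h1 : x ≠ 1) : ∃ r k : ℕ, r.Prime ∧ Odd r ∧ x ^ k ≠ 1 ∧ (x ^ k) ^ r = 1 := by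
  obtain ⟨r, hr, k, hk⟩ := Nat.exists_prime_and_dvd (n := orderOf x) (by simpa)
  obtain ⟨n, hn, e⟩ := h
  have := orderOf_pos x
  refine ⟨r, k, hr, hn.of_dvd_nat ((Dvd.intro _ hk.symm).trans (orderOf_dvd_of_pow_eq_one e)),
    pow_ne_one_of_lt_orderOf (by rintro rfl; omega) ?_, by rw [← pow_mul, mul_comm, ← hk, pow_orderOf_eq_one]⟩
  have := hr.two_le
  nlinarith [Nat.pos_of_ne_zero (n := k) (by rintro rfl; omega)]

theorem pow_mem_Cn (h : x ∈ Cn y) (k : ℕ) : x ∈ Cn (y ^ k) := mem_Cn_comm.1 (pow_mem (mem_Cn_comm.1 h) k)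

theorem conj_eq_of_Cn (h : x ∈ Cn y) : x * y * x⁻¹ = y := by rw [← mem_Cn.1 h, mul_inv_cancel_right]

theorem Cn_of_conj (h : x * y * x⁻¹ = y) : x ∈ Cn y := mem_Cn.2 (mul_inv_eq_iff_eq_mul.1 h).symm

theorem card_two [Finite T] {A C : Subgroup T} (h : A ≤ C) (hs : s ∈ C) (hs' : s ∉ A)
    (h2 : ∀ x ∈ C, ∀ y ∈ C, x ∉ A → y ∉ A → x * y ∈ A) : Nat.card C = 2 * Nat.card A := by
  have : A.relIndex C = 2 := relIndex_eq_two_iff_exists_notMem_and.2
    ⟨s, hs, hs', fun b hb => or_iff_not_imp_right.2 fun k => h2 b hb s hs k hs'⟩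
  rw [← (A.subgroupOf C).card_mul_index, Nat.card_congr (subgroupOfEquivOfLe h).toEquiv, mul_comm]
  exact congrArg (· * _) this

theorem exists_compl [Finite T] (D : Subgroup T) (h' : ∀ z ∈ D, ∀ z' ∈ D, Inv z → Inv z' → z * z' = z' * z → z = z')
    (h : ∀ z ∈ D, Inv z → ∀ a ∈ D, ∀ b ∈ D, a ∈ Cn z → b ∈ Cn z → a * b = b * a) :
    ∃ Q ≤ D, Odd (Nat.card Q) ∧ ∀ x ∈ D, Od x → x ∈ Q := by
  obtain ⟨P⟩ : Nonempty (Sylow 2 D) := inferInstance
  have hP : normalizer P ≤ centralizer (P : Set D) := fun n hn a ha => by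
    by_cases e : (P : Subgroup D) = ⊥
    · rw [show a = 1 from mem_bot.1 (e ▸ ha)]; simp
    obtain ⟨z, hz, e1, e2⟩ := exists_center Nat.prime_two P.2 e
    have iz : Inv (z : T) := inv_of_orderOf (by rwa [orderOf_coe])
    have := h' _ z.2 _ (n * z * n⁻¹).2 iz (iz.conj n) (congrArg Subtype.val (mem_Cn.1 (e2 (Nm_conj hn hz))))
    exact Subtype.ext (h z z.2 iz a a.2 n n.2 (mem_Cn.2 (congrArg Subtype.val (mem_Cn.1 (e2 ha)))) (Cn_of_conj this.symm))
  have k := MonoidHom.ker_transferSylow_isComplement' P hP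
  refine ⟨(MonoidHom.transferSylow P hP).ker.map D.subtype, map_subtype_le _, ?_, fun x hx ⟨n, hn, e⟩ => ⟨⟨x, hx⟩, ?_, rfl⟩⟩
  · rw [card_map_of_injective (subtype_injective _), ← k.index_eq_card, ← Nat.not_even_iff_odd, even_iff_two_dvd]
    exact P.not_dvd_index
  · obtain ⟨j, hj⟩ := P.2 (MonoidHom.transferSylow P hP ⟨x, hx⟩)
    exact Od.eq_one' ⟨n, hn, by rw [← map_pow, show (⟨x, hx⟩ : D) ^ n = 1 from Subtype.ext e, map_one]⟩ hj

theorem fix_eq_one [Finite T] (hp : commutator T = ⊤) {r : ℕ} (hr : r.Prime) (R : Sylow r T)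
    (hc : ∀ x ∈ R, ∀ y ∈ R, x * y = y * x) (hx : x ∈ R) (h : ∀ g ∈ Nm (R : Subgroup T), g * x * g⁻¹ = x) : x = 1 := by
  have := Fact.mk hr
  have cm : IsMulCommutative R := ⟨⟨fun a b => Subtype.ext (hc a a.2 b b.2)⟩⟩
  let _ : CommGroup R := { (inferInstance : Group R) with mul_comm := cm.1.1 }
  have e := hom_eq_one hp (MonoidHom.transfer (MonoidHom.id R)) x
  rw [MonoidHom.transfer_eq_pow _ x fun k g hg => by
    obtain ⟨n, hn, e⟩ := R.conj_eq_normalizer_conj_of_mem (x ^ k) g (pow_mem hx k) hg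
    rw [e, ← inv_inv n, inv_inv n⁻¹, ← conj_pow, h _ (inv_mem hn)]] at e
  obtain ⟨j, hj⟩ := R.2 ⟨x, hx⟩
  exact orderOf_eq_one_iff.1 (Nat.eq_one_of_dvd_coprimes (((Nat.Prime.coprime_iff_not_dvd hr).2 R.not_dvd_index).pow_left j)
    (orderOf_dvd_of_pow_eq_one (congrArg Subtype.val hj)) (orderOf_dvd_of_pow_eq_one (congrArg Subtype.val e)))

theorem pair_le [Finite T] {L : ℕ} (h : ∀ x : T, x ≠ 1 → Nat.card (Cn x) ≤ L) :
    {s : T | Inv s}.ncard ^ 2 ≤ {s : T | Inv s}.ncard + Nat.card T * L := by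
  classical
  have := Fintype.ofFinite T
  let I : Finset T := Finset.univ.filter Inv
  have e : {s : T | Inv s}.ncard = I.card := by rw [← Set.ncard_coe_finset]; congr 1; ext; simp [I]
  rw [e, pow_two, ← Finset.card_product, ← Finset.card_filter_add_card_filter_not (fun z : T × T => z.1 * z.2 = 1)]
  refine Nat.add_le_add (Finset.card_le_card_of_injOn (·.1) (fun z hz => by simp at hz ⊢; exact hz.1.1)
    fun a ha b hb k => ?_) ?_
  · simp at ha hb k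
    exact Prod.ext k (mul_left_cancel (a := a.1) (by rw [ha.2, k, hb.2]))
  rw [mul_comm, Nat.card_eq_fintype_card]
  refine Finset.card_le_mul_card_image_of_maps_to (f := fun z : T × T => z.1 * z.2) (t := Finset.univ) (by simp) L fun x _ => ?_
  rcases Finset.eq_empty_or_nonempty (Finset.filter (fun z : T × T => z.1 * z.2 = x) _) with k | ⟨a, ha⟩
  · rw [k]; simp
  simp [I] at ha
  have iv : ∀ b : T × T, Inv b.1 → Inv b.2 → b.1 * b.2 = x → b.1 * x * b.1 = x⁻¹ := fun b h1 h2 k => by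
    rw [← k, ← mul_assoc, h1.2, one_mul, mul_inv_rev, h1.inv_eq, h2.inv_eq]
  refine le_trans ?_ (h x (ha.2 ▸ ha.1.2))
  rw [← ncard_coe, ← Set.ncard_coe_finset]
  refine Set.ncard_le_ncard_of_injOn (fun b => a.1 * b.1) (fun b hb => ?_) fun b hb c hc k => ?_
  · simp [I] at hb
    refine Cn_of_conj ?_
    rw [mul_inv_rev, hb.1.1.1.inv_eq, ha.1.1.1.inv_eq, show a.1 * b.1 * x * (b.1 * a.1) = a.1 * (b.1 * x * b.1) * a.1 by group,
      iv b hb.1.1.1 hb.1.1.2 hb.2, ← iv a ha.1.1.1 ha.1.1.2 ha.2]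
    simp [← mul_assoc, ha.1.1.1.2]
    simp [mul_assoc, ha.1.1.1.2]
  · simp at hb hc k
    exact Prod.ext k (mul_left_cancel (a := b.1) (by rw [hb.2, k, hc.2]))

theorem exists_sylow_pair [Finite T] {r i j : ℕ} (hx : x ^ r ^ i = 1) (hy : y ^ r ^ j = 1) (c : x * y = y * x) :
    ∃ R : Sylow r T, x ∈ R ∧ y ∈ R := by
  obtain ⟨R, hR⟩ := ((isPGroup_zpowers hx).to_sup_of_normal_right' (isPGroup_zpowers hy)
    (zpowers_le.2 (mem_Nm (H := zpowers y) fun w hw => by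
      rw [conj_eq_of_Cn (mem_Cn_comm.1 ((zpowers_le (H := Cn x)).2 (mem_Cn.2 c) hw))]; exact hw))).exists_le_sylow
  exact ⟨R, hR (mem_sup_left (mem_zpowers x)), hR (mem_sup_right (mem_zpowers y))⟩

theorem mem_three [Finite T] (h : Nat.card H = 3) (hx : x ∈ H) (x1 : x ≠ 1) (hy : y ∈ H) : y = 1 ∨ y = x ∨ y = x⁻¹ := by
  have := Fact.mk Nat.prime_three
  have x3 : x ^ 3 = 1 := h ▸ pow_card_mem hx
  have e : zpowers x = H := eq_of_le_of_card_ge (zpowers_le.2 hx) (by rw [h, Nat.card_zpowers, orderOf_eq_prime x3 x1])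
  obtain ⟨j, hj⟩ := mem_powers_iff_mem_zpowers.2 (e.ge hy)
  simp only [← pow_mod_orderOf x j, orderOf_eq_prime x3 x1] at hj
  have : j % 3 < 3 := Nat.mod_lt _ (by norm_num)
  interval_cases j % 3
  · simp [← hj]
  · simp [← hj]
  · exact Or.inr (Or.inr (eq_inv_of_mul_eq_one_left (by rw [← hj, ← pow_succ, x3])))

theorem nine_dvd [Finite T] (hx : x ^ 3 = 1) (hy : y ^ 3 = 1) (x1 : x ≠ 1) (y1 : y ≠ 1) (c : x * y = y * x) (h1 : y ≠ x)
    (h2 : y ≠ x⁻¹) : 9 ∣ Nat.card T := by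
  have := Fact.mk Nat.prime_three
  obtain ⟨R, a, b⟩ := exists_sylow_pair (r := 3) (i := 1) (j := 1) (by simpa using hx) (by simpa using hy) c
  obtain ⟨_ | _ | k, hk⟩ := IsPGroup.iff_card.1 R.2
  · exact absurd (mem_bot.1 (card_eq_one.1 hk ▸ a)) x1
  · have := mem_three hk a x1 b
    tauto
  · exact (hk ▸ pow_dvd_pow 3 (by simp : 2 ≤ k + 1 + 1)).trans (card_subgroup_dvd_card R.1)

/-- the automiser of a CA-subgroup has order two or four -/
theorem ord_class [Finite T] (hp : commutator T = ⊤) (hc : Cls t) (p4 : P4 t) (h : CA H) (ho : Odd (Nat.card H))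
    (h1 : H ≠ ⊥) (h4 : ∀ g ∈ Nm H, g ^ 4 ∈ H) : Nat.card (Nm H) = Nat.card H * 2 ∨
      (Nat.card (Nm H) = Nat.card H * 4 ∧ ∃ g ∈ Nm H, g * g ≠ 1 ∧ g ^ 4 = 1) := by
  obtain ⟨e, he, k, hk⟩ := h.card_Nm
  have n0 := Nat.card_pos (α := H)
  have e0 : e ≠ 0 := by rintro rfl; exact Nat.card_pos.ne' he
  have e1 : e ≠ 1 := by
    rintro rfl
    exact h.Nm_ne hp h1 (eq_of_le_of_card_ge le_normalizer (he.trans (mul_one _)).le).ge
  have e2 := Nat.eq_prime_pow_of_unique_prime_dvd (p := 2) e0 fun {r} hr hd => by_contra fun r2 => by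
    obtain ⟨g, hg, o⟩ := exists_mem_orderOf hr (he ▸ hd.mul_left _)
    have := o ▸ orderOf_dvd_card_of_mem (Od.mem (k := 2) ⟨r, hr.odd_of_ne_two r2, o ▸ pow_orderOf_eq_one g⟩ (h4 g hg))
    exact hr.not_dvd_one ((Nat.dvd_add_right (hk ▸ hd.mul_right k)).1 (by rwa [Nat.sub_add_cancel n0]))
  generalize e.primeFactorsList.length = a at e2
  obtain ⟨P0, hP⟩ := Sylow.exists_subgroup_card_pow_prime (G := Nm H) 2 (n := a) (he ▸ e2 ▸ dvd_mul_left _ _)
  rw [← card_map_of_injective (subtype_injective _), ← e2] at hP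
  have le : P0.map (Nm H).subtype ≤ Nm H := map_subtype_le _
  generalize P0.map (Nm H).subtype = P at hP le
  have tr : ∀ g ∈ P, g ∈ H → g = 1 := fun g a b => (Od.of_mem ho b).eq_one' (e2 ▸ hP ▸ pow_card_mem a)
  have iv : ∀ j ∈ P, Inv j → ∀ y ∈ H, j * y * j⁻¹ = y⁻¹ := fun j a b y hy =>
    inverts b.2 (le a) hy (fun _ a _ b => h.comm a b) fun y hy e => by_contra fun k => b.1 (tr j a (h y hy k ▸ e))
  obtain ⟨y, hy, y1⟩ := (bot_or_exists_ne_one H).resolve_left h1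
  have uq : ∀ j ∈ P, ∀ j' ∈ P, Inv j → Inv j' → j = j' := fun j a j' a' b b' =>
    (b'.inv_eq ▸ eq_inv_of_mul_eq_one_left (tr _ (mul_mem a a') (h y hy y1 ▸ Cn_of_conj (by
      rw [show j * j' * y * (j * j')⁻¹ = j * (j' * y * j'⁻¹) * j⁻¹ by group, iv j' a' b' y hy, iv j a b _ (inv_mem hy), inv_inv]))))
  obtain ⟨j, hj, ij⟩ := exists_mem_inv (H := P) (hP ▸ e2 ▸ dvd_pow_self 2 (by rintro rfl; exact e1 e2))
  have f4 : ∀ g ∈ P, g ^ 4 = 1 := fun g a => tr _ (pow_mem a 4) (h4 g (le a))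
  have sq : ∀ g ∈ P, g * g ≠ 1 → g * g = j := fun g a b => uq _ (mul_mem a a) j hj ⟨b, pow_four_eq g ▸ f4 g a⟩ ij
  have two : ∀ g ∈ P, g * g = 1 → g = 1 ∨ g = j := fun g a b => or_iff_not_imp_left.2 fun c => uq g a j hj ⟨c, b⟩ ij
  by_cases k : ∃ g ∈ P, g * g ≠ 1
  swap
  · push Not at k
    have : (P : Set T).ncard ≤ ({1, j} : Set T).ncard := Set.ncard_le_ncard fun g a => two g a (k g a)
    rw [ncard_coe, hP, Set.ncard_pair ij.1.symm] at this
    left; rw [he, show e = 2 by omega]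
  obtain ⟨g, hg, g2⟩ := k
  obtain ⟨w, rfl⟩ := hc j ij
  have cj : ∀ g ∈ P, g * g ≠ 1 → w * g * w⁻¹ ∈ Cn (w * j * w⁻¹) := fun g a b =>
    conj_mem_Cn.2 (mem_Cn.2 (by rw [← sq g a b, mul_assoc]))
  have : (P : Set T).ncard ≤ ({1, j, g⁻¹, g⁻¹ * j} : Set T).ncard := Set.ncard_le_ncard fun x a => by
    by_cases b : x * x = 1
    · rcases two x a b with c | c <;> simp [c]
    have := p4 _ (cj g hg g2) _ (cj x a b) (mt conj_mul_self.1 g2) (mt conj_mul_self.1 b) (by simp [f4 g hg]) (by simp [f4 x a])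
      (by rw [conj_mul, conj_pow, f4 _ (mul_mem hg a)]; simp)
    rw [conj_mul, conj_mul_self] at this
    rcases two _ (mul_mem hg a) this with c | c
    · simp [eq_inv_of_mul_eq_one_right c]
    · simp [← c]
  have l4 := this.trans ((Set.ncard_insert_le _ _).trans (Nat.succ_le_succ ((Set.ncard_insert_le _ _).trans
    (Nat.succ_le_succ (Set.ncard_insert_le _ _)))))
  have := orderOf_dvd_card_of_mem hg
  rw [orderOf_eq_prime_pow (p := 2) (n := 1) (by simpa [pow_two] using g2) (f4 g hg), hP] at this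
  rw [ncard_coe, hP, Set.ncard_singleton] at l4
  exact Or.inr ⟨by rw [he, show e = 4 by omega], g, le hg, g2, f4 g hg⟩

end Cfsg.Agent.H1.Mit
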