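import Cfsg.Agent.H1.M4L3

/-! Rotations centralised by a four-group. -/

set_option autoImplicit false

namespace Cfsg.Agent.H1.Mit

open Matrix Cfsg.Agent.MH Subgroup Cfsg.Agent.H4.Mob

variable {T K : Type*} [Group T] [Field K]

theorem dg_dd (a b c d μ : K) : dg a b c d * dd μ μ = dd μ μ * dg a b c d := by unfold dg dd; mat4

theorem sw_dd (a b c d μ : K) : sw a b c d * dd μ μ = dd μ⁻¹ μ⁻¹ * sw a b c d := by unfold sw dd; mat4

theorem dg_scal (a : K) : dg a 0 0 a = dd a a := by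
  unfold dg dd; ext i j; fin_cases i <;> fin_cases j <;> simp

theorem ev_self {a b : K} {i : Fin 4} (h : b = ev a a i) : b = a ∨ b = a⁻¹ := by fin_cases i <;> simp_all [ev]

theorem fld4 {a b c d e f g h : K} (h2 : (2 : K) ≠ 0) (h1 : a * d - b * c = 1) (h0 : e * h - f * g ≠ 0)
    (t : a + d = 2) (k : dg a b c d * sw e f g h = sw e f g h * dg a b c d) (s : sw e f g h * sw e f g h = -1) :
    dg a b c d = 1 := by
  have k1 := congrFun (congrFun k 0) 2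
  have k2 := congrFun (congrFun k 0) 3
  have k3 := congrFun (congrFun k 1) 2
  have s1 := congrFun (congrFun s 0) 0
  have s2 := congrFun (congrFun s 0) 1
  have s3 := congrFun (congrFun s 1) 0
  have s4 := congrFun (congrFun s 1) 1
  simp [dg, sw, mul_apply, Fin.sum_univ_four, h1] at k1 k2 k3 s1 s2 s3 s4
  field_simp at s1 s2 s3 s4
  obtain rfl : h = e := by grind
  obtain rfl : d = 2 - a := by grind
  have : a = 1 := by grind
  subst this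
  have : b = 0 ∧ c = 0 := by grind
  rw [this.1, this.2, show (2 : K) - 1 = 1 by norm_num, dg_scal, dd_one]

theorem fld5 {a b c d e f g h m : K} (h2 : (2 : K) ≠ 0) (h1 : a * d - b * c ≠ 0) (h0 : e * h - f * g ≠ 0)
    (q : dg a b c d * dg a b c d = m • dg a b c d - 1) (s : dg e f g h * dg e f g h = -1) (n : ¬ (f = 0 ∧ g = 0 ∧ h = e))
    (k : dg a b c d * dg e f g h = dg e f g h * dg a b c d)
    (t : e * h - f * g = 1 → e + h = 0 → (dg e f g h * dg a b c d).trace = 0) : b = 0 ∧ c = 0 ∧ d = a := by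
  have k1 := congrFun (congrFun k 0) 0
  have k2 := congrFun (congrFun k 0) 1
  have k3 := congrFun (congrFun k 1) 0
  have s1 := congrFun (congrFun s 0) 0
  have s2 := congrFun (congrFun s 0) 1
  have s3 := congrFun (congrFun s 1) 0
  have s4 := congrFun (congrFun s 1) 1
  have q1 := congrFun (congrFun q 0) 0
  have q2 := congrFun (congrFun q 0) 1
  have q3 := congrFun (congrFun q 1) 0
  have q4 := congrFun (congrFun q 1) 1
  simp [dg, mul_apply, Fin.sum_univ_four] at k1 k2 k3 s1 s2 s3 s4 q1 q2 q3 q4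
  obtain rfl : h = -e := by grind
  have e1 : e * -e - f * g = 1 := by grind
  replace t := t e1 (by ring)
  by_cases hm : m = a + d
  swap
  · grind
  have d1 : a * d - b * c = 1 := by grind
  simp only [dg, d1, e1] at t
  simp [Fin.sum_univ_four, trace] at t
  obtain rfl : d = a := by grind
  have b1 : b * g = 0 := mul_left_cancel₀ (mul_ne_zero h2 h2) (by linear_combination t + 2 * k1)
  have b2 : b * e = 0 := mul_left_cancel₀ h2 (by linear_combination -k2)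
  have b3 : c * e = 0 := mul_left_cancel₀ h2 (by linear_combination k3)
  exact ⟨by linear_combination b * s1 - e * b2 - f * b1, by linear_combination c * s1 - e * b3 - g * b1 + g * k1, rfl⟩

namespace SRep

variable {ρ : SRep T K} {g x y z u t s : T} {G X Y Z : M4 K} {n p r : ℕ}

theorem II.anti (h : ρ.II) (ht : Inv t) (hs : Inv s) (hst : s ≠ t) (c : s * t = t * s) (hX : ρ.L t X) (hY : ρ.L s Y) :
    Y * X = -(X * Y) := ((hX.comm_iff hY).1 c.symm).resolve_left fun e => hst (by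
  rw [← ht.inv_eq]
  refine eq_inv_of_mul_eq_one_left (h.nr _ _ (hY.mul hX) ?_)
  rw [mul_assoc, ← mul_assoc X, ← e, mul_assoc, h.sq ht hX, ← mul_assoc, h.sq hs hY]; simp)

theorem II.rot_of_four (h : ρ.II) (ht : Inv t) (hs : Inv s) (hst : s ≠ t) (c : s * t = t * s) (hr : r.Prime) (o : Odd r)
    (y1 : y ≠ 1) (hy : y ^ r = 1) (c1 : t * y = y * t) (c2 : s * y = y * s) : ρ.Rot y ∧ (r : K) ≠ 0 := by
  obtain ⟨P, hP, i, hi, l⟩ := h.inv_nf ht
  replace h := h.cj hP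
  suffices (ρ.cj P hP).Rot y ∧ _ from ⟨this.1.of_cj, this.2⟩
  generalize ρ.cj P hP = ρ at *
  have i2 : i ^ 2 ≠ 1 := fun e => h.two (by linear_combination hi - e)
  have i0 := l.sp.dd_ne.1
  obtain ⟨Y, hY, e⟩ := ρ.exO o hy
  obtain ⟨S, hS⟩ := ρ.exL s
  obtain ⟨a, b, c', d, h1, rfl⟩ := comm_dd hY.1.sp i2 i0 (hY.comm h.two l c1).symm
  obtain ⟨e', f, g, k, h0, rfl⟩ := anti_dd hS.sp i2 i0 (by
    rw [h.anti ht hs hst c l hS, ← neg_mul, ← dd_neg, inv_eq_of_mul_eq_one_left (a := -i) (by linear_combination -hi)])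
  have cm := hY.comm h.two hS c2
  have d1 : a * d - b * c' = 1 := by
    have : ∀ k, dl (dg a b c' d ^ k) = dl (dg a b c' d) ^ k ∧ UL (dg a b c' d ^ k) := fun k => by
      induction k with
      | zero => simp [dl_one, UL]
      | succ k ih => rw [pow_succ, dl_mul _ (ul_dg _ _ _ _), ih.1, pow_succ]; exact ⟨rfl, ih.2.mul (ul_dg _ _ _ _)⟩
    have e1 := (this r).1
    rw [e, dl_one] at e1
    refine odd_root o (by simpa [dl, dg] using e1.symm) (mul_left_cancel₀ (mul_ne_zero h0 h1) ?_)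
    have := congrArg (fun X => X 0 2 * X 1 3 - X 0 3 * X 1 2) cm
    simp [dg, sw, mul_apply, Fin.sum_univ_four] at this
    field_simp at this
    linear_combination -this
  have q : dg a b c' d * dg a b c' d = (a + d) • dg a b c' d - 1 := by
    ext i j; fin_cases i <;> fin_cases j <;> simp [dg, mul_apply, Fin.sum_univ_four, d1] <;> grind
  refine ⟨⟨_, _, hY, q⟩, fun r0 => y1 ((hY.eq_one h.two).2 (fld4 h.two d1 h0 ?_ cm.symm (h.sq hs hS)))⟩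
  have e1 := nil_of_pow (k := 1) hr r0 (by simpa using e)
  rw [show (dg a b c' d - 1) ^ 4 = ((dg a b c' d - 1) * (dg a b c' d - 1)) ^ 2 by simp only [pow_succ, pow_zero, one_mul, mul_assoc],
    show (dg a b c' d - 1) * (dg a b c' d - 1) = (a + d - 2) • dg a b c' d by
      rw [sub_mul, mul_sub, q, sub_smul, two_smul]; simp; abel, smul_pow, smul_eq_zero] at e1
  exact sub_eq_zero.1 (pow_eq_zero_iff two_ne_zero |>.1 (e1.resolve_right fun k => hY.1.sp.det_ne (by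
    simpa using congrArg det k)))

theorem II.odd_comm [Finite K] (h : ρ.II) (ht : Inv t) {a b : T} {m : ℕ} (ha : a ∈ Cn t) (hb : b ∈ Cn t) (hn : Odd n)
    (hm : Odd m) (e : a ^ n = 1) (e' : b ^ m = 1) : a * b = b * a := by
  have := ρ.finite
  obtain ⟨A, O, h1, -, -, -, h2, h3, -, h4⟩ := h.cent ht
  exact h.oa ht.1 (h2.trans h1) h3 (h4 a ha n hn e) (h4 b hb m hm e')

theorem II.nt [Finite K] (h : ρ.II) (ht : Inv t) (hs : Inv s) (hst : s ≠ t) (c : s * t = t * s) (hr : r.Prime) (o : Odd r)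
    (y1 : y ≠ 1) (hy : y ^ r = 1) (c1 : t * y = y * t) (c2 : s * y = y * s) :
    ∃ (M Z : Subgroup T) (ψ : M →* PG K), y ∈ Z ∧ Z ≤ M ∧ (∀ x : M, ψ x = 1 ↔ (x : T) ∈ Z) ∧ Odd (Nat.card Z) ∧
      (Nat.card Z : K) ≠ 0 ∧ (∀ z ∈ Z, ρ.Rot z) ∧
      (∀ x ∈ M, (∀ z ∈ Z, x * z * x⁻¹ = z) ∨ ∀ z ∈ Z, x * z * x⁻¹ = z⁻¹) ∧
      (∀ z ∈ Z, z ≠ 1 → ∀ g, g * z * g⁻¹ ∈ Z → g ∈ M) ∧ Cn t ≤ M ∧ Cn s ≤ M ∧ Cn (s * t) ≤ M ∧
      ∀ l : ℕ, l.Prime → (l : K) = 0 → l ∣ Nat.card M → l = 3 ∧ ¬ 9 ∣ Nat.card T := by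
  have := ρ.finite
  obtain ⟨⟨Y, m, hY, q⟩, r0⟩ := h.rot_of_four ht hs hst c hr o y1 hy c1 c2
  obtain ⟨P, μ, hP, e⟩ := exists_rot r0 hY.1.sp (hY.pow_eq h.two hy) (h.split _ _ hY.1) q
  replace hY := hY.cj' hP e
  replace h := h.cj hP
  suffices ∃ (M Z : Subgroup T) (ψ : M →* PG K), _ ∧ _ ∧ _ ∧ _ ∧ _ ∧ (∀ z ∈ Z, (ρ.cj P hP).Rot z) ∧ _ by
    obtain ⟨M, Z, ψ, a1, a2, a3, a4, a5, a6, a7⟩ := this
    exact ⟨M, Z, ψ, a1, a2, a3, a4, a5, fun z hz => (a6 z hz).of_cj, a7⟩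
  clear q e
  generalize ρ.cj P hP = ρ at *
  have h2 := h.two
  have sq : ∀ {z a}, ρ.O z (dd a a) → z ≠ 1 → a ^ 2 ≠ 1 := fun {z a} k n e => n ((k.eq_one h2).2 (by
    obtain ⟨j, j1, j2⟩ := k.2
    rw [dd_pow, dd_eq_one] at j2
    rw [odd_root j1 j2.1 (by rwa [← pow_two]), dd_one]))
  have μ2 := sq hY y1
  have μ0 := hY.1.sp.dd_ne.1
  let M : Subgroup T :=
    { carrier := {x | ∃ X, ρ.L x X ∧ (X * dd μ μ = dd μ μ * X ∨ X * dd μ μ = dd μ⁻¹ μ⁻¹ * X)}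
      mul_mem' := fun ⟨X, a, b⟩ ⟨Y, c, d⟩ => ⟨_, a.mul c, by
        rcases b with b | b <;> [obtain ⟨_, _, _, _, -, rfl⟩ := comm_dd a.sp μ2 μ0 b;
          obtain ⟨_, _, _, _, -, rfl⟩ := anti_dd a.sp μ2 μ0 b] <;> rcases d with d | d <;>
          simp only [mul_assoc, d] <;> simp only [← mul_assoc, dg_dd, sw_dd, inv_inv, true_or, or_true]⟩
      one_mem' := ⟨1, ρ.oneL, by simp⟩
      inv_mem' := fun ⟨X, a, b⟩ => ⟨_, a.inv, by
        rcases b with b | b <;> [left; right] <;> have := congrArg ad b <;> simp only [ad_mul, ad_dd, inv_inv] at this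
        · refine hY.1.sp.inv.cancel ?_
          rw [ad_dd, ← mul_assoc, this, mul_assoc, dd_mul, ← mul_assoc, dd_mul]; simp [μ0, dd_one]
        · exact this.symm⟩ }
  have fm : ∀ x ∈ M, ∀ X, ρ.L x X → ∃ a b c d, a * d - b * c ≠ 0 ∧ (X = dg a b c d ∨ X = sw a b c d) :=
    fun x ⟨Y, a, b⟩ X hX => by
      have : X * dd μ μ = dd μ μ * X ∨ X * dd μ μ = dd μ⁻¹ μ⁻¹ * X := by
        rcases a.uniq hX with rfl | rfl <;> simpa using b
      rcases this with b | b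
      · obtain ⟨a, b, c, d, k, e⟩ := comm_dd hX.sp μ2 μ0 b
        exact ⟨a, b, c, d, k, Or.inl e⟩
      · obtain ⟨a, b, c, d, k, e⟩ := anti_dd hX.sp μ2 μ0 b
        exact ⟨a, b, c, d, k, Or.inr e⟩
  let Z : Subgroup T :=
    { carrier := {x | ∃ a, ρ.L x (dd a a)}
      mul_mem' := fun ⟨a, k⟩ ⟨b, l⟩ => ⟨_, dd_mul a a b b ▸ k.mul l⟩
      one_mem' := ⟨1, dd_one (K := K) ▸ ρ.oneL⟩
      inv_mem' := fun ⟨a, k⟩ => ⟨_, ad_dd a a ▸ k.inv⟩ }
  have dgy : ∀ {u U}, ρ.L u U → u * y = y * u → ∃ a b c d, a * d - b * c ≠ 0 ∧ U = dg a b c d := fun hU e =>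
    comm_dd hU.sp μ2 μ0 (hY.comm h2 hU e)
  have ns : ∀ {t s : T}, MH.Inv t → MH.Inv s → s ≠ t → s * t = t * s → s * y = y * s → t ∉ Z := fun ht hs hst c c2 ⟨a, k⟩ => by
    obtain ⟨S, hS⟩ := ρ.exL _
    obtain ⟨_, _, _, _, -, rfl⟩ := dgy hS c2
    have := h.anti ht hs hst c k hS
    rw [dg_dd] at this
    exact (k.mul hS).sp.ne_neg h2 this
  have oZ : Odd (Nat.card Z) := Nat.odd_iff.2 (odd_card fun z iz ⟨a, k⟩ => by
    obtain ⟨S, hS⟩ := ρ.exL t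
    obtain ⟨_, _, _, _, -, rfl⟩ := dgy hS c1
    refine ns ht hs hst c c2 (by_contra fun n => ?_)
    have := h.anti iz ht (fun e => n (e ▸ ⟨a, k⟩)) (hS.comm_of k (dg_dd _ _ _ _ _)) k hS
    rw [dg_dd] at this
    exact (k.mul hS).sp.ne_neg h2 this)
  have zo : ∀ z ∈ Z, ∃ a, ρ.O z (dd a a) := fun z ⟨a, k⟩ => by
    obtain ⟨X, hX, -⟩ := ρ.exO oZ (pow_card_mem (H := Z) ⟨a, k⟩)
    rcases k.uniq hX.1 with rfl | rfl
    exacts [⟨a, hX⟩, ⟨-a, dd_neg a a ▸ hX⟩]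
  have nz : ∀ z ∈ Z, z ≠ 1 → ∀ g, g * z * g⁻¹ ∈ Z → g ∈ M := fun z hz z1 g hg => by
    obtain ⟨a, k⟩ := zo z hz
    obtain ⟨b, l⟩ := zo _ hg
    obtain ⟨G, hG⟩ := ρ.exL g
    have e := k.conj_eq h2 hG l rfl
    obtain ⟨i, j, e'⟩ := hG.sp.rows
    have : b = a ∨ b = a⁻¹ := ev_self (e' _ _ _ _ e).1
    rcases this with rfl | rfl
    · obtain ⟨_, _, _, _, -, rfl⟩ := comm_dd hG.sp (sq k z1) k.1.sp.dd_ne.1 e
      exact ⟨_, hG, Or.inl (dg_dd _ _ _ _ _)⟩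
    · obtain ⟨_, _, _, _, -, rfl⟩ := anti_dd hG.sp (sq k z1) k.1.sp.dd_ne.1 e
      exact ⟨_, hG, Or.inr (sw_dd _ _ _ _ _)⟩
  have cm : ∀ {t s : T}, MH.Inv t → MH.Inv s → s ≠ t → s * t = t * s → t * y = y * t → s * y = y * s → Cn t ≤ M :=
    fun {t s} ht hs hst c c1 c2 x hx => by
      refine nz y ⟨μ, hY.1⟩ y1 x ?_
      obtain ⟨X, hX⟩ := ρ.exL x
      obtain ⟨U, hU⟩ := ρ.exL t
      have m := mul_mem (mul_mem hx (mem_Cn.2 c1)) (inv_mem hx)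
      have k := hY.conj hX
      obtain ⟨a, b, c', d, h1, e⟩ := dgy k.1 (h.odd_comm ht m (mem_Cn.2 c1) o o (by simp [hy]) hy)
      obtain ⟨e', f, g, j, h0, rfl⟩ := dgy hU c1
      obtain ⟨rfl, rfl, rfl⟩ := fld5 (m := μ + μ⁻¹) h2 h1 h0 (by
          rw [← e, ← pow_two, cj_pow hX.sp, show dd μ μ ^ 2 = (μ + μ⁻¹) • dd μ μ - 1 by
            rw [pow_two]; ext i j; fin_cases i <;> fin_cases j <;> simp [dd, mul_apply, Fin.sum_univ_four, add_mul, μ0]]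
          simp [mul_sub, sub_mul, hX.sp.right]) (h.sq ht hU)
        (by
          rintro ⟨rfl, rfl, rfl⟩
          exact ns ht hs hst c c2 ⟨j, dg_scal j ▸ hU⟩)
        (e ▸ (k.comm h2 hU (mem_Cn.1 m)).symm) fun e1 e2 => by
          have t0 : (dg e' f g j * dd μ μ).trace = 0 := by
            simp [dg, dd, trace, Fin.sum_univ_four, e1]; grind
          rw [← e, ← mul_assoc, trace_mul_comm, ← mul_assoc, ← mul_assoc]
          rcases (hX.comm_iff hU).1 (mem_Cn.1 hx).symm with k | k <;> simp [mul_assoc (ad X), k] <;>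
            simp [← mul_assoc, hX.sp.left, t0]
      exact ⟨d, k.1.congr (by rw [e, dg_scal])⟩
  have act : ∀ x ∈ M, (∀ z ∈ Z, x * z * x⁻¹ = z) ∨ ∀ z ∈ Z, x * z * x⁻¹ = z⁻¹ := fun x hx => by
    obtain ⟨X, hX⟩ := ρ.exL x
    obtain ⟨_, _, _, _, -, rfl | rfl⟩ := fm x hx X hX
    · exact Or.inl fun z ⟨a, k⟩ => (hX.conj_of k (dg_dd _ _ _ _ _)).inj k
    · exact Or.inr fun z ⟨a, k⟩ => (hX.conj_of k (sw_dd _ _ _ _ _)).inj (ad_dd a a ▸ k.inv)
  obtain ⟨ψ, hψ⟩ := ρ.exists_hom M _ (fun X => X 0 0 + X 0 2) (fun X => X 0 1 - X 0 3) (fun X => X 1 0 + X 1 2)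
    (fun X => X 1 1 - X 1 3) fm (by
      rintro _ - ⟨a, b, c, d, k, rfl | rfl⟩ <;> simp [dg, sw] <;> grind) (by simp [add_comm, sub_eq_add_neg]) (by
      rintro _ _ - - ⟨a, b, c, d, k, rfl | rfl⟩ ⟨a', b', c', d', k', rfl | rfl⟩
      exacts [⟨1, by simp [dg, mul_apply, Fin.sum_univ_four]⟩, ⟨1, by simp [dg, sw, mul_apply, Fin.sum_univ_four, add_comm]⟩,
        ⟨(a' * d' - b' * c')⁻¹, by simp [dg, sw, mul_apply, Fin.sum_univ_four]; grind⟩,
        ⟨-(a' * d' - b' * c')⁻¹, by simp [sw, mul_apply, Fin.sum_univ_four]; grind⟩])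
  have st := hs.mul ht hst c
  refine ⟨M, Z, ψ, ⟨μ, hY.1⟩, fun z ⟨a, k⟩ => ⟨_, k, Or.inl (dd_comm _ _ _ _)⟩, fun x => ?_, oZ, fun e => ?_, fun z hz => ?_, act,
    nz, cm ht hs hst c c1 c2, cm hs ht hst.symm c.symm c2 c1, cm st ht (by simpa using hs.1)
      (by rw [← mul_assoc, ← c]) (by rw [mul_assoc, c1, ← mul_assoc, c2, mul_assoc]) c1, fun l hl l0 hd => ?_⟩
  · obtain ⟨X, hX⟩ := ρ.exL x
    obtain ⟨_, e⟩ := hψ x X hX
    rw [e, mob_eq_one]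
    refine ⟨fun k => ?_, fun ⟨a, k⟩ => by rcases k.uniq hX with rfl | rfl <;> simp [dd]⟩
    obtain ⟨a, b, c, d, h0, rfl | rfl⟩ := fm x x.2 X hX
    · simp [dg] at k
      obtain ⟨rfl, rfl, rfl⟩ := k
      exact ⟨_, hX.congr (dg_scal _).symm⟩
    · simp [sw] at k
      obtain ⟨rfl, rfl, rfl⟩ := k
      have d0 : d ≠ 0 := by simpa using h0
      rw [h.nr _ _ hX (by ext i j; fin_cases i <;> fin_cases j <;> simp [sw, mul_apply, Fin.sum_univ_four] <;> field_simp)]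
      exact one_mem _
  · obtain ⟨p, hp, p0⟩ := exists_char K
    have := (CharP.charP_iff_prime_eq_zero (R := K) hp).2 p0
    obtain ⟨z, hz, e1⟩ := exists_mem_orderOf hp ((CharP.cast_eq_zero_iff K p _).1 e)
    obtain ⟨a, k⟩ := zo z hz
    have e2 := congrFun (congrFun (nil_of_pow (k := 1) hp p0 (k.pow_eq h2 (by simp [← e1]))) 0) 0
    have : (a - 1) ^ 4 = 0 := by simpa [pow_succ, mul_apply, Fin.sum_univ_four, dd, one_apply] using e2
    rw [(k.eq_one h2).2 (by rw [sub_eq_zero.1 (pow_eq_zero_iff (by norm_num) |>.1 this), dd_one]), orderOf_one] at e1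
    exact hp.one_lt.ne e1
  · obtain ⟨a, k⟩ := zo z hz
    have := k.1.sp.dd_ne.1
    exact ⟨_, a + a⁻¹, k, by ext i j; fin_cases i <;> fin_cases j <;> simp [dd, mul_apply, Fin.sum_univ_four, add_mul, this]⟩
  refine h.small.2.elim (fun q => ?_) fun k => ⟨char_uniq Nat.prime_three k.1 hl l0, k.2⟩
  obtain ⟨u, hu, e⟩ := exists_mem_orderOf hl hd
  have e1 : u ^ l ^ 1 = 1 := by simp [← e]
  have : u * y * u⁻¹ = y := by
    rcases act u hu with k | k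
    · exact k y ⟨μ, hY.1⟩
    obtain ⟨j, hj⟩ := odd_char h2 hl l0
    have k2 : Commute (u ^ 2) y := by
      rw [pow_two]
      refine mul_inv_eq_iff_eq_mul.1 ?_
      calc _ = u * (u * y * u⁻¹) * u⁻¹ := by group
        _ = _ := by rw [k y ⟨μ, hY.1⟩, k _ (Z.inv_mem ⟨μ, hY.1⟩), inv_inv]
    have := k2.pow_left (j + 1)
    rw [← pow_mul, show 2 * (j + 1) = l ^ 1 + 1 by rw [pow_one]; omega, pow_succ, e1, one_mul] at this
    rw [this.eq, mul_inv_cancel_right]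
  have := (q.cent h2 hl l0 e1 (by rintro rfl; exact hl.one_lt.ne (by simpa using e))).1 y
    (mem_Cn.2 (mul_inv_eq_iff_eq_mul.1 this))
  exact absurd (orderOf_eq_one_iff.1 (Nat.eq_one_of_dvd_coprimes (((Nat.coprime_primes hr hl).2 (by
    rintro rfl; exact r0 l0)).pow_right 2) (orderOf_dvd_of_pow_eq_one hy) (orderOf_dvd_of_pow_eq_one this))) y1

theorem II.four_rot (h : ρ.II) {R : Set T} (hn : Odd n) (hn' : (n : K) ≠ 0) (h1 : ∀ x ∈ R, x ^ n = 1)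
    (hc : ∀ x ∈ R, ∀ y ∈ R, x * y = y * x) (hz : z ∈ R) (hr : ρ.Rot z) :
    ∃ w, ∀ g, g * z * g⁻¹ ∈ R → g * z * g⁻¹ = z ∨ g * z * g⁻¹ = z⁻¹ ∨ g * z * g⁻¹ = w ∨ g * z * g⁻¹ = w⁻¹ := by
  obtain ⟨P, hP, k⟩ := h.diag hn hn' h1 hc
  obtain ⟨X, m, hX, q⟩ := hr.cj hP
  generalize ρ.cj P hP = ρ' at *
  obtain ⟨a, b, l⟩ := k z hz
  obtain rfl := l.uniq h.two hX
  have key : ∀ {c d : K}, c ≠ 0 → dd c d * dd c d = m • dd c d - 1 → c * c = m * c - 1 ∧ d * d = m * d - 1 := fun _ e =>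
    ⟨by simpa [dd_mul, dd] using congrFun (congrFun e 0) 0, by simpa [dd_mul, dd] using congrFun (congrFun e 1) 1⟩
  obtain ⟨a0, b0⟩ := l.1.sp.dd_ne
  obtain ⟨w, hw⟩ : ∃ w, ∀ x, ρ'.L x (dd a b⁻¹) → x = w := by
    by_cases e : ∃ w, ρ'.L w (dd a b⁻¹)
    exacts [e.imp fun w e x e' => e'.inj e, ⟨1, fun x e' => absurd ⟨x, e'⟩ e⟩]
  refine ⟨w, fun g hg => ?_⟩
  obtain ⟨c, d, l'⟩ := k _ hg
  obtain ⟨G, hG⟩ := ρ'.exL g
  obtain ⟨e1, e2⟩ := key a0 q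
  obtain ⟨e3, e4⟩ := key l'.1.sp.dd_ne.1 (by
    rw [(l.conj hG).uniq h.two l', ← pow_two, cj_pow hG.sp, pow_two, q]; simp [mul_sub, sub_mul, hG.sp.right])
  have f1 : c = a ∨ c = a⁻¹ := by grind
  have f2 : d = b ∨ d = b⁻¹ := by grind
  rcases f1 with rfl | rfl <;> rcases f2 with rfl | rfl
  · exact Or.inl (l'.1.inj l.1)
  · exact Or.inr (Or.inr (Or.inl (hw _ l'.1)))
  · exact Or.inr (Or.inr (Or.inr (inv_eq_iff_eq_inv.1 (hw _ (l'.1.inv.congr (by simp [ad_dd]))))))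
  · exact Or.inr (Or.inl (l'.1.inj (ad_dd a b ▸ l.1.inv)))

end SRep

end Cfsg.Agent.H1.Mit
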