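import Cfsg.Agent.H1.M4G1
import Cfsg.Agent.H1.M4L4
import Cfsg.Agent.H7.BS5

/-! Involutions; the dihedral case. -/

set_option autoImplicit false

namespace Cfsg.Agent.H1.Mit

open Subgroup Cfsg.Agent.MH

variable {T K : Type*} [Group T] [Field K] {x y z g s t u v : T} {H : Subgroup T}

/-- no element of odd order is centralised by a four-group -/
def NF (T : Type*) [Group T] : Prop :=
  ∀ u v : T, Inv u → Inv v → u ≠ v → u * v = v * u → ∀ y, Od y → y ∈ Cn u → y ∈ Cn v → y = 1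

theorem Cls.other (hc : Cls t) (hs : Inv s) (h1 : s ≠ t) (h2 : s ∈ Cn t) (hu : Inv u) : ∃ v, Inv v ∧ v ≠ u ∧ v ∈ Cn u := by
  obtain ⟨g, rfl⟩ := hc u hu
  refine ⟨g⁻¹ * s * g⁻¹⁻¹, hs.conj _, fun e => h1 (by rw [← e]; group), (conj_mem_Cn (g := g)).1 ?_⟩
  simpa [mul_assoc] using h2

namespace SRep

variable {ρ : SRep T K}

theorem II.syl_comm [Finite K] (h : ρ.II) {r : ℕ} (hr : r.Prime) (o : Odd r) (R : Sylow r T) :
    ∀ x ∈ R, ∀ y ∈ R, x * y = y * x := fun x hx y hy => by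
  have := ρ.finite
  have := Fact.mk hr
  by_cases e : (R : Subgroup T) = ⊥
  · rw [show x = 1 from mem_bot.1 (e ▸ hx)]; simp
  obtain ⟨z, -, e1, e2⟩ := exists_center hr R.2 e
  obtain ⟨k, hk⟩ := IsPGroup.iff_card.1 R.2
  exact h.oa (by rintro rfl; exact hr.one_lt.ne (by simpa using e1)) e2 (hk ▸ o.pow) hx hy

theorem II.even [Finite K] (h : ρ.II) : 2 ∣ Nat.card T := by
  have := ρ.finite
  have := h.simple
  by_contra n
  have ho : Odd (Nat.card (⊤ : Subgroup T)) := by rw [card_top, Nat.odd_iff]; omega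
  obtain ⟨p, hp, p0⟩ := exists_char K
  refine bot_ne_top (not_pgroup_quot h.perf (H := ⊥) hp (index_bot.trans (Nat.eq_prime_pow_of_unique_prime_dvd
    Nat.card_pos.ne' fun {r} hr hd => by_contra fun e => ?_)))
  have := Fact.mk hr
  obtain ⟨R⟩ : Nonempty (Sylow r T) := inferInstance
  have o : Odd r := ho.of_dvd_nat (card_top (G := T) ▸ hd)
  obtain ⟨k, hk⟩ := IsPGroup.iff_card.1 R.2
  refine R.ne_bot_of_dvd_card hd (burnside h.perf hr R fun g hg y hy => mem_Cn.1 ((Od.of_mem ho (mem_top g)).mem (k := 2)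
    (mem_Cn.2 (h.w4 (h.syl_comm hr o R) (hk ▸ o.pow) ?_ hg hy).symm)))
  rw [hk, Nat.cast_pow]
  exact pow_ne_zero _ fun r0 => e (char_uniq hp p0 hr r0)

theorem II.exists_t [Finite K] (h : ρ.II) : ∃ (S : Sylow 2 T) (t s : T), Inv t ∧ t ∈ S ∧ (S : Subgroup T) ≤ Cn t ∧ Cls t ∧
    Inv s ∧ s ≠ t ∧ s ∈ Cn t := by
  have := ρ.finite
  have := h.simple
  obtain ⟨S⟩ : Nonempty (Sylow 2 T) := inferInstance
  obtain ⟨t, ht, e, hS⟩ := exists_center Nat.prime_two S.2 (S.ne_bot_of_dvd_card h.even)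
  have it := inv_of_orderOf e
  obtain ⟨s, a, b, c⟩ : ∃ s, Inv s ∧ s ≠ t ∧ s ∈ Cn t := by
    by_contra n
    push Not at n
    have n' : ∀ s : T, Inv s → s ∈ Cn t → s = t := fun s a b => by_contra fun c => n s a c b
    refine H7.BS.simple_case (fun k => bot_ne_top (h.perf ▸ (commutator_eq_bot_iff_center_eq_top (G := T)).2
      (eq_top_iff.2 fun a _ => mem_center_iff.2 fun b => k.1.1 b a)).symm) (fun x y x1 y1 x2 y2 c => ?_) h.even
    obtain ⟨g, hg⟩ := exists_conj_mem_sylow (k := 1) Nat.prime_two S (z := x) (by simpa [pow_two] using x2)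
    have e1 := n' _ (Inv.conj ⟨x1, x2⟩ g) (hS hg)
    have e2 := n' _ (Inv.conj ⟨y1, y2⟩ g) (e1 ▸ conj_mem_Cn.2 (mem_Cn.2 c))
    simpa using e1.trans e2.symm
  obtain ⟨A, O, h1, h2, h3, h4, -⟩ := h.cent it
  refine ⟨S, t, s, it, ht, hS, fun u hu => ?_, a, b, c⟩
  obtain ⟨g, hg⟩ := thompson_half h.perf S hS (card_two h1 c (fun k => b (h4 s k a)) h3) hu.2
  exact ⟨g, h4 _ hg (hu.conj g)⟩

theorem II.tdA [Finite K] (h : ρ.II) (nf : NF T) (hu : Inv u) (hv : Inv v) (h1 : v ≠ u) (h2 : v ∈ Cn u) :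
    ∃ A ≤ Cn u, u ∈ A ∧ Nat.card (Cn u) = 2 * Nat.card A ∧ (∀ x ∈ A, ∀ y ∈ A, x * y = y * x) ∧
      (∀ s ∈ A, Inv s → s = u) ∧ (∀ x ∈ Cn u, x ∉ A → x * x = 1) ∧ ∀ x ∈ Cn u, x ∉ A → x * v ∈ A := by
  have := ρ.finite
  obtain ⟨A, O, a1, a2, a3, a4, a5, a6, a7, -⟩ := h.cent hu
  have vA : v ∉ A := fun k => h1 (a4 v k hv)
  have out : ∀ x ∈ Cn u, x ∉ A → x * x = 1 := fun x hx n => by
    obtain ⟨m, ⟨k, rfl⟩, e⟩ := Od.of_mem a6 (a7 x hx n)
    have n' : x ^ (2 * k + 1) ∉ A := fun a => n ((mul_mem_cancel_left (by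
      rw [pow_mul, pow_two]; exact pow_mem (a5 (a7 x hx n)) k)).1 (pow_succ x _ ▸ a))
    exact nf u (x ^ (2 * k + 1)) hu ⟨fun a => n' (a ▸ A.one_mem), by rw [← (Commute.refl x).mul_pow, e]⟩ (fun a => n' (a ▸ a2))
      (mem_Cn.1 (pow_mem hx _)) _ (Od.of_mem a6 (a7 x hx n)) (mul_mem hx hx) (pow_mem_Cn (mul_mem (self_mem_Cn x) (self_mem_Cn x)) _)
  have iv : ∀ a ∈ A, v * a * v = a⁻¹ := fun a ha => eq_inv_of_mul_eq_one_left (by
    rw [mul_assoc (v * a), out _ (mul_mem h2 (a1 ha)) fun k => vA ((mul_mem_cancel_right ha).1 k)])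
  refine ⟨A, a1, a2, card_two a1 h2 vA a3, fun x hx y hy => inv_injective ?_, a4, out, fun x a b => a3 x a v h2 b vA⟩
  rw [← iv _ (mul_mem hx hy), mul_inv_rev, ← iv x hx, ← iv y hy]
  simp [mul_assoc, ← mul_assoc v v, hv.2]

theorem II.nf_inv [Finite K] (h : ρ.II) (nf : NF T) (hu : Inv u) (hv : Inv v) (h1 : v ≠ u) (h2 : v ∈ Cn u) (ho : Od y)
    (hy : y ∈ Cn u) : v * y * v⁻¹ = y⁻¹ := by
  obtain ⟨A, a1, a2, -, a3, a4, a5, -⟩ := h.tdA nf hu hv h1 h2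
  have m : y ∈ A := by_contra fun n => n (ho.eq_one (a5 y hy n) ▸ A.one_mem)
  refine eq_inv_of_mul_eq_one_left ?_
  rw [hv.inv_eq, mul_assoc (v * y), a5 _ (mul_mem h2 hy) fun k => h1 (a4 v ((mul_mem_cancel_right m).1 k) hv)]

theorem II.nf_oc [Finite K] (h : ρ.II) (nf : NF T) (hc : Cls t) (hs : Inv s) (h1 : s ≠ t) (h2 : s ∈ Cn t) (ho : Od y)
    (y1 : y ≠ 1) {a b : T} (ha : a ∈ Cn y) (hb : b ∈ Cn y) (oa : Od a) (ob : Od b) : a * b = b * a := by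
  have := ρ.finite
  have k : ∀ z ∈ Cn y, ∀ z' ∈ Cn y, Inv z → Inv z' → z * z' = z' * z → z = z' := fun z a z' a' b b' c =>
    by_contra fun n => y1 (nf z z' b b' n c y ho (mem_Cn_comm.1 a) (mem_Cn_comm.1 a'))
  obtain ⟨Q, a1, a2, a3⟩ := exists_compl (Cn y) k fun z hz iz a ha b hb c d => by
    obtain ⟨v, v1, v2, v3⟩ := Cls.other hc hs h1 h2 iz
    obtain ⟨A, -, b2, -, b3, -, b5, -⟩ := h.tdA nf iz v1 v2 v3
    have : ∀ a ∈ Cn y, a ∈ Cn z → a ∈ A := fun a ha c => by_contra fun n =>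
      n (k z hz a ha iz ⟨fun e => n (e ▸ A.one_mem), b5 a c n⟩ (mem_Cn.1 c) ▸ b2)
    exact b3 a (this a ha c) b (this b hb d)
  exact h.oa y1 a1 a2 (a3 a ha oa) (a3 b hb ob)

theorem II.nf_cyc [Finite K] (h : ρ.II) (nf : NF T) (ht : Inv t) (hc : Cls t)
    (hs : Inv s) (h1 : s ≠ t) (h2 : s ∈ Cn t) : ∃ g, g * t * g⁻¹ = s ∧ g * s * g⁻¹ = t * s := by
  have := ρ.finite
  have c := mem_Cn.1 h2
  have sw : ∀ {u v a : T}, Inv u → Inv v → v ≠ u → v ∈ Cn u → a ∈ Cn u → a * a ≠ 1 → a * v * a⁻¹ = a * a * v :=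
    fun {u v a} hu hv h1 h2 ha a1 => by
      obtain ⟨A, -, -, -, -, a4, a5, -⟩ := h.tdA nf hu hv h1 h2
      have := a5 _ (mul_mem ha h2) fun k => h1 (a4 v ((mul_mem_cancel_left (by_contra fun n => a1 (a5 a ha n))).1 k) hv)
      rw [← eq_inv_iff_mul_eq_one, mul_inv_rev, hv.inv_eq] at this
      rw [mul_assoc, ← this, mul_assoc]
  by_cases h4 : ∃ a : T, a * a ≠ 1 ∧ a ^ 4 = 1
  · obtain ⟨a, a1, a2⟩ := h4
    have sq : ∀ u : T, Inv u → ∃ b, b * b = u := fun u hu => by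
      obtain ⟨g, e⟩ := hc u hu
      obtain ⟨k, e'⟩ := hc _ ⟨a1, pow_four_eq a ▸ a2⟩
      exact ⟨g⁻¹ * k * a * (g⁻¹ * k)⁻¹, by rw [conj_mul, mul_assoc g⁻¹, mul_inv_rev, ← mul_assoc, mul_assoc g⁻¹, e', ← e]; group⟩
    obtain ⟨b, hb⟩ := sq t ht
    obtain ⟨b', hb'⟩ := sq s hs
    have m : b ∈ Cn t := mem_Cn.2 (by rw [← hb, mul_assoc])
    have m' : b' ∈ Cn s := mem_Cn.2 (by rw [← hb', mul_assoc])
    have e1 := sw ht hs h1 h2 m (hb ▸ ht.1)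
    have e2 := sw hs ht h1.symm (mem_Cn_comm.1 h2) m' (hb' ▸ hs.1)
    rw [hb] at e1
    rw [hb'] at e2
    refine ⟨b * b', ?_, ?_⟩
    · rw [show b * b' * t * (b * b')⁻¹ = b * (b' * t * b'⁻¹) * b⁻¹ by group, e2, ← conj_mul, e1, conj_eq_of_Cn m, c,
        mul_assoc, ht.2, mul_one]
    · rw [show b * b' * s * (b * b')⁻¹ = b * (b' * s * b'⁻¹) * b⁻¹ by group, conj_eq_of_Cn m', e1]
  push Not at h4
  have e2 : ∀ a : T, ∀ k, a ^ 2 ^ k = 1 → a * a = 1 := fun a k => by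
    induction k generalizing a with
    | zero => intro e; simp_all
    | succ k ih => exact fun e => by_contra fun n => h4 a n (by rw [pow_four_eq, ih (a * a) (by rwa [← pow_two, ← pow_mul, ← pow_succ'])])
  obtain ⟨S, tS, sS⟩ := exists_sylow_pair (r := 2) (i := 1) (j := 1) (by simpa [pow_two] using ht.2)
    (by simpa [pow_two] using hs.2) c
  have eS : ∀ a ∈ S, a * a = 1 := fun a ha => (S.2 ⟨a, ha⟩).elim fun k e => e2 a k (congrArg Subtype.val e)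
  obtain ⟨A, -, -, -, -, a5, -, a7⟩ := h.tdA nf ht hs h1 h2
  have four : ∀ x ∈ S, x = 1 ∨ x = t ∨ x = s ∨ x = t * s := fun x hx => by
    have k : ∀ x ∈ A, x ∈ S → x = 1 ∨ x = t := fun x a b => or_iff_not_imp_left.2 fun c => a5 x a ⟨c, eS x b⟩
    by_cases m : x ∈ A
    · rcases k x m hx with e | e <;> simp [e]
    have xt : x ∈ Cn t := mem_Cn.2 (by
      rw [← inv_eq_of_mul_eq_one_right (eS _ (mul_mem tS hx)), mul_inv_rev, ht.inv_eq, inv_eq_of_mul_eq_one_right (eS x hx)])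
    rcases k _ (a7 x xt m) (mul_mem hx sS) with e | e
    · simp [hs.inv_eq ▸ eq_inv_of_mul_eq_one_left e]
    · simp [← e, mul_assoc, hs.2]
  have nt : ∀ {u v g : T}, Inv u → Inv v → v ≠ u → v ∈ Cn u → g * u * g⁻¹ = u → g * v * g⁻¹ ≠ u * v :=
    fun {u v g} hu hv h1 h2 e1 e2 => by
      by_cases g2 : g * g = 1
      · have : g * v * (g * v) = u := by
          rw [inv_eq_of_mul_eq_one_right g2] at e2
          rw [← mul_assoc, e2, mul_assoc, hv.2, mul_one]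
        exact h4 _ (this ▸ hu.1) (by rw [pow_four_eq, this, hu.2])
      · rw [sw hu hv h1 h2 (Cn_of_conj e1) g2, mul_left_inj] at e2
        exact h4 g g2 (by rw [pow_four_eq, e2, hu.2])
  have its := ht.mul hs h1.symm c
  by_contra n
  push Not at n
  refine ht.1 (mem_bot.1 (burnside h.perf Nat.prime_two S (fun g hg y hy => ?_) ▸ tS))
  have : g * t * g⁻¹ = t ∧ g * s * g⁻¹ = s := by
    have e : g * (t * s) * g⁻¹ = g * t * g⁻¹ * (g * s * g⁻¹) := by group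
    rcases (four _ (Nm_conj hg tS)).resolve_left (ht.conj g).1 with e1 | e1 | e1 <;>
      rcases (four _ (Nm_conj hg sS)).resolve_left (hs.conj g).1 with e2 | e2 | e2
    · exact absurd (e2.trans e1.symm) (by simpa using h1)
    · exact ⟨e1, e2⟩
    · exact absurd e2 (nt ht hs h1 h2 e1)
    · exact absurd (by rw [e1, c, mul_assoc, ht.2, mul_one]) (nt its ht (by simpa using hs.1)
        (mem_Cn.2 (by rw [mul_assoc, ← c])) (by rw [e, e1, e2, c]))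
    · exact absurd (e2.trans e1.symm) (by simpa using h1)
    · exact absurd e2 (n g e1)
    · have e3 : g⁻¹ * t * g⁻¹⁻¹ = s := by rw [← e2]; group
      refine absurd ?_ (n _ e3)
      rw [e1, e2, c, mul_assoc s, ht.2, mul_one] at e
      calc _ = g⁻¹ * (g * (s * t) * g⁻¹) * g⁻¹⁻¹ := by rw [e]
        _ = _ := by rw [c]; group
    · exact absurd (e1.trans c) (nt hs ht h1.symm (mem_Cn_comm.1 h2) e2)
    · exact absurd (e2.trans e1.symm) (by simpa using h1)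
  have e1 := Cn_of_conj this.1
  have e2 := Cn_of_conj this.2
  rcases four y hy with rfl | rfl | rfl | rfl
  exacts [by simp, mem_Cn.1 e1, mem_Cn.1 e2, mem_Cn.1 (mem_Cn_comm.1 (mul_mem (mem_Cn_comm.1 e1) (mem_Cn_comm.1 e2)))]

theorem II.td [Finite K] (h : ρ.II) (nf : NF T) (S : Sylow 2 T) (ht : Inv t) (hS : (S : Subgroup T) ≤ Cn t)
    (hc : Cls t) (hs : Inv s) (h1 : s ≠ t) (h2 : s ∈ Cn t) : ∃ A k, TD t A k := by
  have := ρ.finite
  obtain ⟨A, a1, a2, a3, a4, a5, a6, -⟩ := h.tdA nf ht hs h1 h2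
  refine ⟨A, TD.of h.perf S hS ht (fun x u x2 hu ux tx => by_contra fun n => ?_) a1 a2 a3 a4 a5 a6⟩
  have ev : ∀ {w : T} {k}, Inv (w ^ k) → w ∈ Cn x → ∀ u : T, Inv u → u ∈ Cn x → Od x → u ∈ Cn (w ^ k) → w ^ k = u :=
    fun i a u b c o d => by_contra fun e => x2 (by
      rw [nf _ u i b e (mem_Cn.1 d) x o (mem_Cn_comm.1 (pow_mem a _)) (mem_Cn_comm.1 c), mul_one])
  have xt := mem_Cn_comm.1 tx
  rcases od_or x with ox | ⟨k, i⟩
  swap
  · exact n (a5 _ (pow_mem (by_contra fun e => x2 (a6 x xt e)) k) i ▸ pow_mem_Cn ux k)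
  have x1 : x ≠ 1 := by rintro rfl; simp at x2
  have wi : t * (u * t) * t⁻¹ = (u * t)⁻¹ := by rw [mul_inv_rev, hu.inv_eq, ht.inv_eq, ← mul_assoc, mul_assoc _ t, ht.2, mul_one]
  have wx := mul_mem ux tx
  have ow : Od (u * t) := (od_or _).resolve_right fun ⟨k, i⟩ => by
    have e : t * (u * t) ^ k * t⁻¹ = (u * t) ^ k := by rw [← conj_pow, wi, inv_pow, i.inv_eq]
    have := ev i wx t ht tx ox (Cn_of_conj e)
    have m := pow_mem_Cn (self_mem_Cn (u * t)) k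
    rw [this] at m
    exact n ((mul_mem_cancel_right (self_mem_Cn t)).1 m)
  have w1 : u * t ≠ 1 := fun e => n (by rw [eq_inv_of_mul_eq_one_left e]; exact inv_mem (self_mem_Cn t))
  generalize u * t = w at wi wx ow w1
  have oc := fun {y a b} => h.nf_oc (y := y) (a := a) (b := b) nf hc hs h1 h2
  have sx : s * w * s⁻¹ ∈ Cn x := by
    have := (conj_mem_Cn (g := s)).2 wx
    rw [h.nf_inv nf ht hs h1 h2 ox xt] at this
    simpa using mem_Cn_comm.1 (inv_mem (mem_Cn_comm.1 this))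
  have c := mem_Cn.1 h2
  have cw := oc ox x1 wx sx ow (ow.conj s)
  obtain ⟨v, hv, v1, v2, y, oy, y1, yx, yv⟩ : ∃ v, Inv v ∧ v ≠ t ∧ v ∈ Cn t ∧ ∃ y, Od y ∧ y ≠ 1 ∧ y ∈ Cn x ∧ y ∈ Cn v := by
    have ss : s * (s * w * s⁻¹) * s⁻¹ = w := by rw [hs.inv_eq, ← mul_assoc, ← mul_assoc, hs.2, one_mul, mul_assoc, hs.2, mul_one]
    by_cases e : w * (s * w * s⁻¹) = 1
    · refine ⟨t * s, ht.mul hs h1.symm c, by simpa using hs.1, mul_mem (self_mem_Cn t) h2, w, ow, w1, wx,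
        mem_Cn_comm.1 (Cn_of_conj ?_)⟩
      rw [show t * s * w * (t * s)⁻¹ = t * (s * w * s⁻¹) * t⁻¹ by group, eq_inv_of_mul_eq_one_right e, ← conj_inv, wi, inv_inv]
    · exact ⟨s, hs, h1, h2, _, ow.mul (ow.conj s) cw, e, mul_mem wx sx, mem_Cn_comm.1 (Cn_of_conj (by rw [← conj_mul, ss, cw]))⟩
  have oc2 : ∀ {t a b : T}, Inv t → a ∈ Cn t → b ∈ Cn t → Od a → Od b → a * b = b * a := fun i a b ⟨_, c, d⟩ ⟨_, e, f⟩ =>
    h.odd_comm i a b c e d f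
  have com : ∀ {a b}, a ∈ Cn t → b ∈ Cn v → Od a → Od b → a * b = b * a := fun ha hb oa ob =>
    oc oy y1 (mem_Cn.2 (oc ox x1 yx (mem_Cn.2 (oc2 ht xt ha ox oa)) oy oa)) (mem_Cn.2 (oc2 hv yv hb oy ob)) oa ob
  obtain ⟨r, k, hr, o, z1, zr⟩ := ox.exists_prime x1
  have zt := pow_mem xt k
  generalize x ^ k = z at z1 zr zt
  have oz : Od z := ⟨r, o, zr⟩
  obtain ⟨g, g1, g2⟩ := h.nf_cyc nf ht hc hv v1 v2
  have cv := mem_Cn.1 v2
  have itv := ht.mul hv v1.symm cv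
  have m1 : g * z * g⁻¹ ∈ Cn v := g1 ▸ conj_mem_Cn.2 zt
  have m2 : g * (g * z * g⁻¹) * g⁻¹ ∈ Cn (t * v) := g2 ▸ conj_mem_Cn.2 m1
  have m3 := (conj_mem_Cn (g := g)).2 m2
  rw [← conj_mul (a := t), g1, g2, cv, ← mul_assoc, hv.2, one_mul] at m3
  have c1 := com zt m1 oz (oz.conj g)
  have t1 := h.nf_inv nf hv ht v1.symm (mem_Cn_comm.1 v2) (oz.conj g) m1
  by_cases r0 : (r : K) = 0
  swap
  · exact h.tri o r0 zr (y := g * z * g⁻¹) (z := g * (g * z * g⁻¹) * g⁻¹) (by simp [zr]) (by simp [zr]) z1 (by simpa)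
      (by simpa only [Ne, conj_eq_one_iff]) c1
      (mem_Cn.1 (conj_mem_Cn.1 (mem_Cn.2 (com m3 m1 ((oz.conj g).conj g |>.conj g) (oz.conj g)).symm)))
      (mem_Cn.1 (conj_mem_Cn.2 (mem_Cn.2 c1))) (conj_eq_of_Cn (mem_Cn_comm.1 zt)) t1
      (h.nf_inv nf itv ht (by simpa using hv.1) (mem_Cn_comm.1 (mul_mem (self_mem_Cn t) v2)) ((oz.conj g).conj g) m2)
      (h.nf_inv nf ht hv v1 v2 oz zt) (conj_eq_of_Cn (mem_Cn_comm.1 m1))
      (h.nf_inv nf itv hv (by simpa using ht.1) (mem_Cn_comm.1 (mul_mem (mem_Cn_comm.1 v2) (self_mem_Cn v)))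
        ((oz.conj g).conj g) m2)
  rcases h.small.2 with q | ⟨p3, n9⟩
  · exact ht.1 (eq_one_of_odd o.pow ((q.cent (k := 1) h.two hr r0 (by simpa using zr) z1).1 t (mem_Cn_comm.1 zt)) ht.2)
  obtain rfl := char_uniq Nat.prime_three p3 hr r0
  have t2 := conj_eq_of_Cn (mem_Cn_comm.1 zt)
  refine n9 (nine_dvd (y := g * z * g⁻¹) zr (by simp [zr]) z1 (by simpa) c1 (fun e => ?_) fun e => ?_) <;> rw [e] at t1
  · exact z1 (oz.eq_one (mul_eq_one_iff_eq_inv.2 (t2.symm.trans t1)))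
  · rw [← conj_inv, t2, inv_inv] at t1
    exact z1 (oz.eq_one (mul_eq_one_iff_eq_inv.2 t1.symm))

end SRep

end Cfsg.Agent.H1.Mit
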