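import Cfsg.Agent.H1.M4G2

/-! The case of an element of odd order centralised by a four-group. -/

set_option autoImplicit false
set_option maxRecDepth 100000

namespace Cfsg.Agent.H1.Mit

open Subgroup Cfsg.Agent.MH Equiv Cfsg.Agent.H4.Mob

variable {T K : Type*} [Group T] [Field K] {x y z g s t u v : T} {H M Z : Subgroup T}

theorem A4_sq : ∀ g : alternatingGroup (Fin 4), ∃ a b, g = a * a * (b * b) := by decide +kernel

theorem A5_sq : ∀ g : alternatingGroup (Fin 5), ∃ a b, g = a * a * (b * b) := by decide +kernel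

theorem S4_sq : ∀ g : Perm (Fin 4), Perm.sign g = 1 → ∃ a b, g = a * a * (b * b) := by decide +kernel

theorem card_Cn_inv [Finite T] (hc : Cls t) (hu : Inv u) : Nat.card (Cn u) = Nat.card (Cn t) := by
  obtain ⟨g, rfl⟩ := hc u hu
  exact (card_Cn_conj g u).symm

namespace SRep

variable {ρ : SRep T K}

/-- the normaliser of a group of rotations is an extension by `S₄` -/
structure NT (ρ : SRep T K) (t : T) (M Z : Subgroup T) (ψ : M →* Perm (Fin 4)) : Prop where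
  inv : Inv t
  cls : Cls t
  surj : Function.Surjective ψ
  le : Z ≤ M
  ker : ∀ x : M, ψ x = 1 ↔ (x : T) ∈ Z
  odd : Odd (Nat.card Z)
  nz : (Nat.card Z : K) ≠ 0
  ne : Z ≠ ⊥
  rot : ∀ z ∈ Z, ρ.Rot z
  ev : ∀ x : M, Perm.sign (ψ x) = 1 → ∀ z ∈ Z, x * z * (x : T)⁻¹ = z
  od : ∀ x : M, Perm.sign (ψ x) = -1 → ∀ z ∈ Z, x * z * (x : T)⁻¹ = z⁻¹
  nm : ∀ z ∈ Z, z ≠ 1 → ∀ g, g * z * g⁻¹ ∈ Z → g ∈ M
  ct : Cn t ≤ M
  tz : Z ≤ Cn t

theorem II.exists_nt [Finite K] (h : ρ.II) (nf : ¬ NF T) (S : Sylow 2 T) (ht : Inv t) (hS : (S : Subgroup T) ≤ Cn t)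
    (hc : Cls t) : ∃ M Z ψ, ρ.NT t M Z ψ := by
  have := ρ.finite
  obtain ⟨s, y, r, hs, hst, c, hr, o, y1, hy, c1, c2⟩ : ∃ s y r, Inv s ∧ s ≠ t ∧ s * t = t * s ∧ r.Prime ∧ Odd r ∧ y ≠ 1 ∧
      y ^ r = 1 ∧ t * y = y * t ∧ s * y = y * s := by
    simp only [NF, not_forall] at nf
    obtain ⟨u, v, hu, hv, n, c, y, oy, a, b, y1⟩ := nf
    obtain ⟨g, rfl⟩ := hc u hu
    obtain ⟨r, k, hr, o, e1, e2⟩ := oy.exists_prime y1
    exact ⟨_, g * y ^ k * g⁻¹, r, hv.conj g, by simpa using Ne.symm n, by simp only [conj_mul, c], hr, o,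
      by simpa only [Ne, conj_eq_one_iff], by rw [conj_pow, e2]; simp, mem_Cn.1 (conj_mem_Cn.2 (pow_mem a k)),
      mem_Cn.1 (conj_mem_Cn.2 (pow_mem b k))⟩
  obtain ⟨M, Z, ψ, yZ, le, ker, odd, nz, rot, act, nm, ct, cs, cst, sm⟩ := h.nt ht hs hst c hr o y1 hy c1 c2
  have zo : ∀ z ∈ Z, z = z⁻¹ → z = 1 := fun z a b => (Od.of_mem odd a).eq_one (mul_eq_one_iff_eq_inv.2 b)
  have cz : ∀ x ∈ M, x * y = y * x → ∀ z ∈ Z, x * z * x⁻¹ = z := fun x a b => (act x a).resolve_right fun k =>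
    y1 (zo y yZ (by rw [← k y yZ, b, mul_inv_cancel_right]))
  have tM := ct (self_mem_Cn t)
  have sM := cs (self_mem_Cn s)
  have ie : ∀ a b : M, (a : T) * a = 1 → (b : T) * b = 1 → (b : T) * y = y * b → ψ a = ψ b → (a : T) = b := fun a b a1 b1 c e => by
    have m : (a : T) * (b : T)⁻¹ ∈ Z := (ker (a * b⁻¹)).1 (by simp [e])
    refine mul_inv_eq_one.1 (zo _ m ?_)
    refine (cz b b.2 c _ m).symm.trans ?_
    rw [mul_inv_rev, inv_inv, inv_eq_of_mul_eq_one_right a1, inv_eq_of_mul_eq_one_right b1, mul_assoc, mul_assoc, b1, mul_one]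
  have iv : ∀ a : M, Inv (a : T) → Inv (ψ a) := fun a i =>
    ⟨fun e => i.1 ((Od.of_mem odd ((ker a).1 e)).eq_one i.2), by rw [← map_mul, show a * a = 1 from Subtype.ext i.2, map_one]⟩
  have c' : (⟨t, tM⟩ : M) * ⟨s, sM⟩ = ⟨s, sM⟩ * ⟨t, tM⟩ := Subtype.ext c.symm
  have key : (∃ (G : Type) (_ : Group G) (φ : M →* G), Function.Surjective φ ∧ (∀ x, φ x = 1 ↔ ψ x = 1) ∧
      ((∀ g : G, ∃ a b, g = a * a * (b * b)) ∨ Nonempty (G ≃* Perm (Fin 4)))) := by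
    have f : ∀ {G : Type} [Group G], (ψ.range ≃* G) → ∃ φ : M →* G, Function.Surjective φ ∧ ∀ x, φ x = 1 ↔ ψ x = 1 :=
      fun e => ⟨e.toMonoidHom.comp ψ.rangeRestrict, e.surjective.comp ψ.rangeRestrict_surjective, fun x => by
        simp [Subtype.ext_iff]⟩
    rcases dick_four h.two ψ.range (fun l a b c => (sm l a b (c.trans (card_range_dvd ψ))).imp_right
      (mt fun k => k.trans ((card_range_dvd ψ).trans (card_subgroup_dvd_card M)))) ⟨⟨t, tM⟩, rfl⟩ ⟨⟨s, sM⟩, rfl⟩ (iv _ ht) (iv _ hs)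
      (fun e => hst (ie _ _ ht.2 hs.2 c2 e).symm) (by rw [← map_mul, c', map_mul]) with ⟨⟨w, hw, k1⟩, k2⟩ | ⟨⟨e⟩⟩ | ⟨⟨e⟩⟩ | ⟨⟨e⟩⟩
    rotate_left
    · exact (f e).elim fun φ k => ⟨_, _, φ, k.1, k.2, Or.inl A4_sq⟩
    · exact (f e).elim fun φ k => ⟨_, _, φ, k.1, k.2, Or.inr ⟨MulEquiv.refl _⟩⟩
    · exact (f e).elim fun φ k => ⟨_, _, φ, k.1, k.2, Or.inl A5_sq⟩
    exfalso
    obtain ⟨w, iw, wy, rfl⟩ : ∃ a : M, Inv (a : T) ∧ (a : T) * y = y * a ∧ ψ a = w := by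
      rcases hw with rfl | rfl | rfl
      exacts [⟨_, ht, c1, rfl⟩, ⟨_, hs, c2, rfl⟩, ⟨⟨t * s, mul_mem tM sM⟩, ht.mul hs hst.symm c.symm,
        (Commute.mul_left c1 c2).eq, map_mul ψ ⟨t, tM⟩ ⟨s, sM⟩⟩]
    have Mw : M ≤ Cn (w : T) := fun m hm => Cn_of_conj (ie (⟨m, hm⟩ * w * ⟨m, hm⟩⁻¹) w (iw.conj m).2 iw.2 wy (by
      rw [map_mul, map_mul, k1 _ ⟨_, rfl⟩, map_inv, mul_inv_cancel_right]))
    have e : ∀ {u : T}, Inv u → Cn u ≤ M → M ≤ Cn u := fun i k => (eq_of_le_of_card_ge k ((card_le_of_le Mw).trans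
      (by rw [card_Cn_inv hc iw, card_Cn_inv hc i]))).ge
    obtain ⟨A, O, a1, a2, a3, a4, a5, a6, a7, -⟩ := h.cent ht
    have sA : s ∉ A := fun k => hst (a4 s k hs)
    have st := mem_Cn.2 c.symm
    have cS : ∀ x ∈ S, s * x = x * s := fun x a => mem_Cn.1 (e hs cs (ct (hS a)))
    have k : ∀ x ∈ S, x ∈ A → x = 1 ∨ x = t := fun x a b => or_iff_not_imp_left.2 fun n => a4 x b ⟨n, by
      obtain ⟨j, hj⟩ := S.2 ⟨x * x, mul_mem a a⟩
      have := a7 _ (mul_mem (a1 b) st) fun k => sA ((mul_mem_cancel_left b).1 k)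
      rw [mul_assoc, ← mul_assoc s, cS x a, mul_assoc, hs.2, mul_one] at this
      exact (Od.of_mem a6 this).eq_one' (congrArg Subtype.val hj)⟩
    have cen : ∀ u : T, Inv u → (∀ x ∈ S, u * x = x * u) → u ∈ S := fun u i b =>
      mem_sylow_of_Nm (k := 1) S (by simpa [pow_two] using i.2) (mem_Nm fun x a => by rwa [b x a, mul_inv_cancel_right])
    have sS := cen s hs cS
    have tS := cen t ht fun x a => mem_Cn.1 (hS a)
    have four : ∀ g, g ∈ Cn t → g ∈ Cn s → ∀ x ∈ S, x ∈ Cn g := fun g a b x hx => by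
      have k' : ∀ x ∈ S, x ∈ A → x ∈ Cn g := fun x c d => by
        rcases k x c d with rfl | rfl
        exacts [one_mem _, mem_Cn_comm.1 a]
      by_cases m : x ∈ A
      exacts [k' x hx m, (mul_mem_cancel_right (mem_Cn_comm.1 b)).1 (k' _ (mul_mem hx sS) (a3 x (hS hx) s st m sA))]
    refine ht.1 (mem_bot.1 (burnside h.perf Nat.prime_two S (fun g hg a ha => ?_) ▸ tS))
    have m : ∀ u ∈ S, g * y * g⁻¹ ∈ Cn u := fun u hu => by
      simpa [mul_assoc] using (conj_mem_Cn (g := g)).2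
        (mem_Cn_comm.1 (four y (mem_Cn.2 c1) (mem_Cn.2 c2) _ (Nm_conj' hg hu)))
    have gM := nm y yZ y1 g ((ker ⟨_, ct (m t tS)⟩).1 (k2 _ ⟨_, rfl⟩ r o (by
      rw [← map_pow, show (⟨_, ct (m t tS)⟩ : M) ^ r = 1 from Subtype.ext (by simp [hy]), map_one])
      (by rw [← map_mul, ← map_mul]; exact congrArg ψ (Subtype.ext (mem_Cn.1 (m t tS))))
      (by rw [← map_mul, ← map_mul]; exact congrArg ψ (Subtype.ext (mem_Cn.1 (m s sS))))))
    exact (mem_Cn.1 (four g (e ht ct gM) (e hs cs gM) a ha)).symm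
  obtain ⟨m, hm, mi⟩ : ∃ m ∈ M, ∀ z ∈ Z, m * z * m⁻¹ = z⁻¹ := by
    by_contra n
    have ni : ∀ g, g * y * g⁻¹ ≠ y⁻¹ := fun g e => y1 (zo y yZ (by
      rw [← e, (act g (nm y yZ y1 g (e ▸ inv_mem yZ))).resolve_right (fun k => n ⟨g, nm y yZ y1 g (e ▸ inv_mem yZ), k⟩) y yZ]))
    have := Fact.mk hr
    obtain ⟨R, yR, -⟩ := exists_sylow_pair (r := r) (i := 1) (j := 1) (by simpa using hy) (by simpa using hy) rfl
    obtain ⟨k, hk⟩ := IsPGroup.iff_card.1 R.2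
    have cm := h.syl_comm hr o R
    obtain ⟨w, hw⟩ := h.four_rot (R := (R : Set T)) (n := r ^ k) o.pow (by
      obtain ⟨j, hj⟩ := orderOf_eq_prime hy y1 ▸ orderOf_dvd_card_of_mem yZ
      rw [Nat.cast_pow]
      exact pow_ne_zero _ fun e => nz (by simp [hj, e])) (fun x a => hk ▸ pow_card_mem a) cm yR (rot y yZ)
    by_cases f : ∀ g ∈ Nm (R : Subgroup T), g * y * g⁻¹ = y
    · exact y1 (fix_eq_one h.perf hr R cm yR f)
    push Not at f
    obtain ⟨g, hg, f⟩ := f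
    have two : ∀ a ∈ Nm (R : Subgroup T), a * y * a⁻¹ = y ∨ a * y * a⁻¹ = g * y * g⁻¹ := fun a ha => by
      have e : a * y * a⁻¹ ≠ (g * y * g⁻¹)⁻¹ := fun e => ni (g⁻¹ * a) (by
        rw [show g⁻¹ * a * y * (g⁻¹ * a)⁻¹ = g⁻¹ * (a * y * a⁻¹) * g by group, e]; group)
      rcases ((hw g (Nm_conj hg yR)).resolve_left f).resolve_left (ni g) with e1 | e1 <;> rw [e1] at e ⊢ <;>
        rcases hw a (Nm_conj ha yR) with e2 | e2 | e2 | e2
      exacts [Or.inl e2, absurd e2 (ni a), Or.inr e2, absurd e2 e, Or.inl e2, absurd e2 (ni a),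
        absurd (e2.trans (inv_inv w).symm) e, Or.inr e2]
    refine ni g (eq_inv_of_mul_eq_one_right (fix_eq_one h.perf hr R cm (mul_mem yR (Nm_conj hg yR)) fun a ha => ?_))
    have e : a * (g * y * g⁻¹) * a⁻¹ = a * g * y * (a * g)⁻¹ := by group
    have n : a * y * a⁻¹ ≠ a * g * y * (a * g)⁻¹ := fun k => f (by simpa using (k.trans e.symm).symm)
    rw [← conj_mul, e]
    rcases two a ha with e1 | e1 <;> rcases two _ (mul_mem ha hg) with e2 | e2 <;> rw [e1, e2] at n ⊢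
    exacts [absurd rfl n, cm _ (Nm_conj hg yR) _ yR, absurd rfl n]
  obtain ⟨G, _, φ, su, kφ, hG⟩ := key
  have sq : ∀ x : M, (∃ a b, φ x = a * a * (b * b)) → ∀ z ∈ Z, x * z * (x : T)⁻¹ = z := fun x ⟨a, b, e⟩ z hz => by
    obtain ⟨a, rfl⟩ := su a
    obtain ⟨b, rfl⟩ := su b
    have k : ∀ a : M, (a : T) * a * z * (a * a : T)⁻¹ = z := fun a => by
      rw [show (a : T) * a * z * (a * a : T)⁻¹ = a * (a * z * (a : T)⁻¹) * (a : T)⁻¹ by group]
      rcases act a a.2 with k | k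
      · rw [k z hz, k z hz]
      · rw [k z hz, k _ (inv_mem hz), inv_inv]
    have m := (ker ((a * a * (b * b))⁻¹ * x)).1 ((kφ _).1 (by simp only [map_mul, map_inv, e, inv_mul_cancel]))
    have m' : (((a * a * (b * b))⁻¹ * x : M) : T) ∈ Cn z := Cn_of_conj (cz _ (le m) (mem_Cn.1 (Cn_of_conj
      (cz y (le yZ) rfl _ m))) z hz)
    exact conj_eq_of_Cn ((mul_mem_cancel_left (inv_mem (mul_mem (Cn_of_conj (k a)) (Cn_of_conj (k b))))).1 m')
  have nsq : ¬ ∃ a b, φ ⟨m, hm⟩ = a * a * (b * b) := fun k => y1 (zo y yZ ((sq _ k y yZ).symm.trans (mi y yZ)))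
  obtain ⟨e⟩ := hG.resolve_left fun k => nsq (k _)
  have ev : ∀ x : M, Perm.sign (e (φ x)) = 1 → ∃ a b, φ x = a * a * (b * b) := fun x k => by
    obtain ⟨a, b, k⟩ := S4_sq _ k
    exact ⟨e.symm a, e.symm b, e.injective (by simp [k])⟩
  refine ⟨M, Z, e.toMonoidHom.comp φ, ht, hc, e.surjective.comp su, le, fun x => by simp [kφ, ker], odd, nz,
    fun k => y1 (mem_bot.1 (k ▸ yZ)), rot, fun x k => sq x (ev x k), fun x k z hz => ?_, nm, ct,
    fun z hz => mem_Cn_comm.1 (Cn_of_conj (cz t tM c1 z hz))⟩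
  have := sq (x * ⟨m, hm⟩⁻¹) (ev _ (by
    simp [(Int.units_eq_one_or (Perm.sign (e (φ ⟨m, hm⟩)))).resolve_left (mt (ev _) nsq), show Perm.sign (e (φ x)) = -1 from k]))
    _ (inv_mem hz)
  rw [← this, ← mi z hz]
  simp [mul_assoc]

end SRep

end Cfsg.Agent.H1.Mit
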