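import Mathlib

/-! Facts on `S₄`. -/

set_option autoImplicit false
set_option maxRecDepth 100000
set_option synthInstance.maxSize 1000

namespace Cfsg.Agent.H1.Mit

open Equiv

abbrev S4 := Perm (Fin 4)

theorem s4_v : ∀ a b : S4, Perm.sign a = 1 → a * a = 1 → Perm.sign b = 1 → b * b = 1 → a * b = b * a := by decide +kernel

theorem s4_c : ∀ u : S4, u ≠ 1 → u * u = 1 → Perm.sign u = 1 → (∀ x, u * x = x * u →
    (Perm.sign x = 1 → x * x = 1) ∧ (x * x = 1 ∨ x * x = u)) ∧ (Finset.univ.filter fun x => u * x = x * u).card = 8 ∧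
    (Finset.univ.filter fun x => u * x = x * u ∧ x * x ≠ 1).card = 2 := by decide +kernel

theorem s4_four : ∀ a : S4, a * a ≠ 1 → Perm.sign a = -1 → (∀ b, a * b = b * a → b * b = 1 → b = 1 ∨ b = a * a) ∧
    (Finset.univ.filter fun b => a * b = b * a).card = 4 := by decide +kernel

theorem s4_three : ∀ c : S4, c ≠ 1 → c ^ 3 = 1 → Perm.sign c = 1 ∧ (∀ b, c * b = b * c → b = 1 ∨ b = c ∨ b = c⁻¹) ∧
    (∀ d, d ≠ 1 → d ^ 3 = 1 → ∃ g, g * d * g⁻¹ = c) ∧ (Finset.univ.filter fun b => c * b = b * c).card = 3 ∧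
    (Finset.univ.filter fun b => c * (b * c * b⁻¹) = b * c * b⁻¹ * c).card = 6 := by decide +kernel

theorem s4_gen : ∀ u : S4, u ≠ 1 → u * u = 1 → Perm.sign u = 1 → ∀ c : S4, c ≠ 1 → c ^ 3 = 1 →
    (c * u * c⁻¹ ≠ u ∧ c * (c * u * c⁻¹) * c⁻¹ = u * (c * u * c⁻¹) ∧
    ∀ b, Perm.sign b = 1 → b * b = 1 → b = 1 ∨ b = u ∨ b = c * u * c⁻¹ ∨ b = u * (c * u * c⁻¹)) ∧
    ∀ x, Perm.sign x = 1 → ∃ i j : Fin 2, ∃ k : Fin 3, x = u ^ i.1 * (c * u * c⁻¹) ^ j.1 * c ^ k.1 := by decide +kernel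

theorem s4_cV : (Finset.univ.filter fun a : S4 => Perm.sign a = 1 ∧ a * a = 1).card = 4 := by decide +kernel

end Cfsg.Agent.H1.Mit
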