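import Cfsg.Agent.H1.M4G3
import Cfsg.Agent.H1.M4S4

/-! Counting in the extension by `S₄`. -/

set_option autoImplicit false

namespace Cfsg.Agent.H1.Mit

open Subgroup Cfsg.Agent.MH Equiv

variable {T K : Type*} [Group T] [Field K] {x y z g s t u v : T} {H M Z : Subgroup T}

/-- preimage -/
def pre (ψ : M →* S4) (P : S4 → Prop) : Set T := {x | ∃ h : x ∈ M, P (ψ ⟨x, h⟩)}

namespace SRep

variable {ρ : SRep T K} {ψ : M →* S4}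

namespace NT

theorem zo (h : ρ.NT t M Z ψ) (hz : z ∈ Z) (e : z * z = 1) : z = 1 := (Od.of_mem h.odd hz).eq_one e

theorem sg (h : ρ.NT t M Z ψ) (hz : z ∈ Z) (z1 : z ≠ 1) (hx : x ∈ Cn z) : ∃ m : x ∈ M, Perm.sign (ψ ⟨x, m⟩) = 1 := by
  have m := h.nm z hz z1 x ((conj_eq_of_Cn hx).symm ▸ hz)
  exact ⟨m, (Int.units_eq_one_or _).resolve_right fun e =>
    z1 (h.zo hz (mul_eq_one_iff_eq_inv.2 ((conj_eq_of_Cn hx).symm.trans (h.od _ e z hz))))⟩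

theorem cz (h : ρ.NT t M Z ψ) {x : M} (e : Perm.sign (ψ x) = 1) (hz : z ∈ Z) : (x : T) ∈ Cn z := Cn_of_conj (h.ev x e z hz)

theorem zz (h : ρ.NT t M Z ψ) (hy : y ∈ Z) (hz : z ∈ Z) : y ∈ Cn z :=
  h.cz (x := ⟨y, h.le hy⟩) (by rw [(h.ker _).2 hy, map_one]) hz

theorem div (h : ρ.NT t M Z ψ) {a b : M} (e : ψ a = ψ b) : (a : T) * (b : T)⁻¹ ∈ Z := (h.ker (a * b⁻¹)).1 (by simp [e])

theorem ie (h : ρ.NT t M Z ψ) {a b : M} (a1 : (a : T) * a = 1) (b1 : (b : T) * b = 1) (hb : Perm.sign (ψ b) = 1)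
    (e : ψ a = ψ b) : (a : T) = b := by
  refine mul_inv_eq_one.1 (h.zo (h.div e) (mul_eq_one_iff_eq_inv.2 ((h.ev b hb _ (h.div e)).symm.trans ?_)))
  rw [mul_inv_rev, inv_inv, inv_eq_of_mul_eq_one_right a1, inv_eq_of_mul_eq_one_right b1, mul_assoc, mul_assoc, b1, mul_one]

theorem card_pre [Finite T] (h : ρ.NT t M Z ψ) (P : S4 → Prop) [DecidablePred P] :
    (pre ψ P).ncard = (Finset.univ.filter P).card * Nat.card Z := by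
  rw [← mul_one (pre ψ P).ncard, ← Set.ncard_coe_finset]
  refine ncard_double (fun x a => ∃ h : x ∈ M, ψ ⟨x, h⟩ = a) _ _ (fun x ⟨a, b⟩ => Set.ncard_eq_one.2 ⟨ψ ⟨x, a⟩, ?_⟩) fun a ha => ?_
  · ext c
    exact ⟨fun ⟨_, _, k⟩ => k.symm, by rintro rfl; exact ⟨by simpa using b, a, rfl⟩⟩
  obtain ⟨m, rfl⟩ := h.surj a
  rw [← ncard_coset Z m]
  congr 1
  ext x
  refine ⟨fun ⟨_, _, k⟩ => h.div k, fun k => ?_⟩
  have hx : x ∈ M := (mul_mem_cancel_right (inv_mem m.2)).1 (h.le k)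
  have e : ψ ⟨x, hx⟩ = ψ m := mul_inv_eq_one.1 (by rw [← map_inv, ← map_mul]; exact (h.ker _).2 k)
  exact ⟨⟨hx, by simpa [e] using ha⟩, hx, e⟩

theorem tM (h : ρ.NT t M Z ψ) : t ∈ M := h.ct (self_mem_Cn t)

theorem sq (h : ρ.NT t M Z ψ) (x : M) : ψ x * ψ x = 1 ↔ (x : T) * x ∈ Z := by rw [← map_mul, h.ker]; rfl

theorem tu (h : ρ.NT t M Z ψ) : ψ ⟨t, h.tM⟩ ≠ 1 ∧ ψ ⟨t, h.tM⟩ * ψ ⟨t, h.tM⟩ = 1 ∧ Perm.sign (ψ ⟨t, h.tM⟩) = 1 := by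
  obtain ⟨z, hz, z1⟩ := (bot_or_exists_ne_one Z).resolve_left h.ne
  exact ⟨fun e => h.inv.1 (h.zo ((h.ker _).1 e) h.inv.2), (h.sq _).2 (h.inv.2.symm ▸ Z.one_mem),
    (h.sg hz z1 (mem_Cn_comm.1 (h.tz hz))).2⟩

theorem mem_ct (h : ρ.NT t M Z ψ) (x : M) : (x : T) ∈ Cn t ↔ ψ ⟨t, h.tM⟩ * ψ x = ψ x * ψ ⟨t, h.tM⟩ :=
  ⟨fun e => by rw [← map_mul, ← map_mul]; exact congrArg ψ (Subtype.ext (mem_Cn.1 e)), fun e => Cn_of_conj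
    (h.ie (a := x * ⟨t, h.tM⟩ * x⁻¹) (h.inv.conj x).2 h.inv.2 h.tu.2.2 (by simp [← e]))⟩

theorem card_ct [Finite T] (h : ρ.NT t M Z ψ) : Nat.card (Cn t) = 8 * Nat.card Z := by
  rw [← (s4_c _ h.tu.1 h.tu.2.1 h.tu.2.2).2.1, ← h.card_pre, ← ncard_coe]
  exact congrArg _ (Set.ext fun x => ⟨fun a => ⟨h.ct a, (h.mem_ct ⟨x, h.ct a⟩).1 a⟩, fun ⟨a, b⟩ => (h.mem_ct ⟨x, a⟩).2 b⟩)

theorem card_M [Finite T] (h : ρ.NT t M Z ψ) : Nat.card M = 24 * Nat.card Z := by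
  rw [← ncard_coe, show 24 = (Finset.univ.filter fun _ : S4 => True).card by simp [Fintype.card_perm, Nat.factorial], ← h.card_pre]
  exact congrArg _ (Set.ext fun x => ⟨fun a => ⟨a, trivial⟩, fun a => a.1⟩)

theorem lift (h : ρ.NT t M Z ψ) {a : S4} (e : a * a = 1) : ∃ v : M, ψ v = a ∧ (v : T) * v = 1 := by
  obtain ⟨m, rfl⟩ := h.surj a
  obtain ⟨n, ⟨k, rfl⟩, e'⟩ := Od.of_mem h.odd ((h.sq m).1 e)
  exact ⟨m ^ (2 * k + 1), by rw [map_pow, pow_succ, pow_mul, pow_two, e, one_pow, one_mul],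
    by rw [coe_pow, ← (Commute.refl _).mul_pow, e']⟩

theorem card_V [Finite T] (h : ρ.NT t M Z ψ) : {x | x ∈ pre ψ (Perm.sign · = 1) ∧ x * x = 1}.ncard = 4 := by
  refine Eq.trans ?_ ((Set.ncard_coe_finset _).trans s4_cV)
  refine Set.ncard_congr (fun x a => ψ ⟨x, a.1.1⟩) (fun x a => ?_) (fun x y a b e => h.ie a.2 b.2 b.1.2 e) fun a ha => ?_
  · simpa using ⟨a.1.2, (h.sq _).2 (a.2.symm ▸ Z.one_mem)⟩
  · obtain ⟨v, rfl, e⟩ := h.lift (a := a) (by simp at ha; exact ha.2)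
    exact ⟨v, ⟨⟨v.2, by simp at ha; exact ha.1⟩, e⟩, rfl⟩

theorem even [Finite T] (h : ρ.NT t M Z ψ) {x : M} (e : Perm.sign (ψ x) = 1) (e' : ψ x * ψ x = 1) (x2 : (x : T) * x ≠ 1) :
    nv (x : T) = 3 := by
  have : {s | Inv s ∧ s ∈ Cn (x : T)} = {x | x ∈ pre ψ (Perm.sign · = 1) ∧ x * x = 1} \ {1} := by
    ext s
    refine ⟨fun a => ⟨⟨h.sg ((h.sq x).1 e') x2 (mem_Cn_comm.1 (mul_mem (mem_Cn_comm.1 a.2) (mem_Cn_comm.1 a.2))), a.1.2⟩, a.1.1⟩,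
      fun ⟨⟨⟨a, b⟩, c⟩, d⟩ => ⟨⟨d, c⟩, mem_Cn_comm.1 ?_⟩⟩
    obtain ⟨v, e1, e2⟩ := h.lift e'
    refine (mul_mem_cancel_right (inv_mem (mem_Cn_comm.1 (Cn_of_conj ?_)))).1 (mem_Cn_comm.1 (h.cz b (h.div e1.symm)))
    exact h.ie (a := ⟨s, a⟩ * v * ⟨s, a⟩⁻¹) (conj_mul_self.2 e2) e2 (e1 ▸ e) (by
      simp [e1, s4_v _ _ b ((h.sq _).2 (c.symm ▸ Z.one_mem)) e e'])
  have k := Set.ncard_sdiff_singleton_add_one (s := {x | x ∈ pre ψ (Perm.sign · = 1) ∧ x * x = 1}) (a := 1)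
    ⟨⟨M.one_mem, by rw [show (⟨1, M.one_mem⟩ : M) = 1 from rfl, map_one]; exact map_one _⟩, one_mul 1⟩
  rw [h.card_V, ← this] at k
  exact Nat.succ_injective k

theorem cases [Finite T] (h : ρ.NT t M Z ψ) (hx : x ∈ Cn t) (x2 : x * x ≠ 1) :
    (Perm.sign (ψ ⟨x, h.ct hx⟩) = 1 ∧ x * x ∈ Z ∧ nv x = 3) ∨
    (Perm.sign (ψ ⟨x, h.ct hx⟩) = -1 ∧ ψ ⟨x, h.ct hx⟩ * ψ ⟨x, h.ct hx⟩ ≠ 1 ∧ nv x = 1 ∧ Nat.card (Cn x) ≤ 4 ∧ x * x = t) := by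
  have k := (s4_c _ h.tu.1 h.tu.2.1 h.tu.2.2).1 _ ((h.mem_ct ⟨x, h.ct hx⟩).1 hx)
  refine (Int.units_eq_one_or _).imp (fun e => ⟨e, (h.sq _).1 (k.1 e), h.even e (k.1 e) x2⟩) fun e => ?_
  have zc : ∀ z ∈ Z, x ∈ Cn z → z = 1 := fun z a b => by_contra fun n => by
    obtain ⟨_, e'⟩ := h.sg a n b
    exact absurd (e.symm.trans e') (by decide)
  have n : ψ ⟨x, h.ct hx⟩ * ψ ⟨x, h.ct hx⟩ ≠ 1 := fun a =>
    x2 (zc _ ((h.sq _).1 a) (mem_Cn_comm.1 (mul_mem (self_mem_Cn x) (self_mem_Cn x))))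
  have xt : x * x = t := mul_inv_eq_one.1 (zc _ (h.div (a := ⟨x, h.ct hx⟩ * ⟨x, h.ct hx⟩) (b := ⟨t, h.tM⟩)
    (by rw [map_mul, k.2.resolve_left n])) (mem_Cn_comm.1 (mul_mem (mul_mem (self_mem_Cn x) (self_mem_Cn x))
      (inv_mem (mem_Cn_comm.1 hx)))))
  have le : Cn x ≤ M := fun s a => h.ct (xt ▸ mem_Cn_comm.1 (mul_mem (mem_Cn_comm.1 a) (mem_Cn_comm.1 a)))
  have cm : ∀ s (a : s ∈ Cn x), ψ ⟨x, h.ct hx⟩ * ψ ⟨s, le a⟩ = ψ ⟨s, le a⟩ * ψ ⟨x, h.ct hx⟩ := fun s a => by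
    rw [← map_mul, ← map_mul]; exact congrArg ψ (Subtype.ext (mem_Cn.1 a))
  refine ⟨e, n, nv_eq_one h.inv (mem_Cn_comm.1 hx) fun s i a => h.ie (a := ⟨s, le a⟩) i.2 h.inv.2 h.tu.2.2 ?_, ?_, xt⟩
  · rw [← k.2.resolve_left n]
    exact ((s4_four _ n e).1 _ (cm s a) ((h.sq _).2 (i.2.symm ▸ Z.one_mem))).resolve_left fun b => i.1 (h.zo ((h.ker _).1 b) i.2)
  rw [← (s4_four _ n e).2, ← Fintype.card_coe, ← Nat.card_eq_fintype_card]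
  exact Nat.card_le_card_of_injective (fun s => ⟨ψ ⟨s, le s.2⟩, by simpa using cm s s.2⟩) fun a b k => Subtype.ext
    (mul_inv_eq_one.1 (zc _ (h.div (congrArg Subtype.val k)) (mem_Cn_comm.1 (mul_mem a.2 (inv_mem b.2)))))

theorem three_le [Finite T] (h : ρ.NT t M Z ψ) : 3 ≤ Nat.card Z := by
  have := (one_lt_card_iff_ne_bot Z).2 h.ne
  have := Nat.odd_iff.1 h.odd
  omega

theorem count [Finite T] (h : ρ.NT t M Z ψ) :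
    ((OO T).ncard : ℚ) / Nat.card T = 7 / 12 + (Nat.card Z : ℚ)⁻¹ / 24 - (Nat.card T : ℚ)⁻¹ := by
  have k := s4_c _ h.tu.1 h.tu.2.1 h.tu.2.2
  have e1 : {x : T | x ∈ Cn t ∧ x * x ≠ 1 ∧ nv x = 1}.ncard = 2 * Nat.card Z := by
    rw [← k.2.2, ← h.card_pre]
    refine congrArg _ (Set.ext fun x => ⟨fun a => ⟨h.ct a.1, (h.mem_ct ⟨x, _⟩).1 a.1,
      ((h.cases a.1 a.2.1).resolve_left fun b => by have := a.2.2; omega).2.1⟩, fun ⟨a, b, c⟩ => ?_⟩)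
    have m := (h.mem_ct ⟨x, a⟩).2 b
    have x2 : x * x ≠ 1 := fun e => c ((h.sq _).2 (e.symm ▸ Z.one_mem))
    exact ⟨m, x2, ((h.cases m x2).resolve_left fun e => c ((h.sq _).2 e.2.1)).2.2.1⟩
  have e2 : {x : T | x ∈ Cn t ∧ x * x ≠ 1 ∧ nv x = 3}.ncard + 4 = 4 * Nat.card Z := by
    refine ((congrArg (_ + ·) h.card_V.symm).trans ?_).trans ((h.card_pre _).trans (congrArg (· * _) s4_cV))
    rw [← Set.ncard_union_eq (Set.disjoint_left.2 fun x a b => a.2.1 b.2)]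
    refine congrArg _ (Set.ext fun x => ⟨?_, fun ⟨a, b, c⟩ => ?_⟩)
    · rintro (a | ⟨⟨a, b⟩, c⟩)
      · have := (h.cases a.1 a.2.1).resolve_right fun b => by have := a.2.2; omega
        exact ⟨_, this.1, (h.sq _).2 this.2.1⟩
      · exact ⟨a, b, (h.sq _).2 (c.symm ▸ Z.one_mem)⟩
    by_cases e : x * x = 1
    exacts [Or.inr ⟨⟨a, b⟩, e⟩, Or.inl ⟨(h.mem_ct ⟨x, a⟩).2 (s4_v _ _ h.tu.2.2 h.tu.2.1 b c), e, h.even b c e⟩]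
  rw [h.cls.count h.inv (fun x a b => (h.cases a b).symm.imp (·.2.2.1) (·.2.2)) e1 rfl, h.card_ct]
  have := h.three_le
  have : (Nat.card Z : ℚ) ≠ 0 := by positivity
  generalize {x : T | x ∈ Cn t ∧ x * x ≠ 1 ∧ nv x = 3}.ncard = β at *
  qify at e2
  rw [eq_sub_of_add_eq e2]
  push_cast
  field_simp
  ring

theorem p4 [Finite T] (h : ρ.NT t M Z ψ) : P4 t := fun g a x b a1 b1 a2 b2 e => by
  have k : ∀ {g : T} (a : g ∈ Cn t), g * g ≠ 1 → g ^ 4 = 1 → Perm.sign (ψ ⟨g, h.ct a⟩) = -1 := fun {g} a b c =>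
    ((h.cases a b).resolve_left fun e => b (h.zo e.2.1 (pow_four_eq g ▸ c))).1
  by_contra n
  have := k (mul_mem a b) n e
  rw [show ψ ⟨g * x, _⟩ = ψ ⟨g, h.ct a⟩ * ψ ⟨x, h.ct b⟩ from map_mul ψ ⟨g, _⟩ ⟨x, _⟩, map_mul, k a a1 a2, k b b1 b2] at this
  exact absurd this (by decide)

theorem od_mem [Finite T] (h : ρ.NT t M Z ψ) (hx : x ∈ Cn t) (o : Od x) : x ∈ Z := by
  by_cases e : x * x = 1
  · exact o.eq_one e ▸ Z.one_mem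
  refine o.mem (k := 2) ((h.ker (⟨x, h.ct hx⟩ ^ 4)).1 ?_)
  rw [map_pow, pow_four_eq]
  rcases ((s4_c _ h.tu.1 h.tu.2.1 h.tu.2.2).1 _ ((h.mem_ct ⟨x, h.ct hx⟩).1 hx)).2 with k | k <;> simp [k, h.tu.2.1]

theorem conj_Z [Finite T] (h : ρ.NT t M Z ψ) (o : Od x) (h1 : x ≠ 1) (hx : x ∉ OO T) : ∃ g, g * x * g⁻¹ ∈ Z :=
  (h.cls.conj_mem fun e => hx ⟨mt o.eq_one h1, e⟩).imp fun g a => h.od_mem a (o.conj g)

end NT

end SRep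

end Cfsg.Agent.H1.Mit
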