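import Cfsg.Agent.H1.M4G4

/-! The elements commuting with no involution. -/

set_option autoImplicit false

namespace Cfsg.Agent.H1.Mit

open Subgroup Cfsg.Agent.MH Equiv

variable {T K : Type*} [Group T] [Field K] {x y z g s t u v : T} {H M Z : Subgroup T}

/-- elements whose centraliser is a CA-subgroup of odd order -/
def CC (T : Type*) [Group T] : Set T := {x | x ∈ OO T ∧ CA (Cn x)}

theorem OO_odd [Finite T] (h : x ∈ OO T) : Odd (Nat.card (Cn x)) := Nat.odd_iff.2 (odd_card (nv_eq_zero.1 h.2))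

theorem CC_mem [Finite T] (h : x ∈ CC T) (hy : y ∈ Cn x) (h1 : y ≠ 1) : y ∈ CC T :=
  ⟨h.2.mem_OO (Nat.odd_iff.1 (OO_odd h.1)) hy h1, h.2 y hy h1 ▸ h.2⟩

theorem CC_conj (h : x ∈ CC T) (g : T) : g * x * g⁻¹ ∈ CC T := ⟨OO_conj g h.1, fun y hy h1 => by
  obtain ⟨y, rfl⟩ : ∃ w, y = g * w * g⁻¹ := ⟨g⁻¹ * y * g, by group⟩
  ext a
  obtain ⟨a, rfl⟩ : ∃ w, a = g * w * g⁻¹ := ⟨g⁻¹ * a * g, by group⟩
  rw [conj_mem_Cn, conj_mem_Cn, h.2 y (conj_mem_Cn.1 hy) (by simpa using h1)]⟩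

theorem CC_cj [Finite T] (h : x ∈ CC T) (k : Cj x y) (h1 : y ≠ 1) : y ∈ CC T ∧ Nat.card (Cn y) = Nat.card (Cn x) ∧
    Nat.card (Nm (Cn y)) = Nat.card (Nm (Cn x)) := by
  obtain ⟨g, hg⟩ := k
  have e := h.2 _ hg (by simpa)
  exact ⟨by simpa [mul_assoc] using CC_conj (CC_mem h hg (by simpa)) g⁻¹, by rw [← e, card_Cn_conj], by rw [← e, card_Nm_conj]⟩

namespace SRep

variable {ρ : SRep T K} {ψ : M →* S4}

theorem II.oo_comm [Finite K] (h : ρ.II) (hx : x ∈ OO T) {a b : T} (ha : a ∈ Cn x) (hb : b ∈ Cn x) : a * b = b * a :=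
  have := ρ.finite
  h.oa (OO_ne hx) le_rfl (OO_odd hx) ha hb

theorem II.gd [Finite K] (h : ρ.II) : Gd T := fun _ hx _ hy e => le_antisymm
  (fun _ a => mem_Cn.2 (h.oo_comm hy (mem_Cn_comm.1 e) a)) fun _ a => mem_Cn.2 (h.oo_comm hx e a)

theorem II.not_cc [Finite K] (h : ρ.II) (hx : x ∈ OO T) (n : x ∉ CC T) : ∃ y ∈ Cn x, y ≠ 1 ∧ Od y ∧ y ∉ OO T := by
  have := ρ.finite
  by_contra k
  push Not at k
  exact n ⟨hx, fun y hy h1 => h.gd x hx y (k y hy h1 (Od.of_mem (OO_odd hx) hy)) hy⟩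

theorem II.td_cc [Finite K] (h : ρ.II) {A : Subgroup T} {k : ℕ} (hD : TD t A k) (hx : x ∈ OO T) : x ∈ CC T := by
  have := ρ.finite
  by_contra n
  obtain ⟨y, hy, h1, o, n⟩ := h.not_cc hx n
  have y2 := mt o.eq_one h1
  obtain ⟨g, hg⟩ := hD.cls.conj_mem fun e => n ⟨y2, e⟩
  obtain ⟨s, hs⟩ := Set.ncard_eq_one.1 ((nv_conj g y).symm.trans (hD.nv1 _ hg (mt conj_mul_self.1 y2)))
  have m : Inv s ∧ s ∈ Cn y := hs.ge rfl
  exact nv_eq_zero.1 hx.2 s m.1 (mem_Cn_comm.1 (Cn_of_conj (hs.le ⟨m.1.conj x, by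
    simpa only [conj_eq_of_Cn (mem_Cn_comm.1 hy)] using (conj_mem_Cn (g := x)).2 m.2⟩)))

namespace NT

theorem not_oo (h : ρ.NT t M Z ψ) [Finite T] (hz : z ∈ Z) : z ∉ OO T := fun e =>
  nv_eq_zero.1 e.2 t h.inv (mem_Cn_comm.1 (h.tz hz))

theorem not_cc (h : ρ.NT t M Z ψ) [Finite T] {x : M} (e : Perm.sign (ψ x) = 1) : (x : T) ∉ CC T := fun k => by
  obtain ⟨z, hz, z1⟩ := (bot_or_exists_ne_one Z).resolve_left h.ne
  exact h.not_oo hz (CC_mem k (mem_Cn_comm.1 (h.cz e hz)) z1).1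

theorem co [Finite T] (h : ρ.NT t M Z ψ) (hx : x ∈ CC T) : (Nat.card (Cn x)).Coprime (24 * Nat.card Z) := by
  rw [show 24 * Nat.card Z = 3 * (8 * Nat.card Z) by ring, ← h.card_ct]
  refine Nat.Coprime.mul_right (((Nat.Prime.coprime_iff_not_dvd Nat.prime_three).2 fun k => ?_).symm)
    (hx.2.coprime_Cn (Nat.odd_iff.1 (OO_odd hx.1)) h.inv)
  obtain ⟨y, hy, e⟩ := exists_mem_orderOf (H := M) Nat.prime_three (by rw [h.card_M]; omega)
  have y3 : y ^ 3 = 1 := e ▸ pow_orderOf_eq_one y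
  refine h.not_cc (x := ⟨y, hy⟩) ((Int.units_eq_one_or _).resolve_right fun a => ?_)
    (CC_cj hx (hx.2.exists_conj Nat.prime_three k y3) (by rintro rfl; simp at e)).1
  have := congrArg (fun x => Perm.sign (ψ x)) (show (⟨y, hy⟩ : M) ^ 3 = 1 from Subtype.ext y3)
  simp only [map_pow, a, map_one] at this
  exact absurd this (by decide)

theorem cw (h : ρ.NT t M Z ψ) {w x : M} (w1 : ψ w ≠ 1) (w3 : ψ w ^ 3 = 1) (e : ψ w * ψ x = ψ x * ψ w) : (x : T) ∈ Cn (w : T) := by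
  have k := s4_three _ w1 w3
  have : ∀ a : M, (a : T) ∈ Cn (w : T) → ψ x = ψ a → (x : T) ∈ Cn (w : T) := fun a b c =>
    (mul_mem_cancel_right (inv_mem b)).1 (mem_Cn_comm.1 (h.cz k.1 (h.div c)))
  rcases k.2.1 _ e with e | e | e
  exacts [this 1 (one_mem _) (e.trans (map_one ψ).symm), this w (self_mem_Cn _) e,
    this w⁻¹ (inv_mem (self_mem_Cn _)) (e.trans (map_inv ψ w).symm)]

theorem Cn_eq [Finite K] (h : ρ.NT t M Z ψ) (h' : ρ.II) {w : M} (w1 : ψ w ≠ 1) (w3 : ψ w ^ 3 = 1) (o : (w : T) ∈ OO T) :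
    (Cn (w : T) : Set T) = pre ψ fun b => ψ w * b = b * ψ w := by
  ext x
  refine ⟨fun a => ?_, fun ⟨a, b⟩ => h.cw w1 w3 b⟩
  obtain ⟨z, hz, z1⟩ := (bot_or_exists_ne_one Z).resolve_left h.ne
  obtain ⟨m, -⟩ := h.sg hz z1 (mem_Cn.2 (h'.oo_comm o (mem_Cn_comm.1 (h.cz (s4_three _ w1 w3).1 hz)) a))
  exact ⟨m, by simp only [← map_mul]; exact congrArg ψ (Subtype.ext (mem_Cn.1 a))⟩

theorem dens [Finite K] (h : ρ.NT t M Z ψ) (h' : ρ.II) {w : M} (w1 : ψ w ≠ 1) (w3 : ψ w ^ 3 = 1) (o : (w : T) ∈ OO T) :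
    ((OO T \ CC T).ncard : ℚ) / Nat.card T = (OO T ∩ Cn (w : T)).ncard / Nat.card (Nm (Cn (w : T))) ∧
    Nat.card (Cn (w : T)) = 3 * Nat.card Z ∧ Nat.card (Nm (Cn (w : T)) ⊓ M :) = 6 * Nat.card Z ∧
    ∀ x ∈ OO T \ CC T, Cj (w : T) x := by
  have := ρ.finite
  have k := s4_three _ w1 w3
  have e := h.Cn_eq h' w1 w3 o
  have cj : ∀ x ∈ OO T \ CC T, Cj (w : T) x := fun x a => by
    obtain ⟨y, hy, y1, oy, n⟩ := h'.not_cc a.1 a.2
    obtain ⟨g, hg⟩ := h.conj_Z oy y1 n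
    obtain ⟨m, -⟩ := h.sg hg (by simpa) (conj_mem_Cn.2 (mem_Cn_comm.1 hy))
    have n1 : ψ ⟨_, m⟩ ≠ 1 := fun e => h.not_oo ((h.ker _).1 e) (OO_conj g a.1)
    obtain ⟨b, hb⟩ := k.2.2.1 _ n1 ((H4.Small.S4_pow _).resolve_right fun e => n1 (Od.eq_one' (k := 2)
      (((Od.of_mem (OO_odd a.1) (self_mem_Cn x)).conj g).imp fun n c => ⟨c.1, by
        rw [← map_pow, ← map_one ψ]; exact congrArg ψ (Subtype.ext c.2)⟩) e))
    obtain ⟨b, rfl⟩ := h.surj b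
    exact ⟨b * g, by simpa [mul_assoc] using h.cw (x := b * ⟨_, m⟩ * b⁻¹) w1 w3 (by simp only [map_mul, map_inv, hb])⟩
  refine ⟨?_, by rw [← ncard_coe, e, h.card_pre, k.2.2.2.1], ?_, cj⟩
  · rw [← h'.gd.card o]
    congr 3
    ext x
    exact ⟨fun a => ⟨a.1, cj x a⟩, fun a => ⟨a.1, fun b => h.not_cc k.1 (CC_cj b (h'.gd.symm o a.1 a.2) (OO_ne o)).1⟩⟩
  rw [← k.2.2.2.2, ← h.card_pre, ← ncard_coe]
  congr 1
  ext g
  refine ⟨fun a => ⟨a.2, ?_⟩, fun ⟨a, b⟩ => ⟨mem_Nm fun x hx => ?_, a⟩⟩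
  · obtain ⟨_, b⟩ := e.le (Nm_conj a.1 (self_mem_Cn _))
    rw [← map_inv, ← map_mul, ← map_mul]
    exact b
  obtain ⟨m, c⟩ := e.le hx
  refine h.cw (x := ⟨g, a⟩ * ⟨x, m⟩ * ⟨g, a⟩⁻¹) w1 w3 ?_
  simp only [map_mul, map_inv]
  rcases k.2.1 _ c with d | d | d <;> rw [d]
  · simp
  · exact b
  · rw [← conj_inv]; exact (Commute.inv_right b).eq

theorem split [Finite K] (h : ρ.NT t M Z ψ) (h' : ρ.II) : ((OO T \ CC T).ncard : ℚ) / Nat.card T = 1 / 3 ∨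
    (Nat.card Z = 3 ∧ ((OO T \ CC T).ncard : ℚ) / Nat.card T = 1 / 9 ∧ (∀ x ∈ OO T \ CC T, x ^ 3 = 1) ∧
      ∃ z ∈ Z, z ≠ 1 ∧ ∃ w : M, ψ w ≠ 1 ∧ ψ w ^ 3 = 1 ∧ ∃ g : T, g * z * g⁻¹ = w ∧ g * w * g⁻¹ = z⁻¹) := by
  have := ρ.finite
  have n3 := h.three_le
  by_cases f : ∀ w : M, ψ w ≠ 1 → ψ w ^ 3 = 1 → (w : T) ∈ OO T
  · obtain ⟨w, hw⟩ := h.surj (swap 0 1 * swap 1 2)
    have w1 : ψ w ≠ 1 := hw ▸ by decide
    have w3 : ψ w ^ 3 = 1 := hw ▸ by decide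
    have o := f w w1 w3
    obtain ⟨e1, e2, e3, -⟩ := h.dens h' w1 w3 o
    have k := s4_three _ w1 w3
    have mz : ∀ x ∈ Cn (w : T), x ∉ OO T → x ∈ Z := fun x a b => by_contra fun n => by
      obtain ⟨m, c⟩ := (h.Cn_eq h' w1 w3 o).le a
      exact b (f ⟨x, m⟩ (mt (h.ker _).1 n) (by rcases k.2.1 _ c with d | d | d <;> simp [d, w3]))
    have le : Z ≤ Cn (w : T) := fun z a => mem_Cn_comm.1 (h.cz k.1 a)
    rw [inf_eq_left.2 fun g a => by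
      obtain ⟨z, hz, z1⟩ := (bot_or_exists_ne_one Z).resolve_left h.ne
      exact h.nm z hz z1 g (mz _ (Nm_conj a (le hz)) fun b => h.not_oo hz (by simpa [mul_assoc] using OO_conj g⁻¹ b))] at e3
    have : OO T ∩ Cn (w : T) = (Cn (w : T) : Set T) \ Z :=
      Set.ext fun x => ⟨fun a => ⟨a.2, fun b => h.not_oo b a.1⟩, fun a => ⟨by_contra fun b => a.2 (mz x a.1 b), a.1⟩⟩
    rw [e1, e3, this, Set.ncard_sdiff le, ncard_coe, ncard_coe, e2, show 3 * Nat.card Z - Nat.card Z = 2 * Nat.card Z by omega]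
    left
    have : (Nat.card Z : ℚ) ≠ 0 := by positivity
    push_cast
    field_simp
    norm_num
  push Not at f
  obtain ⟨w, w1, w3, n⟩ := f
  have k := s4_three _ w1 w3
  have wZ : (w : T) ∉ Z := mt (h.ker w).2 w1
  obtain ⟨g, hz⟩ := h.conj_Z (x := (w : T)) (by
    obtain ⟨m, a, b⟩ := Od.of_mem h.odd ((h.ker (w ^ 3)).1 (by rw [map_pow, w3]))
    exact ⟨3 * m, Odd.mul (by decide) a, by rw [pow_mul]; exact b⟩) (fun e => wZ (e ▸ Z.one_mem)) n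
  have z1 : g * w * g⁻¹ ≠ 1 := fun e => wZ (conj_eq_one_iff.1 e ▸ Z.one_mem)
  have gM : g ∉ M := fun e => w1 (conj_eq_one_iff.1 (by
    simpa only [map_mul, map_inv] using (h.ker (⟨g, e⟩ * w * ⟨g, e⟩⁻¹)).2 hz))
  have c3 : Nat.card Z = 3 := le_antisymm (by
    obtain ⟨y, hy, y1⟩ := (bot_or_exists_ne_one Z).resolve_left h.ne
    obtain ⟨_, sy⟩ := h.sg hz z1 (conj_mem_Cn.2 (mem_Cn_comm.1 (h.cz k.1 hy)))
    have m : ∀ z ∈ Z, g⁻¹ * z * g ∈ M := fun z a => (h.sg hy y1 ((conj_mem_Cn (g := g)).1 (by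
      simpa [mul_assoc] using mem_Cn_comm.1 (h.cz sy a)))).1
    rw [← k.2.2.2.1, ← Fintype.card_coe, ← Nat.card_eq_fintype_card]
    refine Nat.card_le_card_of_injective (fun z => ⟨ψ ⟨_, m z z.2⟩, ?_⟩) fun a b e => Subtype.ext ?_
    · simp only [Finset.mem_filter, Finset.mem_univ, true_and, ← map_mul]
      exact congrArg ψ (Subtype.ext (mem_Cn.1 ((conj_mem_Cn (g := g)).1 (by simpa [mul_assoc] using h.zz z.2 hz))))
    exact mul_inv_eq_one.1 (by_contra fun d => gM (inv_mem_iff.1 (h.nm _ (mul_mem a.2 (inv_mem b.2)) d g⁻¹ <| by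
      simpa [mul_assoc] using h.div (congrArg Subtype.val e))))) n3
  obtain ⟨z, ez⟩ : ∃ z, g * w * g⁻¹ = z := ⟨_, rfl⟩
  rw [ez] at hz z1
  have ew : g⁻¹ * z * g⁻¹⁻¹ = w := by rw [← ez]; group
  have z3 : ∀ z ∈ Z, z ^ 3 = 1 := fun z a => c3 ▸ pow_card_mem a
  have w3' : (w : T) ^ 3 = 1 := by rw [← ew, conj_pow, z3 z hz]; simp
  have wz := h.cz k.1 hz
  have nw : ∀ {x}, x ∈ Z → (w : T) ≠ x ∧ (w : T)⁻¹ ≠ x := fun a =>
    ⟨fun e => wZ (e ▸ a), fun e => wZ (inv_mem_iff.1 (e ▸ a))⟩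
  have ww : (w : T) ≠ (w : T)⁻¹ := fun e => (nw Z.one_mem).1 (eq_one_of_odd (by decide) w3' (mul_eq_one_iff_eq_inv.2 e))
  have rot4 : ∀ x ∈ Cn z, x ∈ Cn (w : T) → x ≠ 1 → Od x → x ∉ OO T → x = z ∨ x = z⁻¹ ∨ x = w ∨ x = (w : T)⁻¹ :=
    fun x a b c d e => by
      obtain ⟨j, hj⟩ : ∃ j, j * z * j⁻¹ = x := by
        obtain ⟨j, hj⟩ := h.conj_Z d c e
        rcases (mem_three c3 hz z1 hj).resolve_left (by simpa) with e | e
        · exact ⟨j⁻¹, by rw [← e]; group⟩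
        obtain ⟨m, hm⟩ := h.surj (swap 0 1)
        exact ⟨j⁻¹ * m, by
          rw [show j⁻¹ * m * z * (j⁻¹ * m)⁻¹ = j⁻¹ * (m * z * (m : T)⁻¹) * j by group, h.od m (by simp [hm]) z hz, ← e]; group⟩
      obtain ⟨w', hw⟩ := h'.four_rot (R := {z, w.1, x}) (n := 3) (z := z) (by decide) (c3 ▸ h.nz)
        (by simp [z3 z hz, w3', ← hj]) (by simp [mem_Cn.1 a, mem_Cn.1 b, mem_Cn.1 wz]) (by simp) (h.rot z hz)
      have a1 := hw j (by simp [hj])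
      have a2 := hw g⁻¹ (by simp only [ew]; simp)
      rw [hj] at a1
      rw [ew] at a2
      rcases (a2.resolve_left (nw hz).1).resolve_left (nw (inv_mem hz)).1 with e | e <;> rw [e]
      · exact a1
      · rw [inv_inv]; tauto
  obtain ⟨x, ex, px⟩ : ∃ x : M, (x : T) = z * w ∧ ψ x = ψ w := ⟨⟨z, h.le hz⟩ * w, rfl, by rw [map_mul, (h.ker _).2 hz, one_mul]⟩
  have xZ : (x : T) ∉ Z := fun e => wZ ((mul_mem_cancel_left hz).1 (ex ▸ e))
  have o : (x : T) ∈ OO T := by_contra fun n => by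
    rcases rot4 x (ex ▸ mul_mem (self_mem_Cn z) wz) (ex ▸ mul_mem (mem_Cn_comm.1 wz) (self_mem_Cn _)) (fun e => xZ (e ▸ Z.one_mem))
      (ex ▸ Od.mul ⟨3, by decide, z3 z hz⟩ ⟨3, by decide, w3'⟩ (mem_Cn.1 wz)) n with e | e | e | e
    · exact xZ (e ▸ hz)
    · exact xZ (e ▸ inv_mem hz)
    · exact z1 (by simpa [ex] using e)
    · refine (nw hz).1 ?_
      rw [eq_mul_inv_of_mul_eq (ex.symm.trans e), ← mul_inv_rev, eq_comm, inv_eq_iff_mul_eq_one, ← pow_three', w3']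
  obtain ⟨e1, e2, e3, e4⟩ := h.dens h' (px ▸ w1) (px ▸ w3) o
  have zx : z ∈ Cn (x : T) := mem_Cn_comm.1 (ex ▸ mul_mem (self_mem_Cn z) wz)
  have wx : (w : T) ∈ Cn (x : T) := h.cw (px ▸ w1) (px ▸ w3) (by rw [px])
  have n' : (w : T)⁻¹ ∉ OO T := fun e => h.not_oo (inv_mem hz) (by simpa only [← ez, conj_inv] using OO_conj g e)
  have r4 : ∀ y ∈ Cn (x : T), y ≠ 1 → y ∉ OO T → y = z ∨ y = z⁻¹ ∨ y = w ∨ y = (w : T)⁻¹ := fun y a b c =>
    rot4 y (mem_Cn.2 (h'.oo_comm o zx a)) (mem_Cn.2 (h'.oo_comm o wx a)) b (Od.of_mem (OO_odd o) a) c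
  have e5 : (OO T ∩ Cn (x : T)).ncard = 4 := by
    have : OO T ∩ Cn (x : T) = (Cn (x : T) : Set T) \ {1, z, z⁻¹, w.1, (w : T)⁻¹} := Set.ext fun y => ⟨fun a => ⟨a.2, by
      rintro (rfl | rfl | rfl | rfl | rfl)
      exacts [OO_ne a.1 rfl, h.not_oo hz a.1, h.not_oo (inv_mem hz) a.1, n a.1, n' a.1]⟩,
      fun a => ⟨by_contra fun b => a.2 (or_iff_not_imp_left.2 fun c => r4 y a.1 c b), a.1⟩⟩
    rw [this, Set.ncard_sdiff (by simp [Set.insert_subset_iff, zx, wx]), ncard_coe, e2, c3, Set.ncard_insert_of_notMem,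
      Set.ncard_insert_of_notMem, Set.ncard_insert_of_notMem, Set.ncard_pair ww]
    · simp only [Set.mem_insert_iff, Set.mem_singleton_iff, not_or]
      exact ⟨(nw (inv_mem hz)).1.symm, (nw (inv_mem hz)).2.symm⟩
    · simp only [Set.mem_insert_iff, Set.mem_singleton_iff, not_or]
      exact ⟨fun e => z1 (h.zo hz (mul_eq_one_iff_eq_inv.2 e)), (nw hz).1.symm, (nw hz).2.symm⟩
    · simp only [Set.mem_insert_iff, Set.mem_singleton_iff, not_or]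
      exact ⟨z1.symm, by simpa using z1, (nw Z.one_mem).1.symm, (nw Z.one_mem).2.symm⟩
  have := Fact.mk Nat.prime_three
  obtain ⟨R, hR⟩ := (IsPGroup.of_card (p := 3) (n := 2) (G := Cn (x : T)) (by rw [e2, c3]; rfl)).exists_le_sylow
  have cm := h'.syl_comm Nat.prime_three (by decide) R
  have eR : (R : Subgroup T) = Cn (x : T) := le_antisymm (fun y a => mem_Cn.2 (cm _ (hR (self_mem_Cn _)) y a)) hR
  have : IsMulCommutative R := ⟨⟨fun a b => Subtype.ext (cm a a.2 b b.2)⟩⟩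
  obtain ⟨j, hj, ej⟩ := R.conj_eq_normalizer_conj_of_mem z g (hR zx) (by rw [inv_inv] at ew; exact ew ▸ hR wx)
  replace hj : j⁻¹ ∈ Nm (Cn (x : T)) := eR ▸ inv_mem hj
  replace ej : j⁻¹ * z * j⁻¹⁻¹ = w := by rw [← ew, inv_inv, inv_inv, ej]
  generalize j⁻¹ = j at hj ej
  have out : ∀ a ∈ Nm (Cn (x : T)), a ∉ M → (a * z * a⁻¹ = w ∨ a * z * a⁻¹ = (w : T)⁻¹) ∧ a * w * a⁻¹ ∈ Z := fun a b c => by
    have k1 := ((r4 _ (Nm_conj b zx) (by simpa) fun e => h.not_oo hz (by simpa [mul_assoc] using OO_conj a⁻¹ e)).resolve_left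
      fun e => c (h.nm z hz z1 a (e.symm ▸ hz))).resolve_left fun e => c (h.nm z hz z1 a (e.symm ▸ inv_mem hz))
    refine ⟨k1, ?_⟩
    rcases r4 _ (Nm_conj b wx) (by simpa using (nw Z.one_mem).1) fun e => n (by simpa [mul_assoc] using OO_conj a⁻¹ e)
      with e | e | e | e
    · exact e ▸ hz
    · exact e ▸ inv_mem hz
    · rcases k1 with d | d
      · exact absurd (by simpa using e.trans d.symm) (nw hz).1
      · exact absurd (by simpa using (conj_inv.symm.trans (congrArg _ e)).trans d.symm) (nw hz).2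
    · rcases k1 with d | d
      · exact absurd (by simpa using (conj_inv.symm.trans (congrArg _ e)).trans ((inv_inv _).trans d.symm)) (nw hz).2
      · exact absurd (by simpa using e.trans d.symm) (nw hz).1
  have jM : j ∉ M := fun e => wZ (ej ▸ by
    rcases Int.units_eq_one_or (Perm.sign (ψ ⟨j, e⟩)) with d | d
    exacts [(h.ev _ d z hz).symm ▸ hz, (h.od _ d z hz).symm ▸ inv_mem hz])
  have e6 := card_two (A := Nm (Cn (x : T)) ⊓ M) inf_le_left hj (fun e => jM e.2) fun a ha b hb c d =>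
    ⟨mul_mem ha hb, h.nm z hz z1 _ (by
      rw [show a * b * z * (a * b)⁻¹ = a * (b * z * b⁻¹) * a⁻¹ by group]
      have := (out a ha fun e => c ⟨ha, e⟩).2
      rcases (out b hb fun e => d ⟨hb, e⟩).1 with e | e <;> rw [e]
      exacts [this, by rw [← conj_inv]; exact inv_mem this])⟩
  refine Or.inr ⟨c3, by rw [e1, e5, e6, e3, c3]; norm_num, fun y hy => ?_, z, hz, z1, w, w1, w3, j, ej, ?_⟩
  · obtain ⟨a, ha⟩ := e4 y hy
    obtain ⟨m, c⟩ := (h.Cn_eq h' (px ▸ w1) (px ▸ w3) o).le ha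
    have : ∀ b : M, (b : T) ^ 3 = 1 → (b : T) ∈ Cn (x : T) → ψ ⟨_, m⟩ = ψ b → y ^ 3 = 1 := fun b c d e => by
      have := z3 _ (h.div e)
      rw [Commute.mul_pow (h'.oo_comm o ha (inv_mem d)), inv_pow, c] at this
      simpa using this
    rcases k.2.1 _ (px ▸ c) with e | e | e
    exacts [this 1 (by simp) (one_mem _) (e.trans (map_one ψ).symm), this w w3' wx e,
      this w⁻¹ (by simp [w3']) (inv_mem wx) (e.trans (map_inv ψ w).symm)]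
  refine ((mem_three c3 hz z1 (out j hj jM).2).resolve_left (by simpa using (nw Z.one_mem).1)).resolve_left fun e => ?_
  have : j ∈ Cn (x : T) := Cn_of_conj (by rw [ex, ← conj_mul, ej, e, mem_Cn.1 wz])
  exact (nw hz).1 (by rw [← ej, h'.oo_comm o this zx, mul_inv_cancel_right])

end NT

end SRep

end Cfsg.Agent.H1.Mit
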