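import Cfsg.Agent.H1.M4G5

/-! The class equation. -/

set_option autoImplicit false

namespace Cfsg.Agent.H1.Mit

open Subgroup Cfsg.Agent.MH

variable {T K : Type*} [Group T] [Field K] {x y z g s t u v : T} {N c n e n1 e1 n2 e2 : ℕ} {τ τ1 τ2 τU : ℚ}

/-- the contribution of a class of CA-subgroups with automiser of order two or four -/
def ET4 (N c n e : ℕ) (τ : ℚ) : Prop := (n = 1 ∧ τ = 0) ∨ (n % 2 = 1 ∧ n * e ∣ N ∧ n.Coprime c ∧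
  ((e = 2 ∧ 3 ≤ n ∧ τ = 1 / 2 - (n : ℚ)⁻¹ / 2) ∨ (e = 4 ∧ 5 ≤ n ∧ n % 4 = 1 ∧ 8 ∣ c ∧ τ = 1 / 4 - (n : ℚ)⁻¹ / 4)))

theorem ET4.bd (h : ET4 N c n e τ) (h1 : n ≠ 1) : 1 / 5 ≤ τ ∧ (n ≠ 5 → 2 / 9 ≤ τ) ∧ (¬ 8 ∣ c → 1 / 3 ≤ τ) := by
  rcases h with ⟨h, -⟩ | ⟨-, -, -, ⟨-, h, rfl⟩ | ⟨-, h, a, b, rfl⟩⟩
  · exact absurd h h1
  · have := inv_le' 3 h
    push_cast at *
    exact ⟨by linarith, fun _ => by linarith, fun _ => by linarith⟩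
  · have := inv_le' 5 h
    refine ⟨by push_cast at *; linarith, fun _ => ?_, fun k => absurd b k⟩
    have := inv_le' (n := n) 9 (by omega)
    push_cast at *
    linarith

/-- centraliser and automiser -/
def Ec (x : T) (e n : ℕ) : Prop := x ∈ CC T ∧ Nat.card (Cn x) = n ∧ Nat.card (Nm (Cn x)) = n * e

/-- the automiser has exponent dividing four -/
def Or4 (x : T) : Prop := ∀ g ∈ Nm (Cn x), g ^ 4 ∈ Cn x

theorem Ec.cj [Finite T] (h : Ec x e n) (k : Cj x y) (h1 : y ≠ 1) : Ec y e n :=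
  have := CC_cj h.1 k h1
  ⟨this.1, this.2.1.trans h.2.1, this.2.2.trans h.2.2⟩

theorem Ec.or4 [Finite T] (h : Ec x e n) (h4 : e ∣ 4) : Or4 x := fun g hg => by
  have := ((Cn x).subgroupOf (Nm (Cn x))).card_mul_index
  rw [Nat.card_congr (subgroupOfEquivOfLe le_normalizer).toEquiv, h.2.2, ← h.2.1] at this
  obtain ⟨k, hk⟩ := h4
  rw [hk, pow_mul, ← Nat.eq_of_mul_eq_mul_left Nat.card_pos this]
  exact pow_mem (((Cn x).subgroupOf (Nm (Cn x))).pow_index_mem ⟨g, hg⟩) k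

theorem Ec.cj_of [Finite T] (h : Ec x e n) {r : ℕ} (hr : r.Prime) (hd : r ∣ n) (hy : y ^ r = 1) : Cj x y :=
  h.1.2.exists_conj hr (h.2.1 ▸ hd) hy

theorem Ec.ne [Finite T] (h : Ec x e n) : n ≠ 1 := h.2.1 ▸ (two_le_card (OO_ne h.1.1) (self_mem_Cn x) |> Nat.ne_of_gt)

theorem Ec.odd [Finite T] (h : Ec x e n) : n % 2 = 1 := Nat.odd_iff.1 (h.2.1 ▸ OO_odd h.1.1)

theorem Ec.dvd [Finite T] (h : Ec x e n) : e ∣ n - 1 := by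
  obtain ⟨m, a, b⟩ := h.1.2.card_Nm
  rw [h.2.2, ← h.2.1] at a
  rwa [Nat.eq_of_mul_eq_mul_left Nat.card_pos a, ← h.2.1]

theorem Ec.pow (h : Ec x e n) : x ^ n = 1 := h.2.1 ▸ pow_card_mem (self_mem_Cn x)

theorem Ec.tau [Finite T] (G : Gd T) (h : Ec x e n) : ({y | y ∈ OO T ∧ Cj x y}.ncard : ℚ) / Nat.card T =
    (e : ℚ)⁻¹ - (n : ℚ)⁻¹ * (e : ℚ)⁻¹ :=
  (G.card h.1.1).trans (h.2.1 ▸ h.1.2.tau (h.2.1 ▸ h.odd) (h.2.1 ▸ h.2.2))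

theorem Ec.co [Finite T] {e' n' : ℕ} (G : Gd T) (h : Ec x e n) (h' : Ec y e' n') (k : ¬ Cj x y) : n.Coprime n' :=
  Nat.coprime_of_dvd fun r hr a b => by
    obtain ⟨z, hz, o⟩ := exists_mem_orderOf hr (h'.2.1 ▸ b)
    exact k (G.trans h.1.1 (CC_mem h'.1 hz (by rintro rfl; exact hr.one_lt.ne (by simpa using o))).1
      (h.cj_of hr a (o ▸ pow_orderOf_eq_one z)) (Cj.of_mem (mem_Cn_comm.1 hz)))

theorem pick [Finite T] (G : Gd T) (hc : ∀ x ∈ CC T, Or4 x → ∃ e n, Ec x e n ∧ e ∣ 4 ∧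
    ET4 (Nat.card T) c n e ((e : ℚ)⁻¹ - (n : ℚ)⁻¹ * (e : ℚ)⁻¹)) {S : Set T}
    (h1 : ∀ x ∈ S, x ∈ CC T ∧ Or4 x) (h2 : ∀ x ∈ S, ∀ y ∈ OO T, Cj x y → y ∈ S) :
    ∃ (C : Set T) (n e : ℕ) (τ : ℚ), C ⊆ S ∧ (C.ncard : ℚ) / Nat.card T = τ ∧ ET4 (Nat.card T) c n e τ ∧
      (∀ y ∈ C, Ec y e n) ∧ (n ≠ 1 → C.Nonempty) ∧ (S.Nonempty → n ≠ 1) ∧
      (∀ x ∈ C, ∀ y ∈ OO T, Cj x y → y ∈ C) ∧ ∀ x ∈ S \ C, ∀ y ∈ OO T, Cj x y → y ∈ S \ C := by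
  rcases S.eq_empty_or_nonempty with rfl | ⟨x, hx⟩
  · exact ⟨∅, 1, 0, 0, le_rfl, by simp, Or.inl ⟨rfl, rfl⟩, by simp⟩
  obtain ⟨e, n, a, -, b⟩ := hc x (h1 x hx).1 (h1 x hx).2
  exact ⟨{y | y ∈ OO T ∧ Cj x y}, n, e, _, fun y hy => h2 x hx y hy.1 hy.2, a.tau G, b, fun y hy => a.cj hy.2 (OO_ne hy.1),
    fun _ => ⟨x, a.1.1, Cj.of_mem (self_mem_Cn x)⟩, fun _ => a.ne, fun y hy z hz k => ⟨hz, G.trans a.1.1 hy.1 hy.2 k⟩,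
    fun y hy z hz k => ⟨h2 y hy.1 z hz k, fun k' =>
      hy.2 ⟨(h1 y hy.1).1.1, G.trans a.1.1 hz k'.2 (G.symm (h1 y hy.1).1.1 hz k)⟩⟩⟩

namespace SRep

variable {ρ : SRep T K}

/-- the summary of the count -/
structure OS (ρ : SRep T K) (c n1 e1 n2 e2 : ℕ) (τ1 τ2 τU : ℚ) : Prop where
  sum : ((CC T).ncard : ℚ) / Nat.card T = τ1 + τ2 + τU
  et1 : ET4 (Nat.card T) c n1 e1 τ1
  et2 : ET4 (Nat.card T) c n2 e2 τ2
  co : n1.Coprime n2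
  ecl : ∀ x ∈ CC T, Or4 x → Ec x e1 n1 ∨ Ec x e2 n2
  rep1 : n1 ≠ 1 → ∃ x : T, Ec x e1 n1
  rep2 : n2 ≠ 1 → ∃ x : T, Ec x e2 n2
  uni : (τU = 0 ∧ ∀ x ∈ CC T, Or4 x) ∨ ∃ (u : T) (p q l : ℕ), ρ.NoQ ∧ p.Prime ∧ (p : K) = 0 ∧ u ^ p = 1 ∧ Ec u l q ∧
    τU = (l : ℚ)⁻¹ - (q : ℚ)⁻¹ * (l : ℚ)⁻¹ ∧ ¬ l ∣ 4 ∧ q.Coprime c ∧ q.Coprime n1 ∧ q.Coprime n2 ∧
    ∀ x ∈ CC T, Or4 x ∨ x ^ p = 1

theorem OS.swap (h : ρ.OS c n1 e1 n2 e2 τ1 τ2 τU) : ρ.OS c n2 e2 n1 e1 τ2 τ1 τU :=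
  ⟨by rw [h.sum, add_comm τ1], h.et2, h.et1, h.co.symm, fun x a b => (h.ecl x a b).symm, h.rep2, h.rep1,
    h.uni.imp_right fun ⟨u, p, q, l, a1, a2, a3, a4, a5, a6, a7, a8, a9, a10, a11⟩ =>
      ⟨u, p, q, l, a1, a2, a3, a4, a5, a6, a7, a8, a10, a9, a11⟩⟩

theorem II.or4 [Finite K] (h : ρ.II) {p : ℕ} (hp : p.Prime) (p0 : (p : K) = 0) (hx : x ∈ CC T) :
    Or4 x ∨ (ρ.NoQ ∧ x ^ p = 1) := by
  have := ρ.finite
  have := (CharP.charP_iff_prime_eq_zero (R := K) hp).2 p0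
  by_cases d : p ∣ Nat.card (Cn x)
  swap
  · exact Or.inl fun g hg => mem_Cn.2 (h.w4 (fun _ a _ b => hx.2.comm a b) (OO_odd hx.1)
      (mt (CharP.cast_eq_zero_iff K p _).1 d) hg (self_mem_Cn x)).symm
  obtain ⟨u, hu, o⟩ := exists_mem_orderOf hp d
  have u1 : u ≠ 1 := by rintro rfl; exact hp.one_lt.ne (by simpa using o)
  have up : u ^ p = 1 := o ▸ pow_orderOf_eq_one u
  refine h.small.2.symm.imp (fun ⟨p3, n9⟩ g hg => ?_) fun q => ⟨q, (q.uni h.two hp p0 up u1).2.1 x (mem_Cn_comm.1 hu)⟩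
  obtain rfl := char_uniq Nat.prime_three p3 hp p0
  have : g * g ∈ Cn u := Cn_of_conj (by
    rw [show g * g * u * (g * g)⁻¹ = g * (g * u * g⁻¹) * g⁻¹ by group]
    by_contra n
    refine n9 (nine_dvd up (y := g * u * g⁻¹) (by simp [up]) u1 (by simpa) (hx.2.comm hu (Nm_conj hg hu)) ?_ ?_) <;>
      refine fun e => n ?_
    · rw [e, e]
    · rw [e, ← conj_inv, e, inv_inv])
  rw [pow_four_eq, ← hx.2 u hu u1]
  exact mul_mem this this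

theorem II.os [Finite K] (h : ρ.II) (hc : Cls t) (p4 : P4 t) (co : ∀ x ∈ CC T, (Nat.card (Cn x)).Coprime c)
    (h8 : ∀ g : T, g * g ≠ 1 → g ^ 4 = 1 → 8 ∣ c)
    (hb : ((CC T).ncard : ℚ) / Nat.card T < 29 / 45 ∨ (¬ 8 ∣ c ∧ ((CC T).ncard : ℚ) / Nat.card T < 1)) :
    ∃ n1 e1 n2 e2 τ1 τ2 τU, ρ.OS c n1 e1 n2 e2 τ1 τ2 τU := by
  have := ρ.finite
  have G := h.gd
  have N0 : (0 : ℚ) < Nat.card T := by exact_mod_cast Nat.card_pos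
  have ht : ∀ x ∈ CC T, Or4 x → ∃ e n, Ec x e n ∧ e ∣ 4 ∧ ET4 (Nat.card T) c n e ((e : ℚ)⁻¹ - (n : ℚ)⁻¹ * (e : ℚ)⁻¹) :=
    fun x a b => by
      have n2 := two_le_card (OO_ne a.1) (self_mem_Cn x)
      have o := Nat.odd_iff.1 (OO_odd a.1)
      rcases ord_class h.perf hc p4 a.2 (OO_odd a.1) ((one_lt_card_iff_ne_bot _).1 n2) b with e | ⟨e, g, -, g2, g4⟩
      · exact ⟨2, _, ⟨a, rfl, e⟩, by decide, Or.inr ⟨o, e ▸ card_subgroup_dvd_card _, co x a, Or.inl ⟨rfl, by omega, by ring⟩⟩⟩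
      · have := Ec.dvd ⟨a, rfl, e⟩
        exact ⟨4, _, ⟨a, rfl, e⟩, by decide, Or.inr ⟨o, e ▸ card_subgroup_dvd_card _, co x a,
          Or.inr ⟨rfl, by omega, by omega, h8 g g2 g4, by ring⟩⟩⟩
  have cl : ∀ x, x ∈ CC T ∧ Or4 x → ∀ y ∈ OO T, Cj x y → y ∈ CC T ∧ Or4 y := fun x a y hy k => by
    obtain ⟨e, n, b, d, -⟩ := ht x a.1 a.2
    exact ⟨(b.cj k (OO_ne hy)).1, (b.cj k (OO_ne hy)).or4 d⟩
  obtain ⟨C1, n1, e1, τ1, a1, a2, a3, a4, a5, a6, a7, a8⟩ := pick G ht (S := {x | x ∈ CC T ∧ Or4 x}) (fun _ => id) cl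
  obtain ⟨C2, n2, e2, τ2, b1, b2, b3, b4, b5, b6, b7, b8⟩ := pick G ht (fun x a => a.1) a8
  obtain ⟨C3, n3, e3, τ3, c1, c2, c3, c4, c5, c6, -⟩ := pick G ht (fun x a => a.1.1) b8
  have d12 : Disjoint C1 C2 := Set.disjoint_left.2 fun x a b => (b1 b).2 a
  have cp : ∀ {C D : Set T} {n e m f}, (∀ y ∈ C, Ec y e n) → (n ≠ 1 → C.Nonempty) → (∀ y ∈ D, Ec y f m) → (m ≠ 1 → D.Nonempty) →
      (∀ x ∈ C, ∀ y ∈ OO T, Cj x y → y ∈ C) → (∀ x ∈ D, x ∉ C) → n.Coprime m := fun {C D n e m f} a b a' b' k k' => by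
    by_cases p : n = 1
    · simp [p]
    by_cases q : m = 1
    · simp [q]
    obtain ⟨x, hx⟩ := b p
    obtain ⟨y, hy⟩ := b' q
    exact (a x hx).co G (a' y hy) fun j => k' y hy (k x hx y (a' y hy).1.1 j)
  have c12 := cp a4 a5 b4 b5 a7 fun x a => (b1 a).2
  have hE : {x | x ∈ CC T ∧ Or4 x} = C1 ∪ C2 := by
    refine Set.Subset.antisymm (fun x hx => by_contra fun k => ?_) (Set.union_subset a1 fun x a => (b1 a).1)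
    have k' := not_or.1 k
    have p1 := a3.bd (a6 ⟨x, hx⟩)
    have p2 := b3.bd (b6 ⟨x, hx, k'.1⟩)
    have p3 := c3.bd (c6 ⟨x, ⟨hx, k'.1⟩, k'.2⟩)
    have c13 := cp a4 a5 c4 c5 a7 fun x a => (c1 a).1.2
    have c23 := cp b4 b5 c4 c5 b7 fun x a => (c1 a).2
    have : (C1 ∪ C2 ∪ C3).ncard ≤ (CC T).ncard := Set.ncard_le_ncard (by
      rintro y ((a | a) | a)
      exacts [(a1 a).1, (b1 a).1.1, (c1 a).1.1.1])
    rw [Set.ncard_union_eq (Set.disjoint_left.2 fun x a b => a.elim (c1 b).1.2 (c1 b).2), Set.ncard_union_eq d12] at this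
    have := div_le_div_of_nonneg_right (show ((_ : ℕ) : ℚ) ≤ _ from Nat.cast_le.2 this) N0.le
    push_cast at this
    rw [add_div, add_div, a2, b2, c2] at this
    rcases hb with hb | ⟨k8, hb⟩
    swap
    · linarith [p1.2.2 k8, p2.2.2 k8, p3.2.2 k8]
    by_cases f1 : n1 = 5
    · linarith [p1.1, p2.2.1 (by rintro rfl; simp [f1] at c12), p3.2.1 (by rintro rfl; simp [f1] at c13)]
    by_cases f2 : n2 = 5
    · linarith [p2.1, p1.2.1 f1, p3.2.1 (by rintro rfl; simp [f2] at c23)]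
    · linarith [p3.1, p1.2.1 f1, p2.2.1 f2]
  refine ⟨n1, e1, n2, e2, τ1, τ2, ({x | x ∈ CC T ∧ ¬ Or4 x}.ncard : ℚ) / Nat.card T, ?_, a3, b3, c12,
    fun x a b => (hE.le ⟨a, b⟩).imp (a4 x) (b4 x), fun k => (a5 k).imp a4, fun k => (b5 k).imp b4, ?_⟩
  · rw [← a2, ← b2, ← add_div, ← add_div, ← Nat.cast_add, ← Nat.cast_add, ← Set.ncard_union_eq d12, ← hE,
      ← Set.ncard_union_eq (Set.disjoint_left.2 fun x a b => b.2 a.2)]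
    congr 3
    ext x
    simp only [Set.mem_union, Set.mem_setOf_eq]
    tauto
  refine or_iff_not_imp_left.2 fun k => ?_
  obtain ⟨u, hu, n4⟩ : {x | x ∈ CC T ∧ ¬ Or4 x}.Nonempty :=
    Set.nonempty_iff_ne_empty.2 fun e => k ⟨by rw [e]; simp, fun x a => by_contra fun d => e.le ⟨a, d⟩⟩
  obtain ⟨p, hp, p0⟩ := exists_char K
  obtain ⟨q, up⟩ := (h.or4 hp p0 hu).resolve_left n4
  obtain ⟨l, hl, -⟩ := hu.2.card_Nm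
  have eu : Ec u l _ := ⟨hu, rfl, hl⟩
  have := Fact.mk hp
  have cj : ∀ x : T, x ^ p = 1 → Cj u x := fun x =>
    eu.cj_of hp (orderOf_eq_prime up (OO_ne hu.1) ▸ orderOf_dvd_card_of_mem (self_mem_Cn u))
  have cq : ∀ {C : Set T} {n e}, C ⊆ {x | x ∈ CC T ∧ Or4 x} → (∀ y ∈ C, Ec y e n) → (n ≠ 1 → C.Nonempty) →
      (Nat.card (Cn u)).Coprime n := fun {C n e} a b d => by
    by_cases f : n = 1
    · simp [f]
    obtain ⟨y, hy⟩ := d f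
    exact eu.co G (b y hy) fun j => n4 (cl y (a hy) u hu.1 (G.symm hu.1 (a hy).1.1 j)).2
  refine ⟨u, p, _, l, q, hp, p0, up, eu, ?_, mt eu.or4 n4, co u hu, cq a1 a4 a5, cq (fun x a => (b1 a).1) b4 b5,
    fun x a => (h.or4 hp p0 a).imp_right And.right⟩
  rw [← eu.tau G]
  congr 3
  ext y
  exact ⟨fun a => ⟨a.1.1, cj y ((h.or4 hp p0 a.1).resolve_left a.2).2⟩, fun a => ⟨(eu.cj a.2 (OO_ne a.1)).1,
    fun b => n4 (cl y ⟨(eu.cj a.2 (OO_ne a.1)).1, b⟩ u hu.1 (G.symm hu.1 a.1 a.2)).2⟩⟩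

end SRep

end Cfsg.Agent.H1.Mit
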