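import Cfsg.Agent.H1.M4G4

/-! The two outcomes of the second case that still have to be identified. -/

set_option autoImplicit false

namespace Cfsg.Agent.H1.Mit.SRep

open Cfsg.Agent.MH

variable {T K : Type*} [Group T] [Field K]

/-- the outcome `L₂(q)` -/
structure OutL (ρ : SRep T K) (u : T) (p q l : ℕ) : Prop where
  nq : ρ.NoQ
  pp : p.Prime
  p0 : (p : K) = 0
  u1 : u ≠ 1
  up : u ^ p = 1
  cq : Nat.card (Cn u) = q
  cl : Nat.card (Nm (Cn u)) = q * l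
  ql : 2 * l + 1 = q
  three : 3 ≤ l
  card : Nat.card T = q * l * (q + 1)
  ord : ∀ x : T, x ^ p = 1 ∨ x ^ l = 1 ∨ x ^ (l + 1) = 1

/-- the outcome `A₇` -/
structure OutA (ρ : SRep T K) (t : T) (M Z : Subgroup T) (ψ : M →* S4) (z : T) (w : M) (g : T) : Prop where
  nt : ρ.NT t M Z ψ
  cz : Nat.card Z = 3
  card : Nat.card T = 2520
  seven : (7 : K) = 0
  nq : ρ.NoQ
  hz : z ∈ Z
  z1 : z ≠ 1
  w1 : ψ w ≠ 1
  w3 : ψ w ^ 3 = 1
  g1 : g * z * g⁻¹ = w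
  g2 : g * w * g⁻¹ = z⁻¹

end Cfsg.Agent.H1.Mit.SRep
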