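import Cfsg.Agent.H1.M4A
import Cfsg.Agent.H1.M4Out
import Cfsg.Agent.H5.MHA6

/-! The end of the second case. -/

set_option autoImplicit false

namespace Cfsg.Agent.H1.Mit

open Subgroup Cfsg.Agent.MH

variable {T K : Type*} [Group T] [Field K] {x y z g s t u v : T} {A M Z : Subgroup T} {c k n e n1 e1 n2 e2 p q l : ℕ}
  {τ τ1 τ2 τU : ℚ}

theorem td_cn [Finite T] (h : TD t A k) (ht : Inv t) (hy : y ∈ A) (y2 : y * y ≠ 1) : Cn y = A := by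
  refine le_antisymm (fun s a => by_contra fun n => ?_) fun s a => mem_Cn.2 (h.comm y hy s a)
  obtain ⟨w, hw⟩ := Set.ncard_eq_one.1 (h.nv1 y (h.le hy) y2)
  have k : ∀ s : T, Inv s → s ∈ Cn y → s = t := fun s b d =>
    (hw.le ⟨b, d⟩).trans (hw.le ⟨ht, mem_Cn_comm.1 (h.le hy)⟩ :).symm
  have m := mem_Cn_comm.1 (h.le hy)
  exact n (k s ⟨fun e => n (e ▸ A.one_mem), h.out s (Cn_of_conj (k _ (ht.conj s) (mul_mem (mul_mem a m) (inv_mem a)))) n⟩ a ▸ h.tm)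

theorem td_tri [Finite T] (h : TD t A k) (ht : Inv t) (x : T) :
    x ∈ OO T ∨ x * x = 1 ∨ (x ^ (2 * k) = 1 ∧ Nat.card (Cn x) = 2 * k) :=
  or_iff_not_imp_left.2 fun a => or_iff_not_imp_left.2 fun b => by
    obtain ⟨g, hg⟩ := h.cls.conj_mem fun e => a ⟨b, e⟩
    have m := by_contra fun e => b (conj_mul_self.1 (h.out _ hg e))
    exact ⟨by simpa [h.cardA] using pow_card_mem m, by rw [← card_Cn_conj g, td_cn h ht m (mt conj_mul_self.1 b), h.cardA]⟩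

theorem Ec.mu [Finite T] [IsSimpleGroup T] (h : Ec u l q) (ht : Inv t) : ∃ μ, 1 ≤ μ ∧ Nat.card T = q * l * (1 + q * μ) := by
  obtain ⟨μ, e⟩ := h.1.2.card_eq
  refine ⟨μ, Nat.pos_of_ne_zero ?_, by rwa [h.2.2, h.2.1] at e⟩
  rintro rfl
  rcases (normalizer_eq_top_iff.1 ((card_eq_iff_eq_top (Nm (Cn u))).1 (e.trans (by simp)).symm)).eq_bot_or_eq_top with e | e
  exacts [OO_ne h.1.1 (mem_bot.1 (e.le (self_mem_Cn u))), nv_eq_zero.1 h.1.1.2 t ht (e.ge (mem_top t))]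

theorem Ec.cases [Finite T] (h : Ec u l q) (h4 : ¬ l ∣ 4) : 1 < q ∧ l < q ∧ q * l ∣ Nat.card T ∧ ((l = 3 ∧ 7 ≤ q ∧ q % 6 = 1) ∨ 5 ≤ l) := by
  have := h.ne
  have := h.odd
  have d := h.dvd
  have := Nat.le_of_dvd (by omega) d
  refine ⟨by omega, by omega, h.2.2 ▸ card_subgroup_dvd_card _, or_iff_not_imp_right.2 fun a => ?_⟩
  have : l ≤ 4 := by omega
  interval_cases l <;> omega

theorem Ec.cj_p [Finite T] (h : Ec u l q) (hp : p.Prime) (hu : u ^ p = 1) (hx : x ^ p = 1) (h1 : x ≠ 1) : Ec x l q :=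
  have := Fact.mk hp
  h.cj (h.cj_of hp (orderOf_eq_prime hu (OO_ne h.1.1) ▸ h.2.1 ▸ orderOf_dvd_card_of_mem (self_mem_Cn u)) hx) h1

namespace SRep

variable {ρ : SRep T K} {ψ : M →* S4}

theorem OS.odd [Finite T] (h : ρ.OS c n1 e1 n2 e2 τ1 τ2 τU) (hp : commutator T = ⊤) (hc : Cls t) (p4 : P4 t) (hg : g ∈ CC T)
    (o : Or4 g) (h5 : ∀ x ∈ Nm (Cn g), x * x * g * (x * x)⁻¹ = g⁻¹ → Nat.card (Cn g) = 5) :
    (Nat.card (Cn g) = n1 ∧ (e1 = 4 → Nat.card (Cn g) = 5)) ∨ (Nat.card (Cn g) = n2 ∧ (e2 = 4 → Nat.card (Cn g) = 5)) := by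
  have k : ∀ {e n}, Ec g e n → Nat.card (Cn g) = n ∧ (e = 4 → Nat.card (Cn g) = 5) := fun a => ⟨a.2.1, by
    rintro rfl
    have n2 := two_le_card (OO_ne hg.1) (self_mem_Cn g)
    obtain ⟨-, x, hx, x2, x4⟩ := (ord_class hp hc p4 hg.2 (OO_odd hg.1) ((one_lt_card_iff_ne_bot _).1 n2) o).resolve_left
      fun e => by have := a.2.1; have := a.2.2; omega
    exact h5 x hx (inverts (pow_four_eq x ▸ x4) (mul_mem hx hx) (self_mem_Cn g) (fun _ a _ b => hg.2.comm a b) fun y a b =>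
      by_contra fun d => nv_eq_zero.1 hg.1.2 _ ⟨x2, pow_four_eq x ▸ x4⟩ (hg.2 y a d ▸ b))⟩
  exact (h.ecl g hg o).imp k k

theorem II.td_main [Finite K] (h : ρ.II) (ht : Inv t) (hD : TD t A k) : Nat.card T = 60 ∨
    ((3 : K) ≠ 0 ∧ Nonempty (T ≃* alternatingGroup (Fin 6))) ∨ ∃ u p q l, ρ.OutL u p q l := by
  have := ρ.finite
  have := h.simple
  have k0 : 0 < k := by have := hD.cardA ▸ Nat.card_pos (α := A); omega
  have pN := inv_pos' (Nat.card_pos (α := T))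
  have hd : 4 * k ∣ Nat.card T := hD.card ▸ card_subgroup_dvd_card _
  have s : ((CC T).ncard : ℚ) / Nat.card T = 1 / 2 + (k : ℚ)⁻¹ / 4 - (Nat.card T : ℚ)⁻¹ := by
    rw [show CC T = OO T from Set.ext fun x => ⟨And.left, h.td_cc hD⟩, hD.cls.count_one ht hD.nv1, hD.ni, hD.card]
    push_cast; field_simp; ring
  obtain ⟨n1, e1, n2, e2, τ1, τ2, τU, S⟩ := h.os (c := 4 * k) hD.cls (hD.p4 ht)
    (fun x a => hD.card ▸ a.2.coprime_Cn (Nat.odd_iff.1 (OO_odd a.1)) ht) (fun g a b => by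
      obtain ⟨j, hj⟩ := hD.cls.conj_mem (x := g) fun e =>
        nv_eq_zero.1 e _ ⟨a, pow_four_eq g ▸ b⟩ (mul_mem (self_mem_Cn g) (self_mem_Cn g))
      have := hD.even hj (mt conj_mul_self.1 a) (by simp [b])
      omega) (by
      rw [s]
      rcases (by omega : k = 1 ∨ 2 ≤ k) with rfl | a
      · exact Or.inr ⟨by decide, by push_cast; linarith⟩
      · have := inv_le' 2 a
        exact Or.inl (by push_cast at *; linarith))
  rw [S.sum] at s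
  rcases S.uni with ⟨rfl, hU⟩ | ⟨u, p, q, l, nq, hp, p0, up, eu, rfl, l4, c0, c1, c2, hU⟩
  · refine (ar_D0 k0 Nat.card_pos hd S.et1 S.et2 S.co (by linarith)).imp_right fun ⟨N, a⟩ => Or.inl ⟨fun p3 => ?_, ?_⟩
    · obtain ⟨y, -, o⟩ := exists_mem_orderOf (H := (⊤ : Subgroup T)) Nat.prime_three (by rw [card_top, N]; decide)
      exact absurd ((h.small.2.resolve_right fun b => b.2 (by rw [N]; decide)).five h.two Nat.prime_three p3
        (o ▸ pow_orderOf_eq_one y) (by rintro rfl; simp at o)) (by decide)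
    · obtain ⟨x, hx⟩ : ∃ x : T, Ec x 4 9 := by
        rcases a with ⟨rfl, rfl⟩ | ⟨rfl, rfl⟩
        exacts [S.rep1 (by decide), S.rep2 (by decide)]
      exact H5.MH.A6_of N _ hx.2.1 hx.1.2 hx.2.2
  have u1 := OO_ne eu.1.1
  have p5 := nq.five h.two hp p0 up u1
  obtain ⟨q1, lq, dq, hl⟩ := eu.cases l4
  obtain ⟨μ, m1, m2⟩ := eu.mu ht
  have tri : ∀ x : T, x ≠ 1 → (x ^ p = 1 ∧ Nat.card (Cn x) = q) ∨ Ec x e1 n1 ∨ Ec x e2 n2 ∨ x * x = 1 ∨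
      (x ^ (2 * k) = 1 ∧ Nat.card (Cn x) = 2 * k) := fun x x1 => by
    rcases td_tri hD ht x with a | a
    · rcases hU x (h.td_cc hD a) with b | b
      exacts [Or.inr ((S.ecl x (h.td_cc hD a) b).imp_right Or.inl), Or.inl ⟨b, (eu.cj_p hp up b x1).2.1⟩]
    · exact Or.inr (Or.inr (Or.inr a))
  have b : ∀ L, 4 * k ≤ L → q ≤ L → n1 ≤ L → n2 ≤ L → Nat.card T ≤ 4 * k * (1 + 4 * k * L) := fun L a1 a2 a3 a4 => by
    have e := hD.cls.card ht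
    have := pair_le (T := T) (L := L) fun x x1 => by
      rcases tri x x1 with a | a | a | a | a
      exacts [a.2 ▸ a2, a.2.1 ▸ a3, a.2.1 ▸ a4, by rwa [card_Cn_inv hD.cls ⟨x1, a⟩, hD.card], by omega]
    have I0 : 0 < {s : T | Inv s}.ncard := (Set.ncard_pos (Set.toFinite _)).2 ⟨t, ht⟩
    rw [← e, hD.card] at *
    rw [mul_comm]
    exact Nat.mul_le_mul_left _ (Nat.le_of_mul_le_mul_left (by linarith) I0)
  suffices μ = 1 ∧ q = 2 * l + 1 ∧ ((2 * k = l + 1 ∧ n1 ∣ l ∧ n2 ∣ l) ∨ (2 * k = l ∧ n1 ∣ l + 1 ∧ n2 ∣ l + 1)) by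
    obtain ⟨rfl, a1, a2⟩ := this
    refine Or.inr (Or.inr ⟨u, p, q, l, nq, hp, p0, u1, up, eu.2.1, eu.2.2, a1.symm, by omega, by rw [m2]; ring, fun x => ?_⟩)
    by_cases x1 : x = 1
    · simp [x1]
    have f : ∀ {a b : ℕ}, x ^ a = 1 → a ∣ b → x ^ b = 1 := fun e d => by rw [← Nat.mul_div_cancel' d, pow_mul, e, one_pow]
    have g : x * x = 1 ∨ (x ^ (2 * k) = 1 ∧ Nat.card (Cn x) = 2 * k) → x ^ (2 * k) = 1 := fun a =>
      a.elim (fun a => f ((pow_two x).trans a) (Dvd.intro _ rfl)) And.left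
    rcases tri x x1 with a | a | a | a
    · exact Or.inl a.1
    · exact Or.inr (a2.imp (fun b => f a.pow b.2.1) fun b => f a.pow b.2.1)
    · exact Or.inr (a2.imp (fun b => f a.pow b.2.2) fun b => f a.pow b.2.2)
    · rcases a2 with b | b
      exacts [Or.inr (Or.inr (b.1 ▸ g a)), Or.inr (Or.inl (b.1 ▸ g a))]
  rcases hl with ⟨rfl, q7, q6⟩ | hl
  · obtain ⟨y, -, o⟩ := exists_mem_orderOf (H := (⊤ : Subgroup T)) Nat.prime_three (by rw [card_top]; exact dvd_of_mul_left_dvd dq)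
    obtain ⟨a1, rfl, rfl, a2⟩ := ar_D3 k0 Nat.card_pos hd q7 q6 dq c0 S.et1 S.et2 S.co c1 c2 (by
      have f : ∀ {a}, y ^ a = 1 → 3 ∣ a := fun e => o ▸ orderOf_dvd_of_pow_eq_one e
      rcases tri y (by rintro rfl; simp at o) with a | a | a | a | a
      · have := (Nat.prime_dvd_prime_iff_eq Nat.prime_three hp).1 (f a.1)
        omega
      · exact Or.inr (Or.inl (f a.pow))
      · exact Or.inr (Or.inr (f a.pow))
      · exact absurd (f ((pow_two y).trans a)) (by decide)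
      · have := f a.1
        omega) b s.symm
    exact ⟨by omega, rfl, Or.inl ⟨rfl, a2⟩⟩
  obtain ⟨g, g1, g2, g3, g4⟩ := (nq.uni h.two hp p0 up u1).2.2.2 l (eu.2.1 ▸ eu.2.2) hl
  rcases (td_tri hD ht g).imp_right fun a => a.resolve_left g2 with a | a
  swap
  · obtain rfl := g1.symm.trans a.2
    obtain ⟨a1, a2, a3⟩ := ar_D6 (by omega) q1 eu.dvd m1 m2 hd c0 S.et1 S.et2 S.co c1 c2 b s.symm
    exact ⟨a1, a2, Or.inr ⟨rfl, a3⟩⟩
  have cc := h.td_cc hD a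
  rcases S.odd h.perf hD.cls (hD.p4 ht) cc ((hU g cc).resolve_right fun e => by
    have := (eu.cj_p hp up e (OO_ne a)).2.1; omega) (g1 ▸ (g4 (g1 ▸ OO_odd a)).2) with ⟨e, f⟩ | ⟨e, f⟩ <;>
    rw [g1] at e f <;> subst e
  · obtain ⟨a1, a2, a3, rfl⟩ := ar_D5 k0 hl q1 eu.dvd eu.odd m1 m2 hd c0 S.et1 S.et2 S.co c1 c2 f s.symm
    exact ⟨a1, a2, Or.inl ⟨a3, dvd_rfl, one_dvd _⟩⟩
  · obtain ⟨a1, a2, a3, rfl⟩ := ar_D5 k0 hl q1 eu.dvd eu.odd m1 m2 hd c0 S.et2 S.et1 S.co.symm c2 c1 f (by linarith)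
    exact ⟨a1, a2, Or.inl ⟨a3, one_dvd _, dvd_rfl⟩⟩

theorem II.nt_main [Finite K] (h : ρ.II) (hT : ρ.NT t M Z ψ) : ∃ z w g, ρ.OutA t M Z ψ z w g := by
  have := ρ.finite
  have n3 := hT.three_le
  have pN := inv_pos' (Nat.card_pos (α := T))
  have hd : 24 * Nat.card Z ∣ Nat.card T := hT.card_M ▸ card_subgroup_dvd_card _
  have s : ((CC T).ncard : ℚ) / Nat.card T = 7 / 12 + (Nat.card Z : ℚ)⁻¹ / 24 - (Nat.card T : ℚ)⁻¹ -
      ((OO T \ CC T).ncard : ℚ) / Nat.card T := by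
    rw [← hT.count, eq_sub_iff_add_eq, ← add_div, ← Nat.cast_add, add_comm,
      Set.ncard_sdiff_add_ncard_of_subset (fun _ a => a.1) (Set.toFinite _)]
  have := inv_le' 3 n3
  obtain ⟨n1, e1, n2, e2, τ1, τ2, τU, S⟩ := h.os hT.cls hT.p4 (fun x a => hT.co a) (fun _ _ _ => by omega) (Or.inl (by
    have : (0 : ℚ) ≤ ((OO T \ CC T).ncard : ℚ) / Nat.card T := by positivity
    push_cast at *
    linarith))
  rw [S.sum] at s
  have U : τU = 0 ∨ ∃ u : T, ∃ p q l : ℕ, ρ.NoQ ∧ p.Prime ∧ (p : K) = 0 ∧ u ^ p = 1 ∧ Ec u l q ∧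
      τU = (l : ℚ)⁻¹ - (q : ℚ)⁻¹ * (l : ℚ)⁻¹ ∧ ((l = 3 ∧ 7 ≤ q ∧ q % 6 = 1) ∨ (5 ≤ l ∧ 2 * l ≤ q ∧
        ((l = n1 ∧ (e1 = 4 → l = 5)) ∨ (l = n2 ∧ (e2 = 4 → l = 5))))) :=
    S.uni.imp And.left fun ⟨u, p, q, l, nq, hp, p0, up, eu, a, l4, _, _, _, hU⟩ => ⟨u, p, q, l, nq, hp, p0, up, eu, a, by
      obtain ⟨q1, lq, -, hl⟩ := eu.cases l4
      refine hl.imp_right fun hl => ?_
      obtain ⟨g, g1, g2, g3, g4⟩ := (nq.uni h.two hp p0 up (OO_ne eu.1.1)).2.2.2 l (eu.2.1 ▸ eu.2.2) hl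
      have o : g ∈ OO T := ⟨g2, by_contra fun e => by
        obtain ⟨j, hj⟩ := hT.cls.conj_mem e
        have := hT.cases hj (mt conj_mul_self.1 g2)
        rw [nv_conj, card_Cn_conj] at this
        omega⟩
      have ol := g1 ▸ OO_odd o
      have cc : g ∈ CC T := by_contra fun e => by
        obtain ⟨y, hy, y1, oy, n⟩ := h.not_cc o e
        obtain ⟨j, hj⟩ := hT.conj_Z oy y1 n
        exact y1 ((g4 ol).1 y hy (by simpa [mul_assoc] using (hT.rot _ hj).conj j⁻¹))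
      refine ⟨hl, ?_, g1 ▸ S.odd h.perf hT.cls hT.p4 cc ((hU g cc).resolve_right fun e => by
        have := (eu.cj_p hp up e (OO_ne o)).2.1; omega) (g1 ▸ (g4 ol).2)⟩
      have := eu.odd
      have := Nat.le_of_dvd (by omega) ((Nat.coprime_two_left.2 ol).mul_dvd_of_dvd_of_dvd (by omega) eu.dvd)
      omega⟩
  rcases hT.split h with e | ⟨c3, e, -, z, hz, z1, w, w1, w3, g, g1, g2⟩ <;> rw [e] at s
  · exfalso
    rcases U with rfl | ⟨u, p, q, l, -, -, -, -, -, rfl, ⟨rfl, q7, -⟩ | ⟨l5, lq, a⟩⟩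
    · exact ar_N0 n3 Nat.card_pos hd S.et1 S.et2 (Or.inl rfl) (by linarith)
    · have := inv_le' 7 q7
      exact ar_N0 n3 Nat.card_pos hd S.et1 S.et2 (τU := 3⁻¹ - (q : ℚ)⁻¹ * 3⁻¹) (Or.inr (Or.inl (by push_cast at *; linarith)))
        (by push_cast at s; linarith)
    have k : ∀ {e τ}, ET4 (Nat.card T) (24 * Nat.card Z) l e τ → (e = 4 → l = 5) → (0 ≤ (l : ℚ)⁻¹ - (q : ℚ)⁻¹ * (l : ℚ)⁻¹ ∧
        2 / 5 ≤ τ) ∨ (1 / 10 ≤ (l : ℚ)⁻¹ - (q : ℚ)⁻¹ * (l : ℚ)⁻¹ ∧ 1 / 5 ≤ τ) := fun a b => by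
      have l0 := inv_pos' (n := l) (by omega)
      have := mul_le_mul_of_nonneg_right (inv_le' (n := q) 2 (by omega)) l0.le
      refine (a.six.resolve_left (by omega)).imp (fun d => ⟨by push_cast at *; linarith, d.2⟩) fun d => ⟨?_, d.2.1⟩
      obtain rfl := b d.1
      push_cast at *
      linarith
    rcases a with ⟨rfl, a⟩ | ⟨rfl, a⟩
    · exact ar_N0 n3 Nat.card_pos hd S.et1 S.et2 (Or.inr (Or.inr (k S.et1 a))) (by linarith)
    · exact ar_N0 n3 Nat.card_pos hd S.et2 S.et1 (Or.inr (Or.inr (k S.et2 a))) (by linarith)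
  rw [c3] at s hd S
  push_cast at s
  rcases U with rfl | ⟨u, p, q, l, nq, hp, p0, up, eu, rfl, ⟨rfl, q7, q6⟩ | ⟨l5, lq, ⟨rfl, a⟩ | ⟨rfl, a⟩⟩⟩
  · exfalso
    obtain ⟨N, a⟩ := ar_A0 Nat.card_pos hd S.et1 S.et2 S.co (by linarith)
    obtain ⟨x, hx⟩ : ∃ x : T, Ec x 2 35 := by
      rcases a with ⟨rfl, rfl⟩ | ⟨rfl, rfl⟩
      exacts [S.rep1 (by decide), S.rep2 (by decide)]
    have a1 := hx.1.2.real_le (by rw [hx.2.1]) (by rw [hx.2.2]; decide)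
    have a2 := hT.cls.card hT.inv
    have a3 := hx.tau h.gd
    rw [hT.card_ct, c3, N] at a2
    rw [N, div_eq_iff (by norm_num)] at a3
    have a4 : {y | y ∈ OO T ∧ Cj x y}.ncard = 1224 := Nat.cast_injective (R := ℚ) (a3.trans (by norm_num))
    rw [show cls (OO T) (Cn x) = {y | y ∈ OO T ∧ Cj x y} from rfl, a4, hx.2.1, show {s : T | Inv s}.ncard = 105 by omega] at a1
    omega
  · obtain ⟨N, rfl⟩ := ar_A3 Nat.card_pos hd S.et1 S.et2 q7 q6 (by push_cast; linarith)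
    have := Fact.mk hp
    obtain rfl := (Nat.prime_dvd_prime_iff_eq hp (by norm_num)).1
      (orderOf_eq_prime up (OO_ne eu.1.1) ▸ eu.2.1 ▸ orderOf_dvd_card_of_mem (self_mem_Cn u))
    exact ⟨z, w, g, hT, c3, N, p0, nq, hz, z1, w1, w3, g1, g2⟩
  · exact (ar_A5 Nat.card_pos hd S.et1 S.et2 l5 lq a (by linarith)).elim
  · exact (ar_A5 Nat.card_pos hd S.et2 S.et1 l5 lq a (by linarith)).elim

theorem II.main [Finite K] (h : ρ.II) : Nat.card T = 60 ∨ ((3 : K) ≠ 0 ∧ Nonempty (T ≃* alternatingGroup (Fin 6))) ∨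
    (∃ u p q l, ρ.OutL u p q l) ∨ ∃ t M Z ψ z w g, ρ.OutA t M Z ψ z w g := by
  obtain ⟨S, t, s, ht, tS, hS, hc, hs, h1, h2⟩ := h.exists_t
  by_cases nf : NF T
  · obtain ⟨A, k, hD⟩ := h.td nf S ht hS hc hs h1 h2
    exact (h.td_main ht hD).imp_right (Or.imp_right Or.inl)
  · obtain ⟨M, Z, ψ, hT⟩ := h.exists_nt nf S ht hS hc
    exact Or.inr (Or.inr (Or.inr ⟨t, M, Z, ψ, h.nt_main hT⟩))

end SRep

end Cfsg.Agent.H1.Mit
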