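import Cfsg.Agent.H1.M4Def
import Cfsg.Agent.MH.Grp2

/-! Linear algebra in `Sp₄`: symplectic bases, diagonalisation, block forms, lifts of odd order. -/

set_option autoImplicit false

namespace Cfsg.Agent.H1.Mit

open Matrix

variable {T K : Type*} [Group T] [Field K]

section

variable {a b c d u : V4 K} {X Y : M4 K}

theorem exists_B (ha : a ≠ 0) : ∃ w, B a w = 1 := by
  by_contra h
  push Not at h
  exact ha (B_nd fun w => by_contra fun e => h ((B a w)⁻¹ • w) (by simp [e]))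

/-- projection to the complement of a hyperbolic pair -/
def pj (a d u : V4 K) : V4 K := u - B u d • a + B u a • d

theorem B_a_pj (h : B a d = 1) (u : V4 K) : B a (pj a d u) = 0 := by simp [pj, h, B_swap u a]

theorem B_pj_d (h : B a d = 1) (u : V4 K) : B (pj a d u) d = 0 := by simp [pj, h]

theorem B_pj (h1 : B a b = 0) (h2 : B b d = 0) (u : V4 K) : B b (pj a d u) = B b u := by
  simp [pj, h2, B_swap b a, h1]

theorem exists_perp (a d : V4 K) : ∃ b, b ≠ 0 ∧ B a b = 0 ∧ B b d = 0 := by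
  obtain ⟨v, h0, h⟩ := (Matrix.exists_mulVec_eq_zero_iff
    (M := !![-a 3, -a 2, a 1, a 0; d 3, d 2, -d 1, -d 0; 0, 0, 0, 0; 0, 0, 0, 0])).2
    (det_eq_zero_of_row_eq_zero 2 fun j => by fin_cases j <;> rfl)
  have h0 := congrFun h 0
  have h1 := congrFun h 1
  simp [mulVec, dotProduct, Fin.sum_univ_four] at h0 h1
  exact ⟨v, ‹_›, by simp only [B]; linear_combination h0, by simp only [B]; linear_combination h1⟩

theorem exists_sp (h : B a d = 1) (hb : b ≠ 0) (h1 : B a b = 0) (h2 : B b d = 0) : ∃ c, Sp (col4 a b c d) := by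
  obtain ⟨w, hw⟩ := exists_B hb
  exact ⟨pj a d w, sp_col4 h1 (B_a_pj h w) h (by rw [B_pj h1 h2, hw]) h2 (B_pj_d h w)⟩

/-- a symplectic basis adapted to an isotropic flag -/
theorem exists_flag (ha : a ≠ 0) (hb : ∀ c : K, b ≠ c • a) (h : B a b = 0) :
    ∃ (k : K) (c d : V4 K), Sp (col4 a (b - k • a) c d) := by
  obtain ⟨d, hd⟩ := exists_B ha
  obtain ⟨c, hc⟩ := exists_sp (b := b - B b d • a) hd (fun e => hb _ (sub_eq_zero.1 e)) (by simp [h]) (by simp [hd])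
  exact ⟨_, c, d, hc⟩

theorem exists_pt (ha : a ≠ 0) : ∃ b c d, Sp (col4 a b c d) := by
  obtain ⟨d, hd⟩ := exists_B ha
  obtain ⟨b, h0, h1, h2⟩ := exists_perp a d
  obtain ⟨c, hc⟩ := exists_sp hd h0 h1 h2
  exact ⟨b, c, d, hc⟩

theorem exists_eig (hX : X.charpoly.Splits) {U : Submodule K (V4 K)} (hU : ∀ v ∈ U, X *ᵥ v ∈ U) (h0 : U ≠ ⊥) :
    ∃ c : K, ∃ v ∈ U, v ≠ 0 ∧ X *ᵥ v = c • v := by
  by_contra hn
  push Not at hn
  have key : ∀ s : Multiset K, ∀ v ∈ U, Polynomial.aeval X (s.map fun a => Polynomial.X - Polynomial.C a).prod *ᵥ v = 0 →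
      v = 0 := fun s => by
    induction s using Multiset.induction_on with
    | empty => simp
    | cons a s ih =>
      intro v hv e
      rw [Multiset.map_cons, Multiset.prod_cons, mul_comm, map_mul, ← mulVec_mulVec] at e
      have e1 : Polynomial.aeval X (Polynomial.X - Polynomial.C a) *ᵥ v = X *ᵥ v - a • v := by
        simp [sub_mulVec, Algebra.algebraMap_eq_smul_one, smul_mulVec]
      rw [e1] at e
      by_contra h
      exact hn a v hv h (sub_eq_zero.1 (ih _ (U.sub_mem (hU v hv) (U.smul_mem a hv)) e))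
  obtain ⟨v, hv, h⟩ := (Submodule.ne_bot_iff U).1 h0
  refine h (key X.charpoly.roots v hv ?_)
  rw [← hX.eq_prod_roots_of_monic X.charpoly_monic, aeval_self_charpoly, zero_mulVec]

/-- eigenspace -/
def eig (X : M4 K) (c : K) : Submodule K (V4 K) where
  carrier := {v | X *ᵥ v = c • v}
  add_mem' {u v} hu hv := by simp only [Set.mem_ofPred_eq] at *; rw [mulVec_add, hu, hv, smul_add]
  zero_mem' := by simp
  smul_mem' k v hv := by simp only [Set.mem_ofPred_eq] at *; rw [mulVec_smul, hv, smul_comm]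

theorem mem_eig {c : K} : u ∈ eig X c ↔ X *ᵥ u = c • u := Iff.rfl

theorem eig_inv {c : K} (h : X * Y = Y * X) (hu : u ∈ eig X c) : Y *ᵥ u ∈ eig X c := by
  rw [mem_eig, mulVec_mulVec, h, ← mulVec_mulVec, mem_eig.1 hu, mulVec_smul]

theorem exists_ce {S : Set (M4 K)} (hs : ∀ X ∈ S, X.charpoly.Splits) (hc : ∀ X ∈ S, ∀ Y ∈ S, X * Y = Y * X)
    {U : Submodule K (V4 K)} (hU : ∀ X ∈ S, ∀ v ∈ U, X *ᵥ v ∈ U) (h0 : U ≠ ⊥) :
    ∃ v ∈ U, v ≠ 0 ∧ ∀ X ∈ S, ∃ c : K, X *ᵥ v = c • v := by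
  obtain ⟨W, ⟨h1, h2, h3⟩, hm⟩ := exists_minimal_of_wellFoundedLT
    (fun W : Submodule K (V4 K) => W ≤ U ∧ W ≠ ⊥ ∧ ∀ X ∈ S, ∀ v ∈ W, X *ᵥ v ∈ W) ⟨U, le_rfl, h0, hU⟩
  obtain ⟨v, hv, h⟩ := (Submodule.ne_bot_iff W).1 h2
  refine ⟨v, h1 hv, h, fun X hX => ?_⟩
  obtain ⟨c, w, hw, w0, e⟩ := exists_eig (hs X hX) (h3 X hX) h2
  exact ⟨c, (hm (y := W ⊓ eig X c) ⟨inf_le_left.trans h1, (Submodule.ne_bot_iff _).2 ⟨w, ⟨hw, e⟩, w0⟩,
    fun Y hY u hu => ⟨h3 Y hY u hu.1, eig_inv (hc X hX Y hY) hu.2⟩⟩ inf_le_left hv).2⟩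

theorem pow_eig {c : K} (h : X *ᵥ a = c • a) (n : ℕ) : X ^ n *ᵥ a = c ^ n • a := by
  induction n with
  | zero => simp
  | succ n ih => rw [pow_succ, ← mulVec_mulVec, h, mulVec_smul, ih, smul_smul, pow_succ']

theorem exists_de {S : Set (M4 K)} {n : ℕ} (hn : (n : K) ≠ 0) (hs : ∀ X ∈ S, Sp X ∧ X ^ n = 1)
    (hc : ∀ X ∈ S, ∀ Y ∈ S, X * Y = Y * X) {U : Submodule K (V4 K)} (hU : ∀ X ∈ S, ∀ v ∈ U, X *ᵥ v ∈ U)
    (ha : ∀ X ∈ S, ∃ c : K, X *ᵥ a = c • a) (hu : u ∈ U) (h1 : B a u ≠ 0) :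
    ∃ d ∈ U, B a d = 1 ∧ ∀ X ∈ S, ∃ c : K, X *ᵥ d = c • d := by
  obtain ⟨W, ⟨k1, ⟨w, hw, k2⟩, k3⟩, hm⟩ := exists_minimal_of_wellFoundedLT
    (fun W : Submodule K (V4 K) => W ≤ U ∧ (∃ w ∈ W, B a w ≠ 0) ∧ ∀ X ∈ S, ∀ v ∈ W, X *ᵥ v ∈ W) ⟨U, le_rfl, ⟨u, hu, h1⟩, hU⟩
  refine ⟨(B a w)⁻¹ • w, U.smul_mem _ (k1 hw), by simp [k2], fun X hX => ?_⟩
  obtain ⟨c, hc'⟩ := ha X hX
  have a0 : a ≠ 0 := by rintro rfl; simp at h1
  have cn : c ^ n = 1 := smul_left_injective K a0 (by simpa [(hs X hX).2] using (pow_eig hc' n).symm)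
  have c0 : c ≠ 0 := by
    rintro rfl
    rcases n with _ | n
    · simp at hn
    · simp at cn
  have p : ∀ j : ℕ, (c • X) ^ j *ᵥ w ∈ W ∧ B a ((c • X) ^ j *ᵥ w) = B a w := fun j => by
    induction j with
    | zero => simpa using hw
    | succ j ih =>
      rw [pow_succ', ← mulVec_mulVec, smul_mulVec]
      exact ⟨W.smul_mem _ (k3 X hX _ ih.1), by rw [B_smul_right, ← B_smul_left, ← hc', (hs X hX).1.B_eq, ih.2]⟩
  have q : ∀ m : ℕ, (∑ j ∈ Finset.range m, (c • X) ^ j) *ᵥ w ∈ W ∧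
      B a ((∑ j ∈ Finset.range m, (c • X) ^ j) *ᵥ w) = m * B a w := fun m => by
    induction m with
    | zero => simp
    | succ m ih =>
      rw [Finset.sum_range_succ, add_mulVec, B_add_right, ih.2, (p m).2]
      exact ⟨W.add_mem ih.1 (p m).1, by push_cast; ring⟩
  have e := mul_geom_sum (c • X) n
  rw [smul_pow, cn, (hs X hX).2, one_smul, sub_self, sub_mul, one_mul, sub_eq_zero] at e
  refine ⟨c⁻¹, (hm (y := W ⊓ eig X c⁻¹) ⟨inf_le_left.trans k1, ⟨_, ⟨(q n).1, ?_⟩, by rw [(q n).2]; exact mul_ne_zero hn k2⟩,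
    fun Y hY u hu => ⟨k3 Y hY u hu.1, eig_inv (hc X hX Y hY) hu.2⟩⟩ inf_le_left (W.smul_mem _ hw)).2⟩
  refine (eq_inv_smul_iff₀ c0).2 ?_
  rw [← smul_mulVec, mulVec_mulVec, e]

end

/-- diagonal symplectic matrices -/
def dd (a b : K) : M4 K := !![a, 0, 0, 0; 0, b, 0, 0; 0, 0, b⁻¹, 0; 0, 0, 0, a⁻¹]

theorem dd_mul (a b c d : K) : dd a b * dd c d = dd (a * c) (b * d) := by unfold dd; mat4

theorem dd_one : dd (1 : K) 1 = 1 := by unfold dd; mat4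

theorem dd_neg (a b : K) : dd (-a) (-b) = -dd a b := by unfold dd; mat4

theorem dd_pow (a b : K) (n : ℕ) : dd a b ^ n = dd (a ^ n) (b ^ n) := by
  induction n with
  | zero => simp [dd_one]
  | succ n ih => rw [pow_succ, ih, dd_mul, pow_succ, pow_succ]

theorem dd_inj {a b c d : K} : dd a b = dd c d ↔ a = c ∧ b = d :=
  ⟨fun h => ⟨congrFun (congrFun h 0) 0, congrFun (congrFun h 1) 1⟩, by rintro ⟨rfl, rfl⟩; rfl⟩

theorem dd_eq_one {a b : K} : dd a b = 1 ↔ a = 1 ∧ b = 1 := by rw [← dd_one, dd_inj]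

theorem ad_dd (a b : K) : ad (dd a b) = dd a⁻¹ b⁻¹ := by rw [ad_eq]; unfold dd; mat4

theorem dd_comm (a b c d : K) : dd a b * dd c d = dd c d * dd a b := by rw [dd_mul, dd_mul, mul_comm a, mul_comm b]

theorem Sp.dd_ne {a b : K} (h : Sp (dd a b)) : a ≠ 0 ∧ b ≠ 0 := by
  have := h.left
  rw [ad_dd, dd_mul, dd_eq_one] at this
  exact ⟨right_ne_zero_of_mul_eq_one this.1, right_ne_zero_of_mul_eq_one this.2⟩

theorem exists_diag {S : Set (M4 K)} {n : ℕ} (hn : (n : K) ≠ 0) (hs : ∀ X ∈ S, Sp X ∧ X ^ n = 1)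
    (hs' : ∀ X ∈ S, X.charpoly.Splits) (hc : ∀ X ∈ S, ∀ Y ∈ S, X * Y = Y * X) :
    ∃ P, Sp P ∧ ∀ X ∈ S, ∃ a b, X * P = P * dd a b := by
  obtain ⟨a, -, a0, ha⟩ := exists_ce hs' hc (U := ⊤) (by simp) (by simp)
  obtain ⟨w, hw⟩ := exists_B a0
  obtain ⟨d, -, ad1, hd⟩ := exists_de hn hs hc (U := ⊤) (u := w) (by simp) ha trivial (by simp [hw])
  let U : Submodule K (V4 K) :=
    { carrier := {u | B a u = 0 ∧ B u d = 0}
      add_mem' := fun h k => by simp [h.1, h.2, k.1, k.2]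
      zero_mem' := by simp
      smul_mem' := fun c u h => by simp [h.1, h.2] }
  have hU : ∀ X ∈ S, ∀ v ∈ U, X *ᵥ v ∈ U := fun X hX v hv => by
    obtain ⟨α, h1⟩ := ha X hX
    obtain ⟨δ, h2⟩ := hd X hX
    have e := (hs X hX).1.B_eq a d
    have e1 := (hs X hX).1.B_eq a v
    have e2 := (hs X hX).1.B_eq v d
    simp only [h1, h2, B_smul_left, B_smul_right, ad1, hv.1, hv.2, mul_one] at e e1 e2
    exact ⟨(mul_eq_zero.1 e1).resolve_left (right_ne_zero_of_mul_eq_one e),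
      (mul_eq_zero.1 e2).resolve_left (left_ne_zero_of_mul_eq_one e)⟩
  obtain ⟨b, hb, b0, hb'⟩ := exists_ce hs' hc hU ((Submodule.ne_bot_iff U).2
    ((exists_perp a d).imp fun b h => ⟨h.2, h.1⟩))
  obtain ⟨w', hw'⟩ := exists_B b0
  obtain ⟨c, hc1, bc, hc'⟩ := exists_de hn hs hc hU (u := pj a d w') hb' ⟨B_a_pj ad1 _, B_pj_d ad1 _⟩
    (by simp [B_pj hb.1 hb.2, hw'])
  refine ⟨col4 a b c d, sp_col4 hb.1 hc1.1 ad1 bc hb.2 hc1.2, fun X hX => ?_⟩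
  obtain ⟨α, h1⟩ := ha X hX
  obtain ⟨β, h2⟩ := hb' X hX
  obtain ⟨γ, h3⟩ := hc' X hX
  obtain ⟨δ, h4⟩ := hd X hX
  have e := (hs X hX).1.B_eq a d
  have e' := (hs X hX).1.B_eq b c
  simp only [h1, h2, h3, h4, B_smul_left, B_smul_right, ad1, bc, mul_one] at e e'
  refine ⟨α, β, ?_⟩
  rw [mul_col4, col4_mul, h1, h2, h3, h4, eq_inv_of_mul_eq_one_left e, eq_inv_of_mul_eq_one_left e']
  simp [dd]

theorem Sp.cancel {P X Y : M4 K} (h : Sp P) (e : P * X = P * Y) : X = Y := by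
  simpa [← mul_assoc, h.left] using congrArg (ad P * ·) e

theorem Sp.cancel' {P X Y : M4 K} (h : Sp P) (e : X * P = Y * P) : X = Y := by
  simpa [mul_assoc, h.right] using congrArg (· * ad P) e

theorem exists_rot {X : M4 K} {n : ℕ} (hn : (n : K) ≠ 0) (hs : Sp X) (h1 : X ^ n = 1) (hs' : X.charpoly.Splits) {m : K}
    (h : X * X = m • X - 1) : ∃ P μ, Sp P ∧ X * P = P * dd μ μ := by
  obtain ⟨P, hP, k⟩ := exists_diag (S := {X}) hn (by simp [hs, h1]) (by simpa) (by simp)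
  obtain ⟨a, b, e⟩ := k X rfl
  have e1 : dd a b * dd a b = m • dd a b - 1 := hP.cancel (by
    rw [← mul_assoc, ← e, mul_assoc, ← e, ← mul_assoc, h, mul_sub, sub_mul, Matrix.mul_smul, Matrix.smul_mul, e]; simp)
  have sp : Sp (dd a b) := by
    have := (hP.inv.mul hs).mul hP
    rwa [mul_assoc, e, ← mul_assoc, hP.left, one_mul] at this
  have a0 := sp.dd_ne.1
  have e2 := congrFun (congrFun e1 0) 0
  have e3 := congrFun (congrFun e1 1) 1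
  simp [dd_mul] at e2 e3
  simp [dd] at e2 e3
  by_cases hab : b = a
  · exact ⟨P, a, hP, hab ▸ e⟩
  obtain rfl : b = a⁻¹ := eq_inv_of_mul_eq_one_left (mul_left_cancel₀ (sub_ne_zero.2 hab) (by
    linear_combination a * e3 - b * e2))
  refine ⟨P * !![1, 0, 0, 0; 0, 0, -1, 0; 0, 1, 0, 0; 0, 0, 0, 1], a, hP.mul (by rw [Sp, ad_eq]; mat4), ?_⟩
  rw [← mul_assoc, e, mul_assoc, mul_assoc]
  congr 1
  unfold dd; mat4

/-- block diagonal symplectic matrices -/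
def dg (a b c d : K) : M4 K := !![a, b, 0, 0; c, d, 0, 0; 0, 0, a / (a * d - b * c), -b / (a * d - b * c);
  0, 0, -c / (a * d - b * c), d / (a * d - b * c)]

/-- block antidiagonal symplectic matrices -/
def sw (a b c d : K) : M4 K := !![0, 0, a, b; 0, 0, c, d; -a / (a * d - b * c), b / (a * d - b * c), 0, 0;
  c / (a * d - b * c), -d / (a * d - b * c), 0, 0]

/-- lower left block zero -/
def UL (X : M4 K) : Prop := X 2 0 = 0 ∧ X 2 1 = 0 ∧ X 3 0 = 0 ∧ X 3 1 = 0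

theorem Sp.ul {X : M4 K} (h : Sp X) (k : UL X) : X 0 0 * X 1 1 - X 0 1 * X 1 0 ≠ 0 ∧
    X 2 2 = X 0 0 / (X 0 0 * X 1 1 - X 0 1 * X 1 0) ∧ X 2 3 = -X 0 1 / (X 0 0 * X 1 1 - X 0 1 * X 1 0) ∧
    X 3 2 = -X 1 0 / (X 0 0 * X 1 1 - X 0 1 * X 1 0) ∧ X 3 3 = X 1 1 / (X 0 0 * X 1 1 - X 0 1 * X 1 0) := by
  have e := h.left
  rw [ad_eq] at e
  have e0 := congrFun (congrFun e 0) 0
  have e1 := congrFun (congrFun e 0) 1
  have e2 := congrFun (congrFun e 1) 0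
  have e3 := congrFun (congrFun e 1) 1
  simp [mul_apply, Fin.sum_univ_four, k.1, k.2.1, k.2.2.1, k.2.2.2] at e0 e1 e2 e3
  have h0 : X 0 0 * X 1 1 - X 0 1 * X 1 0 ≠ 0 := left_ne_zero_of_mul_eq_one (b := X 3 3 * X 2 2 - X 2 3 * X 3 2) (by
    linear_combination (X 3 2 * X 0 1 + X 2 2 * X 1 1) * e0 + e3 - (X 3 2 * X 0 0 + X 2 2 * X 1 0) * e1)
  refine ⟨h0, ?_, ?_, ?_, ?_⟩ <;> rw [eq_div_iff h0]
  · linear_combination X 0 0 * e3 - X 0 1 * e2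
  · linear_combination X 0 0 * e1 - X 0 1 * e0
  · linear_combination X 1 1 * e2 - X 1 0 * e3
  · linear_combination X 1 1 * e0 - X 1 0 * e1

theorem comm_dd {X : M4 K} {μ : K} (h : Sp X) (hμ : μ ^ 2 ≠ 1) (h0 : μ ≠ 0) (e : X * dd μ μ = dd μ μ * X) :
    ∃ a b c d, a * d - b * c ≠ 0 ∧ X = dg a b c d := by
  have n : μ - μ⁻¹ ≠ 0 := fun k => hμ (by field_simp at k; linear_combination k)
  have z : ∀ i j : Fin 4, (dd μ μ i i - dd μ μ j j) * X i j = 0 := fun i j => by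
    have := congrFun (congrFun e i) j
    fin_cases i <;> fin_cases j <;> simp [dd, mul_apply, Fin.sum_univ_four] at this ⊢ <;> grind
  have n' : μ⁻¹ - μ ≠ 0 := fun k => n (by linear_combination -k)
  have z1 := z 0 2; have z2 := z 0 3; have z3 := z 1 2; have z4 := z 1 3
  have z5 := z 2 0; have z6 := z 2 1; have z7 := z 3 0; have z8 := z 3 1
  simp [dd, n, n'] at z1 z2 z3 z4 z5 z6 z7 z8
  obtain ⟨k0, k1, k2, k3, k4⟩ := h.ul ⟨z5, z6, z7, z8⟩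
  refine ⟨_, _, _, _, k0, ?_⟩
  ext i j; fin_cases i <;> fin_cases j <;> simp [dg, *]

theorem anti_dd {X : M4 K} {μ : K} (h : Sp X) (hμ : μ ^ 2 ≠ 1) (h0 : μ ≠ 0) (e : X * dd μ μ = dd μ⁻¹ μ⁻¹ * X) :
    ∃ a b c d, a * d - b * c ≠ 0 ∧ X = sw a b c d := by
  have s : Sp (J K) := by rw [Sp, ad_eq]; unfold J; mat4
  obtain ⟨a, b, c, d, h1, h2⟩ := comm_dd (h.mul s) (μ := μ⁻¹) (by rwa [inv_pow, Ne, inv_eq_one]) (by simpa) (by
    rw [← mul_assoc, ← e, mul_assoc, mul_assoc]; congr 1; unfold J dd; mat4)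
  refine ⟨-b, -a, -d, -c, fun k => h1 (by linear_combination -k), s.cancel' (h2.trans ?_)⟩
  unfold J dg sw
  rw [show -b * -c - -a * -d = -(a * d - b * c) by ring]
  generalize a * d - b * c = δ
  ext i j; fin_cases i <;> fin_cases j <;> simp [Matrix.mul_apply, Fin.sum_univ_four, div_neg, neg_div]

namespace SRep

variable {ρ : SRep T K} {g x y z : T} {G X Y Z : M4 K} {n : ℕ}

/-- the lift of odd order -/
def O (ρ : SRep T K) (x : T) (X : M4 K) : Prop := ρ.L x X ∧ ∃ n, Odd n ∧ X ^ n = 1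

theorem exO (ρ : SRep T K) (hn : Odd n) (h : x ^ n = 1) : ∃ X, ρ.O x X ∧ X ^ n = 1 := by
  obtain ⟨X, hX⟩ := ρ.exL x
  rcases (hX.pow n).eq_one_iff.1 h with e | e
  · exact ⟨X, ⟨hX, n, hn, e⟩, e⟩
  · have : (-X) ^ n = 1 := by rw [hn.neg_pow, e, neg_neg]
    exact ⟨-X, ⟨hX.neg, n, hn, this⟩, this⟩

theorem O.uniq (h2 : (2 : K) ≠ 0) (hX : ρ.O x X) (hY : ρ.O x Y) : Y = X := by
  refine (hX.1.uniq hY.1).resolve_right ?_
  rintro rfl
  obtain ⟨n, hn, e⟩ := hX.2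
  obtain ⟨m, hm, e'⟩ := hY.2
  have : (-X) ^ (m * n) = 1 := by rw [pow_mul, e', one_pow]
  rw [(hm.mul hn).neg_pow, mul_comm, pow_mul, e, one_pow] at this
  exact Sp.one.ne_neg h2 this.symm

theorem cj_pow (h : Sp G) (X : M4 K) (n : ℕ) : (G * X * ad G) ^ n = G * X ^ n * ad G := by
  induction n with
  | zero => simp [h.right]
  | succ n ih => rw [pow_succ, ih, pow_succ]; simp only [mul_assoc]; rw [← mul_assoc (ad G), h.left, one_mul]

theorem O.conj (hG : ρ.L g G) (hX : ρ.O x X) : ρ.O (g * x * g⁻¹) (G * X * ad G) :=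
  ⟨hG.conj hX.1, hX.2.imp fun n h => ⟨h.1, by rw [cj_pow hG.sp, h.2, mul_one, hG.sp.right]⟩⟩

theorem O.conj_eq (h2 : (2 : K) ≠ 0) (hG : ρ.L g G) (hX : ρ.O x X) (hY : ρ.O y Y) (e : g * x * g⁻¹ = y) :
    G * X = Y * G := by
  subst e
  rw [(hX.conj hG).uniq h2 hY, mul_assoc _ (ad G), hG.sp.left, mul_one]

theorem O.comm (h2 : (2 : K) ≠ 0) (hG : ρ.L g G) (hX : ρ.O x X) (e : g * x = x * g) : G * X = X * G :=
  hX.conj_eq h2 hG hX (by rw [e, mul_inv_cancel_right])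

theorem O.one : ρ.O 1 1 := ⟨ρ.oneL, 1, odd_one, by simp⟩

theorem O.eq_one (h2 : (2 : K) ≠ 0) (hX : ρ.O x X) : x = 1 ↔ X = 1 :=
  ⟨by rintro rfl; exact O.one.uniq h2 hX, fun e => hX.1.eq_one_iff.2 (Or.inl e)⟩

theorem O.pow (hX : ρ.O x X) (k : ℕ) : ρ.O (x ^ k) (X ^ k) :=
  ⟨hX.1.pow k, hX.2.imp fun n h => ⟨h.1, by rw [← pow_mul, mul_comm, pow_mul, h.2, one_pow]⟩⟩

theorem O.pow_eq (h2 : (2 : K) ≠ 0) (hX : ρ.O x X) (h : x ^ n = 1) : X ^ n = 1 := ((hX.pow n).eq_one h2).1 h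

theorem O.inv (hX : ρ.O x X) : ρ.O x⁻¹ (ad X) := ⟨hX.1.inv, hX.2.imp fun n h => ⟨h.1, by rw [← ad_pow, h.2, ad_one]⟩⟩

theorem O.mul (h2 : (2 : K) ≠ 0) (hX : ρ.O x X) (hY : ρ.O y Y) (e : x * y = y * x) : ρ.O (x * y) (X * Y) := by
  obtain ⟨n, hn, e1⟩ := hX.2
  obtain ⟨m, hm, e2⟩ := hY.2
  refine ⟨hX.1.mul hY.1, n * m, hn.mul hm, ?_⟩
  rw [Commute.mul_pow (hY.comm h2 hX.1 e), pow_mul, e1, mul_comm n, pow_mul, e2]; simp

theorem O.cj' {P : M4 K} (h : Sp P) (hX : ρ.O x X) (e : X * P = P * Y) : (ρ.cj P h).O x Y :=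
  ⟨hX.1.cj' h e, hX.2.imp fun n k => ⟨k.1, conj_cancel h (by
    rw [← cj_pow h, ← e, mul_assoc, h.right, mul_one, k.2, mul_one, h.right])⟩⟩

/-- the hypotheses of the second case -/
structure II (ρ : SRep T K) : Prop extends ρ.Hyp where
  small : ρ.SmallU
  nr : ρ.NoRoot
  split : ρ.Split

theorem II.cj (h : ρ.II) {P : M4 K} (hP : Sp P) : (ρ.cj P hP).II :=
  ⟨h.toHyp.cj hP, h.small.cj hP, h.nr.cj hP, h.split.cj hP⟩

theorem II.sq (h : ρ.II) (ht : MH.Inv x) (hX : ρ.L x X) : X * X = -1 :=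
  ((hX.mul hX).eq_one_iff.1 ht.2).resolve_left fun e => ht.1 (h.nr x X hX e)

theorem II.inv_nf (h : ρ.II) (ht : MH.Inv x) : ∃ P, ∃ hP : Sp P, ∃ i : K, i ^ 2 = -1 ∧ (ρ.cj P hP).L x (dd i i) := by
  obtain ⟨X, hX⟩ := ρ.exL x
  have e := h.sq ht hX
  obtain ⟨P, i, hP, k⟩ := exists_rot (n := 4) (m := 0) (by
    rw [show ((4 : ℕ) : K) = 2 * 2 by norm_num]; exact mul_ne_zero h.two h.two) hX.sp
    (by rw [show X ^ 4 = (X * X) * (X * X) by simp only [pow_succ, mul_assoc, pow_zero, one_mul], e]; simp) (h.split x X hX) (by simp [e])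
  have l := hX.cj' hP k
  have := (h.cj hP).sq ht l
  rw [dd_mul, ← dd_one, ← dd_neg, dd_inj] at this
  exact ⟨P, hP, i, by rw [pow_two, this.1], l⟩

/-- simultaneous diagonalisation of commuting elements of odd order -/
theorem II.diag (h : ρ.II) {R : Set T} (hn : Odd n) (hn' : (n : K) ≠ 0) (h1 : ∀ x ∈ R, x ^ n = 1)
    (hc : ∀ x ∈ R, ∀ y ∈ R, x * y = y * x) : ∃ P, ∃ hP : Sp P, ∀ x ∈ R, ∃ a b, (ρ.cj P hP).O x (dd a b) := by
  obtain ⟨P, hP, k⟩ := exists_diag (S := {X | ∃ x ∈ R, ρ.O x X}) hn'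
    (fun X ⟨x, hx, e⟩ => ⟨e.1.sp, e.pow_eq h.two (h1 x hx)⟩) (fun X ⟨x, _, e⟩ => h.split x X e.1)
    fun X ⟨x, hx, e⟩ Y ⟨y, hy, e'⟩ => e'.comm h.two e.1 (hc x hx y hy)
  refine ⟨P, hP, fun x hx => ?_⟩
  obtain ⟨X, hX, -⟩ := ρ.exO hn (h1 x hx)
  obtain ⟨a, b, e⟩ := k X ⟨x, hx, hX⟩
  exact ⟨a, b, hX.cj' hP e⟩

end SRep

end Cfsg.Agent.H1.Mit
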