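import Cfsg.Agent.MH.PG
import Cfsg.Agent.MH.Grp2

/-! Consequences of Dickson's theorem for groups with few unipotent elements. -/

set_option autoImplicit false

namespace Cfsg.Agent.H1.Mit

open MulAction Cfsg.Agent.H4 Cfsg.Agent.H4.Mob Cfsg.Agent.H4.Bar Cfsg.Agent.H4.Pair Cfsg.Agent.H4.Dick Cfsg.Agent.MH

variable {K : Type*} [Field K]

theorem eq_one_of_odd {G : Type*} [Group G] {x : G} {n : ℕ} (hn : Odd n) (h1 : x ^ n = 1) (h2 : x * x = 1) : x = 1 := by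
  obtain ⟨k, rfl⟩ := hn
  rwa [pow_succ, pow_mul, pow_two, h2, one_pow, one_mul] at h1

theorem pow_card_mem {G : Type*} [Group G] {H : Subgroup G} {x : G} (hx : x ∈ H) : x ^ Nat.card H = 1 :=
  congrArg Subtype.val (pow_card_eq_one' (x := (⟨x, hx⟩ : H)))

/-- parabolic elements and the identity -/
def Par (γ : PG K) : Prop := ∀ a b c d h, γ = mob a b c d h → (a + d) ^ 2 = 4 * (a * d - b * c)

theorem par_conj (k : PG K) (b : K) : Par (k * tr b * k⁻¹) := fun a' b' c' d' h e => by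
  obtain ⟨p, q, r, s, hδ, rfl⟩ := exists_mob k
  simp only [tr, aff, mob_inv, mob_mul] at e
  obtain ⟨u, rfl, rfl, rfl, rfl⟩ := mob_eq_mob.1 e
  ring

theorem par_one : Par (1 : PG K) := by simpa using par_conj (1 : PG K) 0

theorem stab_aff {Γ : Subgroup (PG K)} {x : P1 K} (h : Γ ≤ stabilizer (PG K) x) :
    ∃ k : PG K, ∀ g ∈ Γ, ∃ a b ha, g = k * aff a b ha * k⁻¹ := by
  obtain ⟨k, rfl⟩ := exists_smul_inf x
  refine ⟨k, fun g hg => ?_⟩
  obtain ⟨a, b, ha, e⟩ := exists_aff_of_fix (g := k⁻¹ * g * k) (by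
    rw [mul_smul, mul_smul, inv_smul_eq_iff]; exact h hg)
  exact ⟨a, b, ha, by rw [← e]; group⟩

theorem odd_par [Finite K] (Γ : Subgroup (PG K)) (ho : Odd (Nat.card Γ)) {g h : PG K} (hg : g ∈ Γ) (hh : h ∈ Γ) :
    Par (g * h * g⁻¹ * h⁻¹) := by
  have ev : ¬ 2 ∣ Nat.card Γ := ho.not_two_dvd_nat
  rcases dickson Γ with ⟨x, hx⟩ | ⟨x, y, hxy, k⟩ | ⟨-, -, ⟨⟨e⟩⟩ | ⟨⟨e⟩⟩⟩ | ⟨-, -, -, ⟨e⟩⟩ | ⟨k, E, -, hl, -⟩
  · obtain ⟨k, hk⟩ := stab_aff hx
    obtain ⟨a, b, ha, rfl⟩ := hk g hg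
    obtain ⟨c, d, hc, rfl⟩ := hk h hh
    have : aff a b ha * aff c d hc * (aff a b ha)⁻¹ * (aff c d hc)⁻¹ = tr (b + a * d - c * b - d) := by
      simp only [aff_inv, aff_mul, tr, aff_eq_aff]
      constructor <;> field_simp <;> ring
    convert par_conj k (b + a * d - c * b - d) using 1
    rw [← this]; group
  · have : ∀ g ∈ Γ, g ∈ Tor x y := fun g hg => by_contra fun n =>
      n (eq_one_of_odd ho (pow_card_mem hg) (mul_self_eq_one hxy.ne (k hg) n) ▸ one_mem _)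
    rw [Tor_comm hxy.ne (this g hg) (this h hh)]
    simpa using par_one
  · exact absurd (by rw [Nat.card_congr e.toEquiv, Small.card_A4]; decide) ev
  · exact absurd (by rw [Nat.card_congr e.toEquiv, Small.card_S4]; decide) ev
  · exact absurd (by rw [Nat.card_congr e.toEquiv, Small.card_A5]; decide) ev
  · refine absurd (card_cj k Γ ▸ two_dvd_card (s := flip (-1) (by simp)) ⟨fun e => ?_, flip_mul_self _ _⟩ (hl ?_)) ev
    · simpa using (mob_eq_one.1 e).1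
    · exact mob_mem_PSsub (s := 1) E.zero_mem (E.neg_mem E.one_mem) E.one_mem E.zero_mem E.one_mem (by ring)

theorem dick_small [Finite K] (h2 : (2 : K) ≠ 0) (Γ : Subgroup (PG K))
    (hs : ∀ l : ℕ, l.Prime → (l : K) = 0 → l ∣ Nat.card Γ → l = 3 ∧ ¬ 9 ∣ Nat.card Γ) :
    (∃ x : P1 K, Γ ≤ stabilizer (PG K) x) ∨ (∃ x y, x ≠ y ∧ Γ ≤ Nor x y) ∨ Nonempty (Γ ≃* alternatingGroup (Fin 4)) ∨
      Nonempty (Γ ≃* Equiv.Perm (Fin 4)) ∨ Nonempty (Γ ≃* alternatingGroup (Fin 5)) := by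
  by_cases h1 : ∃ z : P1 (Kb K), ∀ g ∈ Γ, g • z = z
  · obtain ⟨z, hz⟩ := h1
    rcases fixed_case hz with h | ⟨x, y, h, h'⟩
    exacts [Or.inl h, Or.inr (Or.inl ⟨x, y, h.ne, h'.trans (Tor_le_Nor x y)⟩)]
  by_cases h3 : ∃ x y, IsPair x y ∧ Γ ≤ Nor x y
  · exact Or.inr (Or.inl (h3.imp fun x h => h.imp fun y h => ⟨h.1.ne, h.2⟩))
  have hno := no_prime_normal h1 h3
  rcases dickson Γ with h | h | ⟨-, -, h | h⟩ | ⟨-, -, -, h⟩ | ⟨k, E, h3, hl, hu⟩
  exacts [Or.inl h, absurd h h3, by simp [h], by simp [h], by simp [h], by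
    have := Fintype.ofFinite E
    obtain ⟨p, hp, n, pp, hn⟩ := FiniteField.card' E
    have o : Odd (Nat.card E) := odd_of_two_ne fun e => h2 (by rw [← map_ofNat E.subtype 2, e, map_zero])
    have c1 := MobCard.card_PS_odd E o
    have d1 := Subgroup.card_dvd_of_le hl
    have d2 := Subgroup.card_dvd_of_le hu
    rw [card_cj, ← Nat.card_congr (psSubEquiv E).toEquiv] at d1
    rw [card_cj, ← Nat.card_congr (pgSubEquiv E).toEquiv, MobCard.card_PG] at d2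
    have d3 : Nat.card E ∣ Nat.card Γ := ((Nat.Coprime.dvd_of_dvd_mul_left (m := 2)
      (by simpa using o) (c1 ▸ Dvd.intro ((Nat.card E + 1) * (Nat.card E - 1)) (by ring)))).trans d1
    rw [← Nat.card_eq_fintype_card] at hn
    obtain ⟨rfl, k9⟩ := hs p pp (by rw [← map_natCast E.subtype p, CharP.cast_eq_zero E p, map_zero])
      ((dvd_pow_self p n.ne_zero).trans (hn ▸ d3))
    have e3 : Nat.card E = 3 := by
      obtain ⟨_ | _ | n, n0⟩ := n
      · simp at n0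
      · simpa using hn
      · exact absurd ((hn ▸ pow_dvd_pow 3 (by simp : 2 ≤ n + 1 + 1)).trans d3) k9
    rw [e3] at c1 d2
    rw [show Nat.card (PS E) = 12 by omega] at d1
    have := Nat.le_of_dvd (by norm_num) d2
    have := Nat.card_pos (α := Γ)
    rcases (by omega : Nat.card Γ = 12 ∨ Nat.card Γ = 24) with e | e
    exacts [Or.inr (Or.inr (Or.inl (Small.A4_of hno e))), Or.inr (Or.inr (Or.inr (Or.inl (Small.S4_of hno e))))]]

theorem dick_four [Finite K] (h2 : (2 : K) ≠ 0) (Γ : Subgroup (PG K))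
    (hs : ∀ l : ℕ, l.Prime → (l : K) = 0 → l ∣ Nat.card Γ → l = 3 ∧ ¬ 9 ∣ Nat.card Γ) {u v : PG K} (hu : u ∈ Γ)
    (hv : v ∈ Γ) (iu : Inv u) (iv : Inv v) (huv : u ≠ v) (hc : u * v = v * u) :
    ((∃ w, (w = u ∨ w = v ∨ w = u * v) ∧ ∀ g ∈ Γ, g * w = w * g) ∧
      ∀ g ∈ Γ, ∀ n, Odd n → g ^ n = 1 → u * g = g * u → v * g = g * v → g = 1) ∨
    Nonempty (Γ ≃* alternatingGroup (Fin 4)) ∨ Nonempty (Γ ≃* Equiv.Perm (Fin 4)) ∨
      Nonempty (Γ ≃* alternatingGroup (Fin 5)) := by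
  rcases dick_small h2 Γ hs with ⟨x, hx⟩ | ⟨x, y, hxy, k⟩ | h
  · exfalso
    obtain ⟨k, hk⟩ := stab_aff hx
    have iw := iu.mul iv huv hc
    have key : ∀ g ∈ Γ, Inv g → ∃ b, g = k * aff (-1) b (by simp) * k⁻¹ := fun g hg ig => by
      obtain ⟨a, b, ha, rfl⟩ := hk g hg
      have e := aff_eq_one.1 ((aff_mul ha ha).symm.trans (conj_mul_self.1 ig.2))
      rcases mul_self_eq_one_iff.1 e.1 with rfl | rfl
      · refine absurd ?_ ig.1
        rw [aff_eq_one.2 ⟨rfl, mul_left_cancel₀ h2 (by linear_combination e.2)⟩]; simp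
      · exact ⟨b, rfl⟩
    obtain ⟨b1, rfl⟩ := key u hu iu
    obtain ⟨b2, rfl⟩ := key v hv iv
    obtain ⟨b3, e⟩ := key _ (mul_mem hu hv) iw
    rw [conj_mul, aff_mul, mul_left_inj, mul_right_inj, aff_eq_aff] at e
    exact h2 (by linear_combination e.1)
  · left
    have cen : ∀ w ∈ Tor x y, Inv w → ∀ g ∈ Γ, g * w = w * g := fun w hw iw g hg => by
      by_cases n : g ∈ Tor x y
      · exact Tor_comm hxy n hw
      · rw [← mul_inv_eq_iff_eq_mul, conj_eq_inv hxy (k hg) n hw, iw.inv_eq]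
    refine ⟨?_, fun g hg n hn e c1 c2 => ?_⟩
    · by_cases h1 : u ∈ Tor x y
      · exact ⟨u, by simp, cen u h1 iu⟩
      by_cases h3 : v ∈ Tor x y
      · exact ⟨v, by simp, cen v h3 iv⟩
      exact ⟨_, by simp, cen _ (mul_mem_Tor (k hu) (k hv) h1 h3) (iu.mul iv huv hc)⟩
    have gt : g ∈ Tor x y := by_contra fun m => m (eq_one_of_odd hn e (mul_self_eq_one hxy (k hg) m) ▸ one_mem _)
    have fin : ∀ s ∈ Γ, s ∉ Tor x y → s * g = g * s → g = 1 := fun s hs m c => eq_one_of_odd hn e (by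
      have := conj_eq_inv hxy (k hs) m gt
      rw [c, mul_inv_cancel_right] at this
      exact mul_eq_one_iff_eq_inv.2 this)
    by_cases h1 : u ∈ Tor x y
    · exact fin v hv (fun h3 => huv (eq_of_mul_self hxy h1 h3 iu.1 iv.1 iu.2 iv.2)) c2
    · exact fin u hu h1 c1
  · exact Or.inr h

end Cfsg.Agent.H1.Mit
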