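import Cfsg.Agent.H1.M4L1
import Cfsg.Agent.H1.M4P

/-! Unipotent elements; subgroups of odd order in centralisers are abelian. -/

set_option autoImplicit false

namespace Cfsg.Agent.H1.Mit

open Matrix Cfsg.Agent.MH Cfsg.Agent.H4.Mob

variable {T K : Type*} [Group T] [Field K]

theorem homOfRel {G Γ : Type*} [Group G] [Group Γ] (M : Subgroup G) (r : G → Γ → Prop) (ex : ∀ x ∈ M, ∃ γ, r x γ)
    (uq : ∀ x γ γ', r x γ → r x γ' → γ = γ') (mul : ∀ x y γ γ', r x γ → r y γ' → r (x * y) (γ * γ')) :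
    ∃ ψ : M →* Γ, ∀ x : M, r x (ψ x) := by
  choose f hf using ex
  exact ⟨MonoidHom.mk' (fun x => f x x.2) fun x y => uq _ _ _ (hf _ (x * y).2) (mul _ _ _ _ (hf _ x.2) (hf _ y.2)),
    fun x => hf _ x.2⟩

section

variable {X Y Z N : M4 K} {a b c d : V4 K}

theorem span_of_ker {P : M4 K} (h : ∀ x, P *ᵥ x = 0 → x = 0) (v : V4 K) : ∃ x, P *ᵥ x = v := by
  have : P.det ≠ 0 := fun e => by
    obtain ⟨x, h0, h1⟩ := Matrix.exists_mulVec_eq_zero_iff.2 e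
    exact h0 (h x h1)
  exact ⟨P⁻¹ *ᵥ v, by rw [mulVec_mulVec, mul_nonsing_inv _ this.isUnit, one_mulVec]⟩

theorem Sp.ad_sub (h : Sp X) : ad (X - 1) = -ad X * (X - 1) := by simp [mul_sub, h.left]; abel

theorem Sp.ad_comm (h : Sp X) : Commute (ad X) (X - 1) := by simp [Commute, SemiconjBy, mul_sub, sub_mul, h.left, h.right]

theorem Sp.ad_pow_sub (h : Sp X) (j : ℕ) : ad ((X - 1) ^ j) = (-ad X) ^ j * (X - 1) ^ j := by
  rw [ad_pow, h.ad_sub, h.ad_comm.neg_left.mul_pow]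

theorem un_cube (h2 : (2 : K) ≠ 0) (h : Sp X) (h3 : (X - 1) ^ 3 = 0) : (X - 1) * (X - 1) = 0 := by
  have e1 : ad X * (X - 1) ^ 2 = (X - 1) ^ 2 := by
    have : X * (X - 1) ^ 2 = (X - 1) ^ 2 := by rw [← sub_eq_zero, ← h3, pow_succ' _ 2, sub_mul, one_mul]
    rw [← this, ← mul_assoc, h.left, one_mul, this]
  have e : ad ((X - 1) ^ 2) = (X - 1) ^ 2 := by rw [h.ad_pow_sub, neg_sq, pow_two (ad X), mul_assoc, e1, e1]
  generalize X - 1 = N at *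
  rw [← pow_two]
  refine Matrix.ext_iff_mulVec.2 fun u => by_contra fun hu => ?_
  obtain ⟨v, hv⟩ := exists_B (a := N ^ 2 *ᵥ u) (by simpa using hu)
  have s : ∀ w, B (N ^ 2 *ᵥ w) w = 0 := fun w => mul_left_cancel₀ h2 (by
    have := B_ad (N ^ 2) w w
    rw [e, B_swap w] at this
    linear_combination this)
  have hv' : B (N ^ 2 *ᵥ v) u = -1 := by rw [B_ad, e, B_swap, hv]
  have n1 : ∀ w, N *ᵥ N *ᵥ w = N ^ 2 *ᵥ w := fun w => by rw [mulVec_mulVec, pow_two]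
  have n2 : ∀ w, N *ᵥ N ^ 2 *ᵥ w = 0 := fun w => by rw [mulVec_mulVec, ← pow_succ', h3, zero_mulVec]
  have n3 : ∀ w, N ^ 2 *ᵥ N *ᵥ w = 0 := fun w => by rw [mulVec_mulVec, ← pow_succ, h3, zero_mulVec]
  have n4 : ∀ w, N ^ 2 *ᵥ N ^ 2 *ᵥ w = 0 := fun w => by rw [← n1 w, n3]
  have ind : ∀ α β : K, α • N ^ 2 *ᵥ u + β • N ^ 2 *ᵥ v = 0 → α = 0 ∧ β = 0 := fun α β k =>
    ⟨by simpa [hv, s] using congrArg (B · v) k, by simpa [hv', s] using congrArg (B · u) k⟩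
  obtain ⟨x, hx⟩ := span_of_ker (P := col4 (N *ᵥ u) (N *ᵥ v) (N ^ 2 *ᵥ u) (N ^ 2 *ᵥ v)) (fun x k => by
    rw [col4_mulVec] at k
    obtain ⟨k0, k1⟩ := ind (x 0) (x 1) (by simpa [mulVec_add, mulVec_smul, n1, n2] using congrArg (N *ᵥ ·) k)
    obtain ⟨k2, k3⟩ := ind (x 2) (x 3) (by simpa [k0, k1] using k)
    ext i; fin_cases i <;> simp [*]) v
  rw [← hx, col4_mulVec] at hv
  simp [B_ad, e, n3, n4] at hv

theorem reg_poly (h4 : N ^ 4 = 0) (h3 : N ^ 3 ≠ 0) (h : Y * N = N * Y) :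
    ∃ a0 a1 a2 a3 : K, Y = a0 • 1 + a1 • N + a2 • N ^ 2 + a3 • N ^ 3 := by
  obtain ⟨w, hw⟩ : ∃ w, N ^ 3 *ᵥ w ≠ 0 := by
    by_contra k
    push Not at k
    exact h3 (Matrix.ext_iff_mulVec.2 (by simpa using k))
  have p : ∀ i j, N ^ i *ᵥ N ^ j *ᵥ w = N ^ (i + j) *ᵥ w := fun i j => by rw [mulVec_mulVec, pow_add]
  have z : ∀ i, N ^ (4 + i) *ᵥ w = 0 := fun i => by rw [pow_add, h4, zero_mul, zero_mulVec]
  have z4 := z 0; have z5 := z 1; have z6 := z 2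
  have sp := span_of_ker (P := col4 (N ^ 0 *ᵥ w) (N ^ 1 *ᵥ w) (N ^ 2 *ᵥ w) (N ^ 3 *ᵥ w)) fun x k => by
    rw [col4_mulVec] at k
    have k0 := congrArg (N ^ 3 *ᵥ ·) k
    have k1 := congrArg (N ^ 2 *ᵥ ·) k
    have k2 := congrArg (N ^ 1 *ᵥ ·) k
    simp only [mulVec_add, mulVec_smul, p, mulVec_zero] at k0 k1 k2
    norm_num [z4, z5, z6, hw] at k0
    norm_num [z4, z5, z6, hw, k0] at k1
    norm_num [z4, z5, z6, hw, k0, k1] at k2
    norm_num [hw, k0, k1, k2] at k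
    ext i; fin_cases i <;> simp [*]
  obtain ⟨x, hx⟩ := sp (Y *ᵥ w)
  refine ⟨x 0, x 1, x 2, x 3, Matrix.ext_iff_mulVec.2 fun v => ?_⟩
  obtain ⟨y, rfl⟩ := sp v
  have c : ∀ i, Y *ᵥ N ^ i *ᵥ w = (x 0 • 1 + x 1 • N + x 2 • N ^ 2 + x 3 • N ^ 3) *ᵥ N ^ i *ᵥ w := fun i => by
    rw [mulVec_mulVec, (Commute.pow_right h i).eq, ← mulVec_mulVec, ← hx, col4_mulVec]
    simp only [mulVec_add, mulVec_smul, add_mulVec, smul_mulVec, p, one_mulVec, add_comm i, zero_add]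
    rw [← p 1 i, pow_one]
  simp only [col4_mulVec, mulVec_add, mulVec_smul, c]

theorem reg_comm (h4 : N ^ 4 = 0) (h3 : N ^ 3 ≠ 0) (h : Y * N = N * Y) (h' : Z * N = N * Z) : Y * Z = Z * Y := by
  obtain ⟨a0, a1, a2, a3, rfl⟩ := reg_poly h4 h3 h
  have c : Commute N Z := h'.symm
  exact (((Commute.one_left Z).smul_left a0).add_left (c.smul_left a1)).add_left ((c.pow_left 2).smul_left a2)
    |>.add_left ((c.pow_left 3).smul_left a3)

theorem three_le_char (h2 : (2 : K) ≠ 0) {p : ℕ} (hp : p.Prime) (h0 : (p : K) = 0) : 3 ≤ p :=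
  hp.two_le.lt_of_ne (by rintro rfl; exact h2 h0)

theorem odd_char (h2 : (2 : K) ≠ 0) {p : ℕ} (hp : p.Prime) (h0 : (p : K) = 0) : Odd p :=
  hp.odd_of_ne_two (by rintro rfl; exact h2 h0)

theorem sub_pow_p {p : ℕ} (hp : p.Prime) (h0 : (p : K) = 0) (X : M4 K) (c : K) (k : ℕ) :
    (X - c • 1) ^ p ^ k = X ^ p ^ k - c ^ p ^ k • 1 := by
  have := Fact.mk hp
  have := (CharP.charP_iff_prime_eq_zero (R := K) hp).2 h0
  rw [sub_pow_char_pow_of_commute _ _ ((Commute.one_right X).smul_right c), smul_pow, one_pow]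

theorem pow_of_nil (h2 : (2 : K) ≠ 0) {p : ℕ} (hp : p.Prime) (h0 : (p : K) = 0) {c : K} (h : (X - c • 1) ^ 4 = 0) :
    X ^ p ^ 2 = c ^ p ^ 2 • 1 := by
  have := three_le_char h2 hp h0
  rw [← sub_eq_zero, ← sub_pow_p hp h0, pow_eq_zero_of_le (by nlinarith) h]

theorem nil_of_pow {p k : ℕ} (hp : p.Prime) (h0 : (p : K) = 0) (h : X ^ p ^ k = 1) : (X - 1) ^ 4 = 0 := by
  have e := sub_pow_p hp h0 X 1 k
  simp only [h, one_pow, one_smul, sub_self] at e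
  have := aeval_self_charpoly (X - 1)
  rw [sub_eq_zero.1 (Matrix.isNilpotent_charpoly_sub_pow_of_isNilpotent ⟨_, e⟩).eq_zero] at this
  simpa using this

theorem Sp.scalar {c : K} (h : Sp (c • 1 : M4 K)) : c = 1 ∨ c = -1 := by
  have := congrFun (congrFun h.left 0) 0
  simpa [smul_smul, mul_self_eq_one_iff] using this

theorem poly_nil {a0 a1 a2 a3 : K} (h4 : N ^ 4 = 0) :
    (a0 • 1 + a1 • N + a2 • N ^ 2 + a3 • N ^ 3 - a0 • 1) ^ 4 = 0 := by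
  have c : Commute N (a1 • 1 + a2 • N + a3 • N ^ 2) :=
    (((Commute.one_right N).smul_right a1).add_right ((Commute.refl N).smul_right a2)).add_right
      (((Commute.refl N).pow_right 2).smul_right a3)
  rw [show a0 • 1 + a1 • N + a2 • N ^ 2 + a3 • N ^ 3 - a0 • 1 = N * (a1 • 1 + a2 • N + a3 • N ^ 2) by
    simp only [mul_add, Matrix.mul_smul, mul_one, ← pow_succ', ← pow_two]; abel, c.mul_pow, h4, zero_mul]

theorem ad_col4 (a b c d v : V4 K) : ad (col4 a b c d) *ᵥ v = ![-B d v, -B c v, B b v, B a v] := by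
  ext i; fin_cases i <;> simp [ad_eq, col4, B, mulVec, dotProduct, Fin.sum_univ_four] <;> ring

theorem cj_col (a b c d : V4 K) (X : M4 K) : ad (col4 a b c d) * X * col4 a b c d =
    col4 (ad (col4 a b c d) *ᵥ X *ᵥ a) (ad (col4 a b c d) *ᵥ X *ᵥ b) (ad (col4 a b c d) *ᵥ X *ᵥ c)
      (ad (col4 a b c d) *ᵥ X *ᵥ d) := by
  rw [mul_assoc, mul_col4, mul_col4]

theorem ul_cj (h1 : B a (X *ᵥ a) = 0) (h2 : B a (X *ᵥ b) = 0) (h3 : B b (X *ᵥ a) = 0) (h4 : B b (X *ᵥ b) = 0) :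
    UL (ad (col4 a b c d) * X * col4 a b c d) := by
  rw [cj_col]; simp only [ad_col4]; simp [UL, col4, *]

/-- stabiliser of the first point -/
def PT (X : M4 K) : Prop := X 1 0 = 0 ∧ X 2 0 = 0 ∧ X 3 0 = 0 ∧ X 3 1 = 0 ∧ X 3 2 = 0

theorem Sp.pt (h : Sp X) (h1 : X 1 0 = 0) (h2 : X 2 0 = 0) (h3 : X 3 0 = 0) :
    PT X ∧ X 3 3 * X 0 0 = 1 ∧ X 1 1 * X 2 2 - X 1 2 * X 2 1 = 1 := by
  have e := h.left
  rw [ad_eq] at e
  have e0 := congrFun (congrFun e 0) 0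
  have e1 := congrFun (congrFun e 1) 0
  have e2 := congrFun (congrFun e 2) 0
  have e3 := congrFun (congrFun e 1) 1
  simp [mul_apply, Fin.sum_univ_four, h1, h2, h3] at e0 e1 e2 e3
  have n := right_ne_zero_of_mul_eq_one e0
  simp only [n, or_false] at e1 e2
  exact ⟨⟨h1, h2, h3, e2, e1⟩, e0, by rw [e1, e2] at e3; linear_combination e3⟩

theorem UL.mul (hX : UL X) (hY : UL Y) : UL (X * Y) := by
  simp [UL, mul_apply, Fin.sum_univ_four, hX.1, hX.2.1, hX.2.2.1, hX.2.2.2, hY.1, hY.2.1, hY.2.2.1, hY.2.2.2]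

theorem PT.mul (hX : PT X) (hY : PT Y) : PT (X * Y) := by
  simp [PT, mul_apply, Fin.sum_univ_four, hX.1, hX.2.1, hX.2.2.1, hX.2.2.2, hY.1, hY.2.1, hY.2.2.1, hY.2.2.2]

/-- determinant of the upper left block -/
def dl (X : M4 K) : K := X 0 0 * X 1 1 - X 0 1 * X 1 0

theorem dl_mul (X : M4 K) (hY : UL Y) : dl (X * Y) = dl X * dl Y := by
  simp [dl, mul_apply, Fin.sum_univ_four, hY.1, hY.2.1, hY.2.2.1, hY.2.2.2]; ring

theorem dl_one : dl (1 : M4 K) = 1 := by simp [dl]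

theorem dl_neg (X : M4 K) : dl (-X) = dl X := by simp [dl]

theorem ul_nil (h : Sp X) (k : UL X) (h1 : dl X = 1) (h2 : (X 0 0 + X 1 1) ^ 2 = 4) : (X * X - 1) ^ 4 = 0 := by
  obtain ⟨-, e1, e2, e3, e4⟩ := h.ul k
  obtain ⟨k1, k2, k3, k4⟩ := k
  rw [dl] at h1
  simp only [h1, div_one] at e1 e2 e3 e4
  have z : ∀ i j : Fin 4, (2 ≤ i ∨ j < 2) → ((X * X - 1) * (X * X - 1)) i j = 0 := fun i j hij => by
    fin_cases i <;> fin_cases j <;> simp at hij <;>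
      simp [mul_apply, Fin.sum_univ_four, one_apply, k1, k2, k3, k4, e1, e2, e3, e4] <;> grind
  rw [show (X * X - 1) ^ 4 = (X * X - 1) * (X * X - 1) * ((X * X - 1) * (X * X - 1)) by
    simp only [pow_succ, pow_zero, one_mul, mul_assoc]]
  generalize (X * X - 1) * (X * X - 1) = W at z
  ext i j
  simp [mul_apply, Fin.sum_univ_four, z i 0, z i 1, z 2 j, z 3 j]

theorem pt_nil (h : Sp X) (k : PT X) (h1 : X 0 0 = 1) (h2 : (X 1 1 + X 2 2) ^ 2 = 4) : (X * X - 1) ^ 4 = 0 := by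
  obtain ⟨-, e1, e2⟩ := h.pt k.1 k.2.1 k.2.2.1
  obtain ⟨k1, k2, k3, k4, k5⟩ := k
  rw [h1, mul_one] at e1
  have z0 : ∀ i j : Fin 4, (i = 3 ∨ j = 0) → (X * X - 1) i j = 0 := fun i j hij => by
    fin_cases i <;> fin_cases j <;> simp at hij <;> simp [mul_apply, Fin.sum_univ_four, k1, k2, k3, k4, k5, e1, h1]
  have z : ∀ i j : Fin 4, (0 < i ∧ j < 3) → ((X * X - 1) * (X * X - 1)) i j = 0 := fun i j hij => by
    fin_cases i <;> fin_cases j <;> simp at hij <;>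
      simp [mul_apply, Fin.sum_univ_four, one_apply, k1, k2, k3, k4, k5, e1, h1] <;> grind
  rw [show (X * X - 1) ^ 4 = (X * X - 1) * ((X * X - 1) * (X * X - 1)) * (X * X - 1) by
    simp only [pow_succ, pow_zero, one_mul, mul_assoc]]
  generalize X * X - 1 = W at z z0
  generalize W * W = W' at z
  ext i j
  simp [mul_apply, Fin.sum_univ_four, z0 i 0, z0 3 j, z 1 0, z 1 1, z 1 2, z 2 0, z 2 1, z 2 2, z 3 0, z 3 1, z 3 2]

end

namespace SRep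

variable {ρ : SRep T K} {g x y z u : T} {G X Y Z : M4 K} {n : ℕ}

theorem exists_hom (ρ : SRep T K) (H : Subgroup T) (Q : M4 K → Prop) (α β γ δ : M4 K → K)
    (hQ : ∀ x ∈ H, ∀ X, ρ.L x X → Q X) (hd : ∀ X, Sp X → Q X → α X * δ X - β X * γ X ≠ 0)
    (hn : ∀ X, α (-X) = -α X ∧ β (-X) = -β X ∧ γ (-X) = -γ X ∧ δ (-X) = -δ X)
    (hm : ∀ X Y, Sp X → Sp Y → Q X → Q Y → ∃ c, α (X * Y) = c * (α X * α Y + β X * γ Y) ∧
      β (X * Y) = c * (α X * β Y + β X * δ Y) ∧ γ (X * Y) = c * (γ X * α Y + δ X * γ Y) ∧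
      δ (X * Y) = c * (γ X * β Y + δ X * δ Y)) :
    ∃ ψ : H →* PG K, ∀ (x : H) X, ρ.L x X → ∃ h, ψ x = mob (α X) (β X) (γ X) (δ X) h := by
  have k : ∀ {x X Y h h'}, ρ.L x X → ρ.L x Y → mob (α X) (β X) (γ X) (δ X) h = mob (α Y) (β Y) (γ Y) (δ Y) h' :=
    fun {x X Y h h'} hX hY => by
      rcases hX.uniq hY with rfl | rfl
      · rfl
      · exact mob_eq_mob.2 ⟨-1, by simp [hn], by simp [hn], by simp [hn], by simp [hn]⟩
  obtain ⟨ψ, hψ⟩ := homOfRel H (fun x g => x ∈ H ∧ ∃ X, ρ.L x X ∧ ∃ h, g = mob (α X) (β X) (γ X) (δ X) h)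
    (fun x hx => (ρ.exL x).elim fun X hX => ⟨_, hx, X, hX, hd X hX.sp (hQ x hx X hX), rfl⟩)
    (by rintro x _ _ ⟨-, X, hX, h, rfl⟩ ⟨-, Y, hY, h', rfl⟩; exact k hX hY) (by
      rintro x y _ _ ⟨hx, X, hX, h, rfl⟩ ⟨hy, Y, hY, h', rfl⟩
      refine ⟨H.mul_mem hx hy, _, hX.mul hY, hd _ (hX.mul hY).sp (hQ _ (H.mul_mem hx hy) _ (hX.mul hY)), ?_⟩
      rw [mob_mul, mob_eq_mob]
      exact hm X Y hX.sp hY.sp (hQ x hx X hX) (hQ y hy Y hY))
  refine ⟨ψ, fun x X hX => ?_⟩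
  obtain ⟨-, Y, hY, h, e⟩ := hψ x
  exact ⟨hd X hX.sp (hQ x x.2 X hX), e.trans (k hY hX)⟩

theorem par_of_hom [Finite K] {H : Subgroup T} (ho : Odd (Nat.card H)) (ψ : H →* PG K) (a b : H) :
    Par (ψ (a * b * a⁻¹ * b⁻¹)) := by
  simp only [map_mul, map_inv]
  exact odd_par ψ.range (ho.of_dvd_nat (Subgroup.card_range_dvd ψ)) ⟨a, rfl⟩ ⟨b, rfl⟩

theorem iso_comm [Finite K] {H : Subgroup T} (ho : Odd (Nat.card H)) {E : Submodule K (V4 K)} (h0 : E ≠ ⊥)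
    (hi : ∀ u ∈ E, ∀ v ∈ E, B u v = 0) (hE : ∀ x ∈ H, ∀ X, ρ.L x X → ∀ v ∈ E, X *ᵥ v ∈ E) {a b : T} (ha : a ∈ H)
    (hb : b ∈ H) : ∃ C, ρ.L (a * b * a⁻¹ * b⁻¹) C ∧ (C * C - 1) ^ 4 = 0 := by
  obtain ⟨v, hv, v0⟩ := (Submodule.ne_bot_iff E).1 h0
  suffices ∃ P, ∃ hP : Sp P, ∃ C, (ρ.cj P hP).L (a * b * a⁻¹ * b⁻¹) C ∧ (C * C - 1) ^ 4 = 0 by
    obtain ⟨P, hP, C, h1, h2⟩ := this
    refine ⟨_, h1, ?_⟩
    rw [← pow_two, cj_pow hP, ← hP.right, show P * C ^ 2 * ad P - P * ad P = P * (C * C - 1) * ad P by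
      simp [mul_sub, sub_mul, pow_two], cj_pow hP, h2]
    simp
  have un : ∀ {P X : M4 K}, Sp P → X = ad P * (P * X * ad P) * P := fun hP => by
    simp only [← mul_assoc, hP.left, one_mul]; rw [mul_assoc, hP.left, mul_one]
  by_cases h : ∃ w ∈ E, ∀ c : K, w ≠ c • v
  · obtain ⟨w, hw, h⟩ := h
    obtain ⟨k, c, d, hP⟩ := exists_flag v0 h (hi v hv w hw)
    have w' := E.sub_mem hw (E.smul_mem k hv)
    have q : ∀ x ∈ H, ∀ X, (ρ.cj _ hP).L x X → UL X := fun x hx X hX => by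
      rw [un hP (X := X)]
      exact ul_cj (hi _ hv _ (hE x hx _ hX _ hv)) (hi _ hv _ (hE x hx _ hX _ w')) (hi _ w' _ (hE x hx _ hX _ hv))
        (hi _ w' _ (hE x hx _ hX _ w'))
    obtain ⟨ψ, hψ⟩ := (ρ.cj _ hP).exists_hom H UL (· 0 0) (· 0 1) (· 1 0) (· 1 1) q (fun X s u => (s.ul u).1) (by simp)
      fun X Y _ _ _ u => ⟨1, by simp [mul_apply, Fin.sum_univ_four, u.1, u.2.1, u.2.2.1, u.2.2.2]⟩
    obtain ⟨A, hA⟩ := (ρ.cj _ hP).exL a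
    obtain ⟨A', hB⟩ := (ρ.cj _ hP).exL b
    have hC := (hA.conj hB).mul hB.inv
    obtain ⟨_, e⟩ := hψ (⟨a, ha⟩ * ⟨b, hb⟩ * ⟨a, ha⟩⁻¹ * ⟨b, hb⟩⁻¹) _ hC
    have e1 := par_of_hom ho ψ _ _ _ _ _ _ _ e
    have d1 : dl (A * A' * ad A * ad A') = 1 := by
      have i1 := dl_mul (ad A) (q a ha A hA)
      have i2 := dl_mul (ad A') (q b hb A' hB)
      rw [hA.sp.left, dl_one] at i1
      rw [hB.sp.left, dl_one] at i2
      rw [dl_mul _ (q _ (H.inv_mem hb) _ hB.inv), dl_mul _ (q _ (H.inv_mem ha) _ hA.inv), dl_mul _ (q b hb A' hB)]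
      linear_combination (-dl A' * dl (ad A')) * i1 - i2
    exact ⟨_, hP, _, hC, ul_nil hC.sp (q _ (⟨a, ha⟩ * ⟨b, hb⟩ * ⟨a, ha⟩⁻¹ * ⟨b, hb⟩⁻¹ : H).2 _ hC) d1
      (by rw [e1, ← dl, d1, mul_one])⟩
  · push Not at h
    obtain ⟨w, c, d, hP⟩ := exists_pt v0
    have q : ∀ x ∈ H, ∀ X, (ρ.cj _ hP).L x X → PT X := fun x hx X hX => by
      obtain ⟨k, hk⟩ := h _ (hE x hx _ hX _ hv)
      have e : X * col4 ![1, 0, 0, 0] 0 0 0 = col4 ![k, 0, 0, 0] 0 0 0 := hP.cancel (by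
        have e1 : ∀ k : K, col4 v w c d *ᵥ ![k, 0, 0, 0] = k • v := fun k => by simp [col4_mulVec]
        rw [← mul_assoc, ← mul_one (_ * X), ← hP.left, ← mul_assoc, mul_assoc _ (col4 v w c d), mul_col4, mul_col4,
          mul_col4, e1, e1, one_smul, hk]
        simp)
      have e1 := congrFun (congrFun e 1) 0
      have e2 := congrFun (congrFun e 2) 0
      have e3 := congrFun (congrFun e 3) 0
      simp [mul_apply, Fin.sum_univ_four, col4] at e1 e2 e3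
      exact (hX.sp.pt e1 e2 e3).1
    obtain ⟨ψ, hψ⟩ := (ρ.cj _ hP).exists_hom H PT (· 1 1) (· 1 2) (· 2 1) (· 2 2) q
      (fun X s u => by rw [(s.pt u.1 u.2.1 u.2.2.1).2.2]; exact one_ne_zero) (by simp)
      fun X Y _ _ u u' => ⟨1, by simp [mul_apply, Fin.sum_univ_four, u.1, u.2.1, u'.2.2.2.1, u'.2.2.2.2]⟩
    obtain ⟨A, hA⟩ := (ρ.cj _ hP).exL a
    obtain ⟨A', hB⟩ := (ρ.cj _ hP).exL b
    have hC := (hA.conj hB).mul hB.inv
    obtain ⟨_, e⟩ := hψ (⟨a, ha⟩ * ⟨b, hb⟩ * ⟨a, ha⟩⁻¹ * ⟨b, hb⟩⁻¹) _ hC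
    have e1 := par_of_hom ho ψ _ _ _ _ _ _ _ e
    have qc := q _ (⟨a, ha⟩ * ⟨b, hb⟩ * ⟨a, ha⟩⁻¹ * ⟨b, hb⟩⁻¹ : H).2 _ hC
    have m : ∀ X Y : M4 K, PT Y → (X * Y) 0 0 = X 0 0 * Y 0 0 := fun X Y u => by
      simp [mul_apply, Fin.sum_univ_four, u.1, u.2.1, u.2.2.1]
    refine ⟨_, hP, _, hC, pt_nil hC.sp qc ?_ (by rw [e1, (hC.sp.pt qc.1 qc.2.1 qc.2.2.1).2.2, mul_one])⟩
    have i1 := m (ad A) _ (q a ha A hA)
    have i2 := m (ad A') _ (q b hb A' hB)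
    rw [hA.sp.left, one_apply_eq] at i1
    rw [hB.sp.left, one_apply_eq] at i2
    rw [m _ _ (q _ (H.inv_mem hb) _ hB.inv), m _ _ (q _ (H.inv_mem ha) _ hA.inv), m _ _ (q b hb A' hB)]
    linear_combination (-A' 0 0 * ad A' 0 0) * i1 - i2

theorem NoQ.reg (h2 : (2 : K) ≠ 0) (h : ρ.NoQ) (hX : ρ.L x X) (h1 : X ≠ 1) : (X - 1) ^ 3 ≠ 0 := fun e =>
  h1 (h x X hX (un_cube h2 hX.sp e))

variable {p : ℕ}

theorem O.of_nil (h2 : (2 : K) ≠ 0) (hp : p.Prime) (h0 : (p : K) = 0) (hX : ρ.L x X) (h : (X - 1) ^ 4 = 0) :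
    ρ.O x X ∧ x ^ p ^ 2 = 1 := by
  have e := pow_of_nil h2 hp h0 (X := X) (c := 1) (by simpa using h)
  rw [one_pow, one_smul] at e
  exact ⟨⟨hX, _, (odd_char h2 hp h0).pow, e⟩, (hX.pow _).eq_one_iff.2 (Or.inl e)⟩

/-- the centraliser of a regular unipotent element -/
theorem NoQ.cent (h2 : (2 : K) ≠ 0) (hp : p.Prime) (h0 : (p : K) = 0) (h : ρ.NoQ) {k : ℕ} (hu : u ^ p ^ k = 1)
    (h1 : u ≠ 1) : (∀ x ∈ Cn u, x ^ p ^ 2 = 1) ∧ ∀ x ∈ Cn u, ∀ y ∈ Cn u, x * y = y * x := by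
  obtain ⟨U, hU, e⟩ := ρ.exO (odd_char h2 hp h0).pow hu
  have n4 := nil_of_pow hp h0 e
  have n3 := h.reg h2 hU.1 (mt (hU.eq_one h2).2 h1)
  have c : ∀ x ∈ Cn u, ∀ X, ρ.L x X → X * (U - 1) = (U - 1) * X := fun x hx X hX => by
    rw [mul_sub, sub_mul, hU.comm h2 hX (mem_Cn.1 hx).symm]; simp
  refine ⟨fun x hx => ?_, fun x hx y hy => ?_⟩
  · obtain ⟨X, hX⟩ := ρ.exL x
    obtain ⟨a0, a1, a2, a3, e⟩ := reg_poly n4 n3 (c x hx X hX)
    have e1 := pow_of_nil h2 hp h0 (X := X) (c := a0) (e ▸ poly_nil n4)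
    refine (hX.pow _).eq_one_iff.2 ?_
    rw [e1]
    rcases (e1 ▸ (hX.pow _).sp).scalar with k | k <;> simp [k]
  · obtain ⟨X, hX⟩ := ρ.exL x
    obtain ⟨Y, hY⟩ := ρ.exL y
    exact hX.comm_of hY (reg_comm n4 n3 (c x hx X hX) (c y hy Y hY))

end SRep

theorem exists_char (K : Type*) [Field K] [Finite K] : ∃ p : ℕ, p.Prime ∧ (p : K) = 0 :=
  ⟨ringChar K, CharP.char_is_prime K _, ringChar.Nat.cast_ringChar⟩

theorem char_uniq {p r : ℕ} (hp : p.Prime) (h0 : (p : K) = 0) (hr : r.Prime) (h1 : (r : K) = 0) : r = p := by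
  have := (CharP.charP_iff_prime_eq_zero (R := K) hp).2 h0
  exact ((Nat.prime_dvd_prime_iff_eq hp hr).1 ((CharP.cast_eq_zero_iff K p r).1 h1)).symm

theorem comm_of_three {G : Type*} [Group G] [Finite G] (ho : Odd (Nat.card G)) (h9 : ¬ 9 ∣ Nat.card G)
    (h : ∀ a b : G, (a * b * a⁻¹ * b⁻¹) ^ 9 = 1) (a b : G) : a * b = b * a := by
  have := Fact.mk Nat.prime_three
  rw [← commutatorElement_eq_one_iff_mul_comm, commutatorElement_def]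
  by_cases h3 : 3 ∣ Nat.card G
  swap
  · exact orderOf_eq_one_iff.1 (Nat.eq_one_of_dvd_coprimes (((Nat.Prime.coprime_iff_not_dvd Nat.prime_three).2 h3).pow_left 2)
      (orderOf_dvd_of_pow_eq_one (h a b)) (orderOf_dvd_natCard _))
  obtain ⟨P⟩ : Nonempty (Sylow 3 G) := inferInstance
  have c3 : Nat.card P = 3 := by
    obtain ⟨_ | _ | k, hk⟩ := IsPGroup.iff_card.1 P.isPGroup'
    · exact absurd (by simpa [← P.1.card_mul_index, hk] using h3) P.not_dvd_index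
    · simpa using hk
    · exact absurd ((hk ▸ pow_dvd_pow 3 (by simp : 2 ≤ k + 1 + 1)).trans (Subgroup.card_subgroup_dvd_card P.1)) h9
  have hc : IsCyclic P := isCyclic_of_prime_card c3
  have mf : (Nat.card G).minFac = 3 := by
    have h1 := Nat.minFac_le_of_dvd (by norm_num) h3
    have h2 := (Nat.minFac_prime (n := Nat.card G) (fun e => by simp [e] at h3)).two_le
    have h4 : (Nat.card G).minFac ≠ 2 := fun e => ho.not_two_dvd_nat (e ▸ Nat.minFac_dvd _)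
    omega
  have k := hc.isComplement' mf
  have m : a * b * a⁻¹ * b⁻¹ ∈ (MonoidHom.transferSylow P (hc.normalizer_le_centralizer mf)).ker := by
    rw [MonoidHom.mem_ker, ← commutatorElement_def, map_commutatorElement, commutatorElement_eq_one_iff_mul_comm]
    exact hc.commGroup.mul_comm _ _
  refine orderOf_eq_one_iff.1 (Nat.eq_one_of_dvd_coprimes (((Nat.Prime.coprime_iff_not_dvd Nat.prime_three).2 ?_).pow_left 2)
    (orderOf_dvd_of_pow_eq_one (h a b)) (orderOf_dvd_card_of_mem m))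
  rw [← k.index_eq_card]
  exact P.not_dvd_index

theorem exists_prime_pow {G : Type*} [Group G] [Finite G] {x : G} (h : x ≠ 1) :
    ∃ r k : ℕ, r.Prime ∧ x ^ k ≠ 1 ∧ (x ^ k) ^ r = 1 ∧ r ∣ orderOf x := by
  obtain ⟨r, hr, k, hk⟩ := Nat.exists_prime_and_dvd (n := orderOf x) (by simpa)
  have := orderOf_pos x
  refine ⟨r, k, hr, fun e => ?_, by rw [← pow_mul, mul_comm, ← hk, pow_orderOf_eq_one], k, hk⟩
  have h1 := Nat.le_of_dvd (Nat.pos_of_ne_zero (by rintro rfl; omega)) (orderOf_dvd_of_pow_eq_one e)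
  have := hr.two_le
  nlinarith

namespace SRep

variable {ρ : SRep T K} {g x y z u : T} {G X Y Z : M4 K} {n : ℕ}

theorem exists_iso (h : ρ.II) {r : ℕ} (hr : r.Prime) (h1 : x ≠ 1) (hx : x ^ r = 1) : ∃ X, ρ.L x X ∧ (r ≠ 2 → ρ.O x X) ∧
    ∃ E : Submodule K (V4 K), E ≠ ⊥ ∧ (∀ u ∈ E, ∀ v ∈ E, B u v = 0) ∧ ∀ Y, Y * X = X * Y → ∀ v ∈ E, Y *ᵥ v ∈ E := by
  have ei : ∀ {X : M4 K} {μ : K} {v}, Sp X → v ≠ 0 → X *ᵥ v = μ • v → μ * μ ≠ 1 → ∃ E : Submodule K (V4 K), E ≠ ⊥ ∧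
      (∀ u ∈ E, ∀ v ∈ E, B u v = 0) ∧ ∀ Y, Y * X = X * Y → ∀ v ∈ E, Y *ᵥ v ∈ E := fun {X μ v} s v0 e m =>
    ⟨eig X μ, (Submodule.ne_bot_iff _).2 ⟨v, e, v0⟩, fun u hu w hw => by
      have := s.B_eq u w
      rw [mem_eig.1 hu, mem_eig.1 hw, B_smul_left, B_smul_right] at this
      exact mul_left_cancel₀ (sub_ne_zero.2 m) (by linear_combination this), fun Y c v hv => eig_inv c.symm hv⟩
  by_cases r2 : r = 2
  · obtain ⟨X, hX⟩ := ρ.exL x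
    obtain ⟨μ, v, -, v0, e⟩ := exists_eig (h.split x X hX) (U := ⊤) (by simp) (by simp)
    refine ⟨X, hX, fun k => absurd r2 k, ei hX.sp v0 e fun m => ?_⟩
    have := pow_eig e 2
    rw [pow_two, h.sq ⟨h1, by rwa [r2, pow_two] at hx⟩ hX, pow_two, m, one_smul, neg_mulVec, one_mulVec] at this
    exact v0 ((smul_eq_zero.1 (by rw [two_smul]; exact add_eq_zero_iff_eq_neg.2 this.symm)).resolve_left h.two)
  have o := hr.odd_of_ne_two r2
  obtain ⟨X, hX, e⟩ := ρ.exO o hx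
  have X1 := mt (hX.eq_one h.two).2 h1
  refine ⟨X, hX.1, fun _ => hX, ?_⟩
  by_cases r0 : (r : K) = 0
  · have ex : ∃ j, (X - 1) ^ (j + 1) = 0 := ⟨3, nil_of_pow (k := 1) hr r0 (by simpa)⟩
    classical
    have h2 := Nat.find_spec ex
    have h3 : Nat.find ex ≠ 0 := fun k => X1 (by simpa [k, sub_eq_zero] using h2)
    have h4 := Nat.find_min ex (m := Nat.find ex - 1) (by omega)
    rw [Nat.sub_add_cancel (by omega)] at h4
    generalize Nat.find ex = j at *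
    refine ⟨LinearMap.range ((X - 1) ^ j).mulVecLin, fun k => h4 (Matrix.ext_iff_mulVec.2 fun v => by
      simpa using (Submodule.eq_bot_iff _).1 k _ ⟨v, rfl⟩), ?_, ?_⟩
    · rintro _ ⟨u, rfl⟩ _ ⟨v, rfl⟩
      simp only [mulVecLin_apply]
      rw [B_ad, mulVec_mulVec, hX.1.sp.ad_pow_sub, mul_assoc, ← pow_add, pow_eq_zero_of_le (by omega) h2]
      simp
    · rintro Y c _ ⟨v, rfl⟩
      refine ⟨Y *ᵥ v, ?_⟩
      simp only [mulVecLin_apply, mulVec_mulVec]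
      rw [((Commute.sub_right c (Commute.one_right Y)).pow_right j).eq]
  obtain ⟨P, hP, k⟩ := exists_diag (S := {X}) r0 (by simp [hX.1.sp, e]) (by simpa using h.split x X hX.1) (by simp)
  obtain ⟨a, b, e1⟩ := k X rfl
  have e2 := (hX.cj' hP e1).pow_eq h.two hx
  rw [dd_pow, dd_eq_one] at e2
  have n : ∀ {a : K}, a ^ r = 1 → a * a = 1 → a = 1 := fun {a} p q => by
    obtain ⟨k, rfl⟩ := o
    rwa [pow_succ, pow_mul, pow_two, q, one_pow, one_mul] at p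
  by_cases ha : a = 1
  · refine ei (v := P *ᵥ ![0, 1, 0, 0]) (μ := b) hX.1.sp (hP.mulVec_ne (by simp)) ?_ fun m => h1 ?_
    · rw [mulVec_mulVec, e1, ← mulVec_mulVec, ← mulVec_smul]; congr 1
      ext i; fin_cases i <;> simp [dd, mulVec, dotProduct, Fin.sum_univ_four]
    · exact ((hX.cj' hP e1).eq_one h.two).2 (dd_eq_one.2 ⟨ha, n e2.2 m⟩)
  · refine ei (v := P *ᵥ ![1, 0, 0, 0]) (μ := a) hX.1.sp (hP.mulVec_ne (by simp)) ?_ fun m => ha (n e2.1 m)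
    rw [mulVec_mulVec, e1, ← mulVec_mulVec, ← mulVec_smul]; congr 1
    ext i; fin_cases i <;> simp [dd, mulVec, dotProduct, Fin.sum_univ_four]

/-- subgroups of odd order with nontrivial centraliser are abelian -/
theorem II.oa [Finite K] (h : ρ.II) (h1 : x ≠ 1) {H : Subgroup T} (hH : H ≤ Cn x) (ho : Odd (Nat.card H)) {a b : T}
    (ha : a ∈ H) (hb : b ∈ H) : a * b = b * a := by
  have := ρ.finite
  obtain ⟨r, k, hr, k1, k2, -⟩ := exists_prime_pow h1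
  replace hH : H ≤ Cn (x ^ k) := fun y hy => mem_Cn.2 (Commute.pow_left (mem_Cn.1 (hH hy)) k)
  generalize x ^ k = z at *
  obtain ⟨Z, hZ, hZ', E, E0, Ei, hE⟩ := exists_iso h hr k1 k2
  obtain ⟨p, hp, p0⟩ := exists_char K
  have key : ∀ a ∈ H, ∀ b ∈ H, (a * b * a⁻¹ * b⁻¹) ^ p ^ 2 = 1 := fun a ha b hb => by
    obtain ⟨C, hC, e⟩ := iso_comm (ρ := ρ) ho E0 Ei (fun y hy Y hY => hE Y (by
      obtain ⟨Y', hY', -⟩ := ρ.exO ho (pow_card_mem hy)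
      have := hY'.comm h.two hZ (mem_Cn.1 (hH hy))
      rcases hY'.1.uniq hY with rfl | rfl <;> simp [this])) ha hb
    have m := H.mul_mem (H.mul_mem (H.mul_mem ha hb) (H.inv_mem ha)) (H.inv_mem hb)
    exact eq_one_of_odd ho (pow_card_mem (H.pow_mem m _))
      (by rw [← Commute.mul_pow (Commute.refl _)]; exact (O.of_nil h.two hp p0 (hC.mul hC) e).2)
  rcases h.small.2 with q | ⟨h3, h9⟩
  · by_contra n
    have c1 := (q.cent h.two hp p0 (key a ha b hb) (mt commutatorElement_eq_one_iff_mul_comm.1 n)).1 z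
      (mem_Cn_comm.1 (hH (H.mul_mem (H.mul_mem (H.mul_mem ha hb) (H.inv_mem ha)) (H.inv_mem hb))))
    exact n ((q.cent h.two hp p0 c1 k1).2 a (hH ha) b (hH hb))
  · obtain rfl := char_uniq Nat.prime_three h3 hp p0
    exact congrArg Subtype.val (comm_of_three (G := H) ho (fun k => h9 (k.trans H.card_subgroup_dvd_card))
      (fun a b => Subtype.ext (key a a.2 b b.2)) ⟨a, ha⟩ ⟨b, hb⟩)

end SRep

end Cfsg.Agent.H1.Mit
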