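import Cfsg.Agent.H1.M4L2

/-! Automisers, centralisers of involutions, regular unipotent elements. -/

set_option autoImplicit false

namespace Cfsg.Agent.H1.Mit

open Matrix Cfsg.Agent.MH Subgroup

variable {T K : Type*} [Group T] [Field K]

/-- the diagonal of `dd a b` -/
def ev (a b : K) : Fin 4 → K := ![a, b, b⁻¹, a⁻¹]

theorem Sp.rows {G : M4 K} (h : Sp G) :
    ∃ i j, ∀ a b c d, G * dd a b = dd c d * G → c = ev a b i ∧ d = ev a b j := by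
  have k : ∀ r, ∃ i, G r i ≠ 0 := fun r => by
    by_contra n
    push Not at n
    simpa [mul_apply, n] using congrFun (congrFun h.right r) r
  obtain ⟨i, hi⟩ := k 0
  obtain ⟨j, hj⟩ := k 1
  refine ⟨i, j, fun a b c d e => ⟨mul_right_cancel₀ hi ?_, mul_right_cancel₀ hj ?_⟩⟩
  · have := congrFun (congrFun e 0) i
    fin_cases i <;> simp [dd, ev, mul_apply, Fin.sum_univ_four] at this ⊢ <;> grind
  · have := congrFun (congrFun e 1) j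
    fin_cases j <;> simp [dd, ev, mul_apply, Fin.sum_univ_four] at this ⊢ <;> grind

theorem odd_root {a : K} {n : ℕ} (hn : Odd n) (h : a ^ n = 1) (h2 : a * a = 1) : a = 1 := by
  obtain ⟨k, rfl⟩ := hn
  rwa [pow_succ, pow_mul, pow_two, h2, one_pow, one_mul] at h

theorem ftype {a1 b1 a2 b2 a3 b3 : K} {i j : Fin 4} (o : ∀ a ∈ [a1, b1, a2, b2, a3, b3], a ≠ 0 ∧ (a * a = 1 → a = 1))
    (n1 : ¬ (a1 = 1 ∧ b1 = 1)) (n2 : ¬ (a2 = 1 ∧ b2 = 1)) (h1 : a1 = ev a1 b1 i ∧ b1 = ev a1 b1 j)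
    (h2 : a2⁻¹ = ev a2 b2 i ∧ b2⁻¹ = ev a2 b2 j) (h3 : a3⁻¹ = ev a3 b3 i ∧ b3⁻¹ = ev a3 b3 j) :
    (b1 = 1 ∧ a2 = 1 ∧ a3 = 1) ∨ (a1 = 1 ∧ b2 = 1 ∧ b3 = 1) ∨ (a1 = b1 ∧ a2 * b2 = 1 ∧ a3 * b3 = 1) ∨
      (a1 * b1 = 1 ∧ a2 = b2 ∧ a3 = b3) := by
  simp only [List.mem_cons, List.not_mem_nil, or_false, forall_eq_or_imp, forall_eq] at o
  fin_cases i <;> fin_cases j <;> simp [ev] at h1 h2 h3 <;> grind

theorem ftri {a1 b1 a2 b2 a3 b3 : K} (w1 : (a1 * a1 = 1 → a1 = 1) ∧ (b1 * b1 = 1 → b1 = 1))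
    (_w2 : (a2 * a2 = 1 → a2 = 1) ∧ (b2 * b2 = 1 → b2 = 1)) (w3 : (a3 * a3 = 1 → a3 = 1) ∧ (b3 * b3 = 1 → b3 = 1))
    (n1 : ¬ (a1 = 1 ∧ b1 = 1)) (n2 : ¬ (a2 = 1 ∧ b2 = 1)) (n3 : ¬ (a3 = 1 ∧ b3 = 1))
    (f1 : (b1 = 1 ∧ a2 = 1 ∧ a3 = 1) ∨ (a1 = 1 ∧ b2 = 1 ∧ b3 = 1) ∨ (a1 = b1 ∧ a2 * b2 = 1 ∧ a3 * b3 = 1) ∨
      (a1 * b1 = 1 ∧ a2 = b2 ∧ a3 = b3))
    (f2 : (b2 = 1 ∧ a1 = 1 ∧ a3 = 1) ∨ (a2 = 1 ∧ b1 = 1 ∧ b3 = 1) ∨ (a2 = b2 ∧ a1 * b1 = 1 ∧ a3 * b3 = 1) ∨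
      (a2 * b2 = 1 ∧ a1 = b1 ∧ a3 = b3)) : False := by
  rcases f1 with ⟨p, q, r⟩ | ⟨p, q, r⟩ | ⟨p, q, r⟩ | ⟨p, q, r⟩ <;>
    rcases f2 with ⟨p', q', r'⟩ | ⟨p', q', r'⟩ | ⟨p', q', r'⟩ | ⟨p', q', r'⟩ <;> simp_all

namespace SRep

variable {ρ : SRep T K} {g x y z u t s : T} {G X Y Z : M4 K} {n p : ℕ}

theorem II.w4 [Finite T] (h : ρ.II) {R : Subgroup T} (hc : ∀ x ∈ R, ∀ y ∈ R, x * y = y * x) (ho : Odd (Nat.card R))
    (h0 : (Nat.card R : K) ≠ 0) (hg : g ∈ Nm R) (hy : y ∈ R) : g ^ 4 * y = y * g ^ 4 := by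
  obtain ⟨P, hP, k⟩ := h.diag (R := R) ho h0 (fun x hx => pow_card_mem hx) hc
  obtain ⟨G, hG⟩ := (ρ.cj P hP).exL g
  obtain ⟨i, j, e⟩ := hG.sp.rows
  have m1 := Nm_conj hg hy
  have m2 := Nm_conj hg m1
  have m3 := Nm_conj hg m2
  have m4 := Nm_conj hg m3
  obtain ⟨a0, b0, k0⟩ := k _ hy
  obtain ⟨a1, b1, k1⟩ := k _ m1
  obtain ⟨a2, b2, k2⟩ := k _ m2
  obtain ⟨a3, b3, k3⟩ := k _ m3
  obtain ⟨a4, b4, k4⟩ := k _ m4
  obtain ⟨a5, b5, k5⟩ := k _ (Nm_conj hg m4)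
  obtain ⟨rfl, rfl⟩ := e _ _ _ _ (k0.conj_eq h.two hG k1 rfl)
  obtain ⟨rfl, rfl⟩ := e _ _ _ _ (k1.conj_eq h.two hG k2 rfl)
  obtain ⟨rfl, rfl⟩ := e _ _ _ _ (k2.conj_eq h.two hG k3 rfl)
  obtain ⟨rfl, rfl⟩ := e _ _ _ _ (k3.conj_eq h.two hG k4 rfl)
  obtain ⟨rfl, rfl⟩ := e _ _ _ _ (k4.conj_eq h.two hG k5 rfl)
  have := k5.1.inj (k1.1.congr (by fin_cases i <;> fin_cases j <;> simp [ev]))
  rw [mul_left_inj, mul_right_inj] at this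
  conv_rhs => rw [← this]
  simp only [pow_succ, pow_zero, one_mul, mul_assoc, inv_mul_cancel_left, inv_mul_cancel, mul_one]

theorem II.tri (h : ρ.II) (hn : Odd n) (h0 : (n : K) ≠ 0) (hx : x ^ n = 1) (hy : y ^ n = 1) (hz : z ^ n = 1)
    (x1 : x ≠ 1) (y1 : y ≠ 1) (z1 : z ≠ 1) (c1 : x * y = y * x) (c2 : x * z = z * x) (c3 : y * z = z * y)
    (t1 : t * x * t⁻¹ = x) (t2 : t * y * t⁻¹ = y⁻¹) (t3 : t * z * t⁻¹ = z⁻¹)
    (s1 : s * x * s⁻¹ = x⁻¹) (s2 : s * y * s⁻¹ = y) (s3 : s * z * s⁻¹ = z⁻¹) : False := by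
  obtain ⟨P, hP, k⟩ := h.diag (R := {x, y, z}) hn h0 (by simp [*]) (by simp [c1, c2, c3])
  obtain ⟨a1, b1, k1⟩ := k x (by simp)
  obtain ⟨a2, b2, k2⟩ := k y (by simp)
  obtain ⟨a3, b3, k3⟩ := k z (by simp)
  have w : ∀ {x a b}, (ρ.cj P hP).O x (dd a b) → x ^ n = 1 → (a ≠ 0 ∧ (a * a = 1 → a = 1)) ∧ b ≠ 0 ∧ (b * b = 1 → b = 1) :=
    fun k e => by
      have := k.pow_eq h.two e
      rw [dd_pow, dd_eq_one] at this
      exact ⟨⟨k.1.sp.dd_ne.1, odd_root hn this.1⟩, k.1.sp.dd_ne.2, odd_root hn this.2⟩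
  have w1 := w k1 hx
  have w2 := w k2 hy
  have w3 := w k3 hz
  have n1 := mt (fun e => (k1.eq_one h.two).2 (dd_eq_one.2 e)) x1
  have n2 := mt (fun e => (k2.eq_one h.two).2 (dd_eq_one.2 e)) y1
  have n3 := mt (fun e => (k3.eq_one h.two).2 (dd_eq_one.2 e)) z1
  obtain ⟨G, hG⟩ := (ρ.cj P hP).exL t
  obtain ⟨G', hG'⟩ := (ρ.cj P hP).exL s
  obtain ⟨i, j, e⟩ := hG.sp.rows
  obtain ⟨i', j', e'⟩ := hG'.sp.rows
  have o : ∀ a ∈ [a1, b1, a2, b2, a3, b3], a ≠ 0 ∧ (a * a = 1 → a = 1) := by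
    simp only [List.mem_cons, List.not_mem_nil, or_false, forall_eq_or_imp, forall_eq]
    exact ⟨w1.1, w1.2, w2.1, w2.2, w3.1, w3.2⟩
  have o' : ∀ a ∈ [a2, b2, a1, b1, a3, b3], a ≠ 0 ∧ (a * a = 1 → a = 1) := by
    simp only [List.mem_cons, List.not_mem_nil, or_false, forall_eq_or_imp, forall_eq]
    exact ⟨w2.1, w2.2, w1.1, w1.2, w3.1, w3.2⟩
  have f1 := ftype o n1 n2 (e _ _ _ _ (k1.conj_eq h.two hG k1 t1))
    (e _ _ _ _ (k2.conj_eq h.two hG (ad_dd a2 b2 ▸ k2.inv) t2)) (e _ _ _ _ (k3.conj_eq h.two hG (ad_dd a3 b3 ▸ k3.inv) t3))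
  have f2 := ftype o' n2 n1 (e' _ _ _ _ (k2.conj_eq h.two hG' k2 s2))
    (e' _ _ _ _ (k1.conj_eq h.two hG' (ad_dd a1 b1 ▸ k1.inv) s1))
    (e' _ _ _ _ (k3.conj_eq h.two hG' (ad_dd a3 b3 ▸ k3.inv) s3))
  exact ftri ⟨w1.1.2, w1.2.2⟩ ⟨w2.1.2, w2.2.2⟩ ⟨w3.1.2, w3.2.2⟩ n1 n2 n3 f1 f2

/-- elements whose lifts commute with `Z` -/
def Cm (ρ : SRep T K) (Z : M4 K) : Subgroup T where
  carrier := {x | ∃ X, ρ.L x X ∧ X * Z = Z * X}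
  mul_mem' := fun ⟨X, a, b⟩ ⟨Y, c, d⟩ => ⟨_, a.mul c, (Commute.mul_left b d :)⟩
  one_mem' := ⟨1, ρ.oneL, by simp⟩
  inv_mem' := fun ⟨X, a, b⟩ => ⟨_, a.inv, a.sp.cancel (by
    rw [← mul_assoc, a.sp.right, ← mul_assoc, b, mul_assoc, a.sp.right]; simp)⟩

theorem L.mem_Cm (hX : ρ.L x X) : x ∈ ρ.Cm Z ↔ X * Z = Z * X :=
  ⟨fun ⟨Y, a, b⟩ => by rcases a.uniq hX with rfl | rfl <;> simp [b], fun e => ⟨X, hX, e⟩⟩

theorem ul_dg (a b c d : K) : UL (dg a b c d) := by simp [UL, dg]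

theorem II.cent [Finite T] (h : ρ.II) (ht : Inv t) : ∃ A O : Subgroup T, A ≤ Cn t ∧ t ∈ A ∧
    (∀ x ∈ Cn t, ∀ y ∈ Cn t, x ∉ A → y ∉ A → x * y ∈ A) ∧ (∀ s ∈ A, Inv s → s = t) ∧ O ≤ A ∧ Odd (Nat.card O) ∧
    (∀ x ∈ Cn t, x ∉ A → x * x ∈ O) ∧ ∀ x ∈ Cn t, ∀ n, Odd n → x ^ n = 1 → x ∈ O := by
  obtain ⟨P, hP, i, hi, l⟩ := h.inv_nf ht
  replace h := h.cj hP
  generalize ρ.cj P hP = ρ at *
  have i2 : i ^ 2 ≠ 1 := fun e => h.two (by linear_combination hi - e)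
  have i0 := l.sp.dd_ne.1
  have ul : ∀ {x X}, ρ.L x X → x ∈ ρ.Cm (dd i i) → UL X := fun hX hx => by
    obtain ⟨a, b, c, d, -, rfl⟩ := comm_dd hX.sp i2 i0 (hX.mem_Cm.1 hx)
    exact ul_dg _ _ _ _
  have out : ∀ {x X}, ρ.L x X → x ∈ Cn t → x ∉ ρ.Cm (dd i i) → X * dd i i = -(dd i i * X) := fun hX hx n =>
    ((l.comm_iff hX).1 (mem_Cn.1 hx)).resolve_left (mt hX.mem_Cm.2 n)
  have uq : ∀ s ∈ ρ.Cm (dd i i), Inv s → s = t := fun s hs is => by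
    obtain ⟨S, hS⟩ := ρ.exL s
    rw [← ht.inv_eq]
    refine eq_inv_of_mul_eq_one_left (h.nr _ _ (hS.mul l) ?_)
    rw [mul_assoc, ← mul_assoc (dd i i), ← hS.mem_Cm.1 hs, mul_assoc, h.sq ht l, ← mul_assoc, h.sq is hS]; simp
  let O : Subgroup T :=
    { carrier := {x | x ∈ ρ.Cm (dd i i) ∧ ∃ X, ρ.L x X ∧ ∃ m, Odd m ∧ dl X ^ m = 1}
      mul_mem' := fun ⟨a, X, b, m, c, d⟩ ⟨a', Y, b', m', c', d'⟩ => ⟨mul_mem a a', _, b.mul b', m * m', c.mul c', by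
        rw [dl_mul _ (ul b' a'), mul_pow, pow_mul, d, mul_comm m, pow_mul, d']; simp⟩
      one_mem' := ⟨one_mem _, 1, ρ.oneL, 1, odd_one, by simp [dl_one]⟩
      inv_mem' := fun ⟨a, X, b, m, c, d⟩ => ⟨inv_mem a, _, b.inv, m, c, by
        have := congrArg (· ^ m) (dl_mul (ad X) (ul b a))
        simpa [b.sp.left, dl_one, mul_pow, d] using this.symm⟩ }
  have o2 : ∀ x ∈ Cn t, ∀ y ∈ Cn t, x ∉ ρ.Cm (dd i i) → y ∉ ρ.Cm (dd i i) → x * y ∈ ρ.Cm (dd i i) := fun x hx y hy a b => by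
    obtain ⟨X, hX⟩ := ρ.exL x
    obtain ⟨Y, hY⟩ := ρ.exL y
    refine (hX.mul hY).mem_Cm.2 ?_
    rw [mul_assoc, out hY hy b, mul_neg, ← mul_assoc, out hX hx a, neg_mul, neg_neg, mul_assoc]
  refine ⟨ρ.Cm (dd i i), O, fun x ⟨X, a, b⟩ => mem_Cn.2 (l.comm_of a b.symm), ⟨_, l, rfl⟩, o2, uq, fun x hx => hx.1,
    Nat.odd_iff.2 (odd_card fun s is ⟨a, X, b, m, c, d⟩ => ?_), fun x hx n => ⟨o2 x hx x hx n n, ?_⟩, fun x hx n hn e => ?_⟩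
  · obtain rfl := uq s a is
    have : dl X = -1 := by rcases l.uniq b with rfl | rfl <;> simp [dl, dd, ← pow_two, hi]
    rw [this, c.neg_one_pow] at d
    exact h.two (by linear_combination -d)
  · obtain ⟨X, hX⟩ := ρ.exL x
    obtain ⟨a, b, c, d, h0, rfl⟩ := anti_dd hX.sp i2 i0 (by
      rw [out hX hx n, ← neg_mul, ← dd_neg, inv_eq_of_mul_eq_one_left (a := -i) (by linear_combination -hi)])
    refine ⟨_, hX.mul hX, 1, odd_one, ?_⟩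
    simp [dl, sw, mul_apply, Fin.sum_univ_four]
    field_simp
    ring
  · obtain ⟨X, hX, e'⟩ := ρ.exO hn e
    have m : x ∈ ρ.Cm (dd i i) := ⟨X, hX.1, (hX.comm h.two l (mem_Cn.1 hx)).symm⟩
    refine ⟨m, X, hX.1, n, hn, ?_⟩
    have : ∀ k, dl (X ^ k) = dl X ^ k := fun k => by
      induction k with
      | zero => simp [dl_one]
      | succ k ih => rw [pow_succ, dl_mul _ (ul hX.1 m), ih, pow_succ]
    rw [← this, e', dl_one]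

end SRep

/-- upper triangular -/
def UT (X : M4 K) : Prop := PT X ∧ X 2 1 = 0

/-- upper unitriangular -/
def U1 (X : M4 K) : Prop := UT X ∧ ∀ i, X i i = 1

section

variable {X Y G U V : M4 K}

theorem UT.mul (hX : UT X) (hY : UT Y) : UT (X * Y) ∧ ∀ i, (X * Y) i i = X i i * Y i i := by
  obtain ⟨⟨a1, a2, a3, a4, a5⟩, a6⟩ := hX
  obtain ⟨⟨b1, b2, b3, b4, b5⟩, b6⟩ := hY
  refine ⟨by simp [UT, PT, mul_apply, Fin.sum_univ_four, *], fun i => ?_⟩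
  fin_cases i <;> simp [mul_apply, Fin.sum_univ_four, *]

theorem UT.one : UT (1 : M4 K) := by simp [UT, PT]

theorem UT.neg (h : UT X) : UT (-X) := by simpa [UT, PT] using h

theorem UT.ad (h : UT X) : UT (ad X) := by
  obtain ⟨⟨a1, a2, a3, a4, a5⟩, a6⟩ := h
  simp [UT, PT, ad_eq, *]

theorem UT.pow (h : UT X) (n : ℕ) : UT (X ^ n) ∧ ∀ i, (X ^ n) i i = X i i ^ n := by
  induction n with
  | zero => simp [UT.one]
  | succ n ih => rw [pow_succ]; exact ⟨(ih.1.mul h).1, fun i => by rw [(ih.1.mul h).2, ih.2, pow_succ]⟩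

theorem UT.sp (h : UT X) (s : Sp X) : X 3 3 * X 0 0 = 1 ∧ X 2 2 * X 1 1 = 1 := by
  obtain ⟨-, e1, e2⟩ := s.pt h.1.1 h.1.2.1 h.1.2.2.1
  exact ⟨e1, by rw [h.2] at e2; linear_combination e2⟩

theorem UT.det_sub (h : UT X) (c : K) : (X - c • 1).det = (X 0 0 - c) * (X 1 1 - c) * (X 2 2 - c) * (X 3 3 - c) := by
  obtain ⟨⟨a1, a2, a3, a4, a5⟩, a6⟩ := h
  rw [det_of_isUpperTriangular (fun i j hij => by fin_cases i <;> fin_cases j <;> simp_all)]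
  simp [Fin.prod_univ_four]

theorem U1.mul (hX : U1 X) (hY : U1 Y) : U1 (X * Y) := ⟨(hX.1.mul hY.1).1, fun i => by simp [(hX.1.mul hY.1).2, hX.2, hY.2]⟩

theorem U1.ad (h : U1 X) : U1 (ad X) := ⟨h.1.ad, fun i => by fin_cases i <;> simp [ad_eq, h.2]⟩

theorem U1.nil (h : U1 X) : (X - 1) ^ 4 = 0 ∧ (X 0 1 * X 1 2 * X 2 3 = 0 → (X - 1) ^ 3 = 0) := by
  obtain ⟨⟨⟨a1, a2, a3, a4, a5⟩, a6⟩, a7⟩ := h
  refine ⟨?_, fun e => ?_⟩ <;> ext i j <;> fin_cases i <;> fin_cases j <;>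
    simp [pow_succ, mul_apply, Fin.sum_univ_four, one_apply, *]

theorem U1.of (h : UT X) (s : Sp X) (h0 : X 0 0 = 1) (h1 : X 1 1 = 1) : U1 X :=
  ⟨h, fun i => by have := h.sp s; fin_cases i <;> simp_all⟩

theorem U1.tw (hU : U1 U) (hV : U1 V) (h : V 0 1 * V 1 2 * V 2 3 ≠ 0) (e : G * U = V * G) :
    UT G ∧ G 0 0 * U 0 1 = V 0 1 * G 1 1 ∧ G 1 1 * U 1 2 = V 1 2 * G 2 2 := by
  obtain ⟨⟨⟨a1, a2, a3, a4, a5⟩, a6⟩, a7⟩ := hU
  obtain ⟨⟨⟨b1, b2, b3, b4, b5⟩, b6⟩, b7⟩ := hV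
  simp only [ne_eq, mul_eq_zero, not_or] at h
  have k := fun i j => congrFun (congrFun e i) j
  have k20 := k 2 0; have k10 := k 1 0; have k00 := k 0 0; have k21 := k 2 1; have k11 := k 1 1; have k22 := k 2 2
  have k01 := k 0 1; have k12 := k 1 2
  simp [mul_apply, Fin.sum_univ_four, *] at k20 k10 k00 k21 k11 k22 k01 k12
  refine ⟨⟨⟨?_, ?_, ?_, ?_, ?_⟩, ?_⟩, ?_, ?_⟩ <;> grind

theorem UT.of_comm (hU : UT U) (h01 : U 0 0 ≠ U 1 1) (h02 : U 0 0 ≠ U 2 2) (h03 : U 0 0 ≠ U 3 3) (h12 : U 1 1 ≠ U 2 2)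
    (h13 : U 1 1 ≠ U 3 3) (h23 : U 2 2 ≠ U 3 3) (e : G * U = U * G) : UT G := by
  obtain ⟨⟨a1, a2, a3, a4, a5⟩, a6⟩ := hU
  have k := fun i j => congrFun (congrFun e i) j
  have k30 := k 3 0; have k20 := k 2 0; have k10 := k 1 0; have k31 := k 3 1; have k21 := k 2 1; have k32 := k 3 2
  simp only [mul_apply, Fin.sum_univ_four, a1, a2, a3, a4, a5, a6] at k30 k20 k10 k31 k21 k32
  have g30 : G 3 0 = 0 := by grind
  have g20 : G 2 0 = 0 := by grind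
  have g31 : G 3 1 = 0 := by grind
  exact ⟨⟨by grind, g20, g30, g31, by grind⟩, by grind⟩

theorem exists_u1 (s : Sp X) (h4 : (X - 1) ^ 4 = 0) (h3 : (X - 1) ^ 3 ≠ 0) : ∃ P, Sp P ∧ U1 (ad P * X * P) := by
  obtain ⟨w, hw⟩ : ∃ w, (X - 1) ^ 3 *ᵥ w ≠ 0 := by
    by_contra k
    push Not at k
    exact h3 (Matrix.ext_iff_mulVec.2 (by simpa using k))
  have e : ∀ j, X *ᵥ (X - 1) ^ j *ᵥ w = (X - 1) ^ j *ᵥ w + (X - 1) ^ (j + 1) *ᵥ w := fun j => by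
    rw [pow_succ', ← mulVec_mulVec, sub_mulVec]; simp
  have e3 := e 3
  have e2 := e 2
  rw [h4, zero_mulVec, add_zero] at e3
  obtain ⟨k, c, d, hP⟩ := exists_flag (b := (X - 1) ^ 2 *ᵥ w) hw (fun c k => hw (by
    rw [k, mulVec_smul, e3] at e2; simpa using e2)) (by
    rw [B_ad, mulVec_mulVec, s.ad_pow_sub, mul_assoc, ← pow_add, pow_eq_zero_of_le (by norm_num) h4]; simp)
  have sp := (hP.inv.mul s).mul hP
  rw [show 2 + 1 = 3 from rfl] at e2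
  generalize (X - 1) ^ 3 *ᵥ w = a at *
  generalize (X - 1) ^ 2 *ᵥ w = b at *
  have c1 : ad (col4 a (b - k • a) c d) * X * col4 a (b - k • a) c d * col4 ![1, 0, 0, 0] ![0, 1, 0, 0] 0 0 =
      col4 ![1, 0, 0, 0] ![1, 1, 0, 0] 0 0 := hP.cancel (by
    simp only [← mul_assoc, hP.right, one_mul]
    rw [mul_assoc, mul_col4, mul_col4, mul_col4]
    simp [col4_mulVec, mulVec_sub, mulVec_smul, e2, e3]
    congr 1; abel)
  refine ⟨_, hP, ?_⟩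
  generalize ad (col4 a (b - k • a) c d) * X * col4 a (b - k • a) c d = Y at *
  have k := fun i j => congrFun (congrFun c1 i) j
  have k00 := k 0 0; have k10 := k 1 0; have k20 := k 2 0; have k30 := k 3 0; have k11 := k 1 1; have k21 := k 2 1
  simp [mul_apply, Fin.sum_univ_four, col4] at k00 k10 k20 k30 k11 k21
  exact U1.of ⟨(sp.pt k10 k20 k30).1, k21⟩ sp k00 k11

end

namespace SRep

variable {ρ : SRep T K} {g x y z u t s : T} {G X Y Z U : M4 K} {n p : ℕ}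

theorem fld1 {b : K} (h2 : (2 : K) ≠ 0) (c : b ≠ 0) (n1 : (b ^ 2) ^ 1 ≠ 1) (n2 : (b ^ 2) ^ 2 ≠ 1) (n3 : (b ^ 2) ^ 3 ≠ 1)
    (n4 : (b ^ 2) ^ 4 ≠ 1) : b ^ 3 ≠ b ∧ b ^ 3 ≠ b⁻¹ ∧ b ^ 3 ≠ (b ^ 3)⁻¹ ∧ b ≠ b⁻¹ ∧ b ≠ (b ^ 3)⁻¹ ∧ b⁻¹ ≠ (b ^ 3)⁻¹ ∧
      b ^ 3 + b + b⁻¹ + (b ^ 3)⁻¹ ≠ -(b ^ 3 + b + b⁻¹ + (b ^ 3)⁻¹) := by
  refine ⟨fun e => n1 ?_, fun e => n2 ?_, fun e => n3 ?_, fun e => n1 ?_, fun e => n2 ?_, fun e => n1 ?_, fun e => n4 ?_⟩ <;>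
    field_simp at e
  · linear_combination e
  · linear_combination e
  · linear_combination e
  · linear_combination e
  · linear_combination e
  · linear_combination e
  · exact mul_left_cancel₀ h2 (by linear_combination (b ^ 2 - 1) * e)

theorem fld2 {γ m : K} (c : γ ≠ 0) (k0 : γ ^ 3 * γ ^ 3 = m * γ ^ 3 - 1) (k1 : γ * γ = m * γ - 1) : γ * γ * (γ * γ) = 1 := by
  grind

theorem fld3 {b : K} {j : ℕ} (c : b ≠ 0) (k1 : (b ^ 3 - b ^ j) * (b - b ^ j) * (b⁻¹ - b ^ j) * ((b ^ 3)⁻¹ - b ^ j) = 0)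
    (k3 : b ^ (j * j + 1) = 1) : b ^ 10 = 1 := by
  have e3 : (b ^ 3) ^ j = (b ^ j) ^ 3 := by rw [← pow_mul, mul_comm, pow_mul]
  rw [pow_succ, pow_mul] at k3
  simp only [mul_eq_zero, sub_eq_zero] at k1
  rcases k1 with ((k1 | k1) | k1) | k1
  · rw [← k1, e3, ← k1] at k3; linear_combination k3
  · rw [← k1, ← k1] at k3; grind
  · rw [← k1, inv_pow, ← k1] at k3; grind
  · rw [← k1, inv_pow, e3, ← k1] at k3; grind

/-- rotations -/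
def Rot (ρ : SRep T K) (x : T) : Prop := ∃ X, ∃ m : K, ρ.O x X ∧ X * X = m • X - 1

theorem Rot.of_cj {P : M4 K} {hP : Sp P} (h : (ρ.cj P hP).Rot x) : ρ.Rot x := by
  obtain ⟨X, m, ⟨h1, n, hn, h2⟩, h3⟩ := h
  refine ⟨_, m, ⟨h1, n, hn, by rw [cj_pow hP, h2, mul_one, hP.right]⟩, ?_⟩
  rw [← pow_two, cj_pow hP, pow_two, h3]
  simp [mul_sub, sub_mul, hP.right]

theorem Rot.cj (h : ρ.Rot x) {P : M4 K} (hP : Sp P) : (ρ.cj P hP).Rot x := by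
  obtain ⟨X, m, h1, h3⟩ := h
  refine ⟨ad P * X * P, m, h1.cj' hP (by simp [← mul_assoc, hP.right]), ?_⟩
  have := cj_pow hP.inv X 2
  rw [ad_ad] at this
  rw [← pow_two, this, pow_two, h3]
  simp [mul_sub, sub_mul, hP.left]

theorem Rot.conj (h : ρ.Rot x) (g : T) : ρ.Rot (g * x * g⁻¹) := by
  obtain ⟨X, m, h1, h3⟩ := h
  obtain ⟨G, hG⟩ := ρ.exL g
  refine ⟨_, m, h1.conj hG, ?_⟩
  rw [← pow_two, cj_pow hG.sp, pow_two, h3]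
  simp [mul_sub, sub_mul, hG.sp.right]

theorem NoQ.five (h2 : (2 : K) ≠ 0) (hp : p.Prime) (h0 : (p : K) = 0) (h : ρ.NoQ) (hu : u ^ p = 1) (h1 : u ≠ 1) :
    5 ≤ p := by
  have := three_le_char h2 hp h0
  have o := odd_char h2 hp h0
  by_contra n
  obtain rfl : p = 3 := by obtain ⟨k, rfl⟩ := o; omega
  obtain ⟨U, hU, e⟩ := ρ.exO o hu
  have := sub_pow_p hp h0 U 1 1
  simp only [pow_one, one_smul, one_pow, e, sub_self] at this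
  exact h.reg h2 hU.1 (mt (hU.eq_one h2).2 h1) this

theorem NoQ.uni [Finite K] (h2 : (2 : K) ≠ 0) (hp : p.Prime) (h0 : (p : K) = 0) (h : ρ.NoQ) (hu : u ^ p = 1) (h1 : u ≠ 1) :
    CA (Cn u) ∧ (∀ x ∈ Cn u, x ^ p = 1) ∧ Nat.card (Cn u) ≤ Nat.card K ∧ ∀ l, Nat.card (Nm (Cn u)) = Nat.card (Cn u) * l →
      5 ≤ l → ∃ g, Nat.card (Cn g) = l ∧ g * g ≠ 1 ∧ nv g ≤ 1 ∧ (Odd l → (∀ y ∈ Cn g, ρ.Rot y → y = 1) ∧
        ∀ x ∈ Nm (Cn g), x * x * g * (x * x)⁻¹ = g⁻¹ → l = 5) := by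
  have := ρ.finite
  have p5 := h.five h2 hp h0 hu h1
  obtain ⟨U, hU, e⟩ := ρ.exO (odd_char h2 hp h0) hu
  obtain ⟨P, hP, u1⟩ := exists_u1 hU.1.sp (nil_of_pow (k := 1) hp h0 (by simpa)) (h.reg h2 hU.1 (mt (hU.eq_one h2).2 h1))
  replace hU := hU.cj' (Y := ad P * U * P) hP (by simp [← mul_assoc, hP.right])
  replace h := h.cj hP
  suffices _ ∧ _ ∧ _ ∧ ∀ l, Nat.card (Nm (Cn u)) = Nat.card (Cn u) * l → 5 ≤ l → ∃ g, Nat.card (Cn g) = l ∧ g * g ≠ 1 ∧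
      nv g ≤ 1 ∧ (Odd l → (∀ y ∈ Cn g, (ρ.cj P hP).Rot y → y = 1) ∧ _) from
    ⟨this.1, this.2.1, this.2.2.1, fun l a b => (this.2.2.2 l a b).imp fun g k => ⟨k.1, k.2.1, k.2.2.1, fun o =>
      ⟨fun y hy r => (k.2.2.2 o).1 y hy (r.cj hP), (k.2.2.2 o).2⟩⟩⟩
  generalize ad P * U * P = U at *
  generalize ρ.cj P hP = ρ at *
  have reg : ∀ {x X}, ρ.L x X → U1 X → x ≠ 1 → X 0 1 * X 1 2 * X 2 3 ≠ 0 := fun hX k n e =>
    h.reg h2 hX (fun e => n (hX.eq_one_iff.2 (Or.inl e))) (k.nil.2 e)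
  have pw : ∀ {x X}, ρ.L x X → U1 X → ρ.O x X ∧ x ^ p = 1 := fun {x X} hX k => by
    have := sub_pow_p hp h0 X 1 1
    simp only [pow_one, one_smul, one_pow, pow_eq_zero_of_le (by omega : 4 ≤ p) k.nil.1] at this
    exact ⟨(O.of_nil h2 hp h0 hX k.nil.1).1, (hX.pow p).eq_one_iff.2 (Or.inl (sub_eq_zero.1 this.symm))⟩
  have ru := reg hU.1 u1 h1
  have ru' := ru
  simp only [ne_eq, mul_eq_zero, not_or] at ru'
  have sg : ∀ {x X}, ρ.L x X → UT X → X 0 0 = X 1 1 → X 1 1 * X 1 1 = 1 → ∃ Y, ρ.L x Y ∧ U1 Y := fun hX k a b => by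
    rcases mul_self_eq_one_iff.1 b with b | b
    · exact ⟨_, hX, U1.of k hX.sp (a.trans b) b⟩
    · exact ⟨_, hX.neg, U1.of k.neg hX.sp.neg (by simp [a, b]) (by simp [b])⟩
  have cu : ∀ x ∈ Cn u, ∃ X, ρ.L x X ∧ U1 X := fun x hx => by
    obtain ⟨X, hX⟩ := ρ.exL x
    obtain ⟨a, b, c⟩ := u1.tw u1 ru (hU.comm h2 hX (mem_Cn.1 hx).symm)
    have := (a.sp hX.sp).2
    exact sg hX a (by grind) (by grind)
  have cp : ∀ x ∈ Cn u, x ^ p = 1 := fun x hx => (cu x hx).elim fun X k => (pw k.1 k.2).2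
  have ca : CA (Cn u) := fun y hy n => le_antisymm
    (fun z hz => mem_Cn.2 ((h.cent (k := 1) h2 hp h0 (by simpa using cp y hy) n).2 u (mem_Cn_comm.1 hy) z hz))
    fun z hz => mem_Cn.2 ((h.cent (k := 1) h2 hp h0 (by simpa) h1).2 y hy z hz)
  let W : Subgroup T :=
    { carrier := {x | ∃ X, ρ.L x X ∧ U1 X}
      mul_mem' := fun ⟨X, a, b⟩ ⟨Y, c, d⟩ => ⟨_, a.mul c, b.mul d⟩
      one_mem' := ⟨1, ρ.oneL, UT.one, by simp⟩
      inv_mem' := fun ⟨X, a, b⟩ => ⟨_, a.inv, b.ad⟩ }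
  have hW : W = Cn u := by
    have := Fact.mk hp
    obtain ⟨R, hR, -⟩ := ca.exists_sylow hp (orderOf_eq_prime hu h1 ▸ orderOf_dvd_card_of_mem (self_mem_Cn u))
    exact le_antisymm ((R.is_maximal' (Q := W) (fun ⟨x, X, k⟩ => ⟨1, Subtype.ext (by simpa using (pw k.1 k.2).2)⟩)
      (hR.trans cu)).le.trans hR) cu
  have nm : ∀ {x X}, ρ.L x X → UT X → x ∈ Nm (Cn u) := fun {x X} hX k => hW ▸ mem_Nm fun y ⟨Y, a, b⟩ =>
    ⟨_, hX.conj a, ((k.mul b.1).1.mul k.ad).1, fun i => by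
      rw [((k.mul b.1).1.mul k.ad).2, (k.mul b.1).2, b.2, mul_one, ← (k.mul k.ad).2, hX.sp.right, one_apply_eq]⟩
  have nu : ∀ x ∈ Nm (Cn u), ∀ X, ρ.L x X → UT X ∧ X 0 0 = X 1 1 ^ 3 ∧ X 1 1 ≠ 0 ∧ X 2 2 = (X 1 1)⁻¹ ∧
      X 3 3 = (X 1 1 ^ 3)⁻¹ := fun x hx X hX => by
    have m := Nm_conj hx (self_mem_Cn u)
    obtain ⟨V, hV, v1⟩ := cu _ m
    obtain ⟨a, b, c⟩ := u1.tw v1 (reg hV v1 (by simpa)) (hU.conj_eq h2 hX (pw hV v1).1 rfl)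
    have d := congrFun (congrFun (hU.comm h2 hV (mem_Cn.1 m).symm) 0) 2
    simp [mul_apply, Fin.sum_univ_four, u1.2, v1.2, u1.1.1.2.2.2.2, v1.1.1.2.2.2.2] at d
    obtain ⟨e1, e2⟩ := a.sp hX.sp
    have e3 : X 0 0 = X 1 1 ^ 3 := by grind
    exact ⟨a, e3, right_ne_zero_of_mul_eq_one e2, eq_inv_of_mul_eq_one_left e2, e3 ▸ eq_inv_of_mul_eq_one_left e1⟩
  refine ⟨ca, cp, ?_, fun l hl l5 => ?_⟩
  · choose f hf using cu
    refine Nat.card_le_card_of_injective (fun x : Cn u => f x x.2 0 1) fun x y e => Subtype.ext ?_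
    refine mul_inv_eq_one.1 (by_contra fun n => reg ((hf x x.2).1.mul (hf y y.2).1.inv) ((hf x x.2).2.mul (hf y y.2).2.ad) n ?_)
    have a := congrFun (congrFun (hf y y.2).1.sp.right 0) 1
    obtain ⟨⟨⟨a1, a2, a3, a4, a5⟩, a6⟩, a7⟩ := (hf y y.2).2.ad
    refine mul_eq_zero_of_left (mul_eq_zero_of_left ?_ _) _
    simp [mul_apply, Fin.sum_univ_four, a6, a4, a7, (hf x x.2).2.2, (hf y y.2).2.2] at a e ⊢
    rw [e, a]
  obtain ⟨α, hα⟩ := homOfRel (Γ := Kˣ) (Nm (Cn u)) (fun x c => x ∈ Nm (Cn u) ∧ ∃ X, ρ.L x X ∧ (c : K) = X 1 1 ^ 2)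
    (fun x hx => (ρ.exL x).elim fun X hX => ⟨Units.mk0 _ (pow_ne_zero 2 (nu x hx X hX).2.2.1), hx, X, hX, rfl⟩)
    (by
      rintro x c d ⟨-, X, hX, e⟩ ⟨-, Y, hY, e'⟩
      rcases hX.uniq hY with rfl | rfl <;> exact Units.ext (by simp [e, e']))
    (by
      rintro x y c d ⟨hx, X, hX, e⟩ ⟨hy, Y, hY, e'⟩
      exact ⟨mul_mem hx hy, _, hX.mul hY, by simp [((nu x hx X hX).1.mul (nu y hy Y hY).1).2, e, e', mul_pow]⟩)
  have hk : α.ker = (Cn u).subgroupOf (Nm (Cn u)) := by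
    ext x
    obtain ⟨-, X, hX, e⟩ := hα x
    rw [MonoidHom.mem_ker, mem_subgroupOf, ← Units.val_eq_one, e]
    refine ⟨fun k => hW.le (sg hX (nu x x.2 X hX).1 ?_ (by rw [← k, pow_two])), fun k => ?_⟩
    · rw [(nu x x.2 X hX).2.1, pow_succ, k, one_mul]
    · obtain ⟨Y, hY, y1⟩ := cu _ k
      rcases hY.uniq hX with rfl | rfl <;> simp [y1.2]
  have cr : Nat.card α.range = l := by
    have := α.ker.card_mul_index
    rw [index_ker, hk, Nat.card_congr (subgroupOfEquivOfLe le_normalizer).toEquiv, hl] at this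
    exact Nat.eq_of_mul_eq_mul_left Nat.card_pos this
  obtain ⟨⟨_, g0, rfl⟩, hg⟩ := IsCyclic.exists_ofOrder_eq_natCard (α := α.range)
  replace hg : orderOf (α g0) = l := by rw [← cr, ← hg]; exact orderOf_coe (H := α.range) ⟨α g0, g0, rfl⟩
  have g1 : (g0 ^ p) ^ l = 1 := by
    rw [← pow_mul, mul_comm, pow_mul]
    exact Subtype.ext (cp _ (show g0 ^ l ∈ (Cn u).subgroupOf _ by
      rw [← hk, MonoidHom.mem_ker, map_pow, ← hg, pow_orderOf_eq_one]))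
  have g2 : orderOf (α (g0 ^ p)) = l := by
    rw [map_pow, Nat.Coprime.orderOf_pow, hg]
    refine ((Nat.Prime.coprime_iff_not_dvd hp).2 fun k => ?_).symm
    have := Fintype.ofFinite K
    have k1 := k.trans (orderOf_dvd_natCard (α g0))
    obtain ⟨m, hm⟩ := k1
    have := congrArg (Nat.cast : ℕ → K) hm
    rw [Nat.card_units, Nat.cast_sub Nat.card_pos, Nat.card_eq_fintype_card, FiniteField.cast_card_eq_zero] at this
    simp [h0] at this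
  generalize g0 ^ p = g at g1 g2
  have gl : (g : T) ^ l = 1 := congrArg Subtype.val g1
  have ne : ∀ k, 0 < k → k < 5 → ∀ G, ρ.L g G → (G 1 1 ^ 2) ^ k ≠ 1 := fun k k0 k5 G hG e => by
    obtain ⟨-, X, hX, e'⟩ := hα g
    have := Nat.le_of_dvd k0 (g2 ▸ orderOf_dvd_of_pow_eq_one (x := α g) (n := k) (Units.ext (by
      rcases hG.uniq hX with rfl | rfl <;> simpa [e'] using e)))
    omega
  have cn : Cn (g : T) ≤ Nm (Cn u) := fun x hx => by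
    obtain ⟨X, hX⟩ := ρ.exL x
    obtain ⟨G, hG⟩ := ρ.exL g
    obtain ⟨a, b, c, d, e⟩ := nu g g.2 G hG
    have n1 := ne 1 (by omega) (by omega) G hG
    have n2 := ne 2 (by omega) (by omega) G hG
    have n3 := ne 3 (by omega) (by omega) G hG
    have n4 := ne 4 (by omega) (by omega) G hG
    obtain ⟨f1, f2, f3, f4, f5, f6, f7⟩ := fld1 h2 c n1 n2 n3 n4
    rcases (hG.comm_iff hX).1 (mem_Cn.1 hx) with k | k
    · refine nm hX (a.of_comm ?_ ?_ ?_ ?_ ?_ ?_ k) <;> simp only [b, d, e] <;> assumption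
    · have := congrArg (fun Z => trace (Z * ad X)) k
      simp only [neg_mul, mul_assoc, hX.sp.right, mul_one, trace_neg] at this
      rw [trace_mul_comm, mul_assoc, hX.sp.left, mul_one] at this
      simp only [trace, diag, Fin.sum_univ_four, b, d, e] at this
      exact absurd this f7
  have og : orderOf (g : T) = l := Nat.dvd_antisymm (orderOf_dvd_of_pow_eq_one gl)
    (by rw [orderOf_coe, ← g2]; exact orderOf_map_dvd α g)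
  have ai : ∀ x (hx : x ∈ Cn (g : T)) y (hy : y ∈ Cn (g : T)), α ⟨x, cn hx⟩ = α ⟨y, cn hy⟩ → x = y := fun x hx y hy e => by
    have e1 : (⟨x, cn hx⟩ * ⟨y, cn hy⟩⁻¹ : Nm (Cn u)) ∈ α.ker := by
      rw [MonoidHom.mem_ker, map_mul, map_inv, mul_inv_eq_one]; exact e
    rw [hk] at e1
    refine mul_inv_eq_one.1 (by_contra fun n => ?_)
    have e2 : g ∈ α.ker := hk ▸ (ca _ e1 n).le (mem_Cn_comm.1 (mul_mem hx (inv_mem hy)))
    rw [MonoidHom.mem_ker.1 e2, orderOf_one] at g2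
    omega
  have zp : zpowers (g : T) = Cn (g : T) := eq_of_le_of_card_ge (zpowers_le.2 (self_mem_Cn _)) (by
    rw [Nat.card_zpowers, og, ← cr]
    exact Nat.card_le_card_of_injective (fun x => ⟨α ⟨x, cn x.2⟩, _, rfl⟩) fun x y e =>
      Subtype.ext (ai _ x.2 _ y.2 (congrArg Subtype.val e)))
  have am : ∀ s (hs : s ∈ Cn (g : T)), Inv s → α ⟨s, cn hs⟩ = -1 := fun s hs i => Units.ext (by
    have : α ⟨s, cn hs⟩ * α ⟨s, cn hs⟩ = 1 := by rw [← map_mul, ← map_one α]; exact congrArg α (Subtype.ext i.2)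
    exact (mul_self_eq_one_iff.1 (congrArg Units.val this)).resolve_left fun e =>
      i.1 (ai s hs 1 (one_mem _) ((Units.ext e).trans (map_one α).symm)))
  refine ⟨g, by rw [← zp, Nat.card_zpowers, og], fun e => ?_, (Set.ncard_le_one (Set.toFinite _)).2 fun a ha b hb =>
    ai a ha.2 b hb.2 ((am a ha.2 ha.1).trans (am b hb.2 hb.1).symm), fun o => ?_⟩
  · have := Nat.le_of_dvd two_pos (og ▸ orderOf_dvd_of_pow_eq_one (x := (g : T)) (n := 2) (by rwa [pow_two]))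
    omega
  obtain ⟨G, hG, Gl⟩ := ρ.exO o gl
  obtain ⟨a, b, c, d, e⟩ := nu g g.2 G hG.1
  have bl : G 1 1 ^ l = 1 := by rw [← (a.pow l).2, Gl, one_apply_eq]
  have inj : ∀ i : ℕ, G 1 1 ^ i = 1 → (g : T) ^ i = 1 := fun i k => by
    obtain ⟨-, X, hX, e'⟩ := hα g
    refine orderOf_dvd_iff_pow_eq_one.1 (og ▸ g2 ▸ orderOf_dvd_of_pow_eq_one (Units.ext ?_))
    have : (G 1 1 ^ 2) ^ i = 1 := by rw [← pow_mul, mul_comm, pow_mul, k, one_pow]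
    rcases hG.1.uniq hX with rfl | rfl <;> simp [e', this]
  refine ⟨fun y hy ⟨Y, m, y1, y2⟩ => ?_, fun x hx e1 => ?_⟩
  · obtain ⟨j, rfl⟩ := (mem_powers_iff_mem_zpowers.2 (zp.ge hy))
    obtain rfl := (hG.pow j).uniq h2 y1
    have k0 := congrFun (congrFun y2 0) 0
    have k1 := congrFun (congrFun y2 1) 1
    rw [((a.pow j).1.mul (a.pow j).1).2] at k0 k1
    simp only [(a.pow j).2, b, Matrix.sub_apply, Matrix.smul_apply, smul_eq_mul, one_apply_eq] at k0 k1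
    rw [← pow_mul, mul_comm 3, pow_mul] at k0
    have w : (G 1 1 ^ j) ^ l = 1 := by rw [← pow_mul, mul_comm, pow_mul, bl, one_pow]
    exact inj j (odd_root o w (odd_root o (by rw [mul_pow, w, mul_one]) (fld2 (pow_ne_zero j c) k0 k1)))
  obtain ⟨j, hj⟩ := (mem_powers_iff_mem_zpowers.2 (zp.ge (Nm_conj hx (self_mem_Cn _))))
  obtain ⟨X, hX⟩ := ρ.exL x
  have k := hG.conj_eq h2 hX (hG.pow j) hj.symm
  have k1 : (G - (G 1 1 ^ j) • 1).det = 0 := by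
    have : X * (G - (G 1 1 ^ j) • 1) = (G ^ j - (G 1 1 ^ j) • 1) * X := by simp [mul_sub, sub_mul, k]
    have := congrArg det this
    rw [det_mul, det_mul, (a.pow j).1.det_sub, (a.pow j).2 1] at this
    simpa [hX.sp.det_ne] using this
  have k2 : (g : T) ^ (j * j + 1) = 1 := by
    simp only at hj
    rw [pow_succ, pow_mul, hj, conj_pow, hj, ← eq_inv_iff_mul_eq_one, ← e1]; group
  have k3 : G 1 1 ^ (j * j + 1) = 1 := by rw [← (a.pow _).2, hG.pow_eq h2 k2, one_apply_eq]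
  rw [a.det_sub, b, d, e] at k1
  have k4 := fld3 c k1 k3
  have := og ▸ orderOf_dvd_of_pow_eq_one (inj 10 k4)
  have h10 := Nat.le_of_dvd (by norm_num) this
  rw [Nat.odd_iff] at o
  interval_cases l <;> omega

end SRep

end Cfsg.Agent.H1.Mit
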