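import Cfsg.Agent.H1.M4G7
import Cfsg.Agent.H2.MiH
import Cfsg.Agent.H9.MiF
import Cfsg.Agent.H2.MiA
import Cfsg.Agent.H2.MiF
import Cfsg.Agent.H2.MiG
import Cfsg.Agent.H9.MiA2
import Cfsg.Agent.H9.MiB6

/-! Mitchell's theorem for simple subgroups of `PSp₄(q)`, `q` odd. -/

set_option autoImplicit false

namespace Cfsg.Agent.H1.Mit.SRep

open Cfsg.Agent.H2.Mi Cfsg.Agent.H9.Mi

variable {T K : Type*} [Group T] [Field K] {ρ : SRep T K}

theorem card_of_bot [Finite K] {p : ℕ} (hp : p.Prime) (p0 : (p : K) = 0) (h : (⊥ : Subfield K) = ⊤) : Nat.card K = p := by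
  have := Fact.mk hp
  have := (CharP.charP_iff_prime_eq_zero (R := K) hp).2 p0
  rw [← Nat.card_congr Subfield.topEquiv.toEquiv, ← h, Subfield.card_bot]

theorem classify [Finite K] (h : ρ.Hyp) (h1 : ¬ ∀ X, Sp X → ∃ x, ρ.L x X) (h2 : ∀ E, ρ.TrIn E → E = ⊤) (h3 : ¬ ρ.NotMax) :
    ∃ p : ℕ, p.Prime ∧ (p : K) = 0 ∧
      ((Nonempty (T ≃* alternatingGroup (Fin 6)) ∧ Nat.card K = p ∧ 5 ≤ p ∧ p ≠ 7) ∨
      (Nonempty (T ≃* alternatingGroup (Fin 7)) ∧ Nat.card K = 7) ∨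
      (Nonempty (T ≃* Matrix.ProjectiveSpecialLinearGroup (Fin 2) K) ∧ 5 ≤ p ∧ 7 < Nat.card K)) := by
  have sm := pkgB h (by_contra fun n => (pkgA h n).elim h1 fun ⟨E, a, b⟩ => a (h2 E b))
  have nr := pkgI h sm
  obtain ⟨E, _, _, φ, sp, -⟩ := ρ.exists_split 1 one_ne_zero
  have h' : (ρ.map φ).II := ⟨h.map φ, sm.map φ, nr.map φ, sp⟩
  obtain ⟨p, hp, p0⟩ := exists_char K
  have z : ∀ n : ℕ, (n : E) = 0 ↔ (n : K) = 0 := fun n => by rw [← map_natCast φ, map_eq_zero]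
  refine ⟨p, hp, p0, ?_⟩
  rcases h'.main with e | ⟨n3, ⟨e⟩⟩ | ⟨u, r, q, l, o⟩ | ⟨t, M, Z, ψ, a, w, g, o⟩
  · exact absurd (pkgC5 h nr e) h3
  · have n3' : (3 : K) ≠ 0 := mt (z 3).2 n3
    obtain ⟨a, b⟩ := pkgC6 h nr n3' e
    have := three_le_char h.two hp p0
    have : p ≠ 3 := by rintro rfl; exact n3' p0
    have : p ≠ 4 := by rintro rfl; norm_num at hp
    exact Or.inl ⟨⟨e⟩, card_of_bot hp p0 (h2 _ a), by omega, by rintro rfl; exact h3 (b p0)⟩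
  · have o' : ρ.OutL u r q l := ⟨fun x X a b => Matrix.map_injective φ.injective ((o.nq x _ (a.map φ) (by
      rw [show X.map φ - 1 = (X - 1).map φ by ext i j; simp [Matrix.one_apply, apply_ite φ], ← Matrix.map_mul, b]
      simp)).trans (by simp)), o.pp, (z r).1 o.p0, o.u1, o.up, o.cq, o.cl, o.ql, o.three, o.card, o.ord⟩
    obtain rfl := char_uniq hp p0 o'.pp o'.p0
    obtain ⟨⟨E, a, b⟩, c⟩ := pkgF h o'
    rw [h2 E b, Nat.card_congr Subfield.topEquiv.toEquiv] at a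
    have e : Nat.card K = q := a.antisymm (o'.cq ▸ (o'.nq.uni h.two hp p0 o'.up o'.u1).2.2.1)
    refine Or.inr (Or.inr ⟨c K e, o'.nq.five h.two hp p0 o'.up o'.u1, by_contra fun n => ?_⟩)
    have := o'.ql
    have := o'.three
    obtain rfl : l = 3 := by omega
    obtain rfl : q = 7 := by omega
    exact h3 (pkgD h nr o'.nq e o'.card)
  · obtain ⟨a, b⟩ := pkgE h' o
    refine Or.inr (Or.inl ⟨a, card_of_bot (by norm_num) ((z 7).1 o.seven) (h2 _ fun x X hX => ?_)⟩)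
    have := b x _ (hX.map φ)
    rw [← AddMonoidHom.map_trace, ← Subfield.map_bot φ] at this
    obtain ⟨y, c, d⟩ := this
    exact φ.injective d ▸ c

end Cfsg.Agent.H1.Mit.SRep
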