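import Cfsg.Agent.H1.M4G1
import Cfsg.Agent.H1.M4L2
import Cfsg.Agent.H2.ElB

/-! Projective representations of degree four as relations; diagonalisation. -/

set_option autoImplicit false

namespace Cfsg.Agent.H1.N1

open Matrix Cfsg.Agent.MH Cfsg.Agent.H1.Mit Polynomial

variable {T K : Type*} [Group T] [Field K]

theorem sdiag {ι : Type*} (A : ι → M4 K) (hc : ∀ i j, A i * A j = A j * A i)
    (hs : ∀ i, (A i).charpoly.Splits) (hn : ∀ i, ∃ (n : ℕ) (c : K), (n : K) ≠ 0 ∧ c ≠ 0 ∧ A i ^ n = c • 1) :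
    ∃ Q : M4 K, Q.det ≠ 0 ∧ ∀ i, ∃ d, A i * Q = Q * diagonal d := by
  classical
  have h0 : ∀ i, ∃ s : Finset K, aeval (toLin' (A i)) (∏ c ∈ s, (X - C c)) = 0 := fun i => by
    obtain ⟨n, c, h1, h2, h3⟩ := hn i
    have hi : IsIntegral K (A i) := Matrix.isIntegral _
    have d1 : minpoly K (A i) ∣ X ^ n - C c := minpoly.dvd K _ (by simp [h3, Algebra.algebraMap_eq_smul_one])
    have d2 : minpoly K (A i) ∣ (A i).charpoly := minpoly.dvd K _ (aeval_self_charpoly _)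
    have s1 := (separable_X_pow_sub_C c h1 h2).of_dvd d1
    have s2 := (hs i).of_dvd (A i).charpoly_monic.ne_zero d2
    refine ⟨⟨_, nodup_roots s1⟩, ?_⟩
    rw [Finset.prod_mk, ← s2.eq_prod_roots_of_monic (minpoly.monic hi), ← Matrix.minpoly_toLin']
    exact minpoly.aeval K _
  have ss : ∀ i, Module.End.IsSemisimple (toLin' (A i)) := fun i => by
    obtain ⟨s, hs⟩ := h0 i
    exact Module.End.isSemisimple_of_squarefree_aeval_eq_zero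
      (separable_prod_X_sub_C_iff'.2 (fun _ _ _ _ h => h)).squarefree hs
  have top := Module.End.iSup_iInf_maxGenEigenspace_eq_top_of_iSup_maxGenEigenspace_eq_top_of_commute
    (fun i => toLin' (A i)) (fun i j _ => by
      change _ * _ = _ * _
      simp only [Module.End.mul_eq_comp, ← toLin'_mul, hc i j]) fun i => by
      obtain ⟨s, hs⟩ := h0 i
      refine eq_top_iff.2 fun v _ => Submodule.span_le.2 ?_ (H2.El.mem_span_eig _ s v (by rw [hs]; rfl))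
      rintro w ⟨c, -, e⟩
      exact Submodule.mem_iSup_of_mem c (Module.End.eigenspace_le_maxGenEigenspace (Module.End.mem_eigenspace_iff.2 e))
  obtain ⟨b, h1, h2, h3⟩ := exists_linearIndependent K {w | ∀ i, ∃ c : K, A i *ᵥ w = c • w}
  let B := Module.Basis.mk h3 (by
    rw [Subtype.range_coe, h2, ← top]
    refine iSup_le fun χ w hw => Submodule.subset_span fun i => ⟨χ i, ?_⟩
    have := (Submodule.mem_iInf _).1 hw i
    rw [Module.End.IsFinitelySemisimple.maxGenEigenspace_eq_eigenspace (ss i).isFinitelySemisimple] at this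
    exact Module.End.mem_eigenspace_iff.1 this)
  let B' := B.reindex (B.indexEquiv (Pi.basisFun K (Fin 4)))
  have : ∀ j i, ∃ c : K, A i *ᵥ B' j = c • B' j := fun j => by
    simpa [B', B] using h1 ((B.indexEquiv (Pi.basisFun K (Fin 4))).symm j).2
  choose d hd using this
  have := (Pi.basisFun K (Fin 4)).invertibleToMatrix B'
  refine ⟨(Pi.basisFun K (Fin 4)).toMatrix B', (Matrix.isUnit_det_of_invertible _).ne_zero, fun i => ⟨fun j => d j i, ?_⟩⟩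
  ext a j
  simpa [Matrix.mul_apply, Module.Basis.toMatrix_apply, Matrix.diagonal_apply, Matrix.mulVec, dotProduct, mul_comm] using
    congrFun (hd j i) a

/-- `R x X`: the matrix `X` of determinant one is a lift of `x` -/
structure PR (T K : Type*) [Group T] [Field K] where
  R : T → M4 K → Prop
  ex : ∀ x, ∃ X, R x X
  one : R 1 1
  r_mul : ∀ {x y X Y}, R x X → R y Y → R (x * y) (X * Y)
  r_uniq : ∀ {x X Y}, R x X → R x Y → ∃ c : K, Y = c • X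
  r_inj : ∀ {x y X} {c : K}, R x X → R y (c • X) → x = y
  r_det : ∀ {x X}, R x X → X.det = 1
  r_inv : ∀ {x X}, R x X → R x⁻¹ X⁻¹

section
variable {X Y Q : M4 K}

theorem li (h : X.det ≠ 0) : X⁻¹ * X = 1 := nonsing_inv_mul _ h.isUnit
theorem ri (h : X.det ≠ 0) : X * X⁻¹ = 1 := mul_nonsing_inv _ h.isUnit
theorem li' (h : X.det ≠ 0) (Y : M4 K) : X⁻¹ * (X * Y) = Y := by rw [← mul_assoc, li h, one_mul]
theorem ri' (h : X.det ≠ 0) (Y : M4 K) : X * (X⁻¹ * Y) = Y := by rw [← mul_assoc, ri h, one_mul]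
theorem cl (h : Q.det ≠ 0) (e : Q * X = Q * Y) : X = Y := by rw [← li' h X, e, li' h]
theorem cr (h : Q.det ≠ 0) (e : X * Q = Y * Q) : X = Y := by
  rw [← mul_one X, ← ri h, ← mul_assoc, e, mul_assoc, ri h, mul_one]
theorem cj_mul (h : Q.det ≠ 0) (X Y : M4 K) : Q * X * Q⁻¹ * (Q * Y * Q⁻¹) = Q * (X * Y) * Q⁻¹ := by
  simp only [mul_assoc, li' h]
theorem cj_inj (h : Q.det ≠ 0) (e : Q * X * Q⁻¹ = Q * Y * Q⁻¹) : X = Y := by
  have := congrArg (fun Z => Q⁻¹ * Z * Q) e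
  simpa only [mul_assoc, li' h, li h, mul_one] using this
theorem cj_one (h : Q.det ≠ 0) : Q * 1 * Q⁻¹ = 1 := by rw [mul_one, ri h]
theorem cj_det (h : Q.det ≠ 0) (X : M4 K) : (Q * X * Q⁻¹).det = X.det := by
  rw [det_mul, det_mul, det_nonsing_inv, Ring.inverse_eq_inv']; field_simp
theorem cj_pw (h : Q.det ≠ 0) (X : M4 K) (n : ℕ) : (Q * X * Q⁻¹) ^ n = Q * X ^ n * Q⁻¹ := by
  induction n with
  | zero => simp [ri h]
  | succ n ih => rw [pow_succ, ih, cj_mul h, pow_succ]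
theorem cj_sub (h : Q.det ≠ 0) (X : M4 K) (c : K) : Q * X * Q⁻¹ - c • 1 = Q * (X - c • 1) * Q⁻¹ := by
  simp [mul_sub, sub_mul, ri h]
theorem cj_sub1 (h : Q.det ≠ 0) (X : M4 K) : Q * X * Q⁻¹ - 1 = Q * (X - 1) * Q⁻¹ := by
  simp [mul_sub, sub_mul, ri h]
theorem four_of {c : K} (h : X.det = 1) (h' : (c • X).det = 1) : c ^ 4 = 1 := by simpa [h] using h'
theorem smul_inj {c d : K} (h : X.det ≠ 0) (e : c • X = d • X) : c = d :=
  smul_left_injective K (by rintro rfl; simp at h) e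
end

namespace PR

variable {ρ : PR T K} {g x y z u : T} {G X Y Z U Q : M4 K} {n : ℕ}

/-- dot-notation wrapper for `ρ.R` -/
def L (ρ : PR T K) (x : T) (X : M4 K) : Prop := ρ.R x X

theorem exL (ρ : PR T K) (x : T) : ∃ X, ρ.L x X := ρ.ex x
theorem oneL (ρ : PR T K) : ρ.L 1 1 := ρ.one

namespace L
theorem mul (hX : ρ.L x X) (hY : ρ.L y Y) : ρ.L (x * y) (X * Y) := ρ.r_mul hX hY
theorem uniq (hX : ρ.L x X) (hY : ρ.L x Y) : ∃ c : K, c ^ 4 = 1 ∧ Y = c • X :=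
  (ρ.r_uniq hX hY).elim fun c e => ⟨c, four_of (ρ.r_det hX) (e ▸ ρ.r_det hY), e⟩
theorem inj {c : K} (hX : ρ.L x X) (hY : ρ.L y Y) (e : Y = c • X) : x = y := ρ.r_inj hX (e ▸ hY)
theorem inj' (hX : ρ.L x X) (hY : ρ.L y X) : x = y := hX.inj hY (one_smul _ _).symm
theorem det (hX : ρ.L x X) : X.det = 1 := ρ.r_det hX
theorem nz (hX : ρ.L x X) : X.det ≠ 0 := hX.det ▸ one_ne_zero
theorem inv (hX : ρ.L x X) : ρ.L x⁻¹ X⁻¹ := ρ.r_inv hX
theorem congr (h : ρ.L x X) (e : Y = X) : ρ.L x Y := e ▸ h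
theorem congr' (h : ρ.L x X) (e : y = x) : ρ.L y X := e ▸ h
theorem sc {c : K} (hX : ρ.L x X) (e : X = c • 1) : x = 1 := (ρ.oneL.inj hX e).symm
theorem of_one (hX : ρ.L x X) (e : x = 1) : ∃ c : K, c ^ 4 = 1 ∧ X = c • 1 := ρ.oneL.uniq (e ▸ hX)
theorem pow (hX : ρ.L x X) (n : ℕ) : ρ.L (x ^ n) (X ^ n) := by
  induction n with
  | zero => simpa using ρ.oneL
  | succ n ih => simpa [pow_succ] using ih.mul hX
theorem conj (hX : ρ.L x X) (hY : ρ.L y Y) : ρ.L (x * y * x⁻¹) (X * Y * X⁻¹) := (hX.mul hY).mul hX.inv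
theorem comm_of (hX : ρ.L x X) (hY : ρ.L y Y) (h : X * Y = Y * X) : x * y = y * x :=
  (hX.mul hY).inj' (h ▸ hY.mul hX)
theorem comm (hX : ρ.L x X) (hY : ρ.L y Y) (h : x * y = y * x) : ∃ c : K, c ^ 4 = 1 ∧ X * Y = c • (Y * X) :=
  (hY.mul hX).uniq ((hX.mul hY).congr' h.symm)
end L

/-- change of basis -/
def cj (ρ : PR T K) (Q : M4 K) (h : Q.det ≠ 0) : PR T K where
  R x X := ρ.L x (Q * X * Q⁻¹)
  ex x := (ρ.exL x).elim fun X hX => ⟨Q⁻¹ * X * Q, hX.congr (by simp only [mul_assoc, ri' h, ri h, mul_one])⟩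
  one := ρ.oneL.congr (cj_one h)
  r_mul hX hY := (hX.mul hY).congr (cj_mul h _ _).symm
  r_uniq hX hY := (hX.uniq hY).imp fun c e => cj_inj h (by rw [e.2]; simp)
  r_inj hX hY := hX.inj hY (by simp; rfl)
  r_det hX := (cj_det h _).symm.trans hX.det
  r_inv {x X} hX := hX.inv.congr (inv_eq_right_inv (by
    rw [cj_mul h, ri ((cj_det h _).symm.trans_ne hX.nz), cj_one h])).symm

theorem cj_L {h : Q.det ≠ 0} : (ρ.cj Q h).L x X ↔ ρ.L x (Q * X * Q⁻¹) := Iff.rfl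

theorem L.cj (h : Q.det ≠ 0) (hX : ρ.L x X) (e : X * Q = Q * Y) : (ρ.cj Q h).L x Y :=
  cj_L.2 (hX.congr (by rw [← e, mul_assoc, ri h, mul_one]))

/-- the standing hypotheses -/
structure Gm (ρ : PR T K) : Prop where
  two : (2 : K) ≠ 0
  spl : ∀ x X, ρ.L x X → X.charpoly.Splits
  per : ∀ x X (c : K), ρ.L x X → Rk1 (X - c • 1) → x = 1
  sq : ∀ u U, ρ.L u U → U ≠ 1 → (U - 1) * (U - 1) = 0 → (3 : K) = 0 ∧
    ∀ y Y, ρ.L y Y → (Y - 1) * (U - 1) = 0 → (U - 1) * (Y - 1) = 0 → y = 1 ∨ y = u ∨ y = u⁻¹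
  rot : ∀ x X (a b : K), ρ.L x X → X * X = a • X + b • 1 → x ^ 2 = 1 ∨ x ^ 3 = 1 ∨ x ^ 5 = 1

theorem Gm.cj (h : ρ.Gm) (hQ : Q.det ≠ 0) : (ρ.cj Q hQ).Gm where
  two := h.two
  spl x X hX := by
    have := h.spl x _ hX
    rwa [charpoly_mul_comm, li' hQ] at this
  per x X c hX e := h.per x _ c hX (cj_sub hQ X c ▸ (e.mul_left Q).mul_right _)
  sq u U hU h1 h2 := by
    obtain ⟨a, b⟩ := h.sq u _ hU (fun e => h1 (cj_inj hQ (e.trans (cj_one hQ).symm)))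
      (by rw [cj_sub1 hQ, cj_mul hQ, h2]; simp)
    exact ⟨a, fun y Y hY e1 e2 => b y _ hY (by rw [cj_sub1 hQ, cj_sub1 hQ, cj_mul hQ, e1]; simp)
      (by rw [cj_sub1 hQ, cj_sub1 hQ, cj_mul hQ, e2]; simp)⟩
  rot x X a b hX e := h.rot x _ a b hX (by rw [cj_mul hQ, e]; simp [mul_add, add_mul, ri hQ])

/-- the lift of odd order -/
def O (ρ : PR T K) (x : T) (X : M4 K) : Prop := ρ.L x X ∧ ∃ n, Odd n ∧ X ^ n = 1

theorem exO (ρ : PR T K) (hn : Odd n) (h : x ^ n = 1) : ∃ X, ρ.O x X ∧ X ^ n = 1 := by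
  obtain ⟨X, hX⟩ := ρ.exL x
  obtain ⟨c, c4, e⟩ := (hX.pow n).of_one h
  obtain ⟨k, rfl⟩ := hn
  have e1 : (X ^ (4 * (k + 1) ^ 2)) ^ (2 * k + 1) = 1 := by
    rw [← pow_mul, mul_comm, pow_mul, e, _root_.smul_pow, pow_mul, c4]; simp
  refine ⟨_, ⟨(hX.pow _).congr' ?_, _, ⟨k, rfl⟩, e1⟩, e1⟩
  rw [show 4 * (k + 1) ^ 2 = (2 * k + 1) * (2 * k + 3) + 1 by ring, pow_succ, pow_mul, h, one_pow, one_mul]

theorem eq_one_of {c : K} (h4 : c ^ 4 = 1) (hn : Odd n) (h : c ^ n = 1) : c = 1 := by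
  obtain ⟨k, rfl⟩ := hn
  have : c ^ (4 * (k + 1) ^ 2) = c := by
    rw [show 4 * (k + 1) ^ 2 = (2 * k + 1) * (2 * k + 3) + 1 by ring, pow_succ, pow_mul, h, one_pow, one_mul]
  rw [← this, pow_mul, h4, one_pow]

theorem O.uniq (hX : ρ.O x X) (hY : ρ.O x Y) : Y = X := by
  obtain ⟨c, c4, rfl⟩ := hX.1.uniq hY.1
  obtain ⟨n, hn, e⟩ := hX.2
  obtain ⟨m, hm, e'⟩ := hY.2
  have : (c • X) ^ (m * n) = 1 := by rw [pow_mul, e', one_pow]
  rw [_root_.smul_pow, mul_comm m n, pow_mul X, e, one_pow] at this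
  rw [eq_one_of c4 (hn.mul hm) (smul_inj (X := 1) (by simp) (this.trans (one_smul _ _).symm)), one_smul]

theorem O.conj (hG : ρ.L g G) (hX : ρ.O x X) : ρ.O (g * x * g⁻¹) (G * X * G⁻¹) :=
  ⟨hG.conj hX.1, hX.2.imp fun n h => ⟨h.1, by rw [cj_pw hG.nz, h.2, cj_one hG.nz]⟩⟩

theorem O.conj_eq (hG : ρ.L g G) (hX : ρ.O x X) (hY : ρ.O y Y) (e : g * x * g⁻¹ = y) : G * X = Y * G := by
  subst e
  rw [(hX.conj hG).uniq hY, mul_assoc _ G⁻¹, li hG.nz, mul_one]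

theorem O.comm (hG : ρ.L g G) (hX : ρ.O x X) (e : g * x = x * g) : G * X = X * G :=
  hX.conj_eq hG hX (by rw [e, mul_inv_cancel_right])

theorem O.one : ρ.O 1 1 := ⟨ρ.oneL, 1, odd_one, by simp⟩

theorem O.eq_one (hX : ρ.O x X) : x = 1 ↔ X = 1 :=
  ⟨by rintro rfl; exact O.one.uniq hX, fun e => hX.1.sc (e.trans (one_smul _ _).symm)⟩

theorem O.pow (hX : ρ.O x X) (k : ℕ) : ρ.O (x ^ k) (X ^ k) :=
  ⟨hX.1.pow k, hX.2.imp fun n h => ⟨h.1, by rw [← pow_mul, mul_comm, pow_mul, h.2, one_pow]⟩⟩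

theorem O.pow_eq (hX : ρ.O x X) (h : x ^ n = 1) : X ^ n = 1 := (hX.pow n).eq_one.1 h

theorem O.inv (hX : ρ.O x X) : ρ.O x⁻¹ X⁻¹ := ⟨hX.1.inv, hX.2.imp fun n h => ⟨h.1, by rw [inv_pow', h.2, inv_one]⟩⟩

theorem O.mul (hX : ρ.O x X) (hY : ρ.O y Y) (e : x * y = y * x) : ρ.O (x * y) (X * Y) := by
  obtain ⟨n, hn, e1⟩ := hX.2
  obtain ⟨m, hm, e2⟩ := hY.2
  refine ⟨hX.1.mul hY.1, n * m, hn.mul hm, ?_⟩
  rw [Commute.mul_pow (hY.comm hX.1 e), pow_mul, e1, mul_comm n, pow_mul, e2]; simp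

theorem O.cj (h : Q.det ≠ 0) (hX : ρ.O x X) (e : X * Q = Q * Y) : (ρ.cj Q h).O x Y :=
  ⟨hX.1.cj h e, hX.2.imp fun n k => ⟨k.1, cj_inj h (by
    rw [← cj_pw h, ← e, mul_assoc, ri h, mul_one, k.2, cj_one h])⟩⟩

theorem O.of_cj {h : Q.det ≠ 0} (hX : (ρ.cj Q h).O x X) : ρ.O x (Q * X * Q⁻¹) :=
  ⟨hX.1, hX.2.imp fun n k => ⟨k.1, by rw [cj_pw h, k.2, cj_one h]⟩⟩

/-- simultaneous diagonalisation of commuting elements of odd order -/
theorem Gm.diag (h : ρ.Gm) {R : Set T} (hn : Odd n) (hn' : (n : K) ≠ 0) (h1 : ∀ x ∈ R, x ^ n = 1)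
    (hc : ∀ x ∈ R, ∀ y ∈ R, x * y = y * x) : ∃ Q, ∃ hQ : Q.det ≠ 0, ∀ x ∈ R, ∃ d, (ρ.cj Q hQ).O x (diagonal d) := by
  choose f hf using fun x : R => ρ.exO hn (h1 x x.2)
  obtain ⟨Q, hQ, k⟩ := sdiag f (fun i j => (hf j).1.comm (hf i).1.1 (hc _ i.2 _ j.2))
    (fun i => h.spl _ _ (hf i).1.1) fun i => ⟨n, 1, hn', one_ne_zero, by simp [(hf i).2]⟩
  exact ⟨Q, hQ, fun x hx => (k ⟨x, hx⟩).imp fun d e => (hf ⟨x, hx⟩).1.cj hQ e⟩

/-- an element with a quadratic minimal polynomial -/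
def Rt (ρ : PR T K) (x : T) : Prop := ∃ X, ρ.L x X ∧ ∃ a b : K, X * X = a • X + b • 1

theorem Rt.all (h : ρ.Rt x) (hX : ρ.L x X) : ∃ a b : K, X * X = a • X + b • 1 := by
  obtain ⟨Y, hY, a, b, e⟩ := h
  obtain ⟨c, -, rfl⟩ := hY.uniq hX
  exact ⟨c * a, c * c * b, by rw [Matrix.smul_mul, Matrix.mul_smul, e]; module⟩

theorem Rt.conj (h : ρ.Rt x) (g : T) : ρ.Rt (g * x * g⁻¹) := by
  obtain ⟨Y, hY, a, b, e⟩ := h
  obtain ⟨G, hG⟩ := ρ.exL g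
  exact ⟨_, hG.conj hY, a, b, by rw [cj_mul hG.nz, e]; simp [mul_add, add_mul, ri hG.nz]⟩

theorem Rt.cj (hQ : Q.det ≠ 0) : (ρ.cj Q hQ).Rt x ↔ ρ.Rt x :=
  ⟨fun ⟨Y, hY, a, b, e⟩ => ⟨_, hY, a, b, by rw [cj_mul hQ, e]; simp [mul_add, add_mul, ri hQ]⟩,
    fun ⟨Y, hY, a, b, e⟩ => ⟨Q⁻¹ * Y * Q, hY.cj hQ (by simp only [mul_assoc, ri' hQ]), a, b, by
      simp only [mul_assoc, ri' hQ]; rw [← mul_assoc Y, e]; simp [mul_add, add_mul, li hQ]⟩⟩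

theorem Gm.ord (h : ρ.Gm) (r : ρ.Rt x) : x ^ 2 = 1 ∨ x ^ 3 = 1 ∨ x ^ 5 = 1 :=
  r.elim fun X ⟨hX, a, b, e⟩ => h.rot x X a b hX e

end PR

end Cfsg.Agent.H1.N1
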