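import Cfsg.Agent.H1.N1a

/-! Block forms; subgroups of odd order in centralisers are abelian. -/

set_option autoImplicit false

namespace Cfsg.Agent.H1.N1

open Matrix Cfsg.Agent.MH Cfsg.Agent.H1.Mit Cfsg.Agent.H4.Mob Cfsg.Agent.H4 Cfsg.Agent.H4.Bar Cfsg.Agent.H4.Pair
  Cfsg.Agent.H4.Dick

variable {T K : Type*} [Group T] [Field K]

abbrev M2 (K : Type*) := Matrix (Fin 2) (Fin 2) K

/-- upper left block -/
def b1 (X : M4 K) : M2 K := !![X 0 0, X 0 1; X 1 0, X 1 1]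
/-- lower right block -/
def b2 (X : M4 K) : M2 K := !![X 2 2, X 2 3; X 3 2, X 3 3]
/-- upper right block zero -/
def UR (X : M4 K) : Prop := X 0 2 = 0 ∧ X 0 3 = 0 ∧ X 1 2 = 0 ∧ X 1 3 = 0

section
variable {X Y Z N Q : M4 K}

theorem b1_mul (X : M4 K) (h : UL Y) : b1 (X * Y) = b1 X * b1 Y := by
  ext i j; fin_cases i <;> fin_cases j <;> simp [b1, mul_apply, Fin.sum_univ_four, h.1, h.2.1, h.2.2.1, h.2.2.2]
theorem b2_mul (h : UL X) (Y : M4 K) : b2 (X * Y) = b2 X * b2 Y := by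
  ext i j; fin_cases i <;> fin_cases j <;> simp [b2, mul_apply, Fin.sum_univ_four, h.1, h.2.1, h.2.2.1, h.2.2.2]
theorem b1_smul (c : K) (X : M4 K) : b1 (c • X) = c • b1 X := by ext i j; fin_cases i <;> fin_cases j <;> simp [b1]
theorem b2_smul (c : K) (X : M4 K) : b2 (c • X) = c • b2 X := by ext i j; fin_cases i <;> fin_cases j <;> simp [b2]
theorem b1_sub (X Y : M4 K) : b1 (X - Y) = b1 X - b1 Y := by ext i j; fin_cases i <;> fin_cases j <;> simp [b1]
theorem b2_sub (X Y : M4 K) : b2 (X - Y) = b2 X - b2 Y := by ext i j; fin_cases i <;> fin_cases j <;> simp [b2]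
theorem b1_one : b1 (1 : M4 K) = 1 := by ext i j; fin_cases i <;> fin_cases j <;> simp [b1]
theorem b2_one : b2 (1 : M4 K) = 1 := by ext i j; fin_cases i <;> fin_cases j <;> simp [b2]
theorem b1_zero : b1 (0 : M4 K) = 0 := by ext i j; fin_cases i <;> fin_cases j <;> simp [b1]
theorem b2_zero : b2 (0 : M4 K) = 0 := by ext i j; fin_cases i <;> fin_cases j <;> simp [b2]
theorem det_ul (h : UL X) : X.det = (b1 X).det * (b2 X).det := by
  simp [det_succ_row_zero, Fin.sum_univ_succ, b1, b2, det_fin_two, h.1, h.2.1, h.2.2.1, h.2.2.2, Fin.succAbove]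
  ring
theorem UL.sub1 (h : UL X) : UL (X - 1) := by simpa [UL] using h
theorem UR.sub1 (h : UR X) : UR (X - 1) := by simpa [UR] using h
theorem UR.mul (hX : UR X) (hY : UR Y) : UR (X * Y) := by
  simp [UR, mul_apply, Fin.sum_univ_four, hX.1, hX.2.1, hX.2.2.1, hX.2.2.2, hY.1, hY.2.1, hY.2.2.1, hY.2.2.2]
theorem bd_ext (h1 : UL X) (h2 : UR X) (e1 : b1 X = 0) (e2 : b2 X = 0) : X = 0 := by
  have a := fun i j => congrFun (congrFun e1 i) j
  have b := fun i j => congrFun (congrFun e2 i) j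
  have := a 0 0; have := a 0 1; have := a 1 0; have := a 1 1; have := b 0 0; have := b 0 1; have := b 1 0; have := b 1 1
  ext i j; fin_cases i <;> fin_cases j <;> simp_all [b1, b2, UL, UR]

theorem nil2 {m : M2 K} (h : IsNilpotent m) : m * m = 0 := by
  have := aeval_self_charpoly m
  rw [sub_eq_zero.1 (Matrix.isNilpotent_charpoly_sub_pow_of_isNilpotent h).eq_zero] at this
  simpa [pow_two] using this

theorem bd_nil (h1 : UL N) (h2 : UR N) (h : N ^ 4 = 0) : N * N = 0 := by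
  have e : N ^ 4 = N * (N * (N * N)) := by simp [pow_succ, mul_assoc]
  refine bd_ext (h1.mul h1) (h2.mul h2) ?_ ?_
  · rw [b1_mul _ h1]
    exact nil2 ⟨4, by
      rw [← b1_zero, ← h, e, b1_mul _ (h1.mul (h1.mul h1)), b1_mul _ (h1.mul h1), b1_mul _ h1]; simp [pow_succ, mul_assoc]⟩
  · rw [b2_mul h1]
    exact nil2 ⟨4, by rw [← b2_zero, ← h, e, b2_mul h1, b2_mul h1, b2_mul h1]; simp [pow_succ, mul_assoc]⟩

theorem comm_bd {d : Fin 4 → K} (h1 : d 0 ≠ d 2) (h2 : d 0 ≠ d 3) (h3 : d 1 ≠ d 2) (h4 : d 1 ≠ d 3)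
    (e : Y * diagonal d = diagonal d * Y) : UL Y ∧ UR Y := by
  have z : ∀ i j, d i ≠ d j → Y i j = 0 := fun i j n => by
    have := congrFun (congrFun e i) j
    rw [mul_diagonal, diagonal_mul] at this
    exact mul_left_cancel₀ (sub_ne_zero.2 n) (by linear_combination -this)
  exact ⟨⟨z _ _ h1.symm, z _ _ h3.symm, z _ _ h2.symm, z _ _ h4.symm⟩, z _ _ h1, z _ _ h2, z _ _ h3, z _ _ h4⟩

theorem rk1_diag {d : Fin 4 → K} {c : K} (k : Fin 4) (h : ∀ i, i ≠ k → d i = c) : Rk1 (diagonal d - c • 1) := by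
  have : ∀ i j, (i ≠ k ∨ j ≠ k) → (diagonal d - c • 1 : M4 K) i j = 0 := fun i j hij => by
    by_cases e : i = j
    · subst e; simp [h i (by tauto)]
    · simp [e]
  intro i j a b
  by_cases h1 : i = k <;> by_cases h2 : j = k <;> by_cases h3 : a = k <;> by_cases h4 : b = k <;> simp_all

theorem det_col4 {a b c d : V4 K} (h : ∀ x : V4 K, x 0 • a + x 1 • b + x 2 • c + x 3 • d = 0 → x = 0) :
    (col4 a b c d).det ≠ 0 := fun e => by
  obtain ⟨x, h0, h1⟩ := Matrix.exists_mulVec_eq_zero_iff.2 e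
  exact h0 (h x (col4_mulVec a b c d x ▸ h1))

/-- the standard quadratic unipotent matrix -/
def U0 (K : Type*) [Field K] : M4 K := !![1, 0, 1, 0; 0, 1, 0, 1; 0, 0, 1, 0; 0, 0, 0, 1]

theorem nf_quad (h : (X - 1) * (X - 1) = 0) (h1 : ¬ Rk1 (X - 1)) : ∃ Q : M4 K, Q.det ≠ 0 ∧ X * Q = Q * U0 K := by
  obtain ⟨N, rfl⟩ : ∃ N, X = N + 1 := ⟨X - 1, by simp⟩
  simp only [add_sub_cancel_right, Rk1, not_forall] at h h1
  obtain ⟨i, j, k, l, h1⟩ := h1
  have nn : ∀ w, N *ᵥ N *ᵥ w = 0 := fun w => by rw [mulVec_mulVec, h, zero_mulVec]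
  have ind : ∀ α β : K, α • N *ᵥ Pi.single j 1 + β • N *ᵥ Pi.single l 1 = 0 → α = 0 ∧ β = 0 := fun α β e => by
    have e1 := congrFun e i
    have e2 := congrFun e k
    simp at e1 e2
    exact ⟨mul_left_cancel₀ (sub_ne_zero.2 h1) (by linear_combination N k l * e1 - N i l * e2),
      mul_left_cancel₀ (sub_ne_zero.2 h1) (by linear_combination N i j * e2 - N k j * e1)⟩
  refine ⟨col4 (N *ᵥ Pi.single j 1) (N *ᵥ Pi.single l 1) (Pi.single j 1) (Pi.single l 1), det_col4 fun x e => ?_, ?_⟩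
  · have e' := congrArg (N *ᵥ ·) e
    simp only [mulVec_add, mulVec_smul, nn, smul_zero, zero_add, mulVec_zero] at e'
    obtain ⟨k2, k3⟩ := ind (x 2) (x 3) e'
    obtain ⟨k0, k1⟩ := ind (x 0) (x 1) (by simpa only [k2, k3, zero_smul, add_zero] using e)
    ext i; fin_cases i <;> simp [*]
  · rw [mul_col4, col4_mul]
    simp only [add_mulVec, one_mulVec, nn]
    simp [U0]

/-- the standard unipotent matrix with Jordan blocks of sizes three and one -/
def U31 (K : Type*) [Field K] : M4 K := !![1, 1, 0, 0; 0, 1, 0, 1; 0, 0, 1, 0; 0, 0, 0, 1]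

theorem nf_three (h : (X - 1) ^ 3 = 0) (h1 : (X - 1) * (X - 1) ≠ 0) : ∃ Q : M4 K, Q.det ≠ 0 ∧ X * Q = Q * U31 K := by
  obtain ⟨N, rfl⟩ : ∃ N, X = N + 1 := ⟨X - 1, by simp⟩
  simp only [add_sub_cancel_right] at h h1
  obtain ⟨w, hw⟩ : ∃ w, N *ᵥ N *ᵥ w ≠ 0 := by
    by_contra k
    push Not at k
    exact h1 (Matrix.ext_iff_mulVec.2 (by simpa using k))
  have nn : ∀ w, N *ᵥ N *ᵥ N *ᵥ w = 0 := fun w => by
    rw [mulVec_mulVec, mulVec_mulVec, ← pow_three', h, zero_mulVec]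
  obtain ⟨v, hv⟩ : ∃ v, ∀ x, col4 (N *ᵥ N *ᵥ w) (N *ᵥ w) 0 w *ᵥ x ≠ v := by
    by_contra k
    push Not at k
    have := (Matrix.mulVec_surjective_iff_isUnit.1 k)
    have := (Matrix.mulVec_injective_iff_isUnit.2 this) (a₁ := ![0, 0, 1, 0]) (a₂ := 0) (by simp [col4_mulVec])
    simpa using congrFun this 2
  have ind : ∀ c0 c1 : K, (col4 (N *ᵥ N *ᵥ w) (N *ᵥ w) (v - c0 • N *ᵥ w - c1 • w) w).det ≠ 0 := fun c0 c1 =>
    det_col4 fun x e => by
      have k2 : x 2 = 0 := by_contra fun n => hv ![-x 0 / x 2, c0 - x 1 / x 2, 0, c1 - x 3 / x 2] (by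
        refine smul_right_injective _ n ?_
        simp only [col4_mulVec, cons_val_zero, cons_val_one, cons_val, smul_add, smul_smul]
        rw [mul_div_cancel₀ _ n, mul_sub, mul_sub, mul_div_cancel₀ _ n, mul_div_cancel₀ _ n]
        linear_combination (norm := module) -e)
      rw [k2, zero_smul, add_zero] at e
      have k3 : x 3 = 0 := by simpa [mulVec_add, mulVec_smul, nn, hw, -mulVec_mulVec] using congrArg (N *ᵥ N *ᵥ ·) e
      have k1 : x 1 = 0 := by simpa [mulVec_add, mulVec_smul, nn, hw, k3, -mulVec_mulVec] using congrArg (N *ᵥ ·) e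
      have k0 : x 0 = 0 := by simpa [hw, k3, k1, -mulVec_mulVec] using e
      ext i; fin_cases i <;> simp [*]
  obtain ⟨c, hc⟩ := (Matrix.mulVec_surjective_iff_isUnit.2 ((isUnit_iff_isUnit_det _).2 (ind 0 0).isUnit)) (N *ᵥ v)
  simp only [zero_smul, sub_zero, col4_mulVec] at hc
  have inj := (Matrix.mulVec_injective_iff_isUnit.2 ((isUnit_iff_isUnit_det _).2 (ind 0 0).isUnit))
  have e := nn v
  simp only [← hc, mulVec_add, mulVec_smul, nn, smul_zero, zero_add, smul_add, smul_smul] at e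
  have e2 := inj (a₁ := ![c 2 * c 1 + c 2 * (c 2 * c 0) + c 3, c 2 * (c 2 * c 1) + c 2 * c 3, c 2 * (c 2 * c 2),
    c 2 * (c 2 * c 3)]) (a₂ := 0) (by
      simp only [col4_mulVec, cons_val_zero, cons_val_one, cons_val, mulVec_zero, zero_smul, sub_zero, Pi.zero_apply]
      linear_combination (norm := module) e)
  have k2 : c 2 = 0 := by simpa using congrFun e2 2
  have k3 : c 3 = 0 := by simpa [k2] using congrFun e2 0
  refine ⟨_, ind (c 0) (c 1), ?_⟩
  rw [mul_col4, col4_mul]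
  simp only [add_mulVec, one_mulVec, nn, mulVec_sub, mulVec_smul, ← hc, k2, k3]
  simp [U31]
  congr 1
  module

theorem comm_U31 (e : Y * U31 K = U31 K * Y) : ∃ a b c d f g : K, Y = !![a, b, d, c; 0, a, 0, b; 0, 0, g, f; 0, 0, 0, a] := by
  have z := fun i j => congrFun (congrFun e i) j
  have := z 0 0; have := z 0 1; have := z 0 2; have := z 0 3; have := z 1 0; have := z 1 1; have := z 1 2; have := z 1 3
  have := z 2 1; have := z 2 3; have := z 3 1; have := z 3 3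
  refine ⟨Y 0 0, Y 0 1, Y 0 3, Y 0 2, Y 2 3, Y 2 2, ?_⟩
  simp [U31, mul_apply, Fin.sum_univ_four] at *
  ext i j; fin_cases i <;> fin_cases j <;> simp <;> grind

theorem comm_U0 (e : Y * U0 K = U0 K * Y) : UL Y ∧ b2 Y = b1 Y := by
  have z := fun i j => congrFun (congrFun e i) j
  have := z 0 0; have := z 0 1; have := z 0 2; have := z 0 3; have := z 1 0; have := z 1 1; have := z 1 2; have := z 1 3
  simp [U0, mul_apply, Fin.sum_univ_four] at *
  refine ⟨⟨by grind, by grind, by grind, by grind⟩, ?_⟩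
  ext i j; fin_cases i <;> fin_cases j <;> simp [b1, b2] <;> grind

/-- the commutant of two commuting quadratic nilpotent matrices with nonzero product -/
theorem cyc_poly {A B : M4 K} (ha : A * A = 0) (hb : B * B = 0) (hc : A * B = B * A) (h0 : A * B ≠ 0) (h1 : Y * A = A * Y)
    (h2 : Y * B = B * Y) : ∃ a0 a1 a2 a3 : K, Y = a0 • 1 + a1 • A + a2 • B + a3 • (A * B) := by
  obtain ⟨w, hw⟩ : ∃ w, A *ᵥ B *ᵥ w ≠ 0 := by
    by_contra k
    push Not at k
    exact h0 (Matrix.ext_iff_mulVec.2 (by simpa using k))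
  have aa : ∀ w, A *ᵥ A *ᵥ w = 0 := fun w => by rw [mulVec_mulVec, ha, zero_mulVec]
  have bb : ∀ w, B *ᵥ B *ᵥ w = 0 := fun w => by rw [mulVec_mulVec, hb, zero_mulVec]
  have ba : ∀ w, B *ᵥ A *ᵥ w = A *ᵥ B *ᵥ w := fun w => by rw [mulVec_mulVec, ← hc, mulVec_mulVec]
  have ya : ∀ w, Y *ᵥ A *ᵥ w = A *ᵥ Y *ᵥ w := fun w => by rw [mulVec_mulVec, h1, mulVec_mulVec]
  have yb : ∀ w, Y *ᵥ B *ᵥ w = B *ᵥ Y *ᵥ w := fun w => by rw [mulVec_mulVec, h2, mulVec_mulVec]
  have sp := span_of_ker (P := col4 w (A *ᵥ w) (B *ᵥ w) (A *ᵥ B *ᵥ w)) fun x k => by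
    rw [col4_mulVec] at k
    have k0 : x 0 = 0 := by simpa [mulVec_add, mulVec_smul, aa, bb, ba, hw, -mulVec_mulVec] using congrArg (A *ᵥ B *ᵥ ·) k
    have k1 : x 1 = 0 := by simpa [mulVec_add, mulVec_smul, aa, bb, ba, hw, k0, -mulVec_mulVec] using congrArg (B *ᵥ ·) k
    have k2 : x 2 = 0 := by simpa [mulVec_add, mulVec_smul, aa, bb, ba, hw, k0, -mulVec_mulVec] using congrArg (A *ᵥ ·) k
    have k3 : x 3 = 0 := by simpa [hw, k0, k1, k2, -mulVec_mulVec] using k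
    ext i; fin_cases i <;> simp [*]
  obtain ⟨x, hx⟩ := sp (Y *ᵥ w)
  refine ⟨x 0, x 1, x 2, x 3, Matrix.ext_iff_mulVec.2 fun v => ?_⟩
  obtain ⟨y, rfl⟩ := sp v
  rw [col4_mulVec] at hx
  simp only [col4_mulVec, mulVec_add, mulVec_smul, add_mulVec, smul_mulVec, ya, yb, ← hx, one_mulVec, ← mulVec_mulVec, aa,
    bb, ba, mulVec_zero, smul_zero]

theorem cyc_comm {A B : M4 K} (ha : A * A = 0) (hb : B * B = 0) (hc : A * B = B * A) (h0 : A * B ≠ 0) (h1 : Y * A = A * Y)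
    (h2 : Y * B = B * Y) (h3 : Z * A = A * Z) (h4 : Z * B = B * Z) : Y * Z = Z * Y := by
  obtain ⟨a0, a1, a2, a3, rfl⟩ := cyc_poly ha hb hc h0 h1 h2
  have c : Commute A Z := h3.symm
  have c' : Commute B Z := h4.symm
  exact (((Commute.one_left Z).smul_left a0).add_left (c.smul_left a1)).add_left (c'.smul_left a2)
    |>.add_left ((c.mul_left c').smul_left a3)

theorem cyc_three (h2 : (2 : K) ≠ 0) {A B C : M4 K} (ha : A * A = 0) (hb : B * B = 0) (hc : C * C = 0) (ab : A * B = B * A)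
    (ac : C * A = A * C) (bc : C * B = B * C) : A * B = 0 ∨ A * C = 0 ∨ B * C = 0 := by
  refine or_iff_not_imp_left.2 fun h0 => ?_
  obtain ⟨a0, a1, a2, a3, e⟩ := cyc_poly ha hb ab h0 ac bc
  have z1 : A * (A * B) = 0 := by rw [← mul_assoc, ha, zero_mul]
  have z2 : B * (A * B) = 0 := by rw [ab, ← mul_assoc, hb, zero_mul]
  have e1 : A * C = a0 • A + a2 • (A * B) := by rw [e]; simp [mul_add, ha, z1]
  have e2 : B * C = a0 • B + a1 • (A * B) := by rw [e]; simp [mul_add, hb, z2, ab, ← mul_assoc]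
  have k0 : a0 = 0 := by
    have : A * B * C = a0 • (A * B) := by rw [mul_assoc, e2]; simp [mul_add, z1]
    have k : (a0 * a0) • (A * B) = 0 := by
      rw [← smul_smul, ← this, ← Matrix.smul_mul, ← this, mul_assoc, hc, mul_zero]
    simpa [h0] using k
  subst k0
  simp only [zero_smul, zero_add] at e e1 e2
  have : (2 * a1 * a2) • (A * B) = 0 := by
    have e3 : A * B * C = 0 := by rw [mul_assoc, e2]; simp [z1]
    rw [← hc]
    conv_rhs => lhs; rw [e]
    simp only [add_mul, Matrix.smul_mul, e1, e2, e3]; module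
  rcases mul_eq_zero.1 ((smul_eq_zero.1 this).resolve_right h0) with k | k
  · exact Or.inr (by rw [e2, (mul_eq_zero.1 k).resolve_left h2, zero_smul])
  · exact Or.inl (by rw [e1, k, zero_smul])

end

end Cfsg.Agent.H1.N1
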