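import Mathlib

/-! The arithmetic of the class equations: statements. -/

set_option autoImplicit false

namespace Cfsg.Agent.H1.N1

/-- numerical data of the classes of CA-subgroups: order `n i`, automiser `e i`; `c` is the order of the centraliser of an
involution, `N` the group order -/
structure AR {ι : Type*} (s : Finset ι) (e n : ι → ℕ) (c N : ℕ) : Prop where
  odd : ∀ i ∈ s, n i % 2 = 1
  gt : ∀ i ∈ s, 1 < n i
  two : ∀ i ∈ s, 2 ≤ e i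
  dvd : ∀ i ∈ s, e i ∣ n i - 1
  co : ∀ i ∈ s, ∀ j ∈ s, i ≠ j → (n i).Coprime (n j)
  coc : ∀ i ∈ s, (n i).Coprime c
  ev : ∀ i ∈ s, 2 ∣ e i → e i ∣ c
  four : ∀ i ∈ s, ∀ j ∈ s, 4 < e i → 4 < e j → i = j
  den : ∀ i ∈ s, n i * e i ∣ N
  pos : 0 < N

/-- density of the classes -/
def tau {ι : Type*} (s : Finset ι) (e n : ι → ℕ) : ℚ := ∑ i ∈ s, ((e i : ℚ)⁻¹ - (n i : ℚ)⁻¹ * (e i : ℚ)⁻¹)

/-- contribution of the real classes -/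
def rho {ι : Type*} (s : Finset ι) (e n : ι → ℕ) : ℕ := ∑ i ∈ s with 2 ∣ e i, (n i - 1) / e i

/-- dihedral centraliser, a class with automiser three -/
def ArD.{u} : Prop := ∀ (ι : Type u) (s : Finset ι) (e n : ι → ℕ) (k N : ℕ), AR s e n (4 * k) N → 0 < k → (∃ i ∈ s, e i = 3) →
  N = 4 * k * ∏ i ∈ s, n i → tau s e n = 1 / 2 + (k : ℚ)⁻¹ / 4 - (N : ℚ)⁻¹ →
  ∏ i ∈ s, n i + 2 * k = 4 * k ^ 2 + 1 + 4 * k * rho s e n → N = 168

/-- extension by `S₄`, no fusion -/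
def ArN.{u} : Prop := ∀ (ι : Type u) (s : Finset ι) (e n : ι → ℕ) (c N : ℕ), AR s e n (8 * c) N → (c = 3 ∨ c = 5) →
  (∀ i ∈ s, (n i).Coprime 3) → N = 24 * c * ∏ i ∈ s, n i → tau s e n = 1 / 4 + (c : ℚ)⁻¹ / 24 - (N : ℚ)⁻¹ → False

/-- extension by `S₄`, fusion -/
def ArA.{u} : Prop := ∀ (ι : Type u) (s : Finset ι) (e n : ι → ℕ) (N : ℕ), AR s e n 24 N →
  N = 72 * ∏ i ∈ s, n i → tau s e n = 35 / 72 - (N : ℚ)⁻¹ → N = 2520

/-- homocyclic Sylow subgroup -/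
def ArH.{u} : Prop := ∀ (ι : Type u) (s : Finset ι) (e n : ι → ℕ) (m N : ℕ), AR s e n (16 * m) N → 3 ≤ m → m % 2 = 1 →
  N = 16 * m * ∏ i ∈ s, n i → tau s e n = 5 / 8 + (m : ℚ)⁻¹ / 16 - (N : ℚ)⁻¹ →
  ∏ i ∈ s, n i + 2 * m = 4 * m ^ 2 + 1 + 16 * m * rho s e n → False

end Cfsg.Agent.H1.N1
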