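import Cfsg.Agent.H1.N1a
import Cfsg.Agent.H1.N1r
import Cfsg.Agent.H1.M4G6

/-! The interface between the geometry and the group theory. -/

set_option autoImplicit false

namespace Cfsg.Agent.H1.N1

open Subgroup Cfsg.Agent.MH Cfsg.Agent.H1.Mit

variable {T K : Type*} [Group T] [Field K]

/-- three commuting elements of odd prime order with independent sign patterns do not exist -/
def Tri (T : Type*) [Group T] : Prop := ∀ (r : ℕ) (g h x y z : T), r.Prime → Odd r → x ^ r = 1 → y ^ r = 1 → z ^ r = 1 →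
  x ≠ 1 → y ≠ 1 → z ≠ 1 → x * y = y * x → x * z = z * x → y * z = z * y → nv x ≠ 0 → nv y ≠ 0 → nv z ≠ 0 →
  g * x * g⁻¹ = x → g * y * g⁻¹ = y⁻¹ → g * z * g⁻¹ = z⁻¹ → h * x * h⁻¹ = x⁻¹ → h * y * h⁻¹ = y → h * z * h⁻¹ = z⁻¹ → False

/-- subgroups of odd order of centralisers are abelian -/
def OA (T : Type*) [Group T] : Prop := ∀ (x : T) (H : Subgroup T), x ≠ 1 → H ≤ Cn x → Odd (Nat.card H) →
  ∀ a ∈ H, ∀ b ∈ H, a * b = b * a

/-- small automisers away from the characteristic -/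
def E4 (T : Type*) [Group T] (p : ℕ) : Prop :=
  ∀ x ∈ CC T, Nat.card (Nm (Cn x)) ≤ 4 * Nat.card (Cn x) ∨ IsPGroup p (Cn x)

/-- commuting conjugates of a rotation -/
def Three (Ro : T → Prop) : Prop := ∀ x g h : T, Ro x → Od x → x * (g * x * g⁻¹) = g * x * g⁻¹ * x →
  x * (h * x * h⁻¹) = h * x * h⁻¹ * x → g * x * g⁻¹ * (h * x * h⁻¹) = h * x * h⁻¹ * (g * x * g⁻¹) →
  g * x * g⁻¹ = x ∨ g * x * g⁻¹ = x⁻¹ ∨ h * x * h⁻¹ = x ∨ h * x * h⁻¹ = x⁻¹ ∨ h * x * h⁻¹ = g * x * g⁻¹ ∨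
    h * x * h⁻¹ = (g * x * g⁻¹)⁻¹

/-- conjugate powers of a rotation -/
def RC (Ro : T → Prop) : Prop := ∀ x g : T, Ro x → Od x → g * x * g⁻¹ ∈ zpowers x → g * x * g⁻¹ = x ∨ g * x * g⁻¹ = x⁻¹

/-- the local facts; `Ro` is the set of elements with a quadratic minimal polynomial, `p` the characteristic -/
structure LG (Ro : T → Prop) (p : ℕ) : Prop where
  simple : IsSimpleGroup T
  perf : commutator T = ⊤
  pp : p.Prime
  oa : OA T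
  e4 : E4 T p
  tri : Tri T
  ro_conj : ∀ x g, Ro x → Ro (g * x * g⁻¹)
  ro_ord : ∀ x, Ro x → x ^ 2 = 1 ∨ x ^ 3 = 1 ∨ x ^ 5 = 1
  three : Three Ro
  rc : RC Ro

/-- elements of odd order centralising a four-group are rotations and generate the same group -/
def NQ (Ro : T → Prop) : Prop := ∀ u v y : T, Inv u → Inv v → u ≠ v → u * v = v * u → Od y → y ≠ 1 → y ∈ Cn u → y ∈ Cn v →
  Ro y ∧ ∀ y', Od y' → y' ∈ Cn u → y' ∈ Cn v → y * y' = y' * y → y' ∈ zpowers y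

/-- the centraliser of a rotation, by Dickson's theorem -/
def NG (Ro : T → Prop) : Prop := ∀ t s γ y : T, Inv t → Inv s → t ≠ s → t * s = s * t → γ * t * γ⁻¹ = s →
  γ * s * γ⁻¹ = t * s → Ro y → Od y → y ≠ 1 → t ∈ Cn y → s ∈ Cn y → γ ∈ Cn y →
  ∃ Q ≤ Cn y, Odd (Nat.card Q) ∧ (∀ g ∈ Cn y, ∀ j ∈ Q, g * j * g⁻¹ ∈ Q) ∧ ∀ j ∈ Cn y, Od j → j ∈ Cn t → j ∈ Q

/-- dihedral Sylow subgroups -/
def DihT (T : Type*) [Group T] : Prop := ∃ (S : Sylow 2 T) (x s : T), x ≠ 1 ∧ s * s = 1 ∧ s * x * s⁻¹ = x⁻¹ ∧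
  s ∉ zpowers x ∧ ∀ g, g ∈ S ↔ g ∈ zpowers x ∨ s * g ∈ zpowers x

/-- the homocyclic case -/
structure HCT (S : Sylow 2 T) (x y : T) : Prop where
  card : Nat.card S = 16
  mem : ∀ g, g ∈ S ↔ ∃ a b : ℕ, g = x ^ a * y ^ b
  x4 : x ^ 4 = 1
  y4 : y ^ 4 = 1
  comm : x * y = y * x
  cs : ∀ a, Od a → a ∈ Cn x → a ∈ Cn y → a = 1
  ca : ∀ x', x' = x ∨ x' = x * (y * y) → ∀ a g, Od a → a ≠ 1 → a ∈ Cn x' → y * y * a * (y * y)⁻¹ = a⁻¹ → g ∈ Cn a →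
    g ∈ Cn (y * a * y⁻¹) → g ∈ Cn x'

/-- the data that identify `A₇` -/
structure OutA (Ro : T → Prop) (z w t v : T) : Prop where
  card : Nat.card T = 2520
  z1 : z ≠ 1
  z3 : z ^ 3 = 1
  w1 : w ≠ 1
  w3 : w ^ 3 = 1
  rz : Ro z
  rw : Ro w
  zw : z * w = w * z
  it : Inv t
  iv : Inv v
  zt : z * t = t * z
  wv : w * v = v * w
  t1 : w * t * w⁻¹ ≠ t
  t2 : w * t * w⁻¹ * t = t * (w * t * w⁻¹)
  t3 : w * (w * t * w⁻¹) * w⁻¹ = t * (w * t * w⁻¹)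
  v1 : z * v * z⁻¹ ≠ v
  v2 : z * v * z⁻¹ * v = v * (z * v * z⁻¹)
  v3 : z * (z * v * z⁻¹) * z⁻¹ = v * (z * v * z⁻¹)
  nm : ∀ g ∈ Cn t, g * (w * t * w⁻¹) * g⁻¹ = w * t * w⁻¹ ∨ g * (w * t * w⁻¹) * g⁻¹ = t * (w * t * w⁻¹)
  five : ∀ g, g ^ 5 = 1 → Ro g → g = 1

/-- the lifts are unique up to sign, and the lifts of involutions have square `-1` -/
structure PR.Neg (ρ : PR T K) : Prop where
  pm : ∀ c : K, ρ.L 1 (c • 1) → c * c = 1
  neg : ∀ (u : T) U, Inv u → ρ.L u U → U * U = -1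

/-- the number of ways to write `g` as a product of two involutions -/
noncomputable def sr (g : T) : ℕ := {s | Inv s ∧ Inv (s * g)}.ncard

/-- the elements attached to the involution `t` -/
def B1 (t : T) : Set T := {g | g ≠ 1 ∧ g ∈ Cn t ∧ (Od g ∨ t ∈ zpowers g)}

/-- elements of odd order commute with at most one involution; numerical data -/
structure U1 (t : T) (β κ φ : ℕ) : Prop where
  inv : Inv t
  cls : Cls t
  u1 : ∀ g ∈ Cn t, Od g → g ≠ 1 → nv g = 1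
  b : (B1 t).ncard = β
  k : {g | g ∈ B1 t ∧ sr g ≠ 0}.ncard = κ
  f : ∀ g ∈ B1 t, sr g ≠ 0 → sr g = φ

end Cfsg.Agent.H1.N1
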