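import Cfsg.Agent.H1.N1b
import Cfsg.Agent.H1.N2a

/-! Block homomorphisms to `PGL₂`; block forms of semisimple elements. -/

set_option autoImplicit false

namespace Cfsg.Agent.H1.N1

open Matrix Cfsg.Agent.MH Cfsg.Agent.H1.Mit Cfsg.Agent.H4.Mob Cfsg.Agent.H4 Cfsg.Agent.H4.Bar Cfsg.Agent.H4.Pair
  Cfsg.Agent.H4.Dick

variable {T K : Type*} [Group T] [Field K]

theorem odd_com [Finite K] (Γ : Subgroup (PG K)) (ho : Odd (Nat.card Γ)) :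
    ∃ k : PG K, ∀ g ∈ Γ, ∀ h ∈ Γ, ∃ b, g * h * g⁻¹ * h⁻¹ = k * tr b * k⁻¹ := by
  have ev : ¬ 2 ∣ Nat.card Γ := ho.not_two_dvd_nat
  rcases dickson Γ with ⟨x, hx⟩ | ⟨x, y, hxy, k⟩ | ⟨-, -, ⟨⟨e⟩⟩ | ⟨⟨e⟩⟩⟩ | ⟨-, -, -, ⟨e⟩⟩ | ⟨k, E, -, hl, -⟩
  · obtain ⟨k, hk⟩ := stab_aff hx
    refine ⟨k, fun g hg h hh => ?_⟩
    obtain ⟨a, b, ha, rfl⟩ := hk g hg
    obtain ⟨c, d, hc, rfl⟩ := hk h hh
    have : aff a b ha * aff c d hc * (aff a b ha)⁻¹ * (aff c d hc)⁻¹ = tr (b + a * d - c * b - d) := by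
      simp only [aff_inv, aff_mul, tr, aff_eq_aff]
      constructor <;> field_simp <;> ring
    exact ⟨_, by rw [← this]; group⟩
  · have : ∀ g ∈ Γ, g ∈ Tor x y := fun g hg => by_contra fun n =>
      n (eq_one_of_odd ho (pow_card_mem hg) (mul_self_eq_one hxy.ne (k hg) n) ▸ one_mem _)
    refine ⟨1, fun g hg h hh => ⟨0, ?_⟩⟩
    rw [Tor_comm hxy.ne (this g hg) (this h hh), tr, aff_eq_one.2 ⟨rfl, rfl⟩]
    simp
  · exact absurd (by rw [Nat.card_congr e.toEquiv, Small.card_A4]; decide) ev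
  · exact absurd (by rw [Nat.card_congr e.toEquiv, Small.card_S4]; decide) ev
  · exact absurd (by rw [Nat.card_congr e.toEquiv, Small.card_A5]; decide) ev
  · refine absurd (card_cj k Γ ▸ two_dvd_card (s := flip (-1) (by simp)) ⟨fun e => ?_, flip_mul_self _ _⟩ (hl ?_)) ev
    · simpa using (mob_eq_one.1 e).1
    · exact mob_mem_PSsub (s := 1) E.zero_mem (E.neg_mem E.one_mem) E.one_mem E.zero_mem E.one_mem (by ring)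

theorem tr_sq (k : PG K) : ∃ n0 : M2 K, n0 * n0 = 0 ∧ ∀ (m : M2 K) h b, m.det = 1 →
    mob (m 0 0) (m 0 1) (m 1 0) (m 1 1) h = k * tr b * k⁻¹ → ∃ s : K, m * m = 1 + s • n0 := by
  obtain ⟨p, q, r, s, hδ, rfl⟩ := exists_mob k
  refine ⟨!![-(p * r), p * p; -(r * r), p * r], by ext i j; fin_cases i <;> fin_cases j <;> simp [mul_apply] <;> ring,
    fun m h b d e => ?_⟩
  simp only [tr, aff, mob_inv, mob_mul] at e
  obtain ⟨u, e1, e2, e3, e4⟩ := mob_eq_mob.1 e.symm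
  rw [det_fin_two, e1, e2, e3, e4] at d
  refine ⟨2 * u * u * (p * s - q * r) * b, ?_⟩
  ext i j; fin_cases i <;> fin_cases j <;> simp [mul_apply, e1, e2, e3, e4] <;>
    first | ring1 | linear_combination d

namespace PR

variable {ρ : PR T K} {g x y z u a b : T} {G X Y Z U Q A B : M4 K} {n : ℕ} {H : Subgroup T}

/-- a multiplicative block on the lifts of `H` -/
structure Bk (ρ : PR T K) (H : Subgroup T) (β : M4 K → M2 K) : Prop where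
  sm : ∀ (c : K) X, β (c • X) = c • β X
  one : β 1 = 1
  mul : ∀ x ∈ H, ∀ y ∈ H, ∀ X Y, ρ.L x X → ρ.L y Y → β (X * Y) = β X * β Y

variable {β : M4 K → M2 K}

theorem Bk.inv (h : ρ.Bk H β) (hx : x ∈ H) (hX : ρ.L x X) : (β X).det * (β X⁻¹).det = 1 := by
  rw [← det_mul, ← h.mul _ hx _ (inv_mem hx) _ _ hX hX.inv, ri hX.nz, h.one, det_one]

theorem Bk.hom (h : ρ.Bk H β) :
    ∃ ψ : H →* PG K, ∀ (x : H) X, ρ.L x X → ∃ k, ψ x = mob (β X 0 0) (β X 0 1) (β X 1 0) (β X 1 1) k := by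
  have hd : ∀ x ∈ H, ∀ X, ρ.L x X → β X 0 0 * β X 1 1 - β X 0 1 * β X 1 0 ≠ 0 := fun x hx X hX =>
    det_fin_two (β X) ▸ left_ne_zero_of_mul_eq_one (h.inv hx hX)
  have k : ∀ {x X Y h h'}, ρ.L x X → ρ.L x Y → mob (β X 0 0) (β X 0 1) (β X 1 0) (β X 1 1) h =
      mob (β Y 0 0) (β Y 0 1) (β Y 1 0) (β Y 1 1) h' := fun {x X Y _ _} hX hY => by
    obtain ⟨c, -, rfl⟩ := hX.uniq hY
    exact mob_eq_mob.2 ⟨c, by simp [h.sm]⟩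
  obtain ⟨ψ, hψ⟩ := homOfRel H (fun x g => x ∈ H ∧ ∃ X, ρ.L x X ∧ ∃ h, g = mob (β X 0 0) (β X 0 1) (β X 1 0) (β X 1 1) h)
    (fun x hx => (ρ.exL x).elim fun X hX => ⟨_, hx, X, hX, hd x hx X hX, rfl⟩)
    (by rintro x _ _ ⟨-, X, hX, h, rfl⟩ ⟨-, Y, hY, h', rfl⟩; exact k hX hY) (by
      rintro x y _ _ ⟨hx, X, hX, h1, rfl⟩ ⟨hy, Y, hY, h', rfl⟩
      refine ⟨H.mul_mem hx hy, _, hX.mul hY, hd _ (H.mul_mem hx hy) _ (hX.mul hY), ?_⟩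
      rw [mob_mul, mob_eq_mob]
      exact ⟨1, by simp [h.mul x hx y hy X Y hX hY, mul_apply]⟩)
  refine ⟨ψ, fun x X hX => ?_⟩
  obtain ⟨-, Y, hY, h, e⟩ := hψ x
  exact ⟨hd x x.2 X hX, e.trans (k hY hX)⟩

/-- `D` lifts the square `d` of a commutator in `H` -/
def Sq (ρ : PR T K) (H : Subgroup T) (d : T) (D : M4 K) : Prop := ∃ a ∈ H, ∃ b ∈ H, ∃ A B, ρ.L a A ∧ ρ.L b B ∧
  d = a * b * a⁻¹ * b⁻¹ * (a * b * a⁻¹ * b⁻¹) ∧ D = A * B * A⁻¹ * B⁻¹ * (A * B * A⁻¹ * B⁻¹)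

theorem Sq.mem {d D} (h : ρ.Sq H d D) : d ∈ H ∧ ρ.L d D := by
  obtain ⟨a, ha, b, hb, A, B, hA, hB, rfl, rfl⟩ := h
  have m := mul_mem (mul_mem (mul_mem ha hb) (inv_mem ha)) (inv_mem hb)
  have l := (hA.conj hB).mul hB.inv
  exact ⟨mul_mem m m, l.mul l⟩

theorem Sq.conj {d D} (h : ρ.Sq H d D) (hg : g ∈ H) : ∃ D', ρ.Sq H (g * d * g⁻¹) D' := by
  obtain ⟨a, ha, b, hb, A, B, hA, hB, rfl, rfl⟩ := h
  obtain ⟨G, hG⟩ := ρ.exL g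
  exact ⟨_, _, mul_mem (mul_mem hg ha) (inv_mem hg), _, mul_mem (mul_mem hg hb) (inv_mem hg), _, _, hG.conj hA, hG.conj hB,
    by group, rfl⟩

theorem Bk.sq [Finite K] (h : ρ.Bk H β) (ho : Odd (Nat.card H)) :
    ∃ n0 : M2 K, n0 * n0 = 0 ∧ ∀ d D, ρ.Sq H d D → ∃ s : K, β D = 1 + s • n0 := by
  obtain ⟨ψ, hψ⟩ := h.hom
  obtain ⟨k, hk⟩ := odd_com ψ.range (ho.of_dvd_nat (Subgroup.card_range_dvd ψ))
  obtain ⟨n0, h0, hn⟩ := tr_sq k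
  refine ⟨n0, h0, ?_⟩
  rintro _ _ ⟨a, ha, b, hb, A, B, hA, hB, rfl, rfl⟩
  have m := mul_mem (mul_mem (mul_mem ha hb) (inv_mem ha)) (inv_mem hb)
  have l := (hA.conj hB).mul hB.inv
  obtain ⟨c, e⟩ := hk _ ⟨⟨a, ha⟩, rfl⟩ _ ⟨⟨b, hb⟩, rfl⟩
  obtain ⟨_, e'⟩ := hψ (⟨a, ha⟩ * ⟨b, hb⟩ * ⟨a, ha⟩⁻¹ * ⟨b, hb⟩⁻¹) _ l
  rw [h.mul _ m _ m _ _ l l]
  refine hn _ _ c ?_ (by rw [← e', ← e]; simp only [map_mul, map_inv])
  rw [h.mul _ (mul_mem (mul_mem ha hb) (inv_mem ha)) _ (inv_mem hb) _ _ (hA.conj hB) hB.inv,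
    h.mul _ (mul_mem ha hb) _ (inv_mem ha) _ _ (hA.mul hB) hA.inv, h.mul _ ha _ hb _ _ hA hB, det_mul, det_mul, det_mul]
  linear_combination (β B).det * (β B⁻¹).det * h.inv ha hA + h.inv hb hB

theorem perm4 : ∀ r : Fin 4 → Fin 4, (∃ k c, ∀ i, i ≠ k → r i = c) ∨
    ∃ σ : Equiv.Perm (Fin 4), r (σ 0) ≠ r (σ 2) ∧ r (σ 0) ≠ r (σ 3) ∧ r (σ 1) ≠ r (σ 2) ∧ r (σ 1) ≠ r (σ 3) := by
  decide +kernel

/-- block form of a semisimple element -/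
theorem Gm.blk (h : ρ.Gm) (x1 : x ≠ 1) (hn : (n : K) ≠ 0) (hx : x ^ n = 1) : ∃ Q, ∃ hQ : Q.det ≠ 0, ∃ d : Fin 4 → K,
    (ρ.cj Q hQ).L x (diagonal d) ∧ d 0 ≠ d 2 ∧ d 0 ≠ d 3 ∧ d 1 ≠ d 2 ∧ d 1 ≠ d 3 := by
  classical
  obtain ⟨X, hX⟩ := ρ.exL x
  obtain ⟨c, c4, e⟩ := (hX.pow n).of_one hx
  obtain ⟨Q, hQ, k⟩ := sdiag (fun _ : Unit => X) (fun _ _ => rfl) (fun _ => h.spl _ _ hX)
    fun _ => ⟨n, c, hn, by rintro rfl; simp at c4, e⟩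
  obtain ⟨d, hd⟩ := k ()
  have l := hX.cj hQ hd
  let r : Fin 4 → Fin 4 := fun i => Finset.min' (Finset.univ.filter fun j => d j = d i) ⟨i, by simp⟩
  have r1 : ∀ i, d (r i) = d i := fun i => by simpa using Finset.min'_mem (Finset.univ.filter fun j => d j = d i) ⟨i, by simp⟩
  have r2 : ∀ i j, r i ≠ r j → d i ≠ d j := fun i j n e => n (by simp only [r, e])
  rcases perm4 r with ⟨k, c, e⟩ | ⟨σ, e⟩
  · exact absurd ((h.cj hQ).per x _ (d c) l (rk1_diag k fun i hi => by rw [← r1, e i hi])) x1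
  have hP : (σ⁻¹.permMatrix K).det ≠ 0 := by
    rw [det_permutation]; rcases Int.units_eq_one_or (Equiv.Perm.sign σ⁻¹) with e | e <;> rw [e] <;> simp
  refine ⟨Q * σ⁻¹.permMatrix K, by rw [det_mul]; exact mul_ne_zero hQ hP, d ∘ σ, hX.cj _ ?_, r2 _ _ e.1, r2 _ _ e.2.1,
    r2 _ _ e.2.2.1, r2 _ _ e.2.2.2⟩
  rw [← mul_assoc, hd, mul_assoc, mul_assoc]
  congr 1
  ext i j
  simp only [diagonal_mul, mul_diagonal, Equiv.Perm.permMatrix, PEquiv.toMatrix_apply, Equiv.toPEquiv_apply,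
    Option.mem_def, Option.some.injEq, Function.comp]
  split_ifs with e
  · rw [← e]; simp
  · simp

end PR

end Cfsg.Agent.H1.N1
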