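import Cfsg.Agent.H1.N1c

/-! Subgroups of odd order in centralisers are abelian. -/

set_option autoImplicit false

namespace Cfsg.Agent.H1.N1

open Matrix Cfsg.Agent.MH Cfsg.Agent.H1.Mit

variable {T K : Type*} [Group T] [Field K]

/-- upper right block -/
def b3 (X : M4 K) : M2 K := !![X 0 2, X 0 3; X 1 2, X 1 3]

/-- the shape of the commutant of `U0` -/
def Q0 (X : M4 K) : Prop := UL X ∧ b2 X = b1 X

/-- an additive function on the commutant of `U0` -/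
def th (X : M4 K) : K := (adjugate (b1 X) * b3 X).trace / (b1 X).det

section
variable {X Y D : M4 K}

theorem Q0.eq (h : Q0 X) : ∃ a b c d e f g k : K, X = !![a, b, e, f; c, d, g, k; 0, 0, a, b; 0, 0, c, d] := by
  have z := fun i j => congrFun (congrFun h.2 i) j
  have := z 0 0; have := z 0 1; have := z 1 0; have := z 1 1
  obtain ⟨⟨h1, h2, h3, h4⟩, -⟩ := h
  refine ⟨X 0 0, X 0 1, X 1 0, X 1 1, X 0 2, X 0 3, X 1 2, X 1 3, ?_⟩
  ext i j; fin_cases i <;> fin_cases j <;> simp_all [b1, b2]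

theorem Q0.nz (h : Q0 X) (d : X.det ≠ 0) : (b1 X).det ≠ 0 := fun e => d (by rw [det_ul h.1, e, zero_mul])

theorem th_mul (hX : Q0 X) (hY : Q0 Y) (dX : X.det ≠ 0) (dY : Y.det ≠ 0) : th (X * Y) = th X + th Y := by
  have d1 := hX.nz dX
  have d2 := hY.nz dY
  rw [th, th, th, b1_mul _ hY.1, det_mul, div_add_div _ _ d1 d2]
  congr 1
  obtain ⟨a, b, c, d, e, f, g, k, rfl⟩ := hX.eq
  obtain ⟨a', b', c', d', e', f', g', k', rfl⟩ := hY.eq
  simp [b1, b3, adjugate_fin_two, trace, mul_apply, Fin.sum_univ_four, det_fin_two]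
  ring

theorem th_one : th (1 : M4 K) = 0 := by simp [th, b1, b3, trace, adjugate_fin_two, mul_apply]

theorem th_U0 {c : K} (hc : c ≠ 0) : th (c • U0 K) = 2 := by
  simp [th, b1, b3, U0, trace, adjugate_fin_two, mul_apply, det_fin_two]; field_simp; norm_num

theorem U0_sq : (U0 K - 1) * (U0 K - 1) = 0 := by unfold U0; mat4

theorem q0_cube (h3 : (3 : K) = 0) (h : Q0 D) {m : M2 K} (e : b1 D = 1 + m) (hm : m * m = 0) :
    Rk1 (D ^ 3 - (1 : K) • 1) ∧ (∀ c : K, D ^ 3 = c • 1 → th D = 0 → (D - 1) * (D - 1) = 0) := by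
  obtain ⟨a, b, c, d, u, v, w, k, rfl⟩ := h.eq
  have z := fun i j => congrFun (congrFun hm i) j
  have y := fun i j => congrFun (congrFun e i) j
  have z1 := z 0 0; have z2 := z 0 1; have z3 := z 1 0; have z4 := z 1 1
  have y1 := y 0 0; have y2 := y 0 1; have y3 := y 1 0; have y4 := y 1 1
  simp [b1, mul_apply] at z1 z2 z3 z4 y1 y2 y3 y4
  subst y1 y2 y3 y4
  generalize m 0 0 = a at *
  generalize m 0 1 = b at *
  generalize m 1 0 = c at *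
  generalize m 1 1 = d at *
  obtain rfl : d = -a := by grind
  have e3 : !![1 + a, b, u, v; c, 1 + -a, w, k; 0, 0, 1 + a, b; 0, 0, c, 1 + -a] ^ 3 = 1 + (a * u + b * w + c * v - a * k) •
      !![0, 0, a, b; 0, 0, c, -a; 0, 0, 0, 0; 0, 0, 0, 0] := by
    ext i j; fin_cases i <;> fin_cases j <;> simp [pow_succ, mul_apply, Fin.sum_univ_four] <;> grind
  rw [e3]
  refine ⟨fun i j i' j' => ?_, fun r e t => ?_⟩
  · rw [one_smul, add_sub_cancel_left]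
    fin_cases i <;> fin_cases j <;> fin_cases i' <;> fin_cases j' <;> simp <;> grind
  · have x := fun i j => congrFun (congrFun e i) j
    have x1 := x 0 2; have x2 := x 0 3; have x3 := x 1 2
    have d1 : (1 + a) * (1 + -a) - b * c = 1 := by grind
    simp [th, b1, b3, trace, adjugate_fin_two, mul_apply, det_fin_two, d1] at x1 x2 x3 t
    ext i j; fin_cases i <;> fin_cases j <;> simp [mul_apply, Fin.sum_univ_four] <;> grind

theorem rk1_vmv (u v : V4 K) : Rk1 (vecMulVec u v) := fun i j k l => by simp [vecMulVec_apply]; ring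

theorem rk1_cube {a b c d f g : K} (e : Y = !![a, b, d, c; 0, a, 0, b; 0, 0, g, f; 0, 0, 0, a]) : Rk1 ((Y - a • 1) ^ 3) := by
  have : (Y - a • 1) ^ 3 = vecMulVec ![d * (g - a), 0, (g - a) * (g - a), 0] ![0, 0, g - a, f] := by
    rw [e, pow_three]; mat4
  exact this ▸ rk1_vmv _ _

theorem pow_31 {a b c d f g : K} (e : Y = !![a, b, d, c; 0, a, 0, b; 0, 0, g, f; 0, 0, 0, a]) (n : ℕ) :
    (Y ^ n) 2 2 = g ^ n ∧ (Y ^ n) 3 3 = a ^ n ∧ (Y ^ n) 3 2 = 0 := by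
  induction n with
  | zero => simp
  | succ n ih =>
    simp only [pow_succ', mul_apply, Fin.sum_univ_four, ih]
    simp [e]

theorem q0_prod (h : Q0 D) (e : b1 D = 1) : (D - 1) * (U0 K - 1) = 0 ∧ (U0 K - 1) * (D - 1) = 0 := by
  obtain ⟨a, b, c, d, u, v, w, k, rfl⟩ := h.eq
  have y := fun i j => congrFun (congrFun e i) j
  have y1 := y 0 0; have y2 := y 0 1; have y3 := y 1 0; have y4 := y 1 1
  simp [b1] at y1 y2 y3 y4
  subst y1 y2 y3 y4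
  unfold U0
  constructor <;> mat4

end

namespace PR

variable {ρ : PR T K} {g x y z u a b d : T} {G X Y Z U Q A B D : M4 K} {n : ℕ} {H : Subgroup T}

theorem Sq.exists (ρ : PR T K) (ho : Odd (Nat.card H)) (ha : a ∈ H) (hb : b ∈ H) (n : a * b ≠ b * a) :
    ∃ d D, d ≠ 1 ∧ ρ.Sq H d D := by
  obtain ⟨A, hA⟩ := ρ.exL a
  obtain ⟨B, hB⟩ := ρ.exL b
  exact ⟨_, _, fun e => n (mul_inv_eq_iff_eq_mul.1 (mul_inv_eq_one.1 ((Od.of_mem ho
    (mul_mem (mul_mem (mul_mem ha hb) (inv_mem ha)) (inv_mem hb))).eq_one e))), a, ha, b, hb, A, B, hA, hB, rfl, rfl⟩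

theorem fix_of_pm (ho : Od g) (h : g * d * g⁻¹ = d ∨ g * d * g⁻¹ = d⁻¹) : g ∈ Cn d := h.elim Cn_of_conj fun e =>
  ho.mem (k := 1) (Cn_of_conj (by
    rw [pow_one, pow_two, show g * g * d * (g * g)⁻¹ = g * (g * d * g⁻¹) * g⁻¹ by group, e, ← conj_inv, e, inv_inv]))

theorem quad_O (h3 : (3 : K) = 0) (hD : ρ.L d D) (e : (D - 1) * (D - 1) = 0) : ρ.O d D := ⟨hD, 3, by decide, by
  have : D ^ 3 - 1 = (D - 1) * ((D - 1) * (D - 1)) + (3 : K) • ((D - 1) * (D - 1)) + (3 : K) • (D - 1) := by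
    simp only [show (3 : K) = 1 + 1 + 1 by norm_num, add_smul, one_smul]; noncomm_ring
  rw [← sub_eq_zero, this, e, h3]; simp⟩

theorem com_eq (hA : ρ.L a A) (hB : ρ.L b B) : A * B * A⁻¹ * B⁻¹ * (B * A) = A * B := by
  rw [mul_assoc _ B⁻¹, li' hB.nz, mul_assoc, li hA.nz, mul_one]

theorem Gm.oa_q0 [Finite K] (h : ρ.Gm) (hX : ρ.L x (U0 K)) (hH : H ≤ Cn x) (ho : Odd (Nat.card H)) (ha : a ∈ H)
    (hb : b ∈ H) : a * b = b * a := by
  have u1 : U0 K ≠ 1 := fun e => by simpa [U0] using congrFun (congrFun e 0) 2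
  obtain ⟨h3, sx⟩ := h.sq x _ hX u1 U0_sq
  have oX := quad_O h3 hX U0_sq
  have cm : ∀ y ∈ H, ∀ Y, ρ.L y Y → Y * U0 K = U0 K * Y := fun y hy Y hY => oX.comm hY (mem_Cn.1 (hH hy)).symm
  have q : ∀ y ∈ H, ∀ Y, ρ.L y Y → Q0 Y := fun y hy Y hY => comm_U0 (cm y hy Y hY)
  have qx : Q0 (U0 K) := comm_U0 rfl
  have bk : ρ.Bk H b1 := ⟨b1_smul, b1_one, fun x _ y hy X Y _ hY => b1_mul X (q y hy Y hY).1⟩
  obtain ⟨n0, h0, hn⟩ := bk.sq ho
  have tm : ∀ y ∈ H, ∀ z ∈ H, ∀ Y Z, ρ.L y Y → ρ.L z Z → th (Y * Z) = th Y + th Z := fun y hy z hz Y Z hY hZ =>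
    th_mul (q y hy Y hY) (q z hz Z hZ) hY.nz hZ.nz
  have mc : ∀ {a b}, a ∈ H → b ∈ H → a * b * a⁻¹ * b⁻¹ ∈ H := fun ha hb =>
    mul_mem (mul_mem (mul_mem ha hb) (inv_mem ha)) (inv_mem hb)
  have tc : ∀ a ∈ H, ∀ b ∈ H, ∀ A B, ρ.L a A → ρ.L b B → th (A * B * A⁻¹ * B⁻¹) = 0 := fun a ha b hb A B hA hB => by
    have := tm _ (mc ha hb) _ (mul_mem hb ha) _ _ ((hA.conj hB).mul hB.inv) (hB.mul hA)
    rw [com_eq hA hB, tm _ ha _ hb _ _ hA hB, tm _ hb _ ha _ _ hB hA] at this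
    linear_combination -this
  have t0 : ∀ y ∈ H, ∀ Y, ρ.L y Y → th Y = 0 → (Y - 1) * (U0 K - 1) = 0 → (U0 K - 1) * (Y - 1) = 0 → y = 1 :=
    fun y hy Y hY t e1 e2 => by
      have k : ∀ y Y, ρ.L y Y → y = x → th Y = 2 := fun y Y hY e => by
        obtain ⟨c, c4, rfl⟩ := hX.uniq (e ▸ hY)
        exact th_U0 (by rintro rfl; simp at c4)
      rcases sx y Y hY e1 e2 with e | e | e
      · exact e
      · exact absurd (t.symm.trans (k y Y hY e)).symm h.two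
      · have := tm _ hy _ (inv_mem hy) _ _ hY hY.inv
        rw [ri hY.nz, th_one, t, k _ _ hY.inv (by rw [e, inv_inv]), zero_add] at this
        exact absurd this.symm h.two
  have qd : ∀ d D, ρ.Sq H d D → th D = 0 ∧ (D - 1) * (D - 1) = 0 := fun d D s => by
    have t : th D = 0 := by
      obtain ⟨a, ha, b, hb, A, B, hA, hB, rfl, rfl⟩ := s
      have l := (hA.conj hB).mul hB.inv
      rw [tm _ (mc ha hb) _ (mc ha hb) _ _ l l, tc a ha b hb A B hA hB, add_zero]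
    obtain ⟨s', e⟩ := hn d D s
    obtain ⟨k1, k2⟩ := q0_cube h3 (q d s.mem.1 D s.mem.2) e (by simp [h0])
    obtain ⟨c, -, e'⟩ := (s.mem.2.pow 3).of_one (h.per _ _ 1 (s.mem.2.pow 3) k1)
    exact ⟨t, k2 c e' t⟩
  by_contra n
  obtain ⟨d, D, d1, s⟩ := Sq.exists ρ ho ha hb n
  have c0 : ∀ d D, ρ.Sq H d D → (D - 1) * (U0 K - 1) = (U0 K - 1) * (D - 1) := fun d D s => by
    simp only [mul_sub, sub_mul, cm d s.mem.1 D s.mem.2, mul_one, one_mul]; abel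
  have p0 : ∀ d D, ρ.Sq H d D → d ≠ 1 → (U0 K - 1) * (D - 1) ≠ 0 := fun d D s d1 e =>
    d1 (t0 d s.mem.1 D s.mem.2 (qd d D s).1 ((c0 d D s).trans e) e)
  have oD := quad_O h3 s.mem.2 (qd d D s).2
  have hd : ∀ g ∈ H, g ∈ Cn d := fun g hg => by
    obtain ⟨D', s'⟩ := s.conj hg
    have d1' : g * d * g⁻¹ ≠ 1 := by simpa
    have l := (s.mem.2.conj s'.mem.2).mul s'.mem.2.inv
    have cc : d * (g * d * g⁻¹) = g * d * g⁻¹ * d := by
      obtain ⟨s1, e1⟩ := hn _ _ s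
      obtain ⟨s2, e2⟩ := hn _ _ s'
      have e := bk.mul _ (mc s.mem.1 s'.mem.1) _ (mul_mem s'.mem.1 s.mem.1) _ _ l (s'.mem.2.mul s.mem.2)
      have dn := left_ne_zero_of_mul_eq_one (bk.inv (mul_mem s'.mem.1 s.mem.1) (s'.mem.2.mul s.mem.2))
      rw [com_eq s.mem.2 s'.mem.2, show b1 (D * D') = 1 * b1 (D' * D) by
        rw [bk.mul _ s.mem.1 _ s'.mem.1 _ _ s.mem.2 s'.mem.2, bk.mul _ s'.mem.1 _ s.mem.1 _ _ s'.mem.2 s.mem.2, e1, e2]
        simp [mul_add, add_mul, h0]; abel] at e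
      have e' := ((Matrix.isUnit_iff_isUnit_det _).2 dn.isUnit).mul_right_cancel e
      obtain ⟨k1, k2⟩ := q0_prod (q _ (mc s.mem.1 s'.mem.1) _ l) e'.symm
      exact mul_inv_eq_iff_eq_mul.1 (mul_inv_eq_one.1 (t0 _ (mc s.mem.1 s'.mem.1) _ l (tc _ s.mem.1 _ s'.mem.1 _ _ s.mem.2 s'.mem.2) k1 k2))
    have c1 : (D' - 1) * (D - 1) = (D - 1) * (D' - 1) := by
      simp only [mul_sub, sub_mul, oD.comm s'.mem.2 cc.symm, mul_one, one_mul]; abel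
    have e := ((cyc_three h.two U0_sq (qd d D s).2 (qd _ _ s').2 (c0 d D s).symm (c0 _ _ s') c1).resolve_left
      (p0 d D s d1)).resolve_left (p0 _ _ s' d1')
    exact fix_of_pm (Od.of_mem ho hg) (((h.sq d D s.mem.2 (mt oD.eq_one.2 d1) (qd d D s).2).2 _ _ s'.mem.2
      (c1.trans e) e).resolve_left d1')
  obtain ⟨A, hA⟩ := ρ.exL a
  obtain ⟨B, hB⟩ := ρ.exL b
  have k : ∀ {X Y : M4 K}, X * Y = Y * X → X * (Y - 1) = (Y - 1) * X := fun e => by simp [mul_sub, sub_mul, e]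
  exact n (hA.comm_of hB (cyc_comm U0_sq (qd d D s).2 (c0 d D s).symm (p0 d D s d1) (k (cm a ha A hA))
    (k (oD.comm hA (mem_Cn.1 (hd a ha)).symm)) (k (cm b hb B hB)) (k (oD.comm hB (mem_Cn.1 (hd b hb)).symm))))

theorem Gm.oa_quad [Finite K] (h : ρ.Gm) (hX : ρ.L x X) (x1 : x ≠ 1) (e : (X - 1) * (X - 1) = 0) (hH : H ≤ Cn x)
    (ho : Odd (Nat.card H)) (ha : a ∈ H) (hb : b ∈ H) : a * b = b * a := by
  obtain ⟨Q, hQ, e'⟩ := nf_quad e fun k => x1 (h.per x X 1 hX (by rwa [one_smul]))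
  exact (h.cj hQ).oa_q0 (hX.cj hQ e') hH ho ha hb

theorem Gm.oa_three [Finite T] (h : ρ.Gm) {p : ℕ} (hp : p.Prime) (p0 : (p : K) = 0) (hX : ρ.O x (U31 K)) (ha : a ∈ Cn x)
    (hb : b ∈ Cn x) : a * b = b * a := by
  have k : ∀ y ∈ Cn x, ∀ Y, ρ.L y Y → ∃ a b c d f : K, Y = !![a, b, d, c; 0, a, 0, b; 0, 0, a, f; 0, 0, 0, a] := fun y hy Y hY => by
    obtain ⟨a, b, c, d, f, g, eY⟩ := comm_U31 (hX.comm hY (mem_Cn.1 hy).symm)
    refine ⟨a, b, c, d, f, ?_⟩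
    obtain ⟨j, hj⟩ : ∃ j, p ^ 2 = 3 + j := ⟨p ^ 2 - 3, by have := hp.two_le; have : 4 ≤ p ^ 2 := by nlinarith
                                                          omega⟩
    obtain ⟨c', -, e'⟩ := (hY.pow (p ^ 2)).of_one (h.per _ _ (a ^ p ^ 2) (hY.pow _) (by
      rw [← sub_pow_p hp p0 Y a 2, hj, pow_add]; exact (rk1_cube eY).mul_right _))
    have := Fact.mk hp
    have := (CharP.charP_iff_prime_eq_zero (R := K) hp).2 p0
    have f2 := pow_31 eY (p ^ 2)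
    rw [e'] at f2
    have : (g - a) ^ p ^ 2 = 0 := by rw [sub_pow_char_pow, ← f2.1, ← f2.2.1]; simp
    rw [eY, sub_eq_zero.1 (pow_eq_zero_iff (by omega) |>.1 this)]
  obtain ⟨A, hA⟩ := ρ.exL a
  obtain ⟨B, hB⟩ := ρ.exL b
  refine mul_inv_eq_iff_eq_mul.1 (mul_inv_eq_one.1 (h.per _ _ 1 ((hA.conj hB).mul hB.inv) ?_))
  have : A * B * A⁻¹ * B⁻¹ - (1 : K) • 1 = (A * B - B * A) * (A⁻¹ * B⁻¹) := by
    rw [sub_mul, mul_assoc B, ri' hA.nz, ri hB.nz, one_smul, mul_assoc (A * B)]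
  obtain ⟨a', b', c', d', f', e1⟩ := k b hb B hB
  obtain ⟨a, b, c, d, f, e2⟩ := k a ha A hA
  have e : A * B - B * A = vecMulVec ![d * f' - d' * f, 0, 0, 0] ![0, 0, 0, 1] := by rw [e1, e2]; mat4
  rw [this, e]
  exact (rk1_vmv _ _).mul_right _

theorem Gm.oa_bd [Finite K] (h : ρ.Gm) (q : ∀ y ∈ H, ∀ Y, ρ.L y Y → UL Y ∧ UR Y) (ho : Odd (Nat.card H)) (ha : a ∈ H)
    (hb : b ∈ H) : a * b = b * a := by
  obtain ⟨n1, h1, k1⟩ := Bk.sq (ρ := ρ) ⟨b1_smul, b1_one, fun x _ y hy X Y _ hY => b1_mul X (q y hy Y hY).1⟩ ho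
  obtain ⟨n2, h2, k2⟩ := Bk.sq (ρ := ρ) ⟨b2_smul, b2_one, fun x hx y _ X Y hX _ => b2_mul (q x hx X hX).1 Y⟩ ho
  have pr : ∀ d D d' D', ρ.Sq H d D → ρ.Sq H d' D' → (D - 1) * (D' - 1) = 0 := fun d D d' D' s s' => by
    have q1 := q _ s.mem.1 _ s.mem.2
    have q2 := q _ s'.mem.1 _ s'.mem.2
    obtain ⟨_, e1⟩ := k1 _ _ s
    obtain ⟨_, e2⟩ := k1 _ _ s'
    obtain ⟨_, e3⟩ := k2 _ _ s
    obtain ⟨_, e4⟩ := k2 _ _ s'
    refine bd_ext ((UL.sub1 q1.1).mul (UL.sub1 q2.1)) (q1.2.sub1.mul q2.2.sub1) ?_ ?_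
    · rw [b1_mul _ (UL.sub1 q2.1), b1_sub, b1_sub, e1, e2, b1_one]; simp [h1]
    · rw [b2_mul (UL.sub1 q1.1), b2_sub, b2_sub, e3, e4, b2_one]; simp [h2]
  by_contra n
  obtain ⟨d, D, d1, s⟩ := Sq.exists ρ ho ha hb n
  refine n (h.oa_quad s.mem.2 d1 (pr _ _ _ _ s s) (fun g hg => ?_) ho ha hb)
  obtain ⟨D', s'⟩ := s.conj hg
  exact fix_of_pm (Od.of_mem ho hg) (((h.sq d D s.mem.2 (fun e => d1 (s.mem.2.sc (e.trans (one_smul _ _).symm)))
    (pr _ _ _ _ s s)).2 _ _ s'.mem.2 (pr _ _ _ _ s' s) (pr _ _ _ _ s s')).resolve_left (by simpa))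

theorem Gm.oa [Finite T] [Finite K] (h : ρ.Gm) : OA T := fun x H x1 hH ho a ha b hb => by
  obtain ⟨r, k, hr, y1, yr, -⟩ := exists_prime_pow x1
  replace hH : H ≤ Cn (x ^ k) := fun g hg => pow_mem_Cn (hH hg) k
  generalize x ^ k = y at *
  by_cases r0 : (r : K) = 0
  · obtain ⟨Y, hY, e⟩ := ρ.exO (hr.odd_of_ne_two (by rintro rfl; exact h.two r0)) yr
    have n4 := nil_of_pow (k := 1) hr r0 (by simpa using e)
    by_cases n3 : (Y - 1) ^ 3 = 0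
    · by_cases n2 : (Y - 1) * (Y - 1) = 0
      · exact h.oa_quad hY.1 y1 n2 hH ho ha hb
      obtain ⟨Q, hQ, e'⟩ := nf_three n3 n2
      exact (h.cj hQ).oa_three hr r0 (hY.cj hQ e') (hH ha) (hH hb)
    obtain ⟨A, hA⟩ := ρ.exL a
    obtain ⟨B, hB⟩ := ρ.exL b
    have k : ∀ {X Y : M4 K}, X * Y = Y * X → X * (Y - 1) = (Y - 1) * X := fun e => by simp [mul_sub, sub_mul, e]
    exact hA.comm_of hB (reg_comm n4 n3 (k (hY.comm hA (mem_Cn.1 (hH ha)).symm)) (k (hY.comm hB (mem_Cn.1 (hH hb)).symm)))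
  obtain ⟨Q, hQ, d, l, e⟩ := h.blk y1 r0 yr
  refine (h.cj hQ).oa_bd (fun g hg G hG => comm_bd e.1 e.2.1 e.2.2.1 e.2.2.2 ?_) ho ha hb
  obtain ⟨G', hG', -⟩ := (ρ.cj Q hQ).exO ho (pow_card_mem hg)
  obtain ⟨c, -, rfl⟩ := hG'.1.uniq hG
  rw [Matrix.smul_mul, Matrix.mul_smul, hG'.comm l (mem_Cn.1 (hH hg))]

end PR

end Cfsg.Agent.H1.N1
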