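import Cfsg.Agent.H8.ArR

/-! The class equations for a dihedral centraliser. -/

set_option autoImplicit false

namespace Cfsg.Agent.H1.N1

open Finset

theorem rho_le {ι : Type*} {s t : Finset ι} {e n : ι → ℕ} {c N : ℕ} (h : AR s e n c N) (ht : t ⊆ s) :
    1 + 2 * rho t e n ≤ ∏ i ∈ t, n i := by
  classical
  induction t using Finset.induction_on with
  | empty => simp [rho]
  | insert a t ha ih =>
    have := ih ((subset_insert _ _).trans ht)
    obtain ⟨u, -, e1, -, e2⟩ := H8.Ar.term h (ht (mem_insert_self a t))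
    have e3 := Nat.mul_le_mul_right u (h.two a (ht (mem_insert_self a t)))
    rw [prod_insert ha, e1]
    unfold rho at this ⊢
    rw [sum_filter] at this ⊢
    rw [sum_insert ha, e2]
    generalize ∑ i ∈ t, (if 2 ∣ e i then (n i - 1) / e i else 0) = r at *
    split_ifs <;> nlinarith [Nat.mul_le_mul e3 this, Nat.zero_le (u * r), Nat.zero_le (e a * u * ∏ i ∈ t, n i)]

theorem chkD5 : ∀ x < 73, ∀ y < 73, x * y * (x * y) ≠ 22 * (x * y) + 47 + 18 * x + 50 * y := by decide +kernel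

theorem chkD4 : ∀ x < 14, ∀ y < 14, 4 * (x * y) * (x * y) + 2 * y * (x * y) ≠ 16 + 16 * y + 18 * x + 20 * (x * y) := by
  decide +kernel

theorem chkD7 : ∀ v < 33, ∀ m < 69, v * 2384 + 32 ≠ v * (2 * m * v + m * m * v + 32 * m) := by decide +kernel

theorem finD {k x e u l v : ℕ} (k2 : 2 ≤ k) (e2 : 2 ≤ e) (e4 : e ≤ 4) (l5 : 5 ≤ l) (oa : (e * u + 1) % 2 = 1)
    (oq : (l * v + 1) % 2 = 1) (ev : v ≠ 0 → 2 ∣ l → l ∣ 4 * k)
    (E1 : 4 * k * ((2 * x + 2) * (e * u + 1) * (l * v + 1) + u * (6 * x + 7) * (l * v + 1) + v * (6 * x + 7) * (e * u + 1)) + 1 =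
      (2 * k + 1) * ((6 * x + 7) * (e * u + 1) * (l * v + 1)))
    (E2 : (6 * x + 7) * (e * u + 1) * (l * v + 1) + 2 * k =
      4 * k ^ 2 + 1 + 4 * k * ((if 2 ∣ e then u else 0) + (if 2 ∣ l then v else 0))) :
    4 * k * ((6 * x + 7) * (e * u + 1) * (l * v + 1)) = 168 := by
  have E3 : 2 * ((2 * x + 2) * (e * u + 1) * (l * v + 1) + u * (6 * x + 7) * (l * v + 1) + v * (6 * x + 7) * (e * u + 1)) + 1 =
      (6 * x + 7) * (e * u + 1) * (l * v + 1) + 2 * k + 2 * ((if 2 ∣ e then u else 0) + (if 2 ∣ l then v else 0)) :=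
    Nat.eq_of_mul_eq_mul_left (by omega : 0 < 2 * k) (by zify at E1 E2 ⊢; linear_combination E1 + E2)
  clear E1
  rcases Nat.eq_zero_or_pos v with rfl | v0
  · rcases Nat.eq_zero_or_pos u with rfl | u0
    · simp at E3; omega
    obtain ⟨u, rfl⟩ : ∃ w, u = w + 1 := ⟨u - 1, by omega⟩
    interval_cases e <;> simp at E2 E3
    · have hk : k = 2 + 3 * x + 3 * u + 4 * (x * u) := by nlinarith
      subst hk
      have : x = 0 ∧ u = 0 := by
        constructor <;> nlinarith [Nat.zero_le (x * u), Nat.zero_le (x * x), Nat.zero_le (u * u),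
          Nat.zero_le (x * u * u), Nat.zero_le (x * x * u), Nat.zero_le (x * u * (x * u))]
      obtain ⟨rfl, rfl⟩ := this
      simp
    · exfalso
      obtain ⟨u, rfl⟩ : ∃ w, u = 2 * w + 1 := ⟨u / 2, by omega⟩
      have hk : k = 4 + 5 * x + 5 * u + 6 * (x * u) := by nlinarith
      subst hk
      nlinarith [Nat.zero_le (x * u), Nat.zero_le (x * x), Nat.zero_le (u * u),
        Nat.zero_le (x * u * u), Nat.zero_le (x * x * u), Nat.zero_le (x * u * (x * u))]
    · exfalso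
      have hk : k + 1 = x * (2 * u + 1) := by nlinarith
      have x0 : 0 < x := Nat.pos_of_ne_zero (by rintro rfl; omega)
      have b1 : x ≤ k + 1 := hk ▸ Nat.le_mul_of_pos_right _ (by omega)
      have b2 : 2 * u + 1 ≤ k + 1 := hk ▸ Nat.le_mul_of_pos_left _ x0
      have b3 : k < 13 := by nlinarith [Nat.zero_le (k * u)]
      exact chkD4 x (by omega) (2 * u + 1) (by omega) (by rw [← hk]; nlinarith)
  exfalso
  replace ev := ev v0.ne'
  obtain ⟨q, hq⟩ : ∃ q, q = l * v + 1 := ⟨_, rfl⟩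
  have q6 : l + 1 ≤ q := by nlinarith
  have r3 : (if 2 ∣ l then v else 0) * 6 ≤ q := by
    split_ifs with p
    · have : 6 ≤ l := by omega
      nlinarith
    · omega
  rcases Nat.eq_zero_or_pos u with rfl | u0
  · obtain rfl : l = 5 := by
      by_contra n
      have : 6 * v ≤ l * v := Nat.mul_le_mul_right _ (by omega)
      simp only [mul_zero, zero_add, mul_one, zero_mul, add_zero, ite_self] at E3
      nlinarith [Nat.mul_le_mul_left (6 * x + 7) this, Nat.zero_le (if 2 ∣ l then v else 0)]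
    simp at E2 E3
    obtain ⟨y, rfl⟩ : ∃ w, v = w + 1 := ⟨v - 1, by omega⟩
    obtain ⟨x, rfl⟩ : ∃ w, x = w + 1 := ⟨x - 1, by
      have : x ≠ 0 := by rintro rfl; omega
      omega⟩
    have hk : 2 * k + 3 = (2 * x + 1) * y := by nlinarith
    have y0 : 0 < y := Nat.pos_of_ne_zero (by rintro rfl; omega)
    have b1 : 2 * x + 1 + y ≤ 2 * k + 4 := by nlinarith [Nat.mul_le_mul_left x y0]
    have b3 : 2 * k + 3 < 73 := by nlinarith
    exact chkD5 (2 * x + 1) (by omega) y (by omega) (by rw [← hk]; nlinarith)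
  rw [← hq] at E2 E3
  obtain ⟨a, ha⟩ : ∃ a, a = e * u + 1 := ⟨_, rfl⟩
  by_cases e3 : e ≤ 3
  · have a7 : 2 * a ≤ 7 * u ∧ 2 * u < a := by interval_cases e <;> omega
    have r2 : (if 2 ∣ e then u else 0) ≤ u := by split_ifs <;> omega
    rw [← ha] at E2 E3
    generalize (if 2 ∣ e then u else 0) = r at *
    generalize (if 2 ∣ l then v else 0) = r' at *
    have k3 : k ≤ 3 := by
      by_contra k3
      have : (6 * x + 7) * a * q ≤ 7 * (2 * k + 2 * (r + r')) := by
        nlinarith [Nat.mul_le_mul_left ((6 * x + 7) * q) a7.1, Nat.zero_le (x * a * q), Nat.zero_le (v * (6 * x + 7) * a)]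
      nlinarith [Nat.mul_le_mul_right (r + r') (not_le.1 k3)]
    nlinarith [Nat.mul_le_mul_right (r + r') k3, Nat.zero_le (x * a * q), Nat.mul_le_mul (show 3 ≤ a by omega) (show 6 ≤ q by omega)]
  obtain rfl : e = 4 := by omega
  obtain ⟨u, rfl⟩ : ∃ w, u = w + 1 := ⟨u - 1, by omega⟩
  by_cases z : x = 0 ∧ u = 0
  · obtain ⟨rfl, rfl⟩ := z
    by_cases p : 2 ∣ l <;> simp [p] at E2 E3
    · obtain ⟨m, hm⟩ : ∃ m, l + m = 68 := ⟨68 - l, by
        have : l < 68 := by_contra fun n => by nlinarith [Nat.mul_le_mul_right v (not_lt.1 n)]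
        omega⟩
      have e1 : m * v = 2 * k + 2 := by zify at *; linear_combination v * hm + E3 + hq
      have e2 : v * 2384 + 32 = v * (2 * m * v + m * m * v + 32 * m) := by
        zify at *; linear_combination E2 + 35 * E3 - (2 * v + m * v + 2 * k + 34) * e1
      have := Nat.le_of_dvd (by decide) ((Nat.dvd_add_right (Dvd.intro _ rfl)).1 ⟨_, e2⟩)
      exact chkD7 v (by omega) m (by omega) e2
    · obtain ⟨j, i, i5, rfl⟩ : ∃ j i, i < 5 ∧ k = 5 * j + i := ⟨k / 5, k % 5, by omega, by omega⟩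
      interval_cases i <;> ring_nf at E2 <;> omega
  have r3 : (if 2 ∣ l then v else 0) ≤ v := by split_ifs <;> omega
  generalize (if 2 ∣ l then v else 0) = r at *
  simp only [show 2 ∣ 4 by decide, if_true] at E2 E3
  obtain ⟨D, hD⟩ : ∃ D, 4 * (x * u) + 2 * x + 2 * u = D + 2 := ⟨4 * (x * u) + 2 * x + 2 * u - 2, by omega⟩
  obtain ⟨P, hP⟩ : ∃ P, (6 * x + 7) * (4 * (u + 1) + 1) = P := ⟨_, rfl⟩
  have e1 : (D + 1) * q + 2 * v * P + 1 = 2 * k + 2 * (u + 1 + r) := by
    zify at *; linear_combination E3 - q * hD - 2 * v * hP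
  have e2 : P * q = 1 + 2 * k * ((D + 1) * q + 2 * v * P) := by
    zify at *; linear_combination E2 - q * hP - 2 * k * e1
  have e3 : 2 * k < P := Nat.lt_of_mul_lt_mul_right (a := q) (by nlinarith [Nat.zero_le (k * D * q), Nat.zero_le (k * v * P)])
  have e4 : 28 * u + 35 ≤ P := by nlinarith [Nat.zero_le (x * u)]
  nlinarith [Nat.zero_le (D * q), Nat.mul_le_mul v0 (show 1 ≤ P - 1 by omega), Nat.mul_le_mul_right (P - 1) v0,
    Nat.sub_add_cancel (show 1 ≤ P by omega)]

theorem arD : ArD := fun ι s e n k N h k0 h3 hN ht E2 => by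
  classical
  have pN : (0 : ℚ) < (N : ℚ)⁻¹ := inv_pos.2 (by exact_mod_cast h.pos)
  have k2 : 2 ≤ k := by
    by_contra k2
    obtain rfl : k = 1 := by omega
    obtain ⟨j, hj, e3⟩ := h3
    have a1 := rho_le h (erase_subset j s)
    have a2 := h.odd j hj
    have a3 := h.gt j hj
    have a4 := h.dvd j hj
    have : rho (s.erase j) e n = rho s e n := by
      unfold rho; rw [filter_erase, erase_eq_of_notMem (by simp [e3])]
    rw [← mul_prod_erase s n hj] at E2
    rw [e3] at a4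
    nlinarith [Nat.mul_le_mul (show 7 ≤ n j by omega) a1]
  obtain ⟨e1, u1, e2, u, l, v, -, -, a1, a2, a3, s1, s2, s3, -, -, -, p, t, r, z, -⟩ := H8.Ar.red h (by
    have : (k : ℚ)⁻¹ ≤ 2⁻¹ := inv_anti₀ (by norm_num) (by exact_mod_cast k2)
    linarith)
  obtain ⟨rfl, u0⟩ := z h3
  obtain ⟨x, rfl⟩ : ∃ x, u1 = 2 * x + 2 := ⟨u1 / 2 - 1, by have := s1.odd; omega⟩
  rw [show 3 * (2 * x + 2) + 1 = 6 * x + 7 by ring] at p t
  rw [p] at hN E2
  rw [hN]
  refine finD k2 a1 a2 a3 s2.odd s3.odd s3.ev ?_ (by simpa [r] using E2)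
  rw [t, hN] at ht
  qify
  push_cast at ht
  field_simp at ht
  linear_combination ht / 2

end Cfsg.Agent.H1.N1
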