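import Cfsg.Agent.H1.N2a

/-! The class equation and the count of products of two involutions. -/

set_option autoImplicit false

namespace Cfsg.Agent.H1.N1

open Subgroup Cfsg.Agent.MH Cfsg.Agent.H1.Mit

variable {T : Type*} [Group T] [Finite T] {Ro : T → Prop} {p e n : ℕ} {x y z g s t u v : T}

theorem LG.oo_comm (h : LG Ro p) (hx : x ∈ OO T) {a b : T} (ha : a ∈ Cn x) (hb : b ∈ Cn x) : a * b = b * a :=
  h.oa x _ (OO_ne hx) le_rfl (OO_odd hx) a ha b hb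

theorem LG.gd (h : LG Ro p) : Gd T := fun _ hx _ hy e => le_antisymm
  (fun _ a => mem_Cn.2 (h.oo_comm hy (mem_Cn_comm.1 e) a)) fun _ a => mem_Cn.2 (h.oo_comm hx e a)

theorem LG.not_cc (h : LG Ro p) (hx : x ∈ OO T) (n : x ∉ CC T) : ∃ y ∈ Cn x, y ≠ 1 ∧ Od y ∧ y ∉ OO T := by
  by_contra k
  push Not at k
  exact n ⟨hx, fun y hy h1 => h.gd x hx y (k y hy h1 (Od.of_mem (OO_odd hx) hy)) hy⟩

theorem LG.syl_comm (h : LG Ro p) {r : ℕ} (hr : r.Prime) (o : Odd r) (R : Sylow r T) :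
    ∀ x ∈ R, ∀ y ∈ R, x * y = y * x := fun x hx y hy => by
  have := Fact.mk hr
  by_cases e : (R : Subgroup T) = ⊥
  · rw [show x = 1 from mem_bot.1 (e ▸ hx)]; simp
  obtain ⟨z, -, e1, e2⟩ := exists_center hr R.2 e
  obtain ⟨k, hk⟩ := IsPGroup.iff_card.1 R.2
  exact h.oa z _ (by rintro rfl; exact hr.one_lt.ne (by simpa using e1)) e2 (hk ▸ o.pow) x hx y hy

theorem card_dvd_of_Cn {M : ℕ} (h : ∀ x : T, x ≠ 1 → Nat.card (Cn x) ∣ M) : Nat.card T ∣ M :=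
  (Nat.dvd_iff_prime_pow_dvd_dvd _ _).2 fun r k hr hd => by
    rcases k with _ | k
    · simp
    have := Fact.mk hr
    obtain ⟨P, hP⟩ := Sylow.exists_subgroup_card_pow_prime r hd
    obtain ⟨z, -, e1, e2⟩ := exists_center hr (IsPGroup.of_card hP) (by
      rintro rfl; exact (Nat.one_lt_pow k.succ_ne_zero hr.one_lt).ne (card_bot.symm.trans hP))
    exact hP ▸ (card_dvd_of_le e2).trans (h z (by rintro rfl; exact hr.one_lt.ne (by simpa using e1)))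

omit [Finite T] in
theorem inv_of_sr (hs : Inv s) (h : Inv (s * g)) : s * g * s⁻¹ = g⁻¹ :=
  eq_inv_of_mul_eq_one_left (by rw [hs.inv_eq, mul_assoc (s * g), h.2])

theorem ec_inv (h : x ∈ CC T) {j : T} (hj : Inv j) (hN : j ∈ Nm (Cn x)) : j ∉ Cn x ∧ ∀ y ∈ Cn x, j * y * j⁻¹ = y⁻¹ :=
  have jH : j ∉ Cn x := nv_eq_zero.1 h.1.2 j hj
  ⟨jH, fun _ hy => inverts hj.2 hN hy (fun _ a _ b => h.2.comm a b) fun y hy e => by_contra fun k => jH (h.2 y hy k ▸ e)⟩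

theorem sr_ec (h : Ec x e n) : sr x = if 2 ∣ e then n else 0 := by
  have x1 := OO_ne h.1.1
  have nm : ∀ s : T, Inv s → Inv (s * x) → s ∈ Nm (Cn x) := fun s a b =>
    h.1.2.mem_Nm (self_mem_Cn x) x1 (by rw [inv_of_sr a b]; exact inv_mem (self_mem_Cn x))
  split_ifs with k
  · obtain ⟨j, hN, hj⟩ := exists_mem_inv (H := Nm (Cn x)) (h.2.2 ▸ k.mul_left _)
    obtain ⟨jH, iv⟩ := ec_inv h.1 hj hN
    have inv : ∀ y ∈ Cn x, Inv (y * j) := fun y hy => ⟨fun e => jH (by rw [eq_inv_of_mul_eq_one_right e]; exact inv_mem hy), by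
      have := iv y hy
      rw [hj.inv_eq] at this
      rw [mul_assoc, ← mul_assoc j, this, mul_inv_cancel]⟩
    rw [sr, ← h.2.1, ← ncard_coset (Cn x) j]
    refine congrArg _ (Set.ext fun s => ⟨fun a => Cn_of_conj ?_, fun a => ⟨by simpa using inv _ a, ?_⟩⟩)
    · rw [show s * j⁻¹ * x * (s * j⁻¹)⁻¹ = s * (j⁻¹ * x * j⁻¹⁻¹) * s⁻¹ by group, hj.inv_eq, iv x (self_mem_Cn x), ← conj_inv,
        inv_of_sr a.1 a.2, inv_inv]
    · have := inv _ (mul_mem a (inv_mem (self_mem_Cn x)))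
      rwa [← iv x (self_mem_Cn x), show s * j⁻¹ * (j * x * j⁻¹) * j = s * x by group] at this
  · refine (Set.ncard_eq_zero (Set.toFinite _)).2 (Set.eq_empty_iff_forall_notMem.2 fun s a => k ?_)
    exact (Nat.Coprime.dvd_mul_left (Nat.coprime_two_left.2 (Nat.odd_iff.2 h.odd))).1 (h.2.2 ▸ two_dvd_card a.1 (nm s a.1 a.2))

theorem ev_ec (hc : Cls t) (h : Ec x e n) (k : 2 ∣ e) : e ∣ Nat.card (Cn t) := by
  obtain ⟨j, hN, hj⟩ := exists_mem_inv (H := Nm (Cn x)) (h.2.2 ▸ k.mul_left _)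
  obtain ⟨jH, iv⟩ := ec_inv h.1 hj hN
  rw [← card_Cn_inv hc hj]
  refine dvd_trans (Dvd.intro 1 ?_) (card_dvd_of_le (inf_le_right : Nm (Cn x) ⊓ Cn j ≤ Cn j))
  refine Nat.eq_of_mul_eq_mul_left (h.2.1 ▸ Nat.card_pos : 0 < n) ?_
  rw [mul_one, ← h.2.2, ← h.2.1, ← Nat.card_prod]
  refine (Nat.card_congr (Equiv.ofBijective (fun a => ⟨a.1 * a.2, mul_mem (le_normalizer a.1.2) a.2.2.1⟩) ⟨?_, ?_⟩)).symm
  · rintro ⟨⟨a, ha⟩, b, hb⟩ ⟨⟨c, hc⟩, d, hd⟩ e
    have e1 : c⁻¹ * a = d * b⁻¹ := by rw [inv_mul_eq_iff_eq_mul, ← mul_assoc, eq_mul_inv_iff_mul_eq]; exact congrArg Subtype.val e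
    have m := mul_mem (inv_mem hc) ha
    have e2 : c⁻¹ * a = 1 := (Od.of_mem (OO_odd h.1.1) m).eq_one (mul_eq_one_iff_eq_inv.2 (by
      rw [← iv _ m, conj_eq_of_Cn (mem_Cn_comm.1 (e1 ▸ mul_mem hd.2 (inv_mem hb.2)))]))
    exact Prod.ext (Subtype.ext (inv_mul_eq_one.1 e2).symm) (Subtype.ext (mul_inv_eq_one.1 (e1 ▸ e2)).symm)
  · rintro ⟨g, hg⟩
    have m : g * j * g⁻¹ * j ∈ Cn x := Cn_of_conj (by
      rw [show g * j * g⁻¹ * j * x * (g * j * g⁻¹ * j)⁻¹ = g * j * g⁻¹ * (j * x * j⁻¹) * (g * j * g⁻¹)⁻¹ by group,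
        iv x (self_mem_Cn x), (ec_inv h.1 (hj.conj g) (mul_mem (mul_mem hg hN) (inv_mem hg))).2 _ (inv_mem (self_mem_Cn x)),
        inv_inv])
    obtain ⟨m', ⟨r, rfl⟩, e⟩ := Od.of_mem (OO_odd h.1.1) m
    obtain ⟨w, hw, ew⟩ : ∃ w ∈ Cn x, w * w = g * j * g⁻¹ * j := ⟨_, pow_mem m (r + 1), by
      rw [← pow_add, show r + 1 + (r + 1) = 2 * r + 1 + 1 by ring, pow_succ, e, one_mul]⟩
    refine ⟨⟨⟨w, hw⟩, w⁻¹ * g, mul_mem ((Nm (Cn x)).inv_mem (le_normalizer hw)) hg, Cn_of_conj ?_⟩, Subtype.ext (by simp)⟩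
    have := iv w hw
    rw [hj.inv_eq] at this
    calc w⁻¹ * g * j * (w⁻¹ * g)⁻¹ = w⁻¹ * (g * j * g⁻¹ * j) * (j⁻¹ * w * j⁻¹⁻¹) * j⁻¹ := by group
      _ = j := by rw [← ew, inv_inv, hj.inv_eq, this]; group

open Classical in
theorem LG.classes (h : LG Ro p) (ht : Inv t) (hc : Cls t) : ∃ (s : Finset T) (e n : T → ℕ), (∀ i ∈ s, Ec i (e i) (n i)) ∧
    (∀ x ∈ CC T, ∃ i ∈ s, Ec x (e i) (n i)) ∧ AR s e n (Nat.card (Cn t)) (Nat.card T) ∧
    ((CC T).ncard : ℚ) / Nat.card T = tau s e n ∧ ∑ x ∈ (CC T).toFinite.toFinset, sr x = Nat.card T * rho s e n := by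
  have G := h.gd
  let S : Setoid (CC T) := ⟨fun a b => Cj a.1 b.1, fun a => Cj.of_mem (self_mem_Cn _), fun {a b} => G.symm a.2.1 b.2.1,
    fun {a b _} => G.trans a.2.1 b.2.1⟩
  have := Fintype.ofFinite (Quotient S)
  obtain ⟨s, s1, s2, s3⟩ : ∃ s : Finset T, (∀ i ∈ s, i ∈ CC T) ∧ (∀ x ∈ CC T, ∃ i ∈ s, Cj i x) ∧
      ∀ i ∈ s, ∀ j ∈ s, Cj i j → i = j := by
    refine ⟨Finset.univ.image fun q : Quotient S => (q.out : T), by simp, fun x hx => ⟨_, Finset.mem_image_of_mem _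
      (Finset.mem_univ (Quotient.mk S ⟨x, hx⟩)), Quotient.mk_out (s := S) ⟨x, hx⟩⟩, ?_⟩
    simp only [Finset.mem_image, Finset.mem_univ, true_and]
    rintro _ ⟨a, rfl⟩ _ ⟨b, rfl⟩ k
    rw [← a.out_eq, ← b.out_eq, Quotient.sound (s := S) k]
  have ec : ∀ i ∈ s, Ec i (Nat.card (Nm (Cn i)) / Nat.card (Cn i)) (Nat.card (Cn i)) := fun i hi =>
    ⟨s1 i hi, rfl, (Nat.mul_div_cancel' (card_dvd_of_le le_normalizer)).symm⟩
  generalize he : (fun i : T => Nat.card (Nm (Cn i)) / Nat.card (Cn i)) = e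
  generalize hn : (fun i : T => Nat.card (Cn i)) = n
  replace ec : ∀ i ∈ s, Ec i (e i) (n i) := by rw [← he, ← hn]; exact ec
  clear he hn
  have co : ∀ i ∈ s, ∀ j ∈ s, i ≠ j → (n i).Coprime (n j) := fun i hi j hj k => (ec i hi).co G (ec j hj) (mt (s3 i hi j hj) k)
  have gt : ∀ i ∈ s, 1 < n i := fun i hi => by have := (ec i hi).ne; have := (ec i hi).odd; omega
  have sum : ∀ f : T → ℕ, (∀ i ∈ s, ∀ y, Ec y (e i) (n i) → f y = f i) →
      ∑ x ∈ (CC T).toFinite.toFinset, f x = ∑ i ∈ s, {y | y ∈ OO T ∧ Cj i y}.ncard * f i := fun f hf => by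
    rw [show (CC T).toFinite.toFinset = s.biUnion fun i => {y | y ∈ OO T ∧ Cj i y}.toFinite.toFinset by
      ext x
      simp only [Set.Finite.mem_toFinset, Finset.mem_biUnion, Set.mem_setOf_eq]
      exact ⟨fun a => (s2 x a).imp fun i b => ⟨b.1, a.1, b.2⟩, fun ⟨i, a, b, c⟩ => ((ec i a).cj c (OO_ne b)).1⟩,
      Finset.sum_biUnion fun i hi j hj k => Finset.disjoint_left.2 fun y a b => ?_]
    · refine Finset.sum_congr rfl fun i hi => ?_
      rw [Finset.sum_const_nat (m := f i) fun y a => ?_, Set.ncard_eq_toFinset_card]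
      simp only [Set.Finite.mem_toFinset] at a
      exact hf i hi y ((ec i hi).cj a.2 (OO_ne a.1))
    · simp only [Set.Finite.mem_toFinset] at a b
      exact k (s3 i hi j hj (G.trans (s1 i hi).1 a.1 a.2 (G.symm (s1 j hj).1 a.1 b.2)))
  have N0 : (Nat.card T : ℚ) ≠ 0 := by exact_mod_cast Nat.card_pos.ne'
  have two : ∀ i ∈ s, 2 ≤ e i := fun i hi => by
    have k := ec i hi
    have e0 : e i ≠ 0 := fun a => Nat.card_pos.ne' (k.2.2.trans (by rw [a, mul_zero]))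
    have e1 : e i ≠ 1 := fun a => k.1.2.Nm_ne h.perf ((one_lt_card_iff_ne_bot _).1 (k.2.1 ▸ gt i hi))
      (eq_of_le_of_card_ge le_normalizer (by rw [k.2.2, a, mul_one, k.2.1])).ge
    omega
  refine ⟨s, e, n, ec, fun x hx => (s2 x hx).imp fun i a => ⟨a.1, (ec i a.1).cj a.2 (OO_ne hx.1)⟩,
    ⟨fun i hi => (ec i hi).odd, gt, two, fun i hi => (ec i hi).dvd, co,
      fun i hi => (ec i hi).2.1 ▸ (s1 i hi).2.coprime_Cn (Nat.odd_iff.1 (OO_odd (s1 i hi).1)) ht,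
      fun i hi => ev_ec hc (ec i hi), fun i hi j hj a b => by_contra fun k => ?_,
      fun i hi => (ec i hi).2.2 ▸ card_subgroup_dvd_card _, Nat.card_pos⟩, ?_, ?_⟩
  · have := Fact.mk h.pp
    have d : ∀ i ∈ s, 4 < e i → p ∣ n i := fun i hi a => by
      obtain ⟨k, hk⟩ := IsPGroup.iff_card.1 ((h.e4 i (s1 i hi)).resolve_left fun b => by
        rw [(ec i hi).2.2, (ec i hi).2.1] at b
        have := gt i hi
        nlinarith)
      rw [(ec i hi).2.1] at hk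
      exact hk ▸ dvd_pow_self p (by rintro rfl; exact (gt i hi).ne' hk)
    exact h.pp.one_lt.ne' (Nat.eq_one_of_dvd_coprimes (co i hi j hj k) (d i hi a) (d j hj b))
  · have := sum (fun _ => 1) fun _ _ _ _ => rfl
    rw [Finset.sum_const, smul_eq_mul, mul_one, ← Set.ncard_eq_toFinset_card] at this
    rw [this, tau, Nat.cast_sum, Finset.sum_div]
    exact Finset.sum_congr rfl fun i hi => by rw [mul_one, (ec i hi).tau G]
  · rw [sum sr fun i hi y a => (sr_ec a).trans (sr_ec (ec i hi)).symm, rho, Finset.sum_filter, Finset.mul_sum]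
    refine Finset.sum_congr rfl fun i hi => ?_
    rw [sr_ec (ec i hi)]
    split_ifs
    · have k := (ec i hi).tau G
      obtain ⟨m, hm⟩ := (ec i hi).dvd
      have e0 : (e i : ℚ) ≠ 0 := by have := two i hi; positivity
      have e1 : n i = e i * m + 1 := by have := gt i hi; omega
      have n0 : (n i : ℚ) ≠ 0 := by have := gt i hi; positivity
      rw [hm, Nat.mul_div_cancel_left _ (by have := two i hi; omega)]
      rw [div_eq_iff N0] at k
      qify at e1 ⊢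
      rw [k]
      field_simp
      linear_combination e1
    · simp

omit [Finite T] [Group T] in
theorem AR.mul_dvd {s : Finset T} {e n : T → ℕ} {c c' N : ℕ} (h : AR s e n c N) (hc : c' ∣ N) (co : ∀ i ∈ s, (n i).Coprime c') :
    c' * ∏ i ∈ s, n i ∣ N :=
  (Nat.Coprime.prod_right fun i hi => (co i hi).symm).mul_dvd_of_dvd_of_dvd hc (Finset.prod_dvd_of_isRelPrime
    (fun i hi j hj k => Nat.coprime_iff_isRelPrime.1 (h.co i hi j hj k)) fun i hi => (Dvd.intro _ rfl).trans (h.den i hi))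

theorem inv_zpowers (hs : Inv s) (hu : Inv u) (h1 : s ∈ zpowers g) (h2 : u ∈ zpowers g) : s = u := by
  have k : ∀ s : T, Inv s → s ∈ zpowers g → ∃ a, 2 * a = orderOf g ∧ s = g ^ a := fun s hs h => by
    obtain ⟨a, rfl⟩ := mem_powers_iff_mem_zpowers.2 h
    have o := orderOf_pos g
    refine ⟨a % orderOf g, ?_, (pow_mod_orderOf g a).symm⟩
    have := Nat.mod_lt a o
    obtain ⟨c, hc⟩ : orderOf g ∣ 2 * (a % orderOf g) := orderOf_dvd_of_pow_eq_one (by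
      rw [two_mul, pow_add, pow_mod_orderOf]; exact hs.2)
    have n : a % orderOf g ≠ 0 := fun e => hs.1 (by simp only [← pow_mod_orderOf g a, e, pow_zero])
    obtain rfl : c = 1 := by rcases c with _ | _ | c <;> [omega; rfl; nlinarith]
    omega
  obtain ⟨a, a1, rfl⟩ := k s hs h1
  obtain ⟨b, b1, rfl⟩ := k u hu h2
  rw [show a = b by omega]

omit [Finite T] in
theorem B1_conj (k : T) : k * g * k⁻¹ ∈ B1 (k * t * k⁻¹) ↔ g ∈ B1 t := by
  have : ∀ {k g t : T}, g ∈ B1 t → k * g * k⁻¹ ∈ B1 (k * t * k⁻¹) := fun {k g t} h =>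
    ⟨by simpa using h.1, conj_mem_Cn.2 h.2.1, h.2.2.imp (·.conj k) fun ⟨a, e⟩ => ⟨a, by simp only [← e, conj_zpow]⟩⟩
  exact ⟨fun h => by simpa [mul_assoc] using this (k := k⁻¹) h, this⟩

omit [Finite T] in
theorem sr_conj (k g : T) : sr (k * g * k⁻¹) = sr g := by
  unfold sr
  rw [← ncard_conj k]
  refine congrArg _ (Set.ext fun s => ?_)
  have : ∀ s : T, Inv (k * s * k⁻¹) ↔ Inv s := fun s => ⟨fun h => by simpa [mul_assoc] using h.conj k⁻¹, fun h => h.conj k⟩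
  simp only [Set.mem_setOf_eq, conj_mul, this]

namespace U1

variable {β κ φ : ℕ}

theorem nv1 (h : U1 t β κ φ) (o : Od g) (g1 : g ≠ 1) (n : g ∉ OO T) : nv g = 1 := by
  obtain ⟨k, hk⟩ := h.cls.conj_mem fun e => n ⟨mt o.eq_one g1, e⟩
  exact nv_conj k g ▸ h.u1 _ hk (o.conj k) (by simpa)

theorem uniq (h : U1 t β κ φ) (g1 : g ≠ 1) (n : g ∉ OO T) : ∃ u, (Inv u ∧ g ∈ B1 u) ∧ (∀ s : T, Inv s → g ∈ B1 s → s = u) ∧
    Cn g ≤ Cn u := by
  by_cases o : Od g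
  · obtain ⟨u, hu⟩ := Set.ncard_eq_one.1 (h.nv1 o g1 n)
    have m : Inv u ∧ u ∈ Cn g := hu.ge rfl
    exact ⟨u, ⟨m.1, g1, mem_Cn_comm.1 m.2, Or.inl o⟩, fun s a b => hu.le ⟨a, mem_Cn_comm.1 b.2.1⟩, fun x hx =>
      Cn_of_conj (hu.le ⟨m.1.conj x, mul_mem (mul_mem hx m.2) (inv_mem hx)⟩)⟩
  obtain ⟨k, i⟩ := (od_or g).resolve_left o
  exact ⟨_, ⟨i, g1, pow_mem_Cn (self_mem_Cn g) k, Or.inr (npow_mem_zpowers g k)⟩, fun s a b =>
    inv_zpowers a i (b.2.2.resolve_left o) (npow_mem_zpowers g k), fun x hx => pow_mem_Cn hx k⟩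

theorem count (h : U1 t β κ φ) (P : T → Prop) (hP : ∀ k g, P (k * g * k⁻¹) ↔ P g) :
    {g | g ≠ 1 ∧ g ∉ OO T ∧ P g}.ncard = {s : T | Inv s}.ncard * {g | g ∈ B1 t ∧ P g}.ncard := by
  rw [← mul_one {g | g ≠ 1 ∧ g ∉ OO T ∧ P g}.ncard]
  refine ncard_double (fun g s => g ∈ B1 s) _ _ (fun g a => ?_) fun s hs => ?_
  · obtain ⟨u, a1, a2, -⟩ := h.uniq a.1 a.2.1
    exact Set.ncard_eq_one.2 ⟨u, Set.ext fun s => ⟨fun b => a2 s b.1 b.2, by rintro rfl; exact a1⟩⟩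
  obtain ⟨k, rfl⟩ := h.cls s hs
  rw [← ncard_conj k {g | g ∈ B1 (k * s * k⁻¹) ∧ P g}]
  refine congrArg _ (Set.ext fun g => ?_)
  simp only [Set.mem_setOf_eq, B1_conj, hP]
  exact ⟨fun a => ⟨a.2, a.1.2.2⟩, fun a => ⟨⟨a.1.1, fun b => nv_eq_zero.1 b.2 s hs (mem_Cn_comm.1 a.1.2.1), a.2⟩, a.1⟩⟩

theorem cc (h : U1 t β κ φ) (G : LG Ro p) (hx : x ∈ OO T) : x ∈ CC T := by
  by_contra n
  obtain ⟨y, hy, h1, -, n⟩ := G.not_cc hx n
  obtain ⟨u, a, -, b⟩ := h.uniq h1 n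
  exact nv_eq_zero.1 hx.2 u a.1 (mem_Cn_comm.1 (b (mem_Cn_comm.1 hy)))

theorem eqs (h : U1 t β κ φ) (G : LG Ro p) : ∃ (s : Finset T) (e n : T → ℕ), (∀ x ∈ OO T, ∃ i ∈ s, Ec x (e i) (n i)) ∧
    AR s e n (Nat.card (Cn t)) (Nat.card T) ∧ Nat.card T = Nat.card (Cn t) * ∏ i ∈ s, n i ∧
    tau s e n = 1 - β / Nat.card (Cn t) - (Nat.card T : ℚ)⁻¹ ∧ ∏ i ∈ s, n i = 1 + κ * φ + Nat.card (Cn t) * rho s e n := by
  classical
  obtain ⟨s, e, n, -, a2, a3, a4, a5⟩ := G.classes h.inv h.cls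
  have eC : CC T = OO T := Set.ext fun x => ⟨And.left, h.cc G⟩
  rw [eC] at a2 a4
  have hN : Nat.card T = Nat.card (Cn t) * ∏ i ∈ s, n i := Nat.dvd_antisymm (card_dvd_of_Cn fun x x1 => by
    by_cases o : x ∈ OO T
    · obtain ⟨i, hi, k⟩ := a2 x o
      exact k.2.1 ▸ (Finset.dvd_prod_of_mem n hi).mul_left _
    · obtain ⟨u, a, -, b⟩ := h.uniq x1 o
      exact (card_Cn_inv h.cls a.1 ▸ card_dvd_of_le b).mul_right _) (a3.mul_dvd (card_subgroup_dvd_card _) a3.coc)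
  have hI := h.cls.card h.inv
  have c0 := Nat.card_pos (α := Cn t)
  have eI : {s : T | Inv s}.ncard = ∏ i ∈ s, n i := Nat.eq_of_mul_eq_mul_right c0 (by rw [hI, mul_comm, ← hN])
  have := Fintype.ofFinite T
  have sp : ∀ f : T → ℕ, ∑ g, f g = f 1 + ∑ g ∈ (OO T).toFinite.toFinset, f g +
      ∑ g ∈ Finset.univ.filter fun g => g ≠ 1 ∧ g ∉ OO T, f g := fun f => by
    rw [← Finset.sum_filter_add_sum_filter_not Finset.univ (fun g => g ≠ 1 ∧ g ∉ OO T), add_comm,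
      ← Finset.sum_insert (by simpa using fun a => OO_ne a rfl)]
    congr 2
    ext g
    simp only [Finset.mem_filter, Finset.mem_univ, true_and, Finset.mem_insert, Set.Finite.mem_toFinset]
    tauto
  refine ⟨s, e, n, a2, a3, hN, ?_, ?_⟩
  · have k1 := sp fun _ => 1
    have k2 := h.count (fun _ => True) fun _ _ => Iff.rfl
    simp only [and_true, Set.setOf_mem_eq, h.b] at k2
    simp only [Finset.sum_const, smul_eq_mul, mul_one, Finset.card_univ, ← Nat.card_eq_fintype_card] at k1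
    simp only [← Set.ncard_coe_finset, Finset.coe_filter, Finset.mem_univ, true_and, k2, Set.Finite.coe_toFinset] at k1
    have N0 : (Nat.card T : ℚ) ≠ 0 := by exact_mod_cast Nat.card_pos.ne'
    have c1 : (Nat.card (Cn t) : ℚ) ≠ 0 := by positivity
    rw [← a4]
    qify at k1 hI
    field_simp
    linear_combination (-Nat.card (Cn t) : ℚ) * k1 - β * hI
  · have k1 := sp sr
    have k2 := h.count (fun g => sr g ≠ 0) fun k g => by rw [sr_conj]
    rw [h.k] at k2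
    have k3 : ∑ g ∈ Finset.univ.filter fun g : T => g ≠ 1 ∧ g ∉ OO T, sr g = {g : T | g ≠ 1 ∧ g ∉ OO T ∧ sr g ≠ 0}.ncard * φ := by
      rw [← Finset.sum_filter_ne_zero, Finset.sum_const_nat (m := φ) fun g a => ?_, ← Set.ncard_coe_finset]
      · congr 2; ext g; simp [and_assoc]
      simp only [Finset.mem_filter, Finset.mem_univ, true_and] at a
      obtain ⟨u, b, -⟩ := h.uniq a.1.1 a.1.2
      obtain ⟨k, rfl⟩ := h.cls u b.1
      rw [← sr_conj k] at a ⊢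
      exact h.f _ ((B1_conj k).2 b.2) a.2
    have k4 : ∑ g : T, sr g = {s : T | Inv s}.ncard * {s : T | Inv s}.ncard := by
      have : ∀ g : T, sr g = ∑ s ∈ Finset.univ.filter MH.Inv, if MH.Inv (s * g) then 1 else 0 := fun g => by
        rw [← Finset.card_filter, sr, ← Set.ncard_coe_finset]; congr 1; ext; simp
      simp only [this]
      rw [Finset.sum_comm, Finset.sum_const_nat (m := {s : T | Inv s}.ncard) fun s _ => ?_, ← Set.ncard_coe_finset]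
      · simp
      rw [← Finset.card_filter, ← Set.ncard_coe_finset]
      exact Set.ncard_congr (fun g _ => s * g) (by simp) (by simp) fun b hb => ⟨s⁻¹ * b, by simpa using hb, by simp⟩
    have k5 : sr (1 : T) = {s : T | Inv s}.ncard := by simp [sr]
    simp only [eC] at a5
    rw [k4, k3, k2, k5, a5, ← hI, eI] at k1
    refine Nat.eq_of_mul_eq_mul_left (eI ▸ (Set.ncard_pos (Set.toFinite _)).2 ⟨t, h.inv⟩) (k1.trans ?_)
    ring

end U1

end Cfsg.Agent.H1.N1
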