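import Cfsg.Agent.H1.N3a

/-! Dihedral Sylow subgroups. -/

set_option autoImplicit false

namespace Cfsg.Agent.H1.N1

open Subgroup Cfsg.Agent.MH Cfsg.Agent.H1.Mit MulAction
open scoped Pointwise

variable {T : Type*} [Group T] [Finite T] {Ro : T → Prop} {p : ℕ} {x y z g s t u v : T} {S : Sylow 2 T}

theorem sign_hom {G : Type*} [Group G] [Finite G] {M : Subgroup G} (hM : M.index % 4 = 2) :
    ∃ χ : G →* ℤˣ, ∀ s, s * s = 1 → (∀ g, g * s * g⁻¹ ∉ M) → χ s = -1 := by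
  classical
  have := Fintype.ofFinite (G ⧸ M)
  refine ⟨Equiv.Perm.sign.comp (toPermHom G (G ⧸ M)), fun s hs hc => ?_⟩
  rw [MonoidHom.comp_apply, Equiv.Perm.sign_of_pow_two_eq_one (by rw [← map_pow, pow_two, hs, map_one])]
  have h2 : Fintype.card (Function.fixedPoints (toPermHom G (G ⧸ M) s)) = 0 := by
    rw [Fintype.card_eq_zero_iff]
    refine ⟨fun ⟨q, hq⟩ => ?_⟩
    induction q using QuotientGroup.induction_on with
    | H y =>
      have : ((s * y : G) : G ⧸ M) = (y : G ⧸ M) := hq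
      exact hc y⁻¹ (by simpa [mul_assoc] using QuotientGroup.eq.1 this.symm)
  rw [h2, ← Nat.card_eq_fintype_card]
  change (-1 : ℤˣ) ^ ((M.index - 0) / 2) = -1
  exact Odd.neg_one_pow (Nat.odd_iff.2 (by omega))

theorem compl_cyc (D : Subgroup T) (he : 2 ∣ Nat.card D) (h : ∀ P ≤ D, IsPGroup 2 P → IsCyclic P) :
    ∃ Q ≤ D, Odd (Nat.card Q) ∧ ∀ x ∈ D, Od x → x ∈ Q := by
  obtain ⟨P⟩ : Nonempty (Sylow 2 D) := inferInstance
  have hP : normalizer P ≤ centralizer (P : Set D) := IsCyclic.normalizer_le_centralizer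
    ((Nat.minFac_eq_two_iff _).2 he) (by
      have := h _ (map_subtype_le P.1) (P.2.map D.subtype)
      exact isCyclic_of_injective (P.1.equivMapOfInjective D.subtype (subtype_injective _)).toMonoidHom
        (P.1.equivMapOfInjective D.subtype (subtype_injective _)).injective)
  have k := MonoidHom.ker_transferSylow_isComplement' P hP
  refine ⟨(MonoidHom.transferSylow P hP).ker.map D.subtype, map_subtype_le _, ?_, fun x hx ⟨n, hn, e⟩ => ⟨⟨x, hx⟩, ?_, rfl⟩⟩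
  · rw [card_map_of_injective (subtype_injective _), ← k.index_eq_card, ← Nat.not_even_iff_odd, even_iff_two_dvd]
    exact P.not_dvd_index
  · obtain ⟨j, hj⟩ := P.2 (MonoidHom.transferSylow P hP ⟨x, hx⟩)
    exact Od.eq_one' ⟨n, hn, by rw [← map_pow, show (⟨x, hx⟩ : D) ^ n = 1 from Subtype.ext e, map_one]⟩ hj

theorem conj_in {C P : Subgroup T} (hS : (S : Subgroup T) ≤ C) (hP : P ≤ C) (h : IsPGroup 2 P) :
    ∃ c ∈ C, ∀ y ∈ P, c * y * c⁻¹ ∈ S := by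
  obtain ⟨c, hc⟩ := exists_conj_le_sylow Nat.prime_two (S.subtype hS) (h.comap_subtype (K := C))
  exact ⟨c, c.2, fun y hy => hc ⟨y, hP hy⟩ hy⟩

omit [Finite T] in
theorem tri_cyc (h : Tri T) {γ j : T} {r : ℕ} [Finite T] (ht : Inv t) (hs : Inv s) (c : t * s = s * t) (g1 : γ * t * γ⁻¹ = s)
    (g2 : γ * s * γ⁻¹ = t * s) (hr : r.Prime) (o : Odd r) (jr : j ^ r = 1) (j1 : j ≠ 1) (jt : j ∈ Cn t)
    (js : s * j * s⁻¹ = j⁻¹) (c1 : j * (γ * j * γ⁻¹) = γ * j * γ⁻¹ * j)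
    (c2 : j * (γ * (γ * j * γ⁻¹) * γ⁻¹) = γ * (γ * j * γ⁻¹) * γ⁻¹ * j) : False := by
  have g3 : γ * (t * s) * γ⁻¹ = t := by rw [← conj_mul, g1, g2, c, ← mul_assoc, hs.2, one_mul]
  have cj : ∀ {a b c : T}, a * b * a⁻¹ = c → γ * a * γ⁻¹ * (γ * b * γ⁻¹) * (γ * a * γ⁻¹)⁻¹ = γ * c * γ⁻¹ := by
    rintro a b _ rfl; group
  have m : ∀ {a b w c d : T}, b * w * b⁻¹ = c → a * c * a⁻¹ = d → a * b * w * (a * b)⁻¹ = d := by
    rintro a b w _ _ rfl rfl; group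
  have a1 := conj_eq_of_Cn (mem_Cn_comm.1 jt)
  have a3 : t * s * j * (t * s)⁻¹ = j⁻¹ := m js (by rw [← conj_inv, a1])
  have b1 := cj a1
  have b2 := cj js
  have b3 := cj a3
  rw [g1] at b1
  rw [g2, ← conj_inv] at b2
  rw [g3, ← conj_inv] at b3
  have d1 := cj b1
  have d2 := cj b2
  have d3 := cj b3
  rw [g2] at d1
  rw [g3, ← conj_inv] at d2
  rw [g1, ← conj_inv] at d3
  have nz : ∀ {w : T}, w ∈ Cn t → nv w ≠ 0 := fun a e => nv_eq_zero.1 e t ht (mem_Cn_comm.1 a)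
  exact h r t s j _ _ hr o jr (by simp [jr]) (by simp [jr]) j1 (by simpa) (by simpa only [Ne, conj_eq_one_iff]) c1 c2
    (by simp only [conj_mul, c1]) (nz jt) (by rw [nv_conj]; exact nz jt) (by rw [nv_conj, nv_conj]; exact nz jt) a1 b3 d2 js b1 d3

/-- a dihedral Sylow subgroup with its central involution -/
structure DH (S : Sylow 2 T) (x s t : T) : Prop where
  ss : s * s = 1
  sx : s * x * s⁻¹ = x⁻¹
  sn : s ∉ zpowers x
  mem : ∀ g, g ∈ S ↔ g ∈ zpowers x ∨ s * g ∈ zpowers x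
  inv : Inv t
  tm : t ∈ zpowers x

theorem DihT.dh (h : DihT T) : ∃ (S : Sylow 2 T) (x s t : T), DH S x s t := by
  obtain ⟨S, x, s, h1, h2, h3, h4, h5⟩ := h
  obtain ⟨k, hk⟩ := (od_or x).resolve_left fun o => by
    obtain ⟨j, hj⟩ := S.2 ⟨x, (h5 x).2 (Or.inl (mem_zpowers x))⟩
    exact h1 (o.eq_one' (congrArg Subtype.val hj))
  exact ⟨S, x, s, _, h2, h3, h4, h5, hk, npow_mem_zpowers x k⟩

namespace DH

omit [Finite T] in
theorem conj (h : DH S x s t) (g : T) : DH (g • S) (g * x * g⁻¹) (g * s * g⁻¹) (g * t * g⁻¹) := by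
  have k : ∀ a, a ∈ zpowers (g * x * g⁻¹) ↔ g⁻¹ * a * g ∈ zpowers x := fun a =>
    ⟨fun ⟨n, e⟩ => ⟨n, by simp only [← e, conj_zpow]; group⟩, fun ⟨n, e⟩ => ⟨n, by simp only [conj_zpow, e]; group⟩⟩
  refine ⟨conj_mul_self.2 h.ss, by rw [conj_inv (a := x), ← h.sx]; group, fun e => h.sn (by simpa [mul_assoc] using (k _).1 e),
    fun a => ?_, h.inv.conj g, (k _).2 (by simpa [mul_assoc] using h.tm)⟩
  have : a ∈ g • S ↔ g⁻¹ * a * g ∈ S := by
    change a ∈ MulAut.conj g • (S : Subgroup T) ↔ _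
    rw [Subgroup.mem_pointwise_smul_iff_inv_smul_mem]; simp; rfl
  rw [this, h.mem, k, k]
  simp [mul_assoc]

omit [Finite T] in
theorem le (h : DH S x s t) : zpowers x ≤ S := fun g a => (h.mem g).2 (Or.inl a)

omit [Finite T] in
theorem sS (h : DH S x s t) : s ∈ S := (h.mem s).2 (Or.inr (h.ss.symm ▸ one_mem _))

omit [Finite T] in
theorem out (h : DH S x s t) (hg : g ∈ S) (n : g ∉ zpowers x) : (∀ y ∈ zpowers x, g * y * g⁻¹ = y⁻¹) ∧ Inv g := by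
  have k : ∀ y ∈ zpowers x, s * y * s⁻¹ = y⁻¹ := by rintro _ ⟨n, rfl⟩; simp only [← conj_zpow, h.sx, inv_zpow]
  have m := ((h.mem g).1 hg).resolve_left n
  have e : g = s * (s * g) := by rw [← mul_assoc, h.ss, one_mul]
  generalize s * g = a at m e
  subst e
  refine ⟨fun y hy => ?_, fun e => n (e ▸ one_mem _), ?_⟩
  · obtain ⟨i, rfl⟩ := m
    obtain ⟨j, rfl⟩ := hy
    rw [← k _ ⟨j, rfl⟩]; group
  · have := k a m
    rw [inv_eq_of_mul_eq_one_right h.ss] at this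
    rw [← mul_assoc, this, inv_mul_cancel]

omit [Finite T] in
theorem two (h : DH S x s t) (a : T) (ha : a ∈ S) (b : T) (hb : b ∈ S) (n : a ∉ zpowers x) (n' : b ∉ zpowers x) :
    a * b ∈ zpowers x := by
  have := mul_mem (inv_mem (((h.mem a).1 ha).resolve_left n)) (((h.mem b).1 hb).resolve_left n')
  rwa [mul_inv_rev, mul_assoc, inv_mul_cancel_left, (h.out ha n).2.inv_eq] at this

omit [Finite T] in
theorem hS (h : DH S x s t) : (S : Subgroup T) ≤ Cn t := fun g hg => by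
  by_cases n : g ∈ zpowers x
  · obtain ⟨i, rfl⟩ := n
    obtain ⟨j, rfl⟩ := h.tm
    exact mem_Cn.2 (by group)
  · exact Cn_of_conj (((h.out hg n).1 t h.tm).trans h.inv.inv_eq)

theorem uq (h : DH S x s t) (hu : Inv u) (m : u ∈ zpowers x) : u = t := inv_zpowers hu h.inv m h.tm

theorem card (h : DH S x s t) : Nat.card S = 2 * Nat.card (zpowers x) := card_two h.le h.sS h.sn h.two

theorem cls (h : DH S x s t) (hp : commutator T = ⊤) : Cls t := fun u hu =>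
  (thompson_half hp S le_rfl h.card hu.2).imp fun g e => h.uq (hu.conj g) e

omit [Finite T] in
theorem swap (h : DH S x s t) (hv : v ∈ S) (n : v ∉ zpowers x) : DH S x v t :=
  ⟨(h.out hv n).2.2, (h.out hv n).1 x (mem_zpowers x), n, fun g => ⟨fun a => or_iff_not_imp_left.2 (h.two v hv g a n),
    fun a => a.elim (h.le ·) fun b => (mul_mem_cancel_left hv).1 (h.le b)⟩, h.inv, h.tm⟩

theorem all (h : DH S x s t) (hp : commutator T = ⊤) (hu : Inv u) : ∃ S x s, DH S x s u := by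
  obtain ⟨g, e⟩ := h.cls hp u hu
  exact ⟨_, _, _, by simpa [← e, mul_assoc] using h.conj g⁻¹⟩

theorem all2 (h : DH S x s t) (hp : commutator T = ⊤) (hu : Inv u) (hv : Inv v) (n : v ≠ u) (c : v ∈ Cn u) :
    ∃ S x, DH S x v u := by
  obtain ⟨S, x, s, h⟩ := h.all hp hu
  obtain ⟨c, hc, e⟩ := conj_in h.hS (zpowers_le.2 c) (isPGroup_zpowers (k := 1) (by simpa [pow_two] using hv.2))
  have := (h.swap (e v (mem_zpowers v)) fun m => n (by
    simpa using (h.uq (hv.conj c) m).trans (conj_eq_of_Cn hc).symm)).conj c⁻¹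
  rw [conj_eq_of_Cn (inv_mem hc)] at this
  exact ⟨_, _, by simpa [mul_assoc] using this⟩

theorem r2 (h : DH S x s t) {a b c : T} (ha : Inv a) (hb : Inv b) (hc : Inv c) (n : a ≠ b) (ab : b ∈ Cn a) (ac : c ∈ Cn a)
    (bc : c ∈ Cn b) : c = a ∨ c = b ∨ c = a * b := by
  let D := Cn a ⊓ Cn b ⊓ Cn c
  let E : Subgroup T :=
    { carrier := {g | g ∈ D ∧ g * g = 1 ∧ D ≤ Cn g}
      one_mem' := ⟨one_mem _, by simp, fun _ _ => by simp [mem_Cn]⟩
      mul_mem' := fun {g k} hg hk => ⟨mul_mem hg.1 hk.1, by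
        rw [mul_assoc, ← mul_assoc k, ← mem_Cn.1 (hg.2.2 hk.1), mul_assoc, hk.2.1, mul_one, hg.2.1],
        fun y hy => mem_Cn_comm.1 (mul_mem (mem_Cn_comm.1 (hg.2.2 hy)) (mem_Cn_comm.1 (hk.2.2 hy)))⟩
      inv_mem' := fun {g} hg => by rwa [inv_eq_of_mul_eq_one_right hg.2.1] }
  obtain ⟨g, hg⟩ := exists_conj_le_sylow Nat.prime_two S (H := E) fun g => ⟨1, Subtype.ext (by simpa [pow_two] using g.2.2.1)⟩
  have m1 := hg a ⟨⟨⟨self_mem_Cn a, mem_Cn_comm.1 ab⟩, mem_Cn_comm.1 ac⟩, ha.2, fun _ e => e.1.1⟩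
  have m2 := hg b ⟨⟨⟨ab, self_mem_Cn b⟩, mem_Cn_comm.1 bc⟩, hb.2, fun _ e => e.1.2⟩
  have m3 := hg c ⟨⟨⟨ac, bc⟩, self_mem_Cn c⟩, hc.2, fun _ e => e.2⟩
  have u1 : ∀ {a : T}, Inv a → g * a * g⁻¹ ∈ zpowers x → a = g⁻¹ * t * g := fun i m => by rw [← h.uq (i.conj g) m]; group
  have u2 : ∀ {a b : T}, Inv a → Inv b → b ∈ Cn a → g * a * g⁻¹ ∈ S → g * b * g⁻¹ ∈ S → g * a * g⁻¹ ∉ zpowers x →
      g * b * g⁻¹ ∉ zpowers x → a = b ∨ a * b = g⁻¹ * t * g := fun i j k l m o q => or_iff_not_imp_left.2 fun e =>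
    u1 (i.mul j e (mem_Cn.1 k)) (by rw [← conj_mul]; exact h.two _ l _ m o q)
  have f : ∀ {a b c : T}, Inv b → a * b = c → a = c * b := fun i e => by rw [← e, mul_assoc, i.2, mul_one]
  by_cases k1 : g * a * g⁻¹ ∈ zpowers x <;> by_cases k2 : g * b * g⁻¹ ∈ zpowers x <;> by_cases k3 : g * c * g⁻¹ ∈ zpowers x
  · exact absurd ((u1 ha k1).trans (u1 hb k2).symm) n
  · exact absurd ((u1 ha k1).trans (u1 hb k2).symm) n
  · exact Or.inl ((u1 hc k3).trans (u1 ha k1).symm)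
  · exact Or.inr ((u2 hc hb (mem_Cn_comm.1 bc) m3 m2 k3 k2).imp_right fun e => f hb (e.trans (u1 ha k1).symm))
  · exact Or.inr (Or.inl ((u1 hc k3).trans (u1 hb k2).symm))
  · exact (u2 hc ha (mem_Cn_comm.1 ac) m3 m1 k3 k1).imp_right fun e =>
      Or.inr ((f ha (e.trans (u1 hb k2).symm)).trans (mem_Cn.1 ab).symm)
  · exact Or.inr (Or.inr ((u1 hc k3).trans ((u2 ha hb ab m1 m2 k1 k2).resolve_left n).symm))
  · exact (u2 ha hc ac m1 m3 k1 k3).imp Eq.symm fun e =>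
      Or.inl (mul_left_cancel (e.trans ((u2 ha hb ab m1 m2 k1 k2).resolve_left n).symm))

theorem cent (h : DH S x s t) : ∃ A O : Subgroup T, A ≤ Cn t ∧ t ∈ A ∧ (∀ x ∈ Cn t, ∀ y ∈ Cn t, x ∉ A → y ∉ A → x * y ∈ A) ∧
    (∀ s ∈ A, Inv s → s = t) ∧ O ≤ A ∧ Odd (Nat.card O) ∧ (∀ x ∈ Cn t, x ∉ A → x * x ∈ O) ∧ ∀ x ∈ Cn t, Od x → x ∈ O := by
  obtain ⟨χ, hχ⟩ := sign_hom (M := (zpowers x).subgroupOf (Cn t)) (by
    have h1 := relIndex_mul_relIndex _ _ _ h.le h.hS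
    have h2 := relIndex_mul_index h.hS
    have h3 := index_odd S le_rfl
    have h4 : (zpowers x).relIndex S = 2 := relIndex_eq_two_iff_exists_notMem_and.2
      ⟨s, h.sS, h.sn, fun b hb => or_iff_not_imp_right.2 fun k => h.two b hb s h.sS k h.sn⟩
    have h5 : (S : Subgroup T).relIndex (Cn t) % 2 = 1 := Nat.odd_iff.1 (Nat.Odd.of_mul_left (h2 ▸ Nat.odd_iff.2 h3))
    change (zpowers x).relIndex (Cn t) % 4 = 2
    rw [h4] at h1
    omega)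
  have k : ∀ u : Cn t, Inv (u : T) → (u : T) ≠ t → χ u = -1 := fun u i n => hχ u (Subtype.ext i.2) fun g m => n (by
    simpa using (h.uq (i.conj g) m).trans (conj_eq_of_Cn g.2).symm)
  have k' : ∀ u : Cn t, (u : T) ∈ S → (u : T) ∉ zpowers x → χ u = -1 := fun u a b => k u (h.out a b).2 fun e => b (by rw [e]; exact h.tm)
  have k1 : ∀ u : Cn t, (u : T) ∈ zpowers x → χ u = 1 := fun u a => by
    have := k' (⟨s, h.hS h.sS⟩ * u) (mul_mem h.sS (h.le a)) fun b => h.sn ((mul_mem_cancel_right a).1 b)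
    rw [map_mul, k' ⟨s, _⟩ h.sS h.sn] at this
    simpa using this
  have mA : ∀ u : Cn t, (u : T) ∈ χ.ker.map (Cn t).subtype ↔ χ u = 1 := fun u =>
    ⟨fun ⟨a, b, c⟩ => Subtype.ext c ▸ b, fun a => ⟨u, a, rfl⟩⟩
  have tA := (mA ⟨t, self_mem_Cn t⟩).2 (k1 _ h.tm)
  have cy : ∀ P ≤ Cn t, IsPGroup 2 P → ∃ c ∈ Cn t, ∀ y (m : y ∈ Cn t), y ∈ P →
      (χ ⟨y, m⟩ = 1 ∧ c * y * c⁻¹ ∈ zpowers x) ∨ (χ ⟨y, m⟩ = -1 ∧ y * y = 1) := fun P a b => by
    obtain ⟨c, hc, e⟩ := conj_in h.hS a b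
    refine ⟨c, hc, fun y m hy => ?_⟩
    have : χ (⟨c, hc⟩ * ⟨y, m⟩ * ⟨c, hc⟩⁻¹) = χ ⟨y, m⟩ := by rw [map_mul, map_mul, map_inv, mul_inv_cancel_comm]
    by_cases n : c * y * c⁻¹ ∈ zpowers x
    exacts [Or.inl ⟨this ▸ k1 _ n, n⟩, Or.inr ⟨this ▸ k' _ (e y hy) n, conj_mul_self.1 (h.out (e y hy) n).2.2⟩]
  obtain ⟨O, o1, o2, o3⟩ := compl_cyc (χ.ker.map (Cn t).subtype) (two_dvd_card h.inv tA) fun P a b => by
    obtain ⟨c, -, e⟩ := cy P (a.trans (map_subtype_le _)) b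
    refine isCyclic_of_injective (G := P) (G' := zpowers x) (MonoidHom.mk' (fun y => ⟨c * y * c⁻¹, ?_⟩) fun a b =>
      Subtype.ext (by simp)) fun a b e => Subtype.ext (by simpa using e)
    have m := map_subtype_le _ (a y.2)
    exact ((e y m y.2).resolve_right fun d => by have := (mA ⟨y, m⟩).1 (a y.2); simp [this] at d).2
  have oA : ∀ y ∈ Cn t, Od y → y ∈ O := fun y a b => o3 y ((mA ⟨y, a⟩).2 (Od.eq_one (b.imp fun n e => ⟨e.1, by
    rw [← map_pow, show (⟨y, a⟩ : Cn t) ^ n = 1 from Subtype.ext e.2, map_one]⟩) (Int.units_mul_self _))) b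
  refine ⟨_, O, map_subtype_le _, tA, fun a ha b hb c d => (mA (⟨a, ha⟩ * ⟨b, hb⟩)).2 ?_, fun u a i => by_contra fun n => ?_,
    o1, o2, fun y a n => oA _ (mul_mem a a) ?_, oA⟩
  · rw [map_mul, (Int.units_eq_one_or _).resolve_left (mt (mA ⟨a, ha⟩).2 c),
      (Int.units_eq_one_or _).resolve_left (mt (mA ⟨b, hb⟩).2 d)]; simp
  · have m := map_subtype_le _ a
    exact absurd ((k ⟨u, m⟩ i n).symm.trans ((mA ⟨u, m⟩).1 a)) (by decide)
  obtain ⟨j, m, o, e⟩ := Nat.exists_eq_two_pow_mul_odd (orderOf_pos y).ne'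
  obtain ⟨c, -, e'⟩ := cy _ (zpowers_le.2 (pow_mem a m)) (isPGroup_zpowers (k := j) (by
    rw [← pow_mul, mul_comm, ← e, pow_orderOf_eq_one]))
  refine ⟨m, o, ?_⟩
  rw [(Commute.refl y).mul_pow]
  refine ((e' _ (pow_mem a m) (mem_zpowers _)).resolve_left fun d => n ((mA ⟨y, a⟩).2 ?_)).2
  exact Od.eq_one ⟨m, o, by rw [← map_pow]; exact d.1⟩ (Int.units_mul_self _)

theorem sw (h : DH S x s t) (x2 : x * x ≠ 1) : ∃ b ∈ Cn t, b * s * b⁻¹ = t * s := by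
  obtain ⟨j, hj⟩ := S.2 ⟨x, h.le (mem_zpowers x)⟩
  obtain ⟨i, -, e⟩ := (Nat.dvd_prime_pow Nat.prime_two).1 (orderOf_dvd_of_pow_eq_one (congrArg Subtype.val hj))
  simp only at e
  obtain ⟨i, rfl⟩ : ∃ k, i = k + 2 := ⟨i - 2, by
    have : ¬ 2 ^ i ∣ 2 ^ 1 := fun k => x2 (pow_two x ▸ orderOf_dvd_iff_pow_eq_one.1 (e ▸ k))
    rw [Nat.pow_dvd_pow_iff_le_right (by decide)] at this
    omega⟩
  have m := npow_mem_zpowers x (2 ^ i)
  have e1 : x ^ 2 ^ i * x ^ 2 ^ i = t := h.uq ⟨by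
    rw [← pow_add]; exact pow_ne_one_of_lt_orderOf (by positivity) (by rw [e, pow_succ, pow_succ]; have := Nat.two_pow_pos i; omega), by
    rw [← pow_add, ← pow_add, ← pow_orderOf_eq_one x, e]; congr 1; ring⟩ (mul_mem m m)
  refine ⟨_, h.hS (h.le m), ?_⟩
  rw [← e1, ← (h.out h.sS h.sn).1 _ m, mul_assoc s, mul_assoc _ s, ← mul_assoc s s, h.ss, inv_eq_of_mul_eq_one_right h.ss,
    one_mul, mul_assoc]

theorem cyc (h : DH S x s t) (hp : commutator T = ⊤) (hu : Inv u) (hv : Inv v) (n : v ≠ u) (c : v ∈ Cn u) :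
    ∃ γ, γ * u * γ⁻¹ = v ∧ γ * v * γ⁻¹ = u * v := by
  obtain ⟨S, x, h1⟩ := h.all2 hp hu hv n c
  obtain ⟨S', x', h2⟩ := h.all2 hp hv hu n.symm (mem_Cn_comm.1 c)
  have c' := mem_Cn.1 c
  by_cases x2 : x * x = 1
  swap
  · obtain ⟨b, m, e1⟩ := h1.sw x2
    obtain ⟨b', m', e2⟩ := h2.sw fun e => x2 (by
      have := h1.card.symm.trans ((S.card_eq_multiplicity.trans S'.card_eq_multiplicity.symm).trans h2.card)
      rw [Nat.card_zpowers, Nat.card_zpowers, Nat.mul_right_inj (by decide)] at this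
      rw [← pow_two, ← orderOf_dvd_iff_pow_eq_one] at e ⊢
      rwa [this])
    refine ⟨b * b', ?_, ?_⟩
    · rw [show b * b' * u * (b * b')⁻¹ = b * (b' * u * b'⁻¹) * b⁻¹ by group, e2, ← conj_mul, e1, conj_eq_of_Cn m, c',
        mul_assoc, hu.2, mul_one]
    · rw [show b * b' * v * (b * b')⁻¹ = b * (b' * v * b'⁻¹) * b⁻¹ by group, conj_eq_of_Cn m', e1]
  have z : ∀ a ∈ zpowers x, a = 1 ∨ a = u := fun a m => or_iff_not_imp_left.2 fun e => h1.uq ⟨e, by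
    obtain ⟨k, rfl⟩ := m
    rw [← (Commute.refl x).mul_zpow, x2, one_zpow]⟩ m
  have four : ∀ a ∈ S, a = 1 ∨ a = u ∨ a = v ∨ a = u * v := fun a m => by
    rcases (h1.mem a).1 m with e | e <;> rcases z _ e with e | e
    exacts [Or.inl e, Or.inr (Or.inl e), Or.inr (Or.inr (Or.inl (hv.inv_eq ▸ eq_inv_of_mul_eq_one_right e))),
      Or.inr (Or.inr (Or.inr (by rw [c', ← e, ← mul_assoc, hv.2, one_mul])))]
  have cn : ∀ {g}, g ∈ Cn u → g ∈ Cn v → ∀ y ∈ S, y * g = g * y := fun e1 e2 y hy => by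
    rcases four y hy with rfl | rfl | rfl | rfl
    exacts [by simp, mem_Cn.1 e1, mem_Cn.1 e2, mem_Cn.1 (mem_Cn_comm.1 (mul_mem (mem_Cn_comm.1 e1) (mem_Cn_comm.1 e2)))]
  have uS := h1.le h1.tm
  by_contra k
  push Not at k
  refine hu.1 (mem_bot.1 (burnside hp Nat.prime_two S (fun g hg => ?_) ▸ uS))
  have sq : g * (g * u * g⁻¹) * g⁻¹ = u → g * (g * v * g⁻¹) * g⁻¹ = v → ∀ y ∈ S, y * g = g * y := fun a b => by
    obtain ⟨j, m, ⟨i, rfl⟩, e⟩ := Nat.exists_eq_two_pow_mul_odd (orderOf_pos g).ne'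
    have m := mem_sylow_of_Nm (k := j) S (z := g ^ (2 * i + 1)) (by rw [← pow_mul, mul_comm, ← e, pow_orderOf_eq_one]) (pow_mem hg _)
    have f : ∀ {w}, g * (g * w * g⁻¹) * g⁻¹ = w → g ^ (2 * i + 1) ∈ Cn w → g ∈ Cn w := fun a b =>
      (mul_mem_cancel_left (pow_mem (Cn_of_conj (x := g ^ 2) (by rw [pow_two]; exact Eq.trans (by group) a)) i)).1
        (by rwa [← pow_mul, ← pow_succ])
    exact cn (f a (h1.hS m)) (f b (mem_Cn.2 (cn c (self_mem_Cn v) _ m).symm))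
  have e : g * (u * v) * g⁻¹ = g * u * g⁻¹ * (g * v * g⁻¹) := by group
  rcases (four _ (Nm_conj hg uS)).resolve_left (hu.conj g).1 with e1 | e1 | e1 <;>
    rcases (four _ (Nm_conj hg h1.sS)).resolve_left (hv.conj g).1 with e2 | e2 | e2
  · exact absurd (e2.trans e1.symm) (by simpa using n)
  · exact sq (by rw [e1, e1]) (by rw [e2, e2])
  · exact sq (by rw [e1, e1]) (by rw [e2, e, e1, e2, ← mul_assoc, hu.2, one_mul])
  · exact sq (by rw [e1, e2]) (by rw [e2, e1])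
  · exact absurd (e2.trans e1.symm) (by simpa using n)
  · exact absurd e2 (k g e1)
  · have e3 : g⁻¹ * u * g⁻¹⁻¹ = v := by rw [← e2]; group
    refine absurd ?_ (k _ e3)
    rw [e1, e2, c', mul_assoc v, hu.2, mul_one] at e
    calc _ = g⁻¹ * (g * (v * u) * g⁻¹) * g⁻¹⁻¹ := by rw [e]
      _ = _ := by rw [c']; group
  · exact sq (by rw [e1, e, e1, e2, mul_assoc, hv.2, mul_one]) (by rw [e2, e2])
  · exact absurd (e2.trans e1.symm) (by simpa using n)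

end DH

/-- consequences of dihedral Sylow subgroups -/
structure DC (T : Type*) [Group T] : Prop where
  ex : ∃ t s : T, Inv t ∧ Inv s ∧ s ≠ t ∧ s ∈ Cn t
  cls : ∀ {t : T}, Inv t → Cls t
  syl : ∀ {u v : T}, Inv u → Inv v → v ≠ u → v ∈ Cn u → ∃ S x, DH S x v u
  cent : ∀ {t : T}, Inv t → ∃ A O : Subgroup T, A ≤ Cn t ∧ t ∈ A ∧ (∀ x ∈ Cn t, ∀ y ∈ Cn t, x ∉ A → y ∉ A → x * y ∈ A) ∧
    (∀ s ∈ A, Inv s → s = t) ∧ O ≤ A ∧ Odd (Nat.card O) ∧ (∀ x ∈ Cn t, x ∉ A → x * x ∈ O) ∧ ∀ x ∈ Cn t, Od x → x ∈ O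
  cyc : ∀ {u v : T}, Inv u → Inv v → v ≠ u → v ∈ Cn u → ∃ γ, γ * u * γ⁻¹ = v ∧ γ * v * γ⁻¹ = u * v
  r2 : ∀ {a b c : T}, Inv a → Inv b → Inv c → a ≠ b → b ∈ Cn a → c ∈ Cn a → c ∈ Cn b → c = a ∨ c = b ∨ c = a * b

theorem DihT.dc (h : DihT T) (hp : commutator T = ⊤) : DC T := by
  obtain ⟨S, x, s, t, h⟩ := h.dh
  exact ⟨⟨t, s, h.inv, (h.out h.sS h.sn).2, fun e => h.sn (e ▸ h.tm), h.hS h.sS⟩,
    fun i => (h.all hp i).elim fun _ ⟨_, _, k⟩ => k.cls hp, h.all2 hp, fun i => (h.all hp i).elim fun _ ⟨_, _, k⟩ => k.cent,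
    h.cyc hp, h.r2⟩

end Cfsg.Agent.H1.N1
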