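import Cfsg.Agent.H1.N3a

/-! Statements of the group-theoretic results. -/

set_option autoImplicit false

namespace Cfsg.Agent.H1.N1

open Subgroup Cfsg.Agent.MH Cfsg.Agent.H1.Mit Equiv

universe u

/-- the normaliser of a group of rotations is an extension by `S₄` -/
structure NT {T : Type*} [Group T] (Ro : T → Prop) (t : T) (M Z : Subgroup T) (ψ : M →* Perm (Fin 4)) : Prop where
  inv : Inv t
  cls : Cls t
  surj : Function.Surjective ψ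
  le : Z ≤ M
  ker : ∀ x : M, ψ x = 1 ↔ (x : T) ∈ Z
  odd : Odd (Nat.card Z)
  ne : Z ≠ ⊥
  rot : ∀ z ∈ Z, Ro z
  ev : ∀ x : M, Perm.sign (ψ x) = 1 → ∀ z ∈ Z, x * z * (x : T)⁻¹ = z
  od : ∀ x : M, Perm.sign (ψ x) = -1 → ∀ z ∈ Z, x * z * (x : T)⁻¹ = z⁻¹
  nm : ∀ z ∈ Z, z ≠ 1 → ∀ g, g * z * g⁻¹ ∈ Z → g ∈ M
  ct : Cn t ≤ M
  tz : Z ≤ Cn t
  c35 : Nat.card Z = 3 ∨ Nat.card Z = 5

/-- dihedral Sylow subgroups, dihedral centralisers -/
def GNF : Prop := ∀ (T : Type u) [Group T] [Finite T] (Ro : T → Prop) (p : ℕ), LG Ro p → DihT T → NF T →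
  Nat.card T = 168 ∨ ∀ g : T, (∃ k, g ^ p ^ k = 1) ∨ ∃ s, MH.Inv s ∧ MH.Inv (s * g)

/-- construction of the extension by `S₄` -/
def GNC : Prop := ∀ (T : Type u) [Group T] [Finite T] (Ro : T → Prop) (p : ℕ), LG Ro p → DihT T → ¬ NF T → NQ Ro → NG Ro →
  Ro 1 → ∃ t M Z ψ, NT Ro t M Z ψ

/-- the class equation for the extension by `S₄` -/
def GNM : Prop := ∀ (T : Type u) [Group T] [Finite T] (Ro : T → Prop) (p : ℕ) (t : T) (M Z : Subgroup T)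
  (ψ : M →* Perm (Fin 4)), LG Ro p → NT Ro t M Z ψ → ∃ z w t v, OutA Ro z w t v

/-- the homocyclic case -/
def GHC : Prop := ∀ (T : Type u) [Group T] [Finite T] (Ro : T → Prop) (p : ℕ) (S : Sylow 2 T) (x y : T), LG Ro p →
  HCT S x y → False

end Cfsg.Agent.H1.N1
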