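import Cfsg.Agent.H1.N3b
import Cfsg.Agent.H1.N4i

/-! Construction of the extension by `S₄`. -/

set_option autoImplicit false

namespace Cfsg.Agent.H1.N1

open Subgroup Cfsg.Agent.MH Cfsg.Agent.H1.Mit Equiv

variable {T : Type*} [Group T] [Finite T] {Ro : T → Prop} {p r : ℕ} {x y z g s t u v w γ : T}

theorem zp_eq (hr : r.Prime) (o : orderOf y = r) (hz : z ∈ zpowers y) (z1 : z ≠ 1) : zpowers z = zpowers y :=
  eq_of_le_of_card_ge (zpowers_le.2 hz) (by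
    have := Fact.mk hr
    rw [Nat.card_zpowers, Nat.card_zpowers, o, orderOf_eq_prime (o ▸ orderOf_dvd_iff_pow_eq_one.1 (orderOf_dvd_of_mem_zpowers hz)) z1])

omit [Finite T] in
theorem zp_conj (h : z ∈ zpowers y) (g : T) : g * z * g⁻¹ ∈ zpowers (g * y * g⁻¹) := h.imp fun n e => by
  simp only [← e, conj_zpow]

omit [Finite T] in
theorem zp_comm (h : z ∈ zpowers y) (h' : w ∈ zpowers y) : z * w = w * z := by
  obtain ⟨i, rfl⟩ := h
  obtain ⟨j, rfl⟩ := h'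
  group

theorem DC.oc (d : DC T) (h : LG Ro p) (ht : Inv t) (hx : x ∈ Cn t) (hy : y ∈ Cn t) (ox : Od x) (oy : Od y) : x * y = y * x := by
  obtain ⟨A, O, a1, -, -, -, a2, a3, -, a4⟩ := d.cent ht
  exact h.oa t O ht.1 (a2.trans a1) a3 x (a4 x hx ox) y (a4 y hy oy)

/-- the configuration -/
structure NS (Ro : T → Prop) (r : ℕ) (t s γ y : T) : Prop where
  r35 : r = 3 ∨ r = 5
  ord : orderOf y = r
  it : Inv t
  is : Inv s
  st : s ≠ t
  c : s ∈ Cn t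
  g1 : γ * t * γ⁻¹ = s
  g2 : γ * s * γ⁻¹ = t * s
  ty : t ∈ Cn y
  sy : s ∈ Cn y
  gy : γ ∈ Cn y
  ro : ∀ z ∈ zpowers y, z ≠ 1 → Ro z
  zt : ∀ j ∈ Cn t, Od j → j ∈ zpowers y

theorem exists_ns (h : LG Ro p) (d : DC T) (nf : ¬ NF T) (q : NQ Ro) (G : NG Ro) : ∃ r t s γ y, NS Ro r t s γ y := by
  simp only [NF, not_forall] at nf
  obtain ⟨t, s, ht, hs, n, c, y, oy, a, b, y1⟩ := nf
  obtain ⟨ry, z1⟩ := q t s y ht hs n c oy y1 a b
  replace z1 := fun j o k l => z1 j o k l (d.oc h ht a k oy o)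
  have c' := mem_Cn.2 c
  obtain ⟨γ, g1, g2⟩ := d.cyc ht hs n.symm c'
  have g3 : γ * (t * s) * γ⁻¹ = t := by rw [← conj_mul, g1, g2, c, ← mul_assoc, hs.2, one_mul]
  have gy : γ * γ ∈ Cn y := Cn_of_conj (by
    rw [show γ * γ * y * (γ * γ)⁻¹ = γ * (γ * y * γ⁻¹) * γ⁻¹ by group]
    rcases h.rc y γ ry oy (z1 _ (oy.conj γ) (g3 ▸ conj_mem_Cn.2 (mem_Cn_comm.1 (mul_mem (mem_Cn_comm.1 a) (mem_Cn_comm.1 b))))
      (g1 ▸ conj_mem_Cn.2 a)) with e | e
    · rw [e, e]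
    · rw [e, ← conj_inv, e, inv_inv])
  have e1 : (γ * γ)⁻¹ * t * (γ * γ)⁻¹⁻¹ = s := by
    rw [← show γ * (γ * s * γ⁻¹) * γ⁻¹ = t by rw [g2, g3]]; group
  have e2 : (γ * γ)⁻¹ * s * (γ * γ)⁻¹⁻¹ = t * s := by
    calc _ = (γ * γ)⁻¹ * (γ * (γ * (t * s) * γ⁻¹) * γ⁻¹) * (γ * γ)⁻¹⁻¹ := by rw [g3, g1]
      _ = _ := by group
  replace gy := inv_mem gy
  generalize (γ * γ)⁻¹ = γ at e1 e2 gy
  obtain ⟨Q, q1, q2, q3, q4⟩ := G t s γ y ht hs n c e1 e2 ry oy y1 (mem_Cn_comm.1 a) (mem_Cn_comm.1 b) gy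
  obtain ⟨r, r35, ord⟩ : ∃ r, (r = 3 ∨ r = 5) ∧ orderOf y = r := by
    have := Fact.mk Nat.prime_five
    rcases h.ro_ord y ry with e | e | e
    exacts [absurd (oy.eq_one (pow_two y ▸ e)) y1, ⟨3, Or.inl rfl, orderOf_eq_prime e y1⟩, ⟨5, Or.inr rfl, orderOf_eq_prime e y1⟩]
  refine ⟨r, t, s, γ, y, r35, ord, ht, hs, n.symm, c', e1, e2, mem_Cn_comm.1 a, mem_Cn_comm.1 b, gy, fun z hz z1 =>
    (q t s z ht hs n c (hz.elim fun k e => oy.imp fun m f => ⟨f.1, by rw [← e, ← zpow_natCast, ← zpow_mul, mul_comm, zpow_mul,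
      zpow_natCast, f.2, one_zpow]⟩) z1 (zpowers_le.2 a hz) (zpowers_le.2 b hz)).1, fun j hj oj => z1 j oj hj ?_⟩
  have m : s * j * s⁻¹ ∈ Cn t := mul_mem (mul_mem c' hj) (inv_mem c')
  have cj := d.oc h ht hj (inv_mem m) oj (oj.conj s).inv
  by_contra k
  obtain ⟨l, i, hl, o, k1, k2⟩ := (oj.mul (oj.conj s).inv cj).exists_prime fun e => k (mem_Cn_comm.1 (Cn_of_conj
    (mul_inv_eq_one.1 e).symm))
  have ok := (oj.mul (oj.conj s).inv cj).pow i
  have mt := pow_mem (mul_mem hj (inv_mem m)) i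
  have mQ := q4 _ (mem_Cn.2 (d.oc h ht a mt oy ok)) ok mt
  refine tri_cyc h.tri ht hs c e1 e2 hl o k2 k1 mt ?_ (h.oa y Q y1 q1 q2 _ mQ _ (q3 γ gy _ mQ))
    (h.oa y Q y1 q1 q2 _ mQ _ (q3 γ gy _ (q3 γ gy _ mQ)))
  rw [← conj_pow, ← inv_pow, cj, mul_inv_rev, inv_inv]
  congr 1
  simp [hs.inv_eq, mul_assoc, ← mul_assoc s s, hs.2]

namespace NS

omit [Finite T] in
theorem pr (n : NS Ro r t s γ y) : r.Prime := by rcases n.r35 with rfl | rfl <;> decide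

omit [Finite T] in
theorem odd (n : NS Ro r t s γ y) : Odd r := by rcases n.r35 with rfl | rfl <;> decide

omit [Finite T] in
theorem y1 (n : NS Ro r t s γ y) : y ≠ 1 := fun e => n.pr.one_lt.ne (by rw [← n.ord, e, orderOf_one])

omit [Finite T] in
theorem yr (n : NS Ro r t s γ y) (hz : z ∈ zpowers y) : z ^ r = 1 :=
  orderOf_dvd_iff_pow_eq_one.1 (n.ord ▸ orderOf_dvd_of_mem_zpowers hz)

omit [Finite T] in
theorem od (n : NS Ro r t s γ y) (hz : z ∈ zpowers y) : Od z := ⟨r, n.odd, n.yr hz⟩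

theorem zg (n : NS Ro r t s γ y) (d : DC T) (hw : Inv w) (hx : x ∈ Cn w) (hz : z ∈ Cn w) (ox : Od x) (oz : Od z) (x1 : x ≠ 1) :
    z ∈ zpowers x := by
  obtain ⟨g, rfl⟩ := d.cls n.it w hw
  have := zp_conj (zp_eq n.pr n.ord (n.zt _ (conj_mem_Cn.2 hx) (ox.conj g)) (by simpa) ▸ n.zt _ (conj_mem_Cn.2 hz) (oz.conj g)) g⁻¹
  simpa [mul_assoc] using this

theorem nm (n : NS Ro r t s γ y) (hz : z ∈ zpowers y) (z1 : z ≠ 1) (hg : g * z * g⁻¹ ∈ zpowers y) : g ∈ Nm (zpowers y) :=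
  mem_Nm fun w hw => zpowers_le.2 hg (zp_conj (zp_eq n.pr n.ord hz z1 ▸ hw) g)

theorem act (n : NS Ro r t s γ y) (h : LG Ro p) (hg : g ∈ Nm (zpowers y)) : g ∈ Cn y ∨ g * y * g⁻¹ = y⁻¹ :=
  (h.rc y g (n.ro y (mem_zpowers y) n.y1) (n.od (mem_zpowers y)) (Nm_conj hg (mem_zpowers y))).imp_left Cn_of_conj

omit [Finite T] in
theorem ni (n : NS Ro r t s γ y) (e : g * y * g⁻¹ = y⁻¹) : g ∉ Cn y := fun k =>
  n.y1 ((n.od (mem_zpowers y)).eq_one (mul_eq_one_iff_eq_inv.2 ((conj_eq_of_Cn k).symm.trans e)))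

theorem ct (n : NS Ro r t s γ y) (d : DC T) (hw : Inv w) (m : w ∈ Cn y) : Cn w ≤ Nm (zpowers y) := fun g hg =>
  n.nm (mem_zpowers y) n.y1 (n.zg d hw (mem_Cn_comm.1 m) (mul_mem (mul_mem hg (mem_Cn_comm.1 m)) (inv_mem hg))
    (n.od (mem_zpowers y)) ((n.od (mem_zpowers y)).conj g) n.y1)

theorem le (n : NS Ro r t s γ y) : Cn y ≤ Nm (zpowers y) := fun g hg =>
  n.nm (mem_zpowers y) n.y1 ((conj_eq_of_Cn hg).symm ▸ mem_zpowers y)

theorem two (n : NS Ro r t s γ y) (h : LG Ro p) : ∀ a ∈ Nm (zpowers y), ∀ b ∈ Nm (zpowers y), a ∉ Cn y → b ∉ Cn y →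
    a * b ∈ Cn y := fun a ha b hb c d => Cn_of_conj (by
  rw [show a * b * y * (a * b)⁻¹ = a * (b * y * b⁻¹) * a⁻¹ by group, (n.act h hb).resolve_left d, ← conj_inv,
    (n.act h ha).resolve_left c, inv_inv])

theorem real (n : NS Ro r t s γ y) (h : LG Ro p) : ∃ m, m * y * m⁻¹ = y⁻¹ := by
  by_contra ni
  push Not at ni
  have hr := n.pr
  have := Fact.mk hr
  have hy := n.yr (mem_zpowers y)
  obtain ⟨R, yR, -⟩ := exists_sylow_pair (r := r) (i := 1) (j := 1) (by simpa using hy) (by simpa using hy) rfl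
  have cm := h.syl_comm hr n.odd R
  by_cases f : ∀ g ∈ Nm (R : Subgroup T), g * y * g⁻¹ = y
  · exact n.y1 (fix_eq_one h.perf hr R cm yR f)
  push Not at f
  obtain ⟨g, hg, f⟩ := f
  have two : ∀ a ∈ Nm (R : Subgroup T), a * y * a⁻¹ = y ∨ a * y * a⁻¹ = g * y * g⁻¹ := fun a ha => by
    rcases h.three y g a (n.ro y (mem_zpowers y) n.y1) (n.od (mem_zpowers y)) (cm _ yR _ (Nm_conj hg yR)) (cm _ yR _ (Nm_conj ha yR))
      (cm _ (Nm_conj hg yR) _ (Nm_conj ha yR)) with e | e | e | e | e | e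
    exacts [absurd e f, absurd e (ni g), Or.inl e, absurd e (ni a), Or.inr e, absurd (by
      rw [show g⁻¹ * a * y * (g⁻¹ * a)⁻¹ = g⁻¹ * (a * y * a⁻¹) * g by group, e]; group) (ni (g⁻¹ * a))]
  refine ni g (eq_inv_of_mul_eq_one_right (fix_eq_one h.perf hr R cm (mul_mem yR (Nm_conj hg yR)) fun a ha => ?_))
  have e : a * (g * y * g⁻¹) * a⁻¹ = a * g * y * (a * g)⁻¹ := by group
  have n : a * y * a⁻¹ ≠ a * g * y * (a * g)⁻¹ := fun k => f (by simpa using (k.trans e.symm).symm)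
  rw [← conj_mul, e]
  rcases two a ha with e1 | e1 <;> rcases two _ (mul_mem ha hg) with e2 | e2 <;> rw [e1, e2] at n ⊢
  exacts [absurd rfl n, cm _ (Nm_conj hg yR) _ yR, absurd rfl n]

theorem clC (n : NS Ro r t s γ y) (h : LG Ro p) (d : DC T) (hv : Inv v) (c : v ∈ Cn t) (e : v * y * v⁻¹ = y⁻¹) (hw : Inv w)
    (wv : w ∈ Cn v) (wy : w ∈ Cn y) : w = t := by
  have vt : v ≠ t := fun k => n.ni e (k ▸ n.ty)
  have k : ∀ {w : T}, Inv w → w ∈ Cn v → w ∈ Cn y → w ∈ Cn t → w = t := fun i a b f => by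
    rcases d.r2 n.it hv i vt.symm c f a with k | k | k
    exacts [k, absurd (k ▸ b) (n.ni e), absurd ((mul_mem_cancel_left n.ty).1 (k ▸ b)) (n.ni e)]
  have m1 := mul_mem (mem_Cn_comm.1 c) wv
  have m2 := mul_mem n.ty wy
  have wi : t * (t * w) * t⁻¹ = (t * w)⁻¹ := by rw [mul_inv_rev, hw.inv_eq, n.it.inv_eq, ← mul_assoc, n.it.2, one_mul]
  rcases od_or (t * w) with o | ⟨i, o⟩
  swap
  · have := k o (pow_mem m1 i) (pow_mem m2 i) (mem_Cn_comm.1 (Cn_of_conj (by rw [← conj_pow, wi, inv_pow, o.inv_eq])))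
    exact k hw wv wy ((mul_mem_cancel_left (self_mem_Cn t)).1 (by simpa only [this] using pow_mem_Cn (self_mem_Cn (t * w)) i))
  by_contra f
  obtain ⟨g, g1, g2⟩ := d.cyc n.it hv vt c
  have oy := n.od (mem_zpowers y)
  have yt := mem_Cn_comm.1 n.ty
  have g3 : g * (t * v) * g⁻¹ = t := by rw [← conj_mul, g1, g2, mem_Cn.1 c, ← mul_assoc, hv.2, one_mul]
  have c1 : g * y * g⁻¹ ∈ Cn y := zpowers_le.2 m2 (n.zg d hv m1 (g1 ▸ conj_mem_Cn.2 yt) o (oy.conj g) fun a =>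
    f (n.it.inv_eq ▸ eq_inv_of_mul_eq_one_right a))
  have m3 := (conj_mem_Cn (g := g)).2 (g2 ▸ (conj_mem_Cn (g := g)).2 (g1 ▸ (conj_mem_Cn (g := g)).2 yt))
  rw [g3] at m3
  exact tri_cyc h.tri n.it hv (mem_Cn.1 c) g1 g2 n.pr n.odd (n.yr (mem_zpowers y)) n.y1 yt e (mem_Cn.1 c1)
    (mem_Cn.1 (conj_mem_Cn.1 (zpowers_le.2 (mem_Cn_comm.1 c1) (n.zt _ m3 (((oy.conj g).conj g).conj g)))))

theorem syl (n : NS Ro r t s γ y) (h : LG Ro p) (d : DC T) : ∃ x ∈ Cn t, x ∉ Cn s ∧ Inv (s * x) ∧ x ∉ Cn y := by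
  obtain ⟨S, x, k⟩ := d.syl n.it n.is n.st n.c
  obtain ⟨m, hm⟩ := n.real h
  have xy : x ∉ Cn y := fun e => by
    have := index_odd S (C := Cn y) fun g hg => ((k.mem g).1 hg).elim (zpowers_le.2 e ·)
      fun a => (mul_mem_cancel_left n.sy).1 (zpowers_le.2 e a)
    have h1 := card_two n.le (n.nm (mem_zpowers y) n.y1 (hm ▸ inv_mem (mem_zpowers y))) (n.ni hm) (n.two h)
    have h2 := (Cn y).card_mul_index.trans (Nm (zpowers y)).card_mul_index.symm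
    rw [h1, mul_comm 2, mul_assoc, Nat.mul_right_inj Nat.card_pos.ne'] at h2
    omega
  refine ⟨x, k.hS (k.le (mem_zpowers x)), fun e => xy (k.uq (u := x) ⟨fun a => xy (a.symm ▸ one_mem _), mul_eq_one_iff_eq_inv.2
    ((conj_eq_of_Cn (mem_Cn_comm.1 e)).symm.trans k.sx)⟩ (mem_zpowers x) |>.symm ▸ n.ty),
    (k.out (mul_mem k.sS (k.le (mem_zpowers x))) fun a => k.sn ((mul_mem_cancel_right (mem_zpowers x)).1 a)).2, xy⟩

theorem four (n : NS Ro r t s γ y) (h : LG Ro p) (d : DC T) (hw : Inv w) (m : w ∈ Cn y) : w = t ∨ w = s ∨ w = t * s := by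
  obtain ⟨x, xt, -, hv, xy⟩ := n.syl h d
  have vt := mul_mem n.c xt
  have vy : s * x ∉ Cn y := fun e => xy ((mul_mem_cancel_left n.sy).1 e)
  generalize s * x = v at hv vt vy
  have vM := n.ct d n.it n.ty vt
  have e := (n.act h vM).resolve_left vy
  have k : ∀ {w : T}, Inv w → w ∈ Cn y → w ∈ Cn t := fun {w} hw m => by
    have aM := mul_mem vM (n.le m)
    have ay : v * w ∉ Cn y := fun a => vy ((mul_mem_cancel_right m).1 a)
    obtain ⟨i, o⟩ := (od_or (v * w)).resolve_left fun o => ay (o.mem (k := 1) (by simpa [pow_two] using n.two h _ aM _ aM ay ay))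
    have f : ∀ {u : T}, u * (v * w) * u⁻¹ = (v * w)⁻¹ → u ∈ Cn ((v * w) ^ i) := fun a =>
      Cn_of_conj (by rw [← conj_pow, a, inv_pow, o.inv_eq])
    have iv := f (u := v) (by rw [mul_inv_rev, hw.inv_eq, hv.inv_eq, ← mul_assoc, hv.2, one_mul])
    have iw := f (u := w) (by rw [mul_inv_rev, hw.inv_eq, hv.inv_eq, mul_assoc, mul_assoc, hw.2, mul_one])
    have iM := pow_mem aM i
    generalize (v * w) ^ i = j at o iv iw iM
    rcases n.act h iM with a | a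
    · exact n.clC h d hv vt e o (mem_Cn_comm.1 iv) a ▸ iw
    by_cases b : j = v
    · exact (n.clC h d hv vt e hw (b ▸ iw) m).symm ▸ self_mem_Cn t
    have := n.clC h d hv vt e (o.mul hv b (mem_Cn.1 iv)) (mul_mem (mem_Cn_comm.1 iv) (self_mem_Cn v)) (n.two h _ iM _ vM (n.ni a) vy)
    exact (n.clC h d o ((mul_mem_cancel_right vt).1 (this ▸ self_mem_Cn _)) a hw iw m).symm ▸ self_mem_Cn t
  refine d.r2 n.it n.is hw n.st.symm n.c (k hw m) ?_
  have := (conj_mem_Cn (g := γ)).2 (k (hw.conj γ⁻¹) (mul_mem (mul_mem (inv_mem n.gy) m) (inv_mem (inv_mem n.gy))))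
  rw [n.g1] at this
  simpa [mul_assoc] using this

theorem vz (n : NS Ro r t s γ y) (d : DC T) (a : g ∈ Cn t) (b : g ∈ Cn s) :
    g ∈ zpowers y ∨ (Inv (g ^ r) ∧ g ^ r * g ∈ zpowers y) := by
  obtain ⟨A, O, a1, -, a3, a4, a5, a6, a7, -⟩ := d.cent n.it
  have sA : s ∉ A := fun k => n.st (a4 s k n.is)
  have m : g * g ∈ O := by
    by_cases e : g ∈ A
    swap
    · exact a7 g a e
    have := a7 _ (mul_mem a n.c) fun k => sA ((mul_mem_cancel_left e).1 k)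
    rwa [mul_assoc, ← mul_assoc s, mem_Cn.1 b, mul_assoc, n.is.2, mul_one] at this
  replace m := n.zt _ (mul_mem a a) (Od.of_mem a6 m)
  refine or_iff_not_imp_left.2 fun e => ⟨⟨fun k => e (n.zt g a ⟨r, n.odd, k⟩), by rw [← (Commute.refl g).mul_pow, n.yr m]⟩, ?_⟩
  obtain ⟨k, rfl⟩ := n.odd
  rw [← pow_succ, show 2 * k + 1 + 1 = 2 * (k + 1) by ring, pow_mul, pow_two]
  exact pow_mem m _

theorem card (n : NS Ro r t s γ y) (h : LG Ro p) (d : DC T) : Nat.card (Nm (zpowers y)) = 24 * r := by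
  obtain ⟨A, O, a1, a2, a3, a4, a5, -, -, a6⟩ := d.cent n.it
  have zo : ∀ {w : T}, Inv w → w ∉ zpowers y := fun i a => i.1 ((n.od a).eq_one i.2)
  have yt := zpowers_le.2 (mem_Cn_comm.1 n.ty)
  have c := mem_Cn.1 n.c
  have h1 := card_two (A := zpowers y) (C := A ⊓ (Cn t ⊓ Cn s)) (fun z a => ⟨a5 (a6 z (yt a) (n.od a)), yt a,
    zpowers_le.2 (mem_Cn_comm.1 n.sy) a⟩) (s := t) ⟨a2, self_mem_Cn t, mem_Cn_comm.1 n.c⟩ (zo n.it) fun a ha b hb c d' => by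
      obtain ⟨e1, e2⟩ := (n.vz d ha.2.1 ha.2.2).resolve_left c
      obtain ⟨e3, e4⟩ := (n.vz d hb.2.1 hb.2.2).resolve_left d'
      rw [a4 _ (pow_mem ha.1 r) e1] at e2
      rw [a4 _ (pow_mem hb.1 r) e3] at e4
      have := mul_mem e2 e4
      rwa [mem_Cn.1 ha.2.1, mul_assoc, ← mul_assoc t, n.it.2, one_mul] at this
  have h2 := card_two (A := A ⊓ (Cn t ⊓ Cn s)) inf_le_right (s := s) ⟨n.c, self_mem_Cn s⟩ (fun k => n.st (a4 s k.1 n.is))
    fun a ha b hb c d => ⟨a3 a ha.1 b hb.1 (fun e => c ⟨e, ha⟩) fun e => d ⟨e, hb⟩, mul_mem ha hb⟩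
  obtain ⟨x, xt, xs, -⟩ := n.syl h d
  have cy : ∀ {a w : T}, a ∈ Nm (zpowers y) → w ∈ Cn y → a * w * a⁻¹ ∈ Cn y := fun {a} _ ha hw => by
    have := (conj_mem_Cn (g := a)).2 hw
    rcases n.act h ha with e | e
    exacts [conj_eq_of_Cn e ▸ this, mem_Cn_comm.1 (inv_mem_iff.1 (e ▸ mem_Cn_comm.1 this))]
  have ct := n.ct d n.it n.ty
  have h3 := card_two (A := Cn t ⊓ Cn s) inf_le_left xt (fun k => xs k.2) fun a ha b hb e f => ⟨mul_mem ha hb, Cn_of_conj (by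
    have k : ∀ a ∈ Cn t, a ∉ Cn t ⊓ Cn s → a * s * a⁻¹ = t * s := fun a ha e =>
      ((n.four h d (n.is.conj a) (cy (ct ha) n.sy)).resolve_left fun k => n.st (by
        simpa using k.trans (conj_eq_of_Cn ha).symm)).resolve_left fun k => e ⟨ha, Cn_of_conj k⟩
    rw [show a * b * s * (a * b)⁻¹ = a * (b * s * b⁻¹) * a⁻¹ by group, k b hb f, ← conj_mul, k a ha e, conj_eq_of_Cn ha,
      ← mul_assoc, n.it.2, one_mul])⟩
  have h4 := ncard_double (fun m i => m * t * m⁻¹ = i) (Nm (zpowers y)) {t, s, t * s} (m := 1) (n := Nat.card (Cn t))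
    (fun m hm => Set.ncard_eq_one.2 ⟨m * t * m⁻¹, Set.ext fun i => ⟨fun a => a.2.symm, by
      rintro rfl; exact ⟨n.four h d (n.it.conj m) (cy hm n.ty), rfl⟩⟩⟩) fun i hi => by
    obtain ⟨g, hg, rfl⟩ : ∃ g ∈ Nm (zpowers y), g * t * g⁻¹ = i := by
      rcases hi with rfl | rfl | rfl
      exacts [⟨1, one_mem _, by simp⟩, ⟨γ, n.le n.gy, n.g1⟩, ⟨γ * γ, n.le (mul_mem n.gy n.gy), by rw [← n.g2, ← n.g1]; group⟩]
    rw [← card_Cn_conj g, ← ncard_coset _ g]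
    refine congrArg _ (Set.ext fun m => ⟨fun a => Cn_of_conj (Eq.trans (by group) a.2), fun a => ⟨?_,
      Eq.trans (by group) (conj_eq_of_Cn a)⟩⟩)
    exact (mul_mem_cancel_right (inv_mem hg)).1 (n.ct d (n.it.conj g) (cy hg n.ty) a)
  rw [Set.ncard_insert_of_notMem (by simpa [n.is.1] using n.st.symm), Set.ncard_pair (by simpa using n.it.1), ncard_coe,
    h3, h2, h1, Nat.card_zpowers, n.ord] at h4
  omega

theorem nt (n : NS Ro r t s γ y) (h : LG Ro p) (d : DC T) (r1 : Ro 1) : ∃ ψ, NT Ro t (Nm (zpowers y)) (zpowers y) ψ := by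
  set Z := zpowers y with hZ
  set M := Nm Z
  have le : Z ≤ M := le_normalizer
  have cZ : Nat.card Z = r := (Nat.card_zpowers y).trans n.ord
  have : (Z.subgroupOf M).Normal := normal_in_normalizer
  let φ := QuotientGroup.mk' (Z.subgroupOf M)
  have su : Function.Surjective φ := QuotientGroup.mk'_surjective _
  have ker : ∀ x, φ x = 1 ↔ (x : T) ∈ Z := fun x => QuotientGroup.eq_one_iff x
  have zo : ∀ z ∈ Z, z * z = 1 → z = 1 := fun z a => (n.od a).eq_one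
  have c := mem_Cn.1 n.c
  have v4 : ∀ {a b : T}, Inv a → Inv b → a ∈ Cn y → b ∈ Cn y → a * b = b * a := fun i j a b => by
    have k : ∀ {a : T}, Inv a → a ∈ Cn y → a ∈ Cn t ∧ a ∈ Cn s := fun i a => by
      rcases n.four h d i a with rfl | rfl | rfl
      exacts [⟨self_mem_Cn _, mem_Cn_comm.1 n.c⟩, ⟨n.c, self_mem_Cn _⟩,
        ⟨mul_mem (self_mem_Cn _) n.c, mul_mem (mem_Cn_comm.1 n.c) (self_mem_Cn _)⟩]
    have := k j b
    rcases n.four h d i a with rfl | rfl | rfl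
    exacts [mem_Cn.1 this.1, mem_Cn.1 this.2, mem_Cn.1 (mem_Cn_comm.1 (mul_mem (mem_Cn_comm.1 this.1) (mem_Cn_comm.1 this.2)))]
  have cy : ∀ {a w : T}, a ∈ M → w ∈ Cn y → a * w * a⁻¹ ∈ Cn y := fun {a} _ ha hw => by
    have := (conj_mem_Cn (g := a)).2 hw
    rcases n.act h ha with e | e
    exacts [conj_eq_of_Cn e ▸ this, mem_Cn_comm.1 (inv_mem_iff.1 (e ▸ mem_Cn_comm.1 this))]
  obtain ⟨e⟩ := H4.Small.S4_of (G := M ⧸ Z.subgroupOf M) (fun N hN pN => by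
    have key : ∀ i : M, Inv (i : T) → (i : T) ∈ Cn y → φ i ∉ N := fun i a b m => by
      have k : ∀ i : M, Inv (i : T) → φ i ≠ 1 := fun i a e => a.1 (zo _ ((ker i).1 e) a.2)
      have e := (Nat.prime_dvd_prime_iff_eq Nat.prime_two pN).1 (two_dvd_card ⟨k i a, by
        rw [← map_mul, show i * i = 1 from Subtype.ext a.2, map_one]⟩ m)
      let g : M := ⟨γ, n.le n.gy⟩
      obtain ⟨j, -, hj⟩ := (Nat.card_eq_two_iff' (1 : N)).1 e.symm
      have e1 : φ (g * i * g⁻¹) = φ i := congrArg Subtype.val ((hj ⟨_, by simpa using hN.conj_mem _ m (φ g)⟩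
        fun f => k (g * i * g⁻¹) (a.conj γ) (congrArg Subtype.val f)).trans (hj ⟨_, m⟩ fun f => k i a (congrArg Subtype.val f)).symm)
      have e2 : γ * i * γ⁻¹ = i := by_contra fun f => by
        have := (a.conj γ).mul a f (v4 (a.conj γ) a (cy g.2 b) b)
        exact k (g * i * g⁻¹ * i) this (by rw [map_mul, e1, ← map_mul, show i * i = 1 from Subtype.ext a.2, map_one])
      rcases n.four h d a b with f | f | f <;> rw [f] at e2
      · exact n.st (n.g1.symm.trans e2)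
      · exact n.it.1 (by simpa using n.g2.symm.trans e2)
      · rw [← conj_mul, n.g1, n.g2, ← mul_assoc, ← c] at e2
        exact n.is.1 (by simpa using e2)
    obtain ⟨g, m, g1⟩ := (bot_or_exists_ne_one N).resolve_left fun e => by simp [e, Nat.not_prime_one] at pN
    obtain ⟨g, rfl⟩ := su g
    have k : ∀ w : T, Inv w → w ∈ Cn y → (g : T) ∈ Cn w := fun w a b => Cn_of_conj (by_contra fun f =>
      key (g * ⟨w, n.le b⟩ * g⁻¹ * ⟨w, n.le b⟩) ((a.conj g).mul a f (v4 (a.conj g) a (cy g.2 b) b)) (mul_mem (cy g.2 b) b) (by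
        have := mul_mem m (hN.conj_mem _ (inv_mem m) (φ ⟨w, n.le b⟩))
        rw [← map_inv φ ⟨w, _⟩, show (⟨w, n.le b⟩ : M)⁻¹ = ⟨w, n.le b⟩ from Subtype.ext a.inv_eq] at this
        simpa [mul_assoc] using this))
    have a := k t n.it n.ty
    have b := k s n.is n.sy
    obtain ⟨i, -⟩ := (n.vz d a b).resolve_left (mt (ker g).2 g1)
    refine key (g ^ r) i ?_ (map_pow φ g r ▸ pow_mem m r)
    rcases d.r2 n.it n.is i n.st.symm n.c (pow_mem a r) (pow_mem b r) with f | f | f <;> rw [coe_pow, f]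
    exacts [n.ty, n.sy, mul_mem n.ty n.sy]) (by
      have := (card_eq_card_quotient_mul_card_subgroup (Z.subgroupOf M)).symm.trans (n.card h d)
      rwa [Nat.card_congr (subgroupOfEquivOfLe le).toEquiv, cZ, Nat.mul_left_inj n.pr.ne_zero] at this)
  have cz : ∀ x ∈ Cn y, ∀ z ∈ Z, x * z * x⁻¹ = z := fun x a z b => conj_eq_of_Cn (mem_Cn_comm.1 (zpowers_le.2 (mem_Cn_comm.1 a) b))
  obtain ⟨m, mi⟩ := n.real h
  have hm : m ∈ M := n.nm (mem_zpowers y) n.y1 (mi ▸ inv_mem (mem_zpowers y))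
  have sq : ∀ x : M, (∃ a b, φ x = a * a * (b * b)) → (x : T) ∈ Cn y := fun x ⟨a, b, e⟩ => by
    obtain ⟨a, rfl⟩ := su a
    obtain ⟨b, rfl⟩ := su b
    have k : ∀ a : M, (a : T) * a ∈ Cn y := fun a => by
      by_cases f : (a : T) ∈ Cn y
      exacts [mul_mem f f, n.two h _ a.2 _ a.2 f f]
    have m := (ker ((a * a * (b * b))⁻¹ * x)).1 (by simp only [map_mul, map_inv, e, inv_mul_cancel])
    exact (mul_mem_cancel_left (inv_mem (mul_mem (k a) (k b)))).1 (zpowers_le.2 (self_mem_Cn y) m)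
  have ev : ∀ x : M, Perm.sign (e (φ x)) = 1 → (x : T) ∈ Cn y := fun x k => sq x (by
    obtain ⟨a, b, k⟩ := S4_sq _ k
    exact ⟨e.symm a, e.symm b, e.injective (by simp [k])⟩)
  refine ⟨e.toMonoidHom.comp φ, n.it, d.cls n.it, e.surjective.comp su, le, fun x => by simp [← ker], cZ ▸ n.odd,
    fun k => n.y1 (mem_bot.1 (k ▸ mem_zpowers y)), fun z a => by_cases (fun e : z = 1 => e ▸ r1) (n.ro z a), fun x k => cz _ (ev x k),
    fun x k z hz => ?_, fun z a b _ => n.nm a b, n.ct d n.it n.ty, zpowers_le.2 (mem_Cn_comm.1 n.ty), cZ ▸ n.r35⟩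
  have := ev (x * ⟨m, hm⟩) (by
    simp [(Int.units_eq_one_or (Perm.sign (e (φ ⟨m, hm⟩)))).resolve_left (mt (ev _) (n.ni mi)), show Perm.sign (e (φ x)) = -1 from k])
  have f := (n.act h x.2).resolve_left fun a => n.ni mi ((mul_mem_cancel_left a).1 this)
  obtain ⟨i, rfl⟩ := hz
  simp only [← conj_zpow, f, inv_zpow]

end NS

theorem gnc : GNC := fun _ _ _ _ _ h d nf q G r1 =>
  have d := d.dc h.perf
  let ⟨_, t, _, _, _, n⟩ := exists_ns h d nf q G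
  ⟨t, _, _, n.nt h d r1⟩

end Cfsg.Agent.H1.N1
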