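import Cfsg.Agent.H1.N1d

/-! Three commuting elements with independent sign patterns. -/

set_option autoImplicit false

namespace Cfsg.Agent.H1.N1

open Matrix Cfsg.Agent.MH Cfsg.Agent.H1.Mit Subgroup

variable {T K : Type*} [Group T] [Field K]

theorem sep {g u v u' v' : T} (e : u * v = u' * v') (h1 : g * u * g⁻¹ = u) (h2 : g * u' * g⁻¹ = u') (h3 : g * v * g⁻¹ = v⁻¹)
    (h4 : g * v' * g⁻¹ = v'⁻¹) (c : v * v'⁻¹ = v'⁻¹ * v) (o : Od (u'⁻¹ * u)) : u = u' := by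
  have e1 : u'⁻¹ * u = v' * v⁻¹ := by rw [inv_mul_eq_iff_eq_mul, ← mul_assoc, ← e, mul_inv_cancel_right]
  have e2 : g * (u'⁻¹ * u) * g⁻¹ = u'⁻¹ * u := by rw [← conj_mul, ← conj_inv, h1, h2]
  have := o.eq_one (mul_eq_one_iff_eq_inv.2 (e2.symm.trans (by
    rw [e1, ← conj_mul, ← conj_inv, h3, h4, inv_inv, _root_.mul_inv_rev, inv_inv, c])))
  exact (inv_mul_eq_one.1 this).symm

namespace PR

variable {ρ : PR T K}

theorem Gm.quad [Finite T] (h : ρ.Gm) {r : ℕ} (hr : r.Prime) (r0 : (r : K) = 0) {x : T} {X : M4 K} (hX : ρ.O x X)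
    (e : x ^ r = 1) (n : nv x ≠ 0) : (X - 1) * (X - 1) = 0 := by
  simp only [Ne, nv_eq_zero, not_forall, not_not] at n
  obtain ⟨s, hs, c⟩ := n
  obtain ⟨Q, hQ, d, l, k⟩ := h.blk (n := 2) hs.1 (by simpa using h.two) (pow_two s ▸ hs.2)
  have o := hX.cj hQ (Y := Q⁻¹ * X * Q) (by simp only [mul_assoc, ri' hQ])
  have b := comm_bd k.1 k.2.1 k.2.2.1 k.2.2.2 (o.comm l (mem_Cn.1 c).symm).symm
  have := congrArg (Q * · * Q⁻¹) (bd_nil (UL.sub1 b.1) b.2.sub1 (nil_of_pow (k := 1) hr r0 (by simpa using o.pow_eq e)))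
  rw [← cj_mul hQ, ← cj_sub1 hQ] at this
  simpa only [mul_assoc, ri' hQ, ri hQ, mul_one, mul_zero, zero_mul] using this

theorem Gm.tri [Finite T] (h : ρ.Gm) : Tri T := fun r g k x y z hr o xr yr zr x1 y1 z1 xy xz yz nx ny nz gx gy gz kx ky kz => by
  classical
  have ne : ∀ {g a b : T}, b ^ r = 1 → b ≠ 1 → g * a * g⁻¹ = a → g * b * g⁻¹ = b⁻¹ → ¬ (b = 1 ∨ b = a ∨ b = a⁻¹) := by
    rintro g a b br b1 e1 e2 (e | e | e)
    · exact b1 e
    all_goals refine b1 (eq_one_of_odd o br (mul_eq_one_iff_eq_inv.2 (Eq.trans ?_ e2)))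
    · rw [e, e1]
    · rw [e, ← conj_inv, e1]
  by_cases r0 : (r : K) = 0
  · obtain ⟨X, hX, -⟩ := ρ.exO o xr
    obtain ⟨Y, hY, -⟩ := ρ.exO o yr
    obtain ⟨Z, hZ, -⟩ := ρ.exO o zr
    have c : ∀ {a b A B}, ρ.O a A → ρ.O b B → a * b = b * a → (A - 1) * (B - 1) = (B - 1) * (A - 1) := fun p q e => by
      simp only [mul_sub, sub_mul, q.comm p.1 e, mul_one, one_mul]; abel
    have f : ∀ {a b A B}, ρ.O a A → ρ.O b B → a * b = b * a → a ≠ 1 → (A - 1) * (A - 1) = 0 → (A - 1) * (B - 1) = 0 →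
        b = 1 ∨ b = a ∨ b = a⁻¹ := fun p q e n s t => (h.sq _ _ p.1 (mt p.eq_one.2 n) s).2 _ _ q.1 ((c p q e).symm.trans t) t
    have qx := h.quad hr r0 hX xr nx
    have qy := h.quad hr r0 hY yr ny
    rcases cyc_three h.two qx qy (h.quad hr r0 hZ zr nz) (c hX hY xy) (c hZ hX xz.symm) (c hZ hY yz.symm) with e | e | e
    exacts [ne yr y1 gx gy (f hX hY xy x1 qx e), ne zr z1 gx gz (f hX hZ xz x1 qx e), ne zr z1 ky kz (f hY hZ yz y1 qy e)]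
  let D := Cn x ⊓ Cn y ⊓ Cn z
  let E : Subgroup T :=
    { carrier := {w | w ∈ D ∧ w ^ r = 1 ∧ D ≤ Cn w}
      one_mem' := ⟨one_mem _, by simp, fun _ _ => by simp [mem_Cn]⟩
      mul_mem' := fun {a b} ha hb => ⟨mul_mem ha.1 hb.1, by rw [Commute.mul_pow (mem_Cn.1 (ha.2.2 hb.1)), ha.2.1, hb.2.1, one_mul],
        fun y hy => mem_Cn_comm.1 (mul_mem (mem_Cn_comm.1 (ha.2.2 hy)) (mem_Cn_comm.1 (hb.2.2 hy)))⟩
      inv_mem' := fun {a} ha => ⟨inv_mem ha.1, by rw [inv_pow, ha.2.1, inv_one],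
        fun y hy => mem_Cn_comm.1 (inv_mem (mem_Cn_comm.1 (ha.2.2 hy)))⟩ }
  have cm : ∀ a ∈ E, ∀ b ∈ E, a * b = b * a := fun a ha b hb => mem_Cn.1 (ha.2.2 hb.1)
  have xE : x ∈ E := ⟨⟨⟨self_mem_Cn x, mem_Cn.2 xy.symm⟩, mem_Cn.2 xz.symm⟩, xr, fun _ e => e.1.1⟩
  have yE : y ∈ E := ⟨⟨⟨mem_Cn.2 xy, self_mem_Cn y⟩, mem_Cn.2 yz.symm⟩, yr, fun _ e => e.1.2⟩
  have zE : z ∈ E := ⟨⟨⟨mem_Cn.2 xz, mem_Cn.2 yz⟩, self_mem_Cn z⟩, zr, fun _ e => e.2⟩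
  obtain ⟨Q, hQ, hd⟩ := h.diag (R := E) o r0 (fun w a => a.2.1) cm
  choose! d hd using hd
  have dr : ∀ w ∈ E, ∀ i, d w i ^ r = 1 := fun w a i => by
    have := congrFun (congrFun ((hd w a).pow_eq a.2.1) i) i
    simpa [diagonal_pow] using this
  have d0 : ∀ w ∈ E, ∀ i, d w i ≠ 0 := fun w a i e => by simpa [e, hr.ne_zero] using dr w a i
  let w : Fin r × Fin r × Fin r → T := fun a => x ^ a.1.1 * (y ^ a.2.1.1 * z ^ a.2.2.1)
  have wE : ∀ a, w a ∈ E := fun a => mul_mem (pow_mem xE _) (mul_mem (pow_mem yE _) (pow_mem zE _))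
  obtain ⟨a, -, b, -, ab, e⟩ := Finset.exists_ne_map_eq_of_card_lt_of_maps_to (s := Finset.univ)
    (t := Polynomial.nthRootsFinset r (1 : K) ×ˢ Polynomial.nthRootsFinset r (1 : K))
    (f := fun a => (d (w a) 1 / d (w a) 3, d (w a) 2 / d (w a) 3)) (by
      have := (Multiset.toFinset_card_le _).trans (Polynomial.card_nthRoots r (1 : K))
      have := Nat.mul_le_mul this this
      have := hr.one_lt
      simp only [Finset.card_product, Finset.card_univ, Fintype.card_prod, Fintype.card_fin, Polynomial.nthRootsFinset_def]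
      nlinarith [Nat.mul_pos hr.pos hr.pos]) fun a _ => by
      simp [Polynomial.mem_nthRootsFinset hr.pos, div_pow, dr _ (wE a)]
  have uE := mul_mem (inv_mem (wE a)) (wE b)
  have e1 := ((hd _ (wE a)).mul (hd _ uE) (cm _ (wE a) _ uE)).uniq (by simpa using hd _ (wE b))
  rw [diagonal_mul_diagonal, diagonal_eq_diagonal_iff] at e1
  simp only [Prod.mk.injEq, e1, div_eq_div_iff (d0 _ (wE a) 3) (mul_ne_zero (d0 _ (wE a) 3) (d0 _ uE 3))] at e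
  have e2 := inv_mul_eq_one.1 ((h.cj hQ).per _ _ (d ((w a)⁻¹ * w b) 3) (hd _ uE).1 (rk1_diag 0 fun i hi => by
    fin_cases i
    · exact absurd rfl hi
    · exact mul_left_cancel₀ (mul_ne_zero (d0 _ (wE a) 1) (d0 _ (wE a) 3)) (by dsimp only [Fin.mk_one]; linear_combination -e.1)
    · exact mul_left_cancel₀ (mul_ne_zero (d0 _ (wE a) 2) (d0 _ (wE a) 3)) (by dsimp only [Fin.reduceFinMk]; linear_combination -e.2)
    · rfl))
  have := Fact.mk hr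
  have ij : ∀ {u : T} {i j : Fin r}, u ^ r = 1 → u ≠ 1 → u ^ i.1 = u ^ j.1 → i = j := fun {u i j} p q e =>
    Fin.ext (pow_injOn_Iio_orderOf (by rw [orderOf_eq_prime p q]; exact i.2) (by rw [orderOf_eq_prime p q]; exact j.2) e)
  have fx : ∀ {g u : T} (i : ℕ), g * u * g⁻¹ = u → g * u ^ i * g⁻¹ = u ^ i := fun i e => by rw [← conj_pow, e]
  have iv : ∀ {g u : T} (i : ℕ), g * u * g⁻¹ = u⁻¹ → g * u ^ i * g⁻¹ = (u ^ i)⁻¹ := fun i e => by rw [← conj_pow, e, inv_pow]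
  have iv2 : ∀ i j : ℕ, g * (y ^ i * z ^ j) * g⁻¹ = (y ^ i * z ^ j)⁻¹ := fun i j => by
    rw [← conj_mul, iv i gy, iv j gz, ← _root_.mul_inv_rev, cm _ (pow_mem zE _) _ (pow_mem yE _)]
  have od : ∀ u ∈ E, Od u := fun u a => ⟨r, o, a.2.1⟩
  have e3 := sep e2 (fx _ gx) (fx _ gx) (iv2 _ _) (iv2 _ _) (cm _ (mul_mem (pow_mem yE _) (pow_mem zE _)) _
    (inv_mem (mul_mem (pow_mem yE _) (pow_mem zE _)))) (od _ (mul_mem (inv_mem (pow_mem xE _)) (pow_mem xE _)))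
  simp only [w, e3, mul_right_inj] at e2
  have e4 := sep e2 (fx _ ky) (fx _ ky) (iv _ kz) (iv _ kz) (cm _ (pow_mem zE _) _ (inv_mem (pow_mem zE _)))
    (od _ (mul_mem (inv_mem (pow_mem yE _)) (pow_mem yE _)))
  rw [e4, mul_right_inj] at e2
  exact ab (Prod.ext (ij xr x1 e3) (Prod.ext (ij yr y1 e4) (ij zr z1 e2)))

end PR

end Cfsg.Agent.H1.N1
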