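import Cfsg.Agent.H1.C7n
import Cfsg.Agent.H3.TenO7

/-!
Orthogonal spaces of dimension at least three in odd characteristic: the group `Ω` and rank one maps.
-/

set_option autoImplicit false
set_option linter.unusedSectionVars false
set_option linter.unusedSimpArgs false

namespace Cfsg.Agent.H1.O7a

open Module Cfsg.Agent.H7 Cfsg.Agent.Form Cfsg.Agent.H3.TenLin Cfsg.Agent.H3.TenSL Cfsg.Agent.H3.TenSU
  Cfsg.Agent.H3.TenGen Cfsg.Agent.H3.RootGeo Cfsg.Agent.H3.OrthLem Cfsg.Agent.H3.TenO1 Cfsg.Agent.H3.TenSpSp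
  Cfsg.Agent.H9.FClass Cfsg.Agent.H1.C7d Cfsg.Agent.H1.C7j Cfsg.Agent.H1.C7k Cfsg.Agent.H1.C7n
open scoped Pointwise

variable {F : Type*} [Field F] {W : Type*} [AddCommGroup W] [Module F W] [FiniteDimensional F W]
  {S : PQ (FP.orth F) W}

/-- reflections -/
noncomputable def rl (S : PQ (FP.orth F) W) (a : W) : W ≃ₗ[F] W := H8.refl (toQF S) a

theorem rl_apply (a x : W) : rl S a x = x - (S.B x a / S.Q a) • a := by
  rw [rl, H8.refl_apply, polar_toQF, toQF_apply]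

theorem rl_mem (a : W) : rl S a ∈ S.isom := OG_toQF S ▸ H8.refl_mem_OG a

theorem rl_sq (a : W) : rl S a * rl S a = 1 := H8.refl_mul_self a

theorem rl_rl (a x : W) : rl S a (rl S a x) = x := LinearEquiv.congr_fun (rl_sq a) x

theorem rl_conj {g : W ≃ₗ[F] W} (hg : g ∈ S.isom) (a : W) : g * rl S a * g⁻¹ = rl S (g a) :=
  H8.refl_conj (OG_toQF S ▸ hg) a

theorem rl_smul {c : F} (hc : c ≠ 0) (a : W) : rl S (c • a) = rl S a := H8.refl_smul hc a

theorem om_comm {g k : W ≃ₗ[F] W} (hg : g ∈ S.isom) (hk : k ∈ S.isom) : g * k * g⁻¹ * k⁻¹ ∈ Om S :=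
  H8.comm_mem_Om (OG_toQF S ▸ hg) (OG_toQF S ▸ hk)

theorem om_conj {g k : W ≃ₗ[F] W} (hg : g ∈ S.isom) (hk : k ∈ Om S) : g * k * g⁻¹ ∈ Om S :=
  H8.Om_conj (OG_toQF S ▸ hg) hk

theorem sg_mul {d y y' : W} (hd : S.Q d = 0) (hy : S.B y d = 0) (hy' : S.B y' d = 0) :
    sg S d y * sg S d y' = sg S d (y + y') :=
  H8.siegel_mul hd (by rw [polar_toQF, S.B_comm_zero hy]) (by rw [polar_toQF, S.B_comm_zero hy'])

theorem sg_conj {g : W ≃ₗ[F] W} (hg : g ∈ S.isom) (d y : W) : g * sg S d y * g⁻¹ = sg S (g d) (g y) :=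
  H8.siegel_conj (OG_toQF S ▸ hg) d y

theorem rl_mul_mem (hS : S.Nondeg) {a b : W} {c : F} (hc : c ≠ 0) (ha : S.Q a ≠ 0) (h : S.Q b = c * c * S.Q a) :
    rl S a * rl S b ∈ Om S := by
  obtain ⟨g, hg, e⟩ := hS.witt_step ⊥ (u := c • a) (v := b)
    (by simp only [Submodule.mem_bot, smul_eq_zero, hc, false_or]; rintro rfl; exact ha S.orth_Q_zero)
    (by simp only [Submodule.mem_bot]; rintro rfl; simp [S.orth_Q_zero, hc, ha] at h) (by simp)
    (by simp [S.orth_Q_smul, h, sq])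
  have hg := S.gen_le_isom _ hg
  convert om_comm (rl_mem a) hg using 1
  rw [← e, ← rl_conj hg, rl_smul hc, inv_eq_of_mul_eq_one_right (rl_sq a)]; group

theorem sg_mem_Om (h2 : (2 : F) ≠ 0) (hS : S.Nondeg) (h3 : 3 ≤ finrank F W) (d y : W) : sg S d y ∈ Om S := by
  by_cases H : toQF S d = 0 ∧ QuadraticMap.polar (toQF S) d y = 0
  swap
  · rw [sg, H8.siegel_of_not H]; exact one_mem _
  obtain ⟨hd, hy⟩ := H
  rw [polar_toQF, S.orth_B_swap] at hy
  replace hd : S.Q d = 0 := hd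
  have key : ∀ y, S.B y d = 0 → S.Q y ≠ 0 → sg S d y ∈ Om S := fun y hy hQ => by
    have h1 : S.B ((2 : F)⁻¹ • y) d = 0 := by simp [hy]
    have := om_comm (sg_mem (S := S) d ((2 : F)⁻¹ • y)) (rl_mem y)
    rwa [mul_assoc, mul_assoc, ← mul_assoc (rl S y), show (sg S d ((2 : F)⁻¹ • y))⁻¹ = _ from sg_symm d _,
      sg_conj (rl_mem y),
      show rl S y d = d by simp [rl_apply, S.B_comm_zero hy], show rl S y (-((2 : F)⁻¹ • y)) = (2 : F)⁻¹ • y by
        simp [rl_apply, S.orth_B_self, hQ, h2]; match_scalars; field_simp; ring, sg_mul hd h1 h1,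
      ← two_smul F, smul_smul, mul_inv_cancel₀ h2, one_smul] at this
  by_cases hQ : S.Q y = 0
  swap
  · exact key y hy hQ
  obtain ⟨z, hz, hQz⟩ := exists_ns₁ hS h3 d
  by_cases h1 : S.Q (y - z) = 0
  · have := mul_mem (key (y + z) (by simp [hy, hz]) fun e => hQz (mul_left_cancel₀ h2 (by
      simp only [S.orth_Q_add, S.orth_Q_sub, hQ] at e h1; linear_combination e + h1)))
      (key (-z) (by simp [hz]) (by simpa [S.orth_Q_neg]))
    rwa [sg_mul hd (by simp [hy, hz]) (by simp [hz]), add_neg_cancel_right] at this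
  · have := mul_mem (key _ (by simp [hy, hz]) h1) (key z hz hQz)
    rwa [sg_mul hd (by simp [hy, hz]) hz, sub_add_cancel] at this

theorem sq_mem_Om (h2 : (2 : F) ≠ 0) (hS : S.Nondeg) (h3 : 3 ≤ finrank F W) {g : W ≃ₗ[F] W} (hg : g ∈ S.isom) :
    g * g ∈ Om S := by
  let C : Subgroup (W ≃ₗ[F] W) :=
    { carrier := {h | h ∈ S.isom ∧ h * h ∈ Om S}
      mul_mem' := fun {a b} ha hb => ⟨mul_mem ha.1 hb.1, by
        rw [show a * b * (a * b) = (a * b * a⁻¹ * b⁻¹) * (b * (a * a) * b⁻¹) * (b * b) by group]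
        exact mul_mem (mul_mem (om_comm ha.1 hb.1) (om_conj hb.1 ha.2)) hb.2⟩
      one_mem' := ⟨one_mem _, by simp⟩
      inv_mem' := fun {a} ha => ⟨inv_mem ha.1, by rw [← mul_inv_rev]; exact inv_mem ha.2⟩ }
  exact (H8.OG_gen_top (nd_toQF hS) C (fun a _ => ⟨rl_mem a, by rw [H8.refl_mul_self]; exact one_mem _⟩)
    (fun u v _ _ _ => ⟨sg_mem u v, mul_mem (sg_mem_Om h2 hS h3 u v) (sg_mem_Om h2 hS h3 u v)⟩)
    (OG_toQF S ▸ hg)).2

theorem move (hS : S.Nondeg) (h3 : 3 ≤ finrank F W) {d e : W} (hd : S.Q d = 0) (he : S.Q e = 0) (h0 : d ≠ 0)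
    (h0' : e ≠ 0) : ∃ g ∈ Om S, ∃ c : F, c ≠ 0 ∧ g d = c • e := by
  have key : ∀ {d e : W}, S.Q d = 0 → S.Q e = 0 → S.B d e ≠ 0 → ∃ g ∈ Om S, ∃ c : F, c ≠ 0 ∧ g d = c • e := by
    intro d e hd he h
    obtain ⟨y, hy, hQ⟩ := exists_ns₁ hS h3 e
    have h1 : S.Q (d + (S.Q y / S.B d e) • e) = S.Q y := by simp [S.orth_Q_add, S.orth_Q_smul, hd, he, h]
    refine ⟨_, rl_mul_mem hS one_ne_zero hQ (b := d + (S.Q y / S.B d e) • e) (by simp [h1]), -(S.Q y / S.B d e),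
      by simp [hQ, h], ?_⟩
    rw [LinearEquiv.mul_apply, rl_apply _ d, h1]
    simp [B_self_zero hd, h, hQ, rl_apply, S.B_comm_zero hy]
  have two : ∀ f, S.Q f = 0 → S.B f d ≠ 0 → S.B f e ≠ 0 → ∃ g ∈ Om S, ∃ c : F, c ≠ 0 ∧ g d = c • e := by
    intro f hf h1 h2
    obtain ⟨g, hg, c, hc, e1⟩ := key hd hf (by rwa [S.orth_B_swap])
    obtain ⟨g', hg', c', hc', e2⟩ := key hf he h2
    exact ⟨g' * g, mul_mem hg' hg, c * c', mul_ne_zero hc hc', by simp [e1, e2, mul_smul]⟩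
  by_cases h3 : S.B d e = 0
  swap
  · exact key hd he h3
  obtain ⟨d', a1, a2⟩ := exists_partner hS hd h0
  obtain ⟨e', b1, b2⟩ := exists_partner hS he h0'
  by_cases h1 : S.B d' e = 0
  swap
  · exact two d' a1 (by simp [a2]) h1
  by_cases h2 : S.B e' d = 0
  swap
  · exact two e' b1 h2 (by simp [b2])
  exact two (d' + e' - S.B d' e' • e) (by simp [S.orth_Q_add, S.orth_Q_sub, S.orth_Q_smul, a1, b1, he, h1, b2])
    (by simp [a2, h2, S.B_comm_zero h3]) (by simp [h1, b2, B_self_zero he])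

theorem torus (hS : S.Nondeg) {w e : W} (hw : S.Q w = 0) (he : S.Q e = 0) (h : S.B e w = 1) {c : F} (hc : c ≠ 0) :
    ∃ g ∈ Om S, g w = (c * c) • w ∧ ∀ y, S.B y w = 0 → S.B y e = 0 → g y = y := by
  have hQ : ∀ a : F, S.Q (w + a • e) = a := fun a => by
    simp [S.orth_Q_add, S.orth_Q_smul, hw, he, S.orth_B_swap e w, h]
  refine ⟨_, rl_mul_mem hS hc (a := w + (1 : F) • e) (b := w + (c * c) • e) (by simp only [hQ]; simp) (by
    simp only [hQ]; simp), ?_, fun y h1 h2 => by simp [rl_apply, h1, h2]⟩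
  rw [LinearEquiv.mul_apply, rl_apply _ w, hQ, map_sub, map_smul, map_add, map_smul, rl_apply, rl_apply, hQ]
  simp [B_self_zero hw, B_self_zero he, S.orth_B_swap e w, h, hc]

theorem dec3 (h2 : (2 : F) ≠ 0) (hS : S.Nondeg) (h3 : finrank F W = 3) {d e y : W} (hd : S.Q d = 0) (he : S.Q e = 0)
    (h : S.B e d = 1) (h1 : S.B y e = 0) (h1' : S.B y d = 0) (hy : S.Q y ≠ 0) (x : W) :
    x = S.B x e • d + S.B x d • e + (S.B x y / (2 * S.Q y)) • y := by
  obtain ⟨-, a2⟩ := hyp_perp hS hd he (by simp [h])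
  have y0 : y ≠ 0 := by rintro rfl; exact hy S.orth_Q_zero
  have a3 : (F ∙ y) = S.perp (Submodule.span F {e, d}) := Submodule.eq_of_le_of_finrank_le
    (by simpa using mem_perp_pair.2 ⟨h1, h1'⟩) (by rw [finrank_span_singleton y0]; omega)
  obtain ⟨c, hc⟩ := Submodule.mem_span_singleton.1 (a3.ge <| (mem_perp_pair (x := x - S.B x e • d - S.B x d • e)).2
    ⟨by simp [S.orth_B_swap e d, h, B_self_zero he], by simp [h, B_self_zero hd]⟩)
  have := congrArg (S.B · y) hc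
  simp [S.B_comm_zero h1, S.B_comm_zero h1', S.orth_B_self] at this
  rw [← this, mul_div_cancel_right₀ _ (mul_ne_zero h2 hy), hc]; abel

/-- the symmetric type -/
def Tp (S : PQ (FP.orth F) W) : Set (End F W) := {t | ∃ d, S.Q d = 0 ∧ d ≠ 0 ∧ t = rk S d d}

/-- the skew type -/
def Tv (S : PQ (FP.orth F) W) : Set (End F W) :=
  {t | ∃ d a, S.Q d = 0 ∧ d ≠ 0 ∧ S.B a d = 0 ∧ a ∉ F ∙ d ∧ t = wg S d a}

variable [Finite F]

theorem top_of_ne (h2 : (2 : F) ≠ 0) (hS : S.Nondeg) (h3 : 3 ≤ finrank F W) {A : Submodule F W} {d : W}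
    (hd : S.Q d = 0) (h0 : d ≠ 0) (h : ∀ x, S.Q x = 0 → S.B x d ≠ 0 → x ∈ A) (x : W) : x ∈ A := by
  obtain ⟨e, he, hed⟩ := exists_partner hS hd h0
  obtain ⟨y, a1, a2, hy⟩ := exists_ns_hyp hS h3 hd he (by simp [hed])
  refine le_of_sing_ne (H := ⊤) ((S.orth_sing d).2 hd) trivial ?_ ⟨e, trivial, by simp [hed]⟩
    (fun x _ hx => h x ((S.orth_sing x).1 hx)) trivial
  have k : ∀ y, S.B y e = 0 → S.B y d = 0 → y + e - S.Q y • d ∈ A := fun y a1 a2 => h _ (by
    simp [S.orth_Q_sub, S.orth_Q_add, S.orth_Q_smul, hd, he, a1, a2, hed]) (by simp [a2, hed, B_self_zero hd])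
  refine (A.smul_mem_iff (mul_ne_zero h2 hy)).1 ?_
  convert sub_mem (A.smul_mem 2 (h e he (by simp [hed]))) (add_mem (k y a1 a2) (k (-y) (by simp [a1]) (by simp [a2])))
    using 1
  rw [S.orth_Q_neg]; module

theorem span_Tp (h2 : (2 : F) ≠ 0) (hS : S.Nondeg) (h3 : 3 ≤ finrank F W) :
    Submodule.span F (Tp S * Tp S) = ⊤ := by
  set A := Submodule.span F (Tp S * Tp S)
  refine eq_top_iff.2 fun t _ => mem_of_rk1 (fun ψ x => ?_) t
  refine top_le_of_sing hS h3 (Y := A.comap (rk1 F W ψ)) (fun a ha => ?_) x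
  by_cases h0 : a = 0
  · simp [h0]
  obtain ⟨c, rfl⟩ := hS.exists_lin ψ
  let A' : Submodule F W :=
    { carrier := {c | rk S c a ∈ A}
      add_mem' := fun h h' => by
        rw [Set.mem_ofPred_eq]; convert A.add_mem h h' using 1; ext; simp [add_smul]
      zero_mem' := by rw [Set.mem_ofPred_eq]; convert A.zero_mem using 1; ext; simp
      smul_mem' := fun s c h => by
        rw [Set.mem_ofPred_eq]; convert A.smul_mem s h using 1; ext; simp [mul_smul] }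
  exact top_of_ne h2 hS h3 (A := A') ha h0 (fun b hb h => (A.smul_mem_iff h).1
    (rk_mul (S := S) a a b b ▸ Submodule.subset_span (Set.mul_mem_mul ⟨a, ha, h0, rfl⟩
      ⟨b, hb, by rintro rfl; simp at h, rfl⟩))) c

theorem wg_sq {d y : W} (hd : S.Q d = 0) (hy : S.B y d = 0) : wg S d y * wg S d y = -(2 * S.Q y) • rk S d d := by
  ext; simp [B_self_zero hd, hy, S.B_comm_zero hy, S.orth_B_self, smul_smul, mul_comm]

theorem wg_mul_rk {d y : W} (hd : S.Q d = 0) (hy : S.B y d = 0) : wg S d y * rk S d d = 0 := by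
  ext; simp [B_self_zero hd, S.B_comm_zero hy]

theorem rk_mul_wg {d y : W} (hd : S.Q d = 0) (hy : S.B y d = 0) : rk S d d * wg S d y = 0 := by
  ext; simp [B_self_zero hd, hy]

theorem cj_eq (g : W ≃ₗ[F] W) (t : End F W) : (g : End F W) * t * (g.symm : End F W) = cj g t := rfl

theorem up (h2 : (2 : F) ≠ 0) (hS : S.Nondeg) (hd : finrank F W = 3 ∨ 5 ≤ finrank F W) {J : AddSubgroup (End F W)}
    (hJ : ∀ g ∈ Om S, ∀ X ∈ J, cj g X ∈ J) {t : End F W} (ht : t ∈ Tv S) (h : t ∈ J) {d a : W} (hd' : S.Q d = 0)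
    (ha : S.B a d = 0) (c : F) : c • wg S d a ∈ J := by
  have h3 : 3 ≤ finrank F W := by omega
  let Z : Submodule F (End F W) :=
    { carrier := {X | ∀ c : F, c • X ∈ J}
      add_mem' := fun h h' c => by rw [smul_add]; exact add_mem (h c) (h' c)
      zero_mem' := fun c => by simp
      smul_mem' := fun s X h c => by rw [smul_smul]; exact h _ }
  have hZ : ∀ g ∈ Om S, ∀ X ∈ Z, cj g X ∈ Z := fun g hg X hX c => by rw [← cj_smul]; exact hJ g hg _ (hX c)
  obtain ⟨f, b, hf, f0, hb, hbf, rfl⟩ := ht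
  obtain ⟨e, he, hef⟩ := exists_partner hS hf f0
  obtain ⟨b, hb, hbe, hbf, h⟩ : ∃ b, S.B b f = 0 ∧ S.B b e = 0 ∧ b ≠ 0 ∧ wg S f b ∈ J :=
    ⟨b - S.B b e • f, by simp [hb, B_self_zero hf], by simp [S.orth_B_swap e f, hef], fun e => hbf (by
      rw [sub_eq_zero.1 e]; exact Submodule.smul_mem _ _ (Submodule.mem_span_singleton_self _)), by
      convert h using 1; ext; simp; module⟩
  obtain ⟨y, a1, s, hs, a2⟩ : ∃ y, S.B y e = 0 ∧ ∃ s : F, s ≠ 0 ∧ S.Q y • b - S.B y b • y = s • b := by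
    by_cases hQ : S.Q b = 0
    · obtain ⟨y, a1, a2, a3⟩ := exists_ns₂ hS (hd.resolve_left fun h4 => by
        obtain ⟨y, a1, a2, a3⟩ := exists_ns_hyp hS h3 hf he (by simp [hef])
        have := dec3 h2 hS h4 hf he hef a1 a2 a3 b
        rw [hb, hbe, zero_smul, zero_smul, zero_add, zero_add] at this
        rw [this, S.orth_Q_smul, mul_eq_zero, sq_eq_zero_iff, or_iff_left a3] at hQ
        exact hbf (by rw [this, hQ, zero_smul])) e b
      exact ⟨y, a1, _, a3, by simp [a2]⟩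
    · exact ⟨b, hbe, -S.Q b, by simpa, by rw [S.orth_B_self]; module⟩
  have k1 : ∀ c : F, (c * c) • wg S ((2 * s) • b) e ∈ J := fun c => by
    have := sub_mem (add_mem (hJ _ (sg_mem_Om h2 hS h3 e (c • y)) _ h) (hJ _ (sg_mem_Om h2 hS h3 e (-(c • y))) _ h))
      (add_mem h h)
    rw [← two_smul F (wg S f b), Sy_skew he (by simp [a1]) (fun _ _ => by simp [S.orth_B_swap b, S.orth_B_swap f]; ring)
      (fun x => by simp [S.orth_B_swap b, S.orth_B_swap f, mul_comm])] at this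
    convert this using 1
    have e1 : wg S f b e = b := by simp [hef, S.B_comm_zero hbe]
    have e2 : S.Q (c • y) • b - S.B (c • y) b • c • y = (c * c * s) • b := by
      rw [mul_smul, ← a2]; simp [S.orth_Q_smul]; module
    rw [e1, e2]; ext; simp; module
  obtain ⟨d₁, e₁, b1, -, b2, b3, -⟩ := skew_extract h2 hS h3 (by omega) Z (fun u v => hZ _ (sg_mem_Om h2 hS h3 u v))
    (X := wg S ((2 * s) • b) e) (fun c => by
      have := sub_mem (k1 ((c + 1) / 2)) (k1 ((c - 1) / 2))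
      rwa [← sub_smul, show (c + 1) / 2 * ((c + 1) / 2) - (c - 1) / 2 * ((c - 1) / 2) = c by field_simp; ring] at this)
    (fun e0 => by simpa [S.orth_B_swap e f, hef, S.B_comm_zero hb, h2, hs, hbf] using LinearMap.congr_fun e0 f)
    (fun _ _ => by simp [S.orth_B_swap b, S.orth_B_swap e]; ring)
  by_cases d0 : d = 0
  · rw [show wg S d a = 0 by ext; simp [d0]]; simp
  obtain ⟨g, hg, r, hr, e1⟩ := move hS h3 b1 hd' (by rintro rfl; simp at b2) d0
  obtain ⟨a, rfl⟩ := g.surjective a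
  have := hZ g hg _ (b3 a (by rw [← PQ.B_isom (Om_le S hg), e1]; simp [ha])) (-(c / r))
  rw [cj_wg (Om_le S hg), e1] at this
  convert this using 1
  ext; simp; match_scalars <;> field_simp

end Cfsg.Agent.H1.O7a
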