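import Cfsg.Agent.H1.O7a

/-!
Extraction of pure elements for an orthogonal factor.
-/

set_option autoImplicit false
set_option linter.unusedSectionVars false
set_option linter.unusedSimpArgs false

namespace Cfsg.Agent.H1.O7b

open Module Cfsg.Agent.H7 Cfsg.Agent.Form Cfsg.Agent.H3.TenLin Cfsg.Agent.H3.TenSL Cfsg.Agent.H3.TenSU
  Cfsg.Agent.H3.TenGen Cfsg.Agent.H3.RootGeo Cfsg.Agent.H3.OrthLem Cfsg.Agent.H3.TenO1 Cfsg.Agent.H3.TenSpSp
  Cfsg.Agent.H9.FClass Cfsg.Agent.H1.C7d Cfsg.Agent.H1.C7j Cfsg.Agent.H1.C7k Cfsg.Agent.H1.C7n Cfsg.Agent.H1.O7a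
open scoped Pointwise

variable {F : Type*} [Field F] {W : Type*} [AddCommGroup W] [Module F W] [FiniteDimensional F W]
  {S : PQ (FP.orth F) W} {R : Type*} [Ring R] [Algebra F R]

/-- matrix coefficients with respect to the form -/
noncomputable def bt (S : PQ (FP.orth F) W) (ι : End F W →ₐ[F] R) (X : R) : W →ₗ[F] W →ₗ[F] R :=
  LinearMap.mk₂ F (fun a d => E (Nn ι) (S.lin a) d X) (fun a b d => by rw [lin_add, E_add_left])
    (fun c a d => by rw [lin_smul, E_smul_left]; rfl) (fun a d e => by simp [E, mul_add, Finset.sum_add_distrib])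
    (fun c a d => by simp [E, Finset.smul_sum])

theorem rk_bt (ι : End F W →ₐ[F] R) (a b c d : W) (X : R) :
    ι (rk S a b) * X * ι (rk S c d) = ι (rk S c b) * bt S ι X a d :=
  ((sys_Nn ι).mul_E (S.lin a) d X (S.lin c) b).symm

theorem cm_bt (ι : End F W →ₐ[F] R) (X : R) (a d : W) : Cm ι (bt S ι X a d) := cm_E ι (S.lin a) d X

theorem comm_bt {ι : End F W →ₐ[F] R} {X C : R} (h : Commute C X) (hC : Cm ι C) (a d : W) :
    Commute C (bt S ι X a d) := comm_E h hC _ _

theorem cm_of_bt [Finite F] (h2 : (2 : F) ≠ 0) (hS : S.Nondeg) (h3 : 3 ≤ finrank F W) {ι : End F W →ₐ[F] R} {X : R}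
    (h : ∀ a d, S.Q d = 0 → S.B a d = 0 → bt S ι X a d = 0) : Cm ι X := by
  have : Nontrivial W := Module.nontrivial_of_finrank_pos (R := F) (by omega)
  set β := bt S ι X
  have k1 : ∀ a d e, S.Q d = 0 → S.B e d = 1 → β a d = S.B a d • β e d := fun a d e hd he => by
    simpa [sub_eq_zero] using h (a - S.B a d • e) d hd (by simp [he])
  have k2 : ∀ d e, S.Q d = 0 → S.Q e = 0 → S.B e d = 1 → β d e = β e d := fun d e hd he hed => by
    obtain ⟨y, a1, a2, hy⟩ := exists_ns_hyp hS h3 hd he (by simp [hed])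
    have key : ∀ y, S.B y e = 0 → S.B y d = 0 → ∀ a, β a (y + d - S.Q y • e) =
        S.B a (y + d - S.Q y • e) • β e (y + d - S.Q y • e) := fun y a1 a2 a => k1 a _ e (by
      simp [S.orth_Q_sub, S.orth_Q_add, S.orth_Q_smul, hd, he, a1, a2, S.orth_B_swap e d, hed]) (by
      simp [S.B_comm_zero a1, hed, B_self_zero he])
    have b1 := key y a1 a2 d
    have b2 := key (-y) (by simp [a1]) (by simp [a2]) d
    simp [S.B_comm_zero a2, B_self_zero hd, S.orth_B_swap e d, hed, S.orth_Q_neg, h d d hd (B_self_zero hd),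
      h e e he (B_self_zero he)] at b1 b2
    refine smul_right_injective R (mul_ne_zero h2 hy) ?_
    linear_combination (norm := module) -b1 - b2
  obtain ⟨d, -, h0, hd⟩ := exists_sing S (H := ⊤) (by rwa [finrank_top])
  obtain ⟨e, he, hed⟩ := exists_partner hS hd h0
  refine cm_of_Nn (comm_of (sys_Nn ι) fun ψ u hu => ?_)
  obtain ⟨a, rfl⟩ := hS.exists_lin ψ
  have := top_of_ne h2 hS h3 (A := LinearMap.ker (β a - (S.lin a).smulRight (β e d))) hd h0 (fun x hx hxd => by
    have b1 := k2 d ((S.B x d)⁻¹ • x) hd (by simp [S.orth_Q_smul, hx]) (by simp [hxd])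
    have b2 := k1 a x ((S.B x d)⁻¹ • d) hx (by simp [S.orth_B_swap x d, hxd])
    have b3 := k1 x d e hd hed
    simp only [map_smul, LinearMap.smul_apply, b3, smul_smul, inv_mul_cancel₀ hxd, one_smul] at b1 b2
    simp [b2, ← b1, S.orth_B_swap x a, smul_smul]) u
  change β a u = 0
  simpa [show S.B u a = 0 from hu] using this

theorem sg_eq {d y : W} (hd : S.Q d = 0) (hy : S.B y d = 0) :
    (sg S d y : End F W) = 1 + wg S d y - S.Q y • rk S d d := by
  ext; simp [sg_apply hd hy]; module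

theorem wg_neg (d y : W) : wg S d (-y) = -wg S d y := by ext; simp; abel

theorem wg_smul (c : F) (d y : W) : wg S d (c • y) = c • wg S d y := by ext; simp; module

variable {G : Subgroup (W ≃ₗ[F] W)} {ι : End F W →ₐ[F] R} {Z : AddSubgroup R} {X : R}

theorem dd_mem (hG : ∀ d y, sg S d y ∈ G) (h : Cj G ι Z) (hX : X ∈ Z) {d y : W} (hd : S.Q d = 0) (hy : S.B y d = 0) :
    (2 : F) • ((S.Q y * S.Q y) • (ι (rk S d d) * X * ι (rk S d d)) - S.Q y • (ι (rk S d d) * X + X * ι (rk S d d)) -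
      ι (wg S d y) * X * ι (wg S d y)) ∈ Z := by
  convert sub_mem (add_mem (h _ (hG d y) X hX) (h _ (hG d (-y)) X hX)) (add_mem hX hX) using 1
  have hy' : S.B (-y) d = 0 := by simp [hy]
  simp only [sg_symm, neg_neg, sg_eq hd hy, sg_eq hd hy', wg_neg, S.orth_Q_neg, map_add, map_sub, map_neg, map_one,
    map_smul, mul_add, add_mul, mul_sub, sub_mul, mul_neg, neg_mul, one_mul, mul_one, smul_mul_assoc, mul_smul_comm]
  module

theorem ex [Finite F] (h2 : (2 : F) ≠ 0) (hS : S.Nondeg) (hG : ∀ d y, sg S d y ∈ G) {K : Set F}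
    (hq : 5 ≤ finrank F W ∨ finrank F W = 3 ∧ ∃ t : F, t ≠ 0 ∧ t ^ 2 ≠ 1 ∧ (t ^ 2 ∈ K ∨ t ^ 2 = -1))
    (h : Cj G ι Z) (hK : Re K Z) (hX : X ∈ Z) (hn : ¬ Cm ι X) :
    ∃ t ∈ Tp S ∪ Tv S, ∃ Y, Y ≠ 0 ∧ Cm ι Y ∧ (∀ C, Commute C X → Cm ι C → Commute C Y) ∧ ι t * Y ∈ Z := by
  have h3 : 3 ≤ finrank F W := by omega
  set β := bt S ι X with hβ
  have fin : ∀ t ∈ Tp S ∪ Tv S, ∀ (c : F) a d, c ≠ 0 → β a d ≠ 0 → c • (ι t * β a d) ∈ Z →
      ∃ t ∈ Tp S ∪ Tv S, ∃ Y, Y ≠ 0 ∧ Cm ι Y ∧ (∀ C, Commute C X → Cm ι C → Commute C Y) ∧ ι t * Y ∈ Z :=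
    fun t ht c a d hc h0 h1 => ⟨t, ht, c • β a d, smul_ne_zero hc h0, (cm_bt ι X a d).smul c,
      fun C b1 b2 => (comm_bt b1 b2 a d).smul_right c, by rwa [mul_smul_comm]⟩
  by_cases hA : ∃ d, S.Q d = 0 ∧ β d d ≠ 0
  · obtain ⟨d, hd, hb⟩ := hA
    have h0 : d ≠ 0 := by rintro rfl; simp at hb
    obtain ⟨y, hy, hQ⟩ := exists_ns₁ hS h3 d
    have a1 := dd_mem hG h hX hd hy
    rcases hq with h5 | ⟨-, t, t0, t1, ht⟩
    · obtain ⟨z, hz, hzy, hQz⟩ := exists_ns₂ hS h5 d y
      refine fin _ (Or.inl ⟨d, hd, h0, rfl⟩) (8 * S.Q y * S.Q z) d d (by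
        rw [show (8 : F) = 2 * 2 * 2 by norm_num]; simp [h2, hQ, hQz]) hb ?_
      have e1 : wg S d z * wg S d y = 0 := by ext; simp [B_self_zero hd, hy, S.B_comm_zero hz, S.B_comm_zero hzy]
      have e2 : rk S d d * rk S d d = 0 := by ext; simp [B_self_zero hd]
      have e3 := congrArg ι (wg_mul_rk hd hz)
      have e4 := congrArg ι (rk_mul_wg hd hz)
      have e5 := congrArg ι (wg_mul_rk hd hy)
      have e6 := congrArg ι (rk_mul_wg hd hy)
      replace e1 := congrArg ι e1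
      replace e2 := congrArg ι e2
      rw [map_mul, map_zero] at e1 e2 e3 e4 e5 e6
      convert dd_mem hG h a1 hd hz using 1
      rw [hβ, ← rk_bt]
      simp only [mul_add, add_mul, mul_sub, sub_mul, smul_mul_assoc, mul_smul_comm, ← mul_assoc, e1, e2, e3, e6,
        zero_mul, smul_zero]
      simp only [mul_assoc, e2, e4, e5, mul_zero, smul_zero]
      module
    · have a2 := dd_mem hG h hX hd (y := t • y) (by simp [hy])
      refine fin _ (Or.inl ⟨d, hd, h0, rfl⟩) (2 * (t ^ 2 * (t ^ 2 - 1)) * (S.Q y * S.Q y)) d d (by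
        simp [h2, hQ, t0, sub_ne_zero.2 t1]) hb ?_
      have a3 : ∀ Y ∈ Z, t ^ 2 • Y ∈ Z := fun Y hY => by
        rcases ht with ht | ht
        · exact hK _ ht Y hY
        · simpa [ht] using hY
      convert sub_mem a2 (a3 _ a1) using 1
      rw [hβ, ← rk_bt]
      simp only [S.orth_Q_smul, wg_smul, map_smul, smul_mul_assoc, mul_smul_comm]
      module
  push Not at hA
  by_contra hc
  refine hn (cm_of_bt h2 hS h3 fun a d hd ha => ?_)
  by_cases h0 : d = 0
  · simp [h0]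
  have e0 : ∀ y, ι (wg S d y) * X * ι (wg S d y) = ι (rk S d y) * β d y - ι (rk S y y) * β d d -
      ι (rk S d d) * β y y + ι (rk S y d) * β y d := fun y => by
    simp only [wg, map_sub, mul_sub, sub_mul, rk_bt, hβ]; abel
  rcases hq with h5 | ⟨h3', t, t0, t1, -⟩
  · refine perp_le_of_sing hS h5 hd h0 (Y := LinearMap.ker (β.flip d)) (fun z hz hzd hn => ?_) ha
    have a1 : β d z = -β z d := by
      simpa [hA d hd, hA z hz, add_eq_zero_iff_eq_neg] using hA (d + z) (by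
        simp [S.orth_Q_add, hz, hd, S.B_comm_zero hzd])
    by_contra hb
    refine hc (fin _ (Or.inr ⟨d, z, hd, h0, hzd, hn, rfl⟩) 2 z d h2 hb ?_)
    convert dd_mem hG h hX hd hzd using 1
    rw [e0, a1, hA d hd, hA z hz, hz, wg]
    simp [sub_mul]; module
  obtain ⟨e, he, hed⟩ := exists_partner hS hd h0
  obtain ⟨y, a1, a2, hy⟩ := exists_ns_hyp hS h3 hd he (by simp [hed])
  have key : ∀ s : F, s ≠ 0 → s • β y y + (s * s) • (β y d + β d y) - S.Q y • (β y e + β e y) -
      (s * S.Q y) • (β d e + β e d) = 0 := fun s hs => by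
    have := congrArg (s • ·) (hA (y + s • d - (S.Q y / s) • e) (by
      simp [S.orth_Q_sub, S.orth_Q_add, S.orth_Q_smul, hd, he, a1, a2, S.orth_B_swap e d, hed]
      field_simp; ring))
    simp only [map_add, map_sub, map_smul, LinearMap.add_apply, LinearMap.sub_apply, LinearMap.smul_apply,
      hA d hd, hA e he, smul_zero] at this
    convert this using 1
    match_scalars <;> field_simp
  have b1 : β y y = S.Q y • (β d e + β e d) := smul_right_injective R h2 (by
    linear_combination (norm := module) key 1 one_ne_zero - key (-1) (by simp))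
  have b2 : β d y = -β y d := smul_right_injective R (mul_ne_zero h2 (sub_ne_zero.2 t1)) (by
    linear_combination (norm := module) key t t0 + key (-t) (by simpa) - key 1 one_ne_zero - key (-1) (by simp))
  have e1 : (1 : End F W) = rk S e d + rk S d e + (2 * S.Q y)⁻¹ • rk S y y := by
    ext x; simpa [div_eq_inv_mul, mul_smul] using dec3 h2 hS h3' hd he hed a1 a2 hy x
  rw [dec3 h2 hS h3' hd he hed a1 a2 hy a]
  simp only [ha, map_add, map_smul, LinearMap.add_apply, LinearMap.smul_apply, ← hβ, hA d hd, zero_smul, smul_zero,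
    zero_add, map_zero, LinearMap.zero_apply]
  refine smul_eq_zero_of_right _ (by_contra fun hb => hc (fin _ (Or.inr ⟨d, y, hd, h0, a2, fun hm => ?_, rfl⟩) 1 y d
    one_ne_zero hb ?_))
  · obtain ⟨c, rfl⟩ := Submodule.mem_span_singleton.1 hm
    simp [S.orth_Q_smul, hd] at hy
  convert dd_mem hG h hX hd a2 using 1
  have e2 : ι (rk S d d) * X = ι (rk S d d) * X * ι 1 := by simp
  have e3 : X * ι (rk S d d) = ι 1 * X * ι (rk S d d) := by simp
  rw [e0, rk_bt, e2, e3, e1]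
  simp only [map_add, map_smul, mul_add, add_mul, smul_mul_assoc, mul_smul_comm, rk_bt, ← hβ, hA d hd, b1, b2, wg,
    map_sub, sub_mul, mul_neg, mul_zero]
  match_scalars <;> field_simp <;> ring

end Cfsg.Agent.H1.O7b
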