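import Cfsg.Agent.H1.O7b

/-!
Invariant subspaces and subalgebras for commuting orthogonal factors.
-/

set_option autoImplicit false
set_option linter.unusedSectionVars false
set_option linter.unusedSimpArgs false

namespace Cfsg.Agent.H1.O7c

open Module Cfsg.Agent.H7 Cfsg.Agent.Form Cfsg.Agent.H3.TenLin Cfsg.Agent.H3.TenSL Cfsg.Agent.H3.TenSU
  Cfsg.Agent.H3.TenGen Cfsg.Agent.H3.RootGeo Cfsg.Agent.H3.OrthLem Cfsg.Agent.H3.TenO1 Cfsg.Agent.H3.TenSpSp
  Cfsg.Agent.H9.FClass Cfsg.Agent.H1.C7d Cfsg.Agent.H1.C7j Cfsg.Agent.H1.C7k Cfsg.Agent.H1.C7n Cfsg.Agent.H1.O7a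
  Cfsg.Agent.H1.O7b
open scoped Pointwise

variable {F : Type*} [Field F] {W : Type*} [AddCommGroup W] [Module F W] [FiniteDimensional F W]
  {S : PQ (FP.orth F) W} {R : Type*} [Ring R] [Algebra F R] {I : Type*} [DecidableEq I]

/-- the standing hypotheses on a factor -/
structure OW (S : PQ (FP.orth F) W) : Prop where
  two : (2 : F) ≠ 0
  nd : S.Nondeg
  dim : 5 ≤ finrank F W ∨ finrank F W = 3 ∧ ∃ t : F, t ≠ 0 ∧ t ^ 2 ≠ 1

theorem OW.three (H : OW S) : 3 ≤ finrank F W := by rcases H.dim with h | h <;> omega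

theorem OW.sg (H : OW S) (d y : W) : sg S d y ∈ Om S := sg_mem_Om H.two H.nd H.three d y

/-- conjugacy classes -/
def Ob (S : PQ (FP.orth F) W) (t : End F W) : Set (End F W) := {s | ∃ g ∈ Om S, s = cj g t}

/-- the types -/
def Ty (S : PQ (FP.orth F) W) : Set (Set (End F W)) := {T | ∃ t ∈ Tp S ∪ Tv S, T = Ob S t}

theorem cj_cj (g k : W ≃ₗ[F] W) (t : End F W) : cj g (cj k t) = cj (g * k) t := rfl

theorem cj_one (t : End F W) : cj 1 t = t := rfl

theorem tr_Ob {K : Set F} (hK : 1 ∈ K) (t : End F W) : Tr (Om S) K (Ob S t) := by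
  rintro _ ⟨g, hg, rfl⟩ _ ⟨k, hk, rfl⟩
  exact ⟨k * g⁻¹, mul_mem hk (inv_mem hg), 1, hK, by
    rw [one_smul]; exact ((cj_cj (k * g⁻¹) g t).trans (by rw [inv_mul_cancel_right])).symm⟩

theorem cj_mem_Tp {g : W ≃ₗ[F] W} (hg : g ∈ S.isom) {t : End F W} (h : t ∈ Tp S) : cj g t ∈ Tp S := by
  obtain ⟨d, h1, h2, rfl⟩ := h
  exact ⟨g d, by rwa [(S.orth_mem_isom g).1 hg], by simpa, cj_rk hg d d⟩

theorem cj_mem_Tv {g : W ≃ₗ[F] W} (hg : g ∈ S.isom) {t : End F W} (h : t ∈ Tv S) : cj g t ∈ Tv S := by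
  obtain ⟨d, a, h1, h2, h3, h4, rfl⟩ := h
  refine ⟨g d, g a, by rwa [(S.orth_mem_isom g).1 hg], by simpa, by rwa [PQ.B_isom hg], fun hm => h4 ?_, cj_wg hg d a⟩
  obtain ⟨c, hc⟩ := Submodule.mem_span_singleton.1 hm
  exact Submodule.mem_span_singleton.2 ⟨c, g.injective (by simpa using hc)⟩

theorem ne_zero_of_ty (hS : S.Nondeg) {T : Set (End F W)} (hT : T ∈ Ty S) {t : End F W} (ht : t ∈ T) : t ≠ 0 := by
  obtain ⟨s, hs, rfl⟩ := hT
  obtain ⟨g, hg, rfl⟩ := ht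
  intro e
  rcases hs with hs | hs
  · obtain ⟨d, -, h, e'⟩ := cj_mem_Tp (Om_le S hg) hs
    obtain ⟨x, hx⟩ := hS.exists_eq h 1
    simpa [hx, h] using LinearMap.congr_fun (e'.symm.trans e) x
  · obtain ⟨d, a, -, h, -, h', e'⟩ := cj_mem_Tv (Om_le S hg) hs
    obtain ⟨x, hx⟩ := hS.exists_eq h 1
    have := LinearMap.congr_fun (e'.symm.trans e) x
    simp only [wg_apply, hx, one_smul, LinearMap.zero_apply, sub_eq_zero] at this
    exact h' (this ▸ Submodule.smul_mem _ _ (Submodule.mem_span_singleton_self d))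

variable [Finite F]

theorem span_ty (H : OW S) {T : Set (End F W)} (hT : T ∈ Ty S) : Submodule.span F (T * T * (T * T)) = ⊤ := by
  obtain ⟨t, ht, rfl⟩ := hT
  set B := Submodule.span F (Ob S t)
  have hB : ∀ g ∈ Om S, ∀ X ∈ B, cj g X ∈ B := fun g hg X hX => by
    induction hX using Submodule.span_induction with
    | mem x hx => obtain ⟨k, hk, rfl⟩ := hx; exact Submodule.subset_span ⟨g * k, mul_mem hg hk, rfl⟩
    | zero => rw [show cj g 0 = 0 by ext; simp]; exact B.zero_mem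
    | add x y _ _ h1 h2 => rw [cj_add]; exact add_mem h1 h2
    | smul c x _ h => rw [cj_smul]; exact B.smul_mem c h
  have h1 : t ∈ B := Submodule.subset_span ⟨1, one_mem _, rfl⟩
  have h2 : Submodule.span F (Tp S) ≤ B * B := by
    rcases ht with ⟨d, a1, a2, rfl⟩ | ht
    · have h3 : Submodule.span F (Tp S) ≤ B := Submodule.span_le.2 (by
        rintro _ ⟨e, b1, b2, rfl⟩
        obtain ⟨g, hg, c, hc, e1⟩ := move H.nd H.three a1 b1 a2 b2
        have := hB g hg _ h1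
        rw [cj_rk (Om_le S hg), e1, show rk S (c • e) (c • e) = (c * c) • rk S e e by ext; simp [smul_smul]; ring_nf,
          B.smul_mem_iff (mul_ne_zero hc hc)] at this
        exact this)
      refine le_top.trans ((span_Tp H.two H.nd H.three).ge.trans ?_)
      rw [← Submodule.span_mul_span]; exact mul_le_mul' h3 h3
    · refine Submodule.span_le.2 ?_
      rintro _ ⟨d, b1, b2, rfl⟩
      obtain ⟨y, hy, hQ⟩ := exists_ns₁ H.nd H.three d
      have h3 : wg S d y ∈ B := by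
        simpa using up H.two H.nd (by rcases H.dim with h | h <;> omega) (J := B.toAddSubgroup) hB ht h1 b1 hy 1
      have := Submodule.mul_mem_mul h3 h3
      rwa [wg_sq b1 hy, Submodule.smul_mem_iff _ (by simp [H.two, hQ])] at this
  rw [eq_top_iff, ← span_Tp H.two H.nd H.three, ← Submodule.span_mul_span, ← Submodule.span_mul_span,
    ← Submodule.span_mul_span]
  exact mul_le_mul' h2 h2

theorem OW.ex (H : OW S) {K : Set F} (hK : ∀ c : F, c ^ 4 ∈ K) (ι : End F W →ₐ[F] R) : Ex (Om S) K (Ty S) ι := by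
  intro Z h1 h2 X hX hn
  obtain ⟨t, ht, Y, h⟩ := O7b.ex H.two H.nd H.sg (K := K) (H.dim.imp_right fun ⟨a, t, b1, b2⟩ => ⟨a, by
    by_cases hs : IsSquare (-1 : F)
    · obtain ⟨i, hi⟩ := hs
      exact ⟨i, by rintro rfl; simp at hi, fun e => H.two (by linear_combination -e - hi), Or.inr (by rw [hi, sq])⟩
    · refine ⟨t, b1, b2, Or.inl ?_⟩
      obtain ⟨s, hs⟩ : ∃ s, t ^ 2 = s ^ 4 := by
        by_cases h3 : IsSquare t
        · obtain ⟨s, rfl⟩ := h3; exact ⟨s, by ring⟩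
        · have := Fintype.ofFinite F
          classical
          obtain ⟨s, hs⟩ : IsSquare (-1 * t) := by
            rw [← quadraticChar_one_iff_isSquare (by simpa), map_mul, quadraticChar_neg_one_iff_not_isSquare.2 hs,
              quadraticChar_neg_one_iff_not_isSquare.2 h3]; simp
          exact ⟨s, by linear_combination (s * s - t) * hs⟩
      exact hs ▸ hK s⟩) h1 h2 hX hn
  exact ⟨_, ⟨t, ht, rfl⟩, t, ⟨1, one_mem _, rfl⟩, Y, h⟩

variable {ι : I → End F W →ₐ[F] R} (hc : ∀ i j, i ≠ j → ∀ a, Cm (ι j) (ι i a))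
  (hs : ∀ X, (∀ i, Cm (ι i) X) → ∃ c : F, X = c • 1)
include hc

omit [Finite F] in
theorem pu_ne [Nontrivial R] {l : List (I × Set (End F W))} (hl : (l.map Prod.fst).Nodup)
    (h : ∀ p ∈ l, ∀ t ∈ p.2, t ≠ 0) {H : R} (h1 : H ∈ Pu ι l) : H ≠ 0 := by
  induction l generalizing H with
  | nil => obtain rfl : H = 1 := h1; exact one_ne_zero
  | cons p l ih =>
    obtain ⟨t, ht, H, h1, rfl⟩ := h1
    rw [List.map_cons, List.nodup_cons] at hl
    exact fun e => ih hl.2 (fun q hq => h q (by simp [hq])) h1 (cancel (Pu.cm hc hl.1 h1) (h p (by simp) t ht) e)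

omit [Finite F] in
theorem pu_split {l : List (I × Set (End F W))} (hl : (l.map Prod.fst).Nodup) {p : I × Set (End F W)} (hp : p ∈ l)
    {H : R} (h1 : H ∈ Pu ι l) : ∃ l₀, ((p :: l₀).map Prod.fst).Nodup ∧ l₀ ⊆ l ∧ H ∈ Pu ι (p :: l₀) := by
  induction l generalizing H with
  | nil => simp at hp
  | cons q l ih =>
    rcases List.mem_cons.1 hp with rfl | hp
    · exact ⟨l, hl, by simp, h1⟩
    obtain ⟨t, ht, H, h1, rfl⟩ := h1
    rw [List.map_cons, List.nodup_cons] at hl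
    obtain ⟨l₀, a1, a2, s, hs, H₀, a3, rfl⟩ := ih hl.2 hp h1
    have hne : q.1 ≠ p.1 := fun e => hl.1 (e ▸ List.mem_map_of_mem hp)
    rw [List.map_cons, List.nodup_cons] at a1
    refine ⟨q :: l₀, ?_, List.cons_subset_cons q a2, s, hs, _, ⟨t, ht, H₀, a3, rfl⟩, by
      rw [← mul_assoc, (hc _ _ hne t s).eq, mul_assoc]⟩
    simp only [List.map_cons, List.nodup_cons, List.mem_cons, not_or]
    exact ⟨⟨hne.symm, a1.1⟩, fun hm => hl.1 (List.map_subset _ a2 hm), a1.2⟩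

include hs

theorem mem_of_pu4 (H : OW S) {l : List (I × Set (End F W))} (hl : (l.map Prod.fst).Nodup) (h : ∀ p ∈ l, p.2 ∈ Ty S)
    {A : Submodule F R} (hA : ∀ H₁ ∈ Pu ι l, ∀ H₂ ∈ Pu ι l, ∀ H₃ ∈ Pu ι l, ∀ H₄ ∈ Pu ι l, H₁ * H₂ * (H₃ * H₄) ∈ A)
    {X : R} (hX : ∀ i ∉ l.map Prod.fst, Cm (ι i) X) : X ∈ A := by
  refine mem_of_pu hc hs (l := (l.map fun p => (p.1, p.2 * p.2)).map fun p => (p.1, p.2 * p.2)) (fun p hp => ?_)
    (fun Y hY => ?_) (by simpa [Function.comp_def] using hX)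
  · simp only [List.map_map, List.mem_map] at hp
    obtain ⟨q, hq, rfl⟩ := hp
    exact span_ty H (h q hq)
  · obtain ⟨Y₁, a1, Y₂, a2, rfl⟩ := pu_sq hc (by simpa [Function.comp_def] using hl) hY
    obtain ⟨H₁, b1, H₂, b2, rfl⟩ := pu_sq hc hl a1
    obtain ⟨H₃, b3, H₄, b4, rfl⟩ := pu_sq hc hl a2
    exact hA _ b1 _ b2 _ b3 _ b4

variable [Fintype I]

theorem exists_fac (H : OW S) {J : Subalgebra F R} (hJ : ∀ j, Cj (Om S) (ι j) J.toSubring.toAddSubgroup) {X : R}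
    (hX : X ∈ J) (hn : ∀ c : F, X ≠ c • 1) : ∃ j, ∀ m, ι j m ∈ J := by
  have hR : Re Set.univ J.toSubring.toAddSubgroup := fun a _ X hX => J.smul_mem hX a
  obtain ⟨l, a1, a2, a3, Y, a4, c, a5, a6⟩ := exists_pu hc hs (fun i => H.ex (K := Set.univ) (fun _ => trivial) (ι i))
    Finset.univ _ (fun j _ => hJ j) hR X hX (by simpa using hn 0) (by simp)
  have k : ∀ Y ∈ Pu ι l, Y ∈ J := fun Y' hY => by
    have : c • Y' ∈ J := pu_trans hc a1 (fun p hp => ⟨by obtain ⟨t, -, e⟩ := (a2 p hp).2; exact e ▸ tr_Ob (K := Set.univ) trivial t,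
      hJ _⟩) hR a4 hY a6
    simpa [smul_smul, a5] using J.smul_mem this c⁻¹
  obtain ⟨p, hp⟩ := List.exists_mem_of_ne_nil l fun e => (a3 e).elim fun c e => hn c e
  exact ⟨p.1, fun m => mem_of_pu4 hc hs H a1 (fun p hp => (a2 p hp).2) (A := Subalgebra.toSubmodule J)
    (fun _ b1 _ b2 _ b3 _ b4 => J.mul_mem (J.mul_mem (k _ b1) (k _ b2)) (J.mul_mem (k _ b3) (k _ b4)))
    fun i hi => hc _ _ (by rintro rfl; exact hi (List.mem_map_of_mem hp)) m⟩

omit [Finite F] in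
theorem eq_top_of {J : Subalgebra F R} (hJ : ∀ j m, ι j m ∈ J) (X : R) : X ∈ J := by
  refine mem_of_pu hc hs (l := Finset.univ.toList.map fun i => (i, Set.univ)) (A := Subalgebra.toSubmodule J)
    (by simp) ?_ (by simp [Function.comp_def])
  generalize ((Finset.univ : Finset I).toList.map fun i => (i, Set.univ)) = l
  induction l with
  | nil => rintro _ rfl; exact J.one_mem
  | cons p l ih => rintro _ ⟨t, -, H, h, rfl⟩; exact J.mul_mem (hJ _ _) (ih H h)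

theorem exists_pair [Nontrivial R] (H : OW S) {Z : AddSubgroup R} (hZ : ∀ j, Cj (Om S) (ι j) Z)
    (hR : ∀ c : F, ∀ X ∈ Z, c ^ 4 • X ∈ Z) (st : R → R) (s1 : st 1 = 1) (s2 : ∀ X Y, st (X * Y) = st Y * st X)
    (s3 : ∀ j d, st (ι j (rk S d d)) = ι j (rk S d d)) (s4 : ∀ (c : F) X, c ≠ 0 → c • X ∈ Z → st X = -X) {X : R}
    (hX : X ∈ Z) (h0 : X ≠ 0) : ∃ X Y : R, (∀ c : F, c • X ∈ Z) ∧ (∀ c : F, c • Y ∈ Z) ∧ Y * X * Y = 0 ∧
      ∀ c : F, X * Y ≠ c • 1 := by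
  have hR' : Re {a | ∃ c : F, c ^ 4 = a} Z := by rintro _ ⟨c, rfl⟩; exact hR c
  obtain ⟨l, a1, a2, -, Y, a4, c, a5, a6⟩ := exists_pu hc hs (fun i => H.ex (K := {a | ∃ c : F, c ^ 4 = a}) (fun c => ⟨c, rfl⟩) (ι i))
    Finset.univ _ (fun j _ => hZ j) hR' X hX h0 (by simp)
  have nz : ∀ p ∈ l, ∀ t ∈ p.2, t ≠ 0 := fun p hp t => ne_zero_of_ty H.nd (a2 p hp).2
  obtain ⟨p, hp, t, ht, e⟩ : ∃ p ∈ l, ∃ t ∈ Tv S, p.2 = Ob S t := by
    by_contra hh
    have k : ∀ l' : List (I × Set (End F W)), l' ⊆ l → (l'.map Prod.fst).Nodup → ∀ Y ∈ Pu ι l', st Y = Y := by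
      intro l'
      induction l' with
      | nil => rintro - - _ rfl; exact s1
      | cons q l' ih =>
        rintro b1 b2 _ ⟨t, ht, Y, hY, rfl⟩
        rw [List.map_cons, List.nodup_cons] at b2
        obtain ⟨s, hs | hs, e⟩ := (a2 q (b1 (by simp))).2
        · obtain ⟨g, hg, rfl⟩ : t ∈ Ob S s := e ▸ ht
          obtain ⟨d, -, -, e'⟩ := cj_mem_Tp (Om_le S hg) hs
          rw [s2, e', s3, ih (fun x hx => b1 (by simp [hx])) b2.2 Y hY, (Pu.cm hc b2.1 hY _).eq]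
        · exact (hh ⟨q, b1 (by simp), s, hs, e⟩).elim
    have := (k l (fun _ h => h) a1 Y a4).symm.trans (s4 c Y a5 a6)
    exact pu_ne hc a1 nz a4 (smul_right_injective R H.two (by linear_combination (norm := module) this))
  obtain ⟨l₀, b1, b2, s, hs', H₀, b3, rfl⟩ := pu_split hc a1 hp a4
  rw [List.map_cons, List.nodup_cons] at b1
  obtain ⟨g, hg, rfl⟩ : s ∈ Ob S t := e ▸ hs'
  obtain ⟨d, -, d0, hd⟩ := exists_sing S (H := ⊤) (by rw [finrank_top]; exact H.three)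
  obtain ⟨y, hy, hQ⟩ := exists_ns₁ H.nd H.three d
  have k : ∀ H' ∈ Pu ι l₀, ∀ a : F, a • (ι p.1 (wg S d y) * H') ∈ Z := fun H' h' a => by
    have c1 := up H.two H.nd (by rcases H.dim with h | h <;> omega)
      (J := Z.comap ((AddMonoidHom.mulRight (c • H₀)).comp (ι p.1).toRingHom.toAddMonoidHom)) (fun g hg X hX => by
        convert hZ p.1 g hg _ hX using 1
        simp [← cj_eq, mul_assoc, (Pu.cm hc b1.1 b3 _).eq]) (cj_mem_Tv (Om_le S hg) ht) (by simpa using a6) hd hy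
      (a / c)
    simpa [smul_smul, mul_div_cancel₀ _ a5] using pu_trans hc (Z := Z.comap (AddMonoidHom.mulLeft (ι p.1 ((a / c) • wg S d y)))) b1.2
      (fun q hq => ⟨by obtain ⟨t, -, e⟩ := (a2 q (b2 hq)).2; exact e ▸ tr_Ob (K := {a | ∃ c : F, c ^ 4 = a}) ⟨1, by simp⟩ t,
        (hZ _).comap (hc _ _ (by rintro e; exact b1.1 (e ▸ List.mem_map_of_mem hq)) _)⟩) (hR'.comap _) b3 h' c1
  obtain ⟨H₁, c1, c2⟩ : ∃ H' ∈ Pu ι l₀, H₀ * H' ≠ 0 := by
    by_contra hh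
    push Not at hh
    simpa [pu_ne hc b1.2 (fun q hq => nz q (b2 hq)) b3] using mem_of_pu4 hc hs H b1.2 (fun q hq => (a2 q (b2 hq)).2)
      (A := LinearMap.ker (LinearMap.mulLeft F H₀)) (fun _ h _ _ _ _ _ _ => by simp [← mul_assoc, hh _ h])
      (X := 1) fun i _ => cm_one _
  have m0 := Pu.cm hc b1.1 b3
  have m1 := Pu.cm hc b1.1 c1
  have e1 : ι p.1 (wg S d y) * H₀ * (ι p.1 (wg S d y) * H₁) = ι p.1 (-(2 * S.Q y) • rk S d d) * (H₀ * H₁) := by
    rw [← wg_sq hd hy, map_mul, mul_assoc, ← mul_assoc H₀, (m0 _).eq]; simp only [mul_assoc]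
  refine ⟨_, _, k H₀ b3, k H₁ c1, ?_, fun a e => ?_⟩
  · rw [mul_assoc, e1, mul_assoc, ← mul_assoc H₁, (m1 _).eq]
    simp only [← mul_assoc, ← map_mul]
    simp [wg_mul_rk hd hy]
  · have e2 : (a • 1 : R) * (a • 1) = 0 := by
      rw [← e, e1, mul_assoc, ← mul_assoc (H₀ * H₁), ((m0.mul m1) _).eq]
      simp only [← mul_assoc, ← map_mul]
      simp [rk_mul, B_self_zero hd]
    obtain rfl : a = 0 := by simpa [smul_smul] using e2
    obtain ⟨x, hx⟩ := H.nd.exists_eq d0 1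
    rw [e1, zero_smul] at e
    exact c2 (cancel (m0.mul m1) (fun e => by simpa [hx, H.two, hQ, d0] using LinearMap.congr_fun e x) e)

omit hc hs [Finite F] [Fintype I] [DecidableEq I] in
theorem ι_cancel (ι : End F W →ₐ[F] R) (g : W ≃ₗ[F] W) : ι g * ι g.symm = 1 ∧ ι g.symm * ι g = 1 := by
  rw [← map_mul, ← map_mul, ← map_one ι]
  exact ⟨congrArg ι (LinearMap.ext g.apply_symm_apply), congrArg ι (LinearMap.ext g.symm_apply_apply)⟩

theorem ss [Nontrivial R] (H : OW S) {C : Set R} (hC : ∀ j, ∀ g ∈ Om S, ∀ Y ∈ C, ι j g * Y * ι j g.symm ∈ C)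
    (h : ∀ X ∈ C, ∀ Y ∈ C, X * Y = Y * X) {X : R} (hX : X ∈ C) : ∃ c : F, X = c • 1 := by
  have k : ∀ C : Set R, (∀ j, ∀ g ∈ Om S, ∀ Y ∈ C, ι j g * Y * ι j g.symm ∈ C) → ∀ j, ∀ g ∈ Om S,
      ∀ Y ∈ Subalgebra.centralizer F C, ι j g * Y * ι j g.symm ∈ Subalgebra.centralizer F C := by
    intro C hC j g hg Y hY Z hZ
    have := congrArg (fun x => ι j g * x * ι j g.symm) (hY _ (hC j g⁻¹ (inv_mem hg) Z hZ))
    simp only [LinearEquiv.coe_inv, LinearEquiv.symm_symm, ← mul_assoc] at this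
    change ι j g * ι j g.symm * Z * ι j g * Y * ι j g.symm = ι j g * Y * ι j g.symm * Z * ι j g * ι j g.symm at this
    rw [(ι_cancel _ g).1, one_mul, mul_assoc (_ * Z) (ι j g), (ι_cancel _ g).1, mul_one] at this
    simpa only [mul_assoc] using this
  by_contra hn
  push Not at hn
  obtain ⟨j, hj⟩ := exists_fac hc hs H (J := Subalgebra.centralizer F C ⊓
    Subalgebra.centralizer F (Subalgebra.centralizer F C : Set R))
    (fun j g hg Y hY => ⟨k C hC j g hg Y hY.1, k _ (k C hC) j g hg Y hY.2⟩) (X := X)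
    ⟨fun Y hY => h Y hY X hX, fun Y hY => (hY X hX).symm⟩ hn
  obtain ⟨d, -, d0, hd⟩ := exists_sing S (H := ⊤) (by rw [finrank_top]; exact H.three)
  obtain ⟨e, he, hed⟩ := exists_partner H.nd hd d0
  refine one_ne_zero (cancel (cm_one (ι j)) (t := rk S d d * rk S e e - rk S e e * rk S d d) (fun e0 => ?_) ?_)
  · simpa [B_self_zero hd, hed, S.orth_B_swap e d, d0] using LinearMap.congr_fun e0 d
  · rw [map_sub, map_mul, map_mul, (hj _).2 _ (hj _).1, sub_self, zero_mul]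

theorem sc_of_comm [Nontrivial R] (H : OW S) {X : R} (h : ∀ j, ∀ g ∈ Om S, ι j g * X = X * ι j g) :
    ∃ c : F, X = c • 1 :=
  ss hc hs H (C := {X}) (by
    rintro j g hg _ rfl
    rw [h j g hg, mul_assoc, (ι_cancel _ g).1, mul_one]; rfl) (by rintro _ rfl _ rfl; rfl) rfl

end Cfsg.Agent.H1.O7c
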