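import Cfsg.Agent.H1.O7c
import Cfsg.Agent.H1.C7h

/-!
Tensor powers of orthogonal spaces: levels.
-/

set_option autoImplicit false
set_option linter.unusedSectionVars false
set_option linter.unusedSimpArgs false

namespace Cfsg.Agent.H1.O7d

open Module Cfsg.Agent.H7 Cfsg.Agent.Form Cfsg.Agent.H3.TenLin Cfsg.Agent.H3.TenSL Cfsg.Agent.H3.TenSU
  Cfsg.Agent.H3.TenGen Cfsg.Agent.H3.RootGeo Cfsg.Agent.H3.OrthLem Cfsg.Agent.H3.TenO1 Cfsg.Agent.H3.TenSpSp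
  Cfsg.Agent.H3.TenForm Cfsg.Agent.H3.TenPar Cfsg.Agent.H3.TenGlue Cfsg.Agent.H3.TenO2
  Cfsg.Agent.H9.FClass Cfsg.Agent.H1.C7j Cfsg.Agent.H1.O7a Cfsg.Agent.H1.O7b Cfsg.Agent.H1.O7c

variable {F : Type*} [Field F] {V : Type*} [AddCommGroup V] [Module F V]
  {U : Type*} [AddCommGroup U] [Module F U] {W : Type*} [AddCommGroup W] [Module F W]
  [FiniteDimensional F U] [FiniteDimensional F W] [FiniteDimensional F V]
  {S₁ : PQ (FP.orth F) U} {S₂ : PQ (FP.orth F) W} {S : PQ (FP.orth F) V}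
  {τ : U →ₗ[F] W →ₗ[F] V} {h : TF S₁ S₂ S τ} {M : Subgroup (V ≃ₗ[F] V)}
  {J : Type*} [DecidableEq J] [Fintype J] {ι : J → End F W →ₐ[F] End F U}

theorem cj_of_eq {κ : End F W →ₐ[F] End F U} {a : U ≃ₗ[F] U} {g : W ≃ₗ[F] W} (e : (a : End F U) = κ g)
    (X : End F U) : κ g * X * κ g.symm = cj a X := by
  have : κ g.symm = (a.symm : End F U) := by
    rw [← one_mul (κ g.symm), show (1 : End F U) = (a.symm : End F U) * a from
      (LinearMap.ext a.symm_apply_apply).symm, e, mul_assoc, (ι_cancel κ g).1, mul_one]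
  rw [this, ← e]; rfl

/-- the standing hypotheses at one factor -/
structure LH (h : TF S₁ S₂ S τ) (ι : J → End F W →ₐ[F] End F U) (M : Subgroup (V ≃ₗ[F] V)) : Prop where
  ow : OW S₂
  dU : 3 ≤ finrank F U
  bis : M ≤ bis S
  snd : Om S₂ ≤ snd τ M
  hc : ∀ i j, i ≠ j → ∀ a, Cm (ι j) (ι i a)
  hs : ∀ X, (∀ i, Cm (ι i) X) → ∃ c : F, X = c • 1
  sa : ∀ j m, adj h.nd₁ (ι j m) = ι j (adj h.nd₂ m)
  fst : ∀ j, ∀ g ∈ Om S₂, ∃ a ∈ H3.TenForm.snd τ.flip M, (a : End F U) = ι j g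
  link : ∀ j l, ∃ a ∈ H3.TenForm.snd τ.flip M, ∀ m, ∃ m', ι l m = cj a (ι j m')

theorem om_of_skew [Finite F] (h : TF S₁ S₂ S τ) (h2 : (2 : F) ≠ 0) (hU : 3 ≤ finrank F U) (hW : 3 ≤ finrank F W)
    (hb : M ≤ bis S) (k : ∀ a b d, S₂.Q d = 0 → HasQ τ M (wg S₁ a b ∘ₗ h.cw d) d) : Om S ≤ M := by
  have hQ : ∀ u {w}, S₂.Q w = 0 → S.Q (τ u w) = 0 := fun u w hw => Q_of_B h2 (by simp [h.form, B_self_zero hw])
  have mv := fun {g} (hg : g ∈ M) {a} e {y} => H8.MS_fix (Q := toQF S) (OG_toQF S ▸ isom_of_bis h2 (hb hg)) hg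
    (a := a) (y := y) e
  have k1 : ∀ u {w}, S₂.Q w = 0 → ∀ a, τ a w ∈ H8.MS (toQF S) M (τ u w) := fun u w hw a => by
    refine ⟨by simp [polar_toQF, h.form, B_self_zero hw], fun c => ?_⟩
    obtain ⟨g, hg, e⟩ := k u (c • a) w hw
    convert hg using 1
    ext v
    rw [← sg, sg_apply (hQ u hw) (by simp [h.form, B_self_zero hw]), e]
    simp [h.B_tmul, S.orth_Q_smul, hQ a hw]; abel
  have k2 : ∀ u {w}, S₂.Q w = 0 → w ≠ 0 → ∀ c y, S₁.B c u = 0 → τ c y ∈ H8.MS (toQF S) M (τ u w) := by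
    intro u w hw h0 c y hc
    refine top_of_ne h2 h.nd₂ hW (A := (H8.MS (toQF S) M (τ u w)).comap (τ c)) hw h0 (fun e he hew => ?_) y
    obtain ⟨b, b1, b2⟩ := C7h.exists_perp_notMem h.nd₁ u (F ∙ c) (by
      have := finrank_span_singleton_le (F := F) c; omega)
    obtain ⟨a, a1, a2⟩ := h.nd₁.exists_perp_eq b2 1
    obtain ⟨g, hg, eg⟩ := k b c e he
    have := sub_mem (mv hg (by simp [eg, S₁.B_comm_zero b1, S₁.B_comm_zero hc]) (k1 u hw a)) (k1 u hw a)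
    simpa [eg, S₁.mem_perp_span_singleton.1 a1, S₁.orth_B_swap b a, a2, S₂.orth_B_swap e w, Submodule.smul_mem_iff _ hew] using this
  have k3 : ∀ u {w}, S₂.Q w = 0 → w ≠ 0 → ∀ v, H8.siegel (toQF S) (τ u w) v ∈ M := fun u w hw h0 => by
    refine H8.siegel_all_of_MS fun v hv => ?_
    obtain ⟨e, he, hew⟩ := exists_partner h.nd₂ hw h0
    rw [polar_toQF, S.orth_B_swap, h.B_tmul] at hv
    suffices hh : ∀ c y, S₂.B y w = 0 → τ c y ∈ H8.MS (toQF S) M (τ u w) by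
      simpa using add_mem (mem_of_cw h hew hh v) (k2 u hw h0 _ e hv)
    intro c y hy
    obtain ⟨b, b1, b2⟩ := C7h.exists_perp_notMem h.nd₁ c (F ∙ u) (by
      have := finrank_span_singleton_le (F := F) u; omega)
    obtain ⟨a, a1, a2⟩ := h.nd₁.exists_perp_eq b2 1
    have h3 := k2 u hw h0 a e (S₁.mem_perp_span_singleton.1 a1)
    have := sub_mem (mv (H8.MS_siegel (k2 b hw h0 c y (S₁.B_comm_zero b1))) (H8.siegel_fix
      (by simp [polar_toQF, h.form, B_self_zero hw]) (by simp [polar_toQF, h.form, S₂.B_comm_zero hy])) h3) h3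
    rw [← sg, sg_apply (hQ b hw) (by simp [h.form, hy]), h.form, S₁.orth_B_swap b a, a2, hew] at this
    convert add_mem this (Submodule.smul_mem _ (S.B (τ a e) (τ c y) + S.Q (τ c y)) (k1 u hw b)) using 1
    module
  have : Nontrivial U := Module.nontrivial_of_finrank_pos (R := F) (by omega)
  obtain ⟨u, hu⟩ := exists_ne (0 : U)
  obtain ⟨u', hu'⟩ := h.nd₁.exists_eq hu 1
  obtain ⟨w, -, h0, hw⟩ := exists_sing S₂ (H := ⊤) (by rwa [finrank_top])
  obtain ⟨e, he, hew⟩ := exists_partner h.nd₂ hw h0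
  exact H8.Om_le_of_two (nd_toQF h.nd) (by rw [h.tens.finrank_eq]; nlinarith) (hQ u' he) (hQ u hw)
    (by simp [polar_toQF, h.form, hu', hew]) (k3 _ he (by rintro rfl; simp at hew)) (k3 _ hw h0)

theorem hasE_conj {X X' Y n : End F U} {y w : W} (h1 : HasE h M X X' Y y w) {g : V ≃ₗ[F] V} (hg : g ∈ M)
    (hb : g ∈ bis S) (e : ∀ u, g (τ u w) = τ (n u) w) (e' : ∀ u, g (τ u y) = τ u y) :
    HasE h M (n * X) (X' * adj h.nd₁ n) (n * Y * adj h.nd₁ n) y w := by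
  obtain ⟨k, hk, ek⟩ := h1
  have a1 : ∀ v, h.cw y (g.symm v) = h.cw y v := fun v => h.nd₁.ext_left fun u => by
    rw [← h.B_tmul, ← h.B_tmul, ← hb, e']; simp
  have a2 : ∀ v, h.cw w (g.symm v) = adj h.nd₁ n (h.cw w v) := fun v => h.nd₁.ext_left fun u => by
    rw [B_adj', ← h.B_tmul, ← h.B_tmul, ← hb, e]; simp
  exact ⟨g * k * g⁻¹, mul_mem (mul_mem hg hk) (inv_mem hg), fun v => by simp [ek, e, e', a1, a2]⟩

/-- levels at all parabolics -/
def Hs (h : TF S₁ S₂ S τ) (M : Subgroup (V ≃ₗ[F] V)) : Submodule F (End F U) where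
  carrier := {η | ∀ w y, S₂.Q w = 0 → S₂.B y w = 0 → ∃ Y, HasE h M η (-adj h.nd₁ η) Y y w}
  add_mem' := fun {η ξ} h1 h2 w y hw hy => by
    obtain ⟨Y, k, hk, e⟩ := h1 w y hw hy
    obtain ⟨Y', k', hk', e'⟩ := h2 w y hw hy
    refine ⟨Y + Y' - S₂.B y y • η * adj h.nd₁ ξ, k * k', mul_mem hk hk', fun v => ?_⟩
    rw [LinearEquiv.mul_apply, e]
    simp [e', B_self_zero hw, hy, S₂.B_comm_zero hy, adj_add]
    abel
  zero_mem' := fun w y _ _ => ⟨0, 1, one_mem _, fun v => by simp [adj_eq h.nd₁ (X := 0) (Y := 0) (by simp)]⟩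
  smul_mem' := fun c η h1 w y hw hy => by
    obtain ⟨Y, k, hk, e⟩ := h1 w (c • y) hw (by simp [hy])
    exact ⟨Y, k, hk, fun v => by simp [e, h.cw_smul, adj_smul]⟩

namespace LH
variable [Finite F] (H : LH h ι M)
include H

theorem eT_mem (w y : W) : eT h w y ∈ M := by
  obtain ⟨g, hg, e⟩ := H.snd (H.ow.sg w y)
  rwa [h.eq_of_tens (g := eT h w y) (k := g) fun u z => by rw [eT_tmul, e]]

theorem fst_isom {a : U ≃ₗ[F] U} (ha : a ∈ H3.TenForm.snd τ.flip M) : a ∈ S₁.isom := by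
  have : Nontrivial W := Module.nontrivial_of_finrank_pos (R := F) (by have := H.ow.three; omega)
  obtain ⟨g, hg, e⟩ := ha
  exact isom_of_bis H.ow.two (h.flip.snd_bis (H.bis hg) e)

theorem top_of {A : Subalgebra F (End F U)} (hA : ∀ a ∈ H3.TenForm.snd τ.flip M, ∀ X ∈ A, cj a X ∈ A)
    {X : End F U} (hX : X ∈ A) (hn : ∀ c : F, X ≠ c • 1) (Y : End F U) : Y ∈ A := by
  obtain ⟨j, hj⟩ := exists_fac H.hc H.hs H.ow (J := A) (fun j g hg X hX => by
    obtain ⟨a, ha, e⟩ := H.fst j g hg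
    rw [cj_of_eq e]; exact hA a ha X hX) hX hn
  refine eq_top_of H.hc H.hs (fun l m => ?_) Y
  obtain ⟨a, ha, e⟩ := H.link j l
  obtain ⟨m', e⟩ := e m
  exact e ▸ hA a ha _ (hj m')

theorem le_of_Z {w : W} (hw : S₂.Q w = 0) (h0 : w ≠ 0) {X : End F U} (hX : X ∈ Zs h M (B_self_zero hw))
    (hX0 : X ≠ 0) : Om S ≤ M := by
  have two := H.ow.two
  have : Nontrivial U := Module.nontrivial_of_finrank_pos (R := F) (by have := H.dU; omega)
  have mv : ∀ {X : End F U}, (∀ c : F, c • X ∈ Zs h M (B_self_zero hw)) → ∀ d, S₂.Q d = 0 →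
      HasQ τ M (X ∘ₗ h.cw d) d := fun {X} hX d hd => by
    by_cases d0 : d = 0
    · exact ⟨1, one_mem _, by simp [d0]⟩
    obtain ⟨g, hg, c, hc, e⟩ := move h.nd₂ H.ow.three hw hd h0 d0
    obtain ⟨n, hn, en⟩ := H.snd hg
    exact (hasQ_conj (hX (c * c)⁻¹) hn (a := LinearEquiv.refl F U) en (isom_le_bis (Om_le _ hg))).congr fun v => by
      simp [e, h.cw_smul, smul_smul, hc]
  obtain ⟨X, Y, a1, a2, a3, a4⟩ := exists_pair H.hc H.hs H.ow (Z := Zs h M (B_self_zero hw)) (fun j g hg X hX => by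
      obtain ⟨a, ⟨n, hn, en⟩, e⟩ := H.fst j g hg
      rw [cj_of_eq e]; exact Zs_conj hX hn fun u y => en y u) (fun c X hX => by
      by_cases hc : c = 0
      · simp [hc]
      obtain ⟨e, he, hew⟩ := exists_partner h.nd₂ hw h0
      obtain ⟨g, hg, e, -⟩ := torus h.nd₂ hw he hew hc
      obtain ⟨n, hn, en⟩ := H.snd hg
      exact (hasQ_conj hX hn (a := LinearEquiv.refl F U) en (isom_le_bis (Om_le _ hg))).congr fun v => by
        simp [e, h.cw_smul, smul_smul, pow_succ, mul_assoc]) (adj h.nd₁) (adj_eq _ fun _ _ => rfl) (adj_mul _)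
    (fun j d => by rw [H.sa, adj_eq (Y := rk S₂ d d) _ fun x y => by simp [S₂.orth_B_swap d y, mul_comm]])
    (fun c X hc hX => adj_eq _ fun a b => mul_left_cancel₀ hc (by
      simpa [add_eq_zero_iff_eq_neg] using adj_of_hasQ (fun g hg => bis_le_sim (H.bis hg)) (B_self_zero hw) h0 hX a b))
    hX hX0
  have h1 : (1 : End F U) ∈ Hs h M := fun w y hw hy => ⟨-S₂.Q y • 1, _, H.eT_mem w (-y), fun v => by
    simp [eT_apply hw (y := -y) (by simp [hy]), h.cw_neg, S₂.orth_Q_neg, adj_eq h.nd₁ (X := 1) (Y := 1) fun _ _ => rfl]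
    abel⟩
  let A : Subalgebra F (End F U) :=
    { carrier := {n | ∀ η ∈ Hs h M, n * η ∈ Hs h M}
      mul_mem' := fun a b η hη => by rw [mul_assoc]; exact a _ (b _ hη)
      add_mem' := fun a b η hη => by rw [add_mul]; exact add_mem (a _ hη) (b _ hη)
      algebraMap_mem' := fun c η hη => by rw [← Algebra.smul_def]; exact Submodule.smul_mem _ c hη }
  have hc : ∀ a ∈ H3.TenForm.snd τ.flip M, ∀ η ∈ Hs h M, cj a η ∈ Hs h M := fun a ha η hη w y hw hy => by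
    obtain ⟨Y, e⟩ := hη w y hw hy
    obtain ⟨g, hg, eg⟩ := id ha
    refine ⟨cj a Y, ?_⟩
    rw [adj_cj _ (H.fst_isom ha), show -cj a (adj h.nd₁ η) = cj a (-adj h.nd₁ η) by ext; simp]
    exact e.conj hg (b := 1) (fun u y => eg y u) (one_mem _)
  have h2 : ∀ η, η ∈ Hs h M := fun η => by
    simpa using H.top_of (A := A) (fun a ha n hn η hη => by
      convert hc a ha _ (hn _ (hc a⁻¹ (inv_mem ha) η hη)) using 1
      ext; simp [show a⁻¹.symm = a from rfl]) (X := 1 - X * Y) (fun η hη w y hw hy => by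
      by_cases h0 : w = 0
      · exact ⟨0, 1, one_mem _, fun v => by simp [h0, h.cw_zero]⟩
      obtain ⟨e, he, hew⟩ := exists_partner h.nd₂ hw h0
      obtain ⟨Y', e1⟩ := hη w (y - S₂.B y e • w) hw (by simp [hy, B_self_zero hw])
      obtain ⟨g₁, b1, c1⟩ := mv (X := Y) a2 e he
      obtain ⟨g₂, b2, c2⟩ := mv (X := X) a1 w hw
      have hg := mul_mem (mul_mem b1 b2) (inv_mem b1)
      have c3 : ∀ v, g₁.symm v = v - τ (Y (h.cw e v)) e := fun v => by
        rw [LinearEquiv.symm_apply_eq, c1]; simp [B_self_zero he]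
      obtain ⟨k, hk, ek⟩ := hasE_conj e1 hg (H.bis hg) (n := 1 - X * Y) (fun u => by
        simp [c1, c2, c3, B_self_zero hw, B_self_zero he, hew, S₂.orth_B_swap e w,
          show ∀ u, Y (X (Y u)) = 0 from LinearMap.congr_fun a3]; abel) fun u => by
        simp [c1, c2, c3, B_self_zero hw, hy, hew, S₂.orth_B_swap e w, -map_sub]
      refine ⟨(1 - X * Y) * Y' * adj h.nd₁ (1 - X * Y) - S₂.B y e • ((1 - X * Y) * η) + S₂.B y e •
        adj h.nd₁ ((1 - X * Y) * η), k, hk, fun v => ?_⟩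
      generalize 1 - X * Y = n at ek
      simp [ek, adj_mul, h.cw_sub, h.cw_smul]
      abel) (fun c e => a4 (1 - c) (by rw [sub_smul, one_smul, ← e, sub_sub_cancel])) η 1 h1
  refine om_of_skew h two H.dU H.ow.three H.bis fun a b d hd => ?_
  obtain ⟨y, hy, hQ⟩ := exists_ns₁ h.nd₂ H.ow.three d
  obtain ⟨Y, e⟩ := h2 ((S₂.B y y)⁻¹ • rk S₁ a b) d y hd hy
  refine (e.comm (B_self_zero hd) hy (H.eT_mem d (-y)) (eT_inQ hd (by simp [hy])) (η := S₂.B y y • 1) fun u => by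
    simp [eT_apply hd (y := -y) (by simp [hy]), hy, h.cw_neg]).congr fun v => ?_
  simp [adj_smul, adj_eq h.nd₁ (X := 1) (Y := 1) fun _ _ => rfl, smul_smul, B_self_ne two hQ, sub_eq_add_neg,
    adj_eq h.nd₁ (X := rk S₁ a b) (Y := rk S₁ b a) fun x y => by simp [S₁.orth_B_swap b y, mul_comm]]

end LH

end Cfsg.Agent.H1.O7d
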