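import Cfsg.Agent.H1.O7d

/-!
Tensor powers of orthogonal spaces: the parabolic analysis.
-/

set_option autoImplicit false
set_option linter.unusedSectionVars false
set_option linter.unusedSimpArgs false

namespace Cfsg.Agent.H1.O7e

open Module Cfsg.Agent.H7 Cfsg.Agent.Form Cfsg.Agent.H3.TenLin Cfsg.Agent.H3.TenSL Cfsg.Agent.H3.TenSU
  Cfsg.Agent.H3.TenGen Cfsg.Agent.H3.RootGeo Cfsg.Agent.H3.OrthLem Cfsg.Agent.H3.TenO1 Cfsg.Agent.H3.TenSpSp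
  Cfsg.Agent.H3.TenForm Cfsg.Agent.H3.TenPar Cfsg.Agent.H3.TenGlue Cfsg.Agent.H3.TenO2 Cfsg.Agent.H3.TenO3
  Cfsg.Agent.H9.FClass Cfsg.Agent.H1.C7j Cfsg.Agent.H1.O7a Cfsg.Agent.H1.O7b Cfsg.Agent.H1.O7c Cfsg.Agent.H1.O7d

variable {F : Type*} [Field F] {V : Type*} [AddCommGroup V] [Module F V]
  {U : Type*} [AddCommGroup U] [Module F U] {W : Type*} [AddCommGroup W] [Module F W]
  [FiniteDimensional F U] [FiniteDimensional F W] [FiniteDimensional F V]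
  {S₁ : PQ (FP.orth F) U} {S₂ : PQ (FP.orth F) W} {S : PQ (FP.orth F) V}
  {τ : U →ₗ[F] W →ₗ[F] V} {h : TF S₁ S₂ S τ} {M : Subgroup (V ≃ₗ[F] V)}
  {J : Type*} [DecidableEq J] [Fintype J] {ι : J → End F W →ₐ[F] End F U}

theorem mult_sq (hS : S₂.Nondeg) (ho : Odd (finrank F W)) {b : End F W} {μ : F} (hμ : μ ≠ 0)
    (e : ∀ x y, S₂.B (b x) (b y) = μ * S₂.B x y) : ∃ s : F, s ≠ 0 ∧ μ = s * s := by
  let c := finBasis F W
  let β : LinearMap.BilinForm F W := LinearMap.mk₂ F S₂.B (by simp) (by simp) (by simp) (by simp)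
  have h1 : (LinearMap.BilinForm.toMatrix c β).det ≠ 0 := (LinearMap.BilinForm.nondegenerate_iff_det_ne_zero c).1
    ⟨fun x hx => hS x hx, fun x hx => hS.right x hx⟩
  have h2 := congrArg Matrix.det (LinearMap.BilinForm.toMatrix_comp c c β b b)
  rw [show β.comp b b = μ • β by ext x y; simp [β, e], map_smul, Matrix.det_smul, Matrix.det_mul, Matrix.det_mul,
    Matrix.det_transpose] at h2
  obtain ⟨k, hk⟩ := ho
  rw [Fintype.card_fin] at h2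
  generalize (LinearMap.toMatrix c c b).det = D at h2
  have h3 : μ ^ (2 * k + 1) = D * D := mul_right_cancel₀ h1 (by rw [← hk]; linear_combination h2)
  refine ⟨D / μ ^ k, div_ne_zero (by rintro rfl; simp [hμ] at h3) (by simp [hμ]), ?_⟩
  field_simp; linear_combination h3

theorem norm_tens [Nontrivial U] (ho : Odd (finrank F W)) {t : V ≃ₗ[F] V} (ht : t ∈ bis S) (hT : t ∈ TStab τ)
    (h : TF S₁ S₂ S τ) : ∃ a ∈ bis S₁, ∃ b ∈ bis S₂, ∀ u y, t (τ u y) = τ (a u) (b y) := by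
  have : Nontrivial W := Module.nontrivial_of_finrank_pos (R := F) ho.pos
  obtain ⟨a, b, e⟩ := hT
  obtain ⟨μ, hμ, e1⟩ := h.sim_of_tens (bis_le_sim ht) e
  obtain ⟨s, hs, rfl⟩ := mult_sq h.nd₂ ho hμ (b := b) e1
  have e' : ∀ u y, t (τ u y) = τ ((a.trans (LinearEquiv.smulOfNeZero F U _ hs)) u)
      ((b.trans (LinearEquiv.smulOfNeZero F W _ (inv_ne_zero hs))) y) := fun u y => by simp [e, smul_smul, hs]
  have hb : b.trans (LinearEquiv.smulOfNeZero F W _ (inv_ne_zero hs)) ∈ bis S₂ := fun x y => by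
    simp [e1]; field_simp
  refine ⟨_, fun x y => ?_, _, hb, e'⟩
  obtain ⟨w, hw⟩ := exists_ne (0 : W)
  obtain ⟨z, hz⟩ := h.nd₂.exists_eq hw 1
  have := ht (τ x z) (τ y w)
  rwa [e', e', h.form, h.form, hb, hz, mul_one, mul_one] at this

theorem dec3' (h2 : (2 : F) ≠ 0) (h3 : finrank F W = 3) {d e y : W} (hd : S₂.Q d = 0) (he : S₂.Q e = 0)
    (hed : S₂.B e d = 1) (h1 : S₂.B y e = 0) (h1' : S₂.B y d = 0) (hy : S₂.Q y ≠ 0) (v : V) :
    v = τ (h.cw e v) d + τ (h.cw d v) e + (2 * S₂.Q y)⁻¹ • τ (h.cw y v) y :=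
  h.tens.induction v (by simp) (fun u x => by
    nth_rw 1 [dec3 h2 h.nd₂ h3 hd he hed h1 h1' hy x]
    simp [smul_smul, div_eq_inv_mul]) fun a b ha hb => by
    nth_rw 1 [ha, hb]
    simp only [map_add, LinearMap.add_apply, smul_add]; abel

/-- the centre of the unipotent radical -/
noncomputable def zz (h : TF S₁ S₂ S τ) {w : W} (hw : S₂.Q w = 0) (X : End F U) : V ≃ₗ[F] V :=
  rootE (τ.flip w ∘ₗ X ∘ₗ h.cw w) (fun v => by simp [B_self_zero hw]) 1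

theorem zz_apply {w : W} (hw : S₂.Q w = 0) (X : End F U) (v : V) : zz h hw X v = v + τ (X (h.cw w v)) w := by
  simp [zz]

theorem zz_symm {w : W} (hw : S₂.Q w = 0) (X : End F U) (v : V) :
    (zz h hw X).symm v = v - τ (X (h.cw w v)) w := by
  rw [LinearEquiv.symm_apply_eq, zz_apply]; simp [B_self_zero hw]

/-- no levels -/
structure LP (h : TF S₁ S₂ S τ) (ι : J → End F W →ₐ[F] End F U) (M : Subgroup (V ≃ₗ[F] V)) : Prop
    extends LH h ι M where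
  odd : Odd (finrank F W)
  Z : ∀ w (hw : S₂.Q w = 0), w ≠ 0 → ∀ X ∈ Zs h M (B_self_zero hw), X = 0

namespace LP
variable [Finite F] [Nontrivial U] (H : LP h ι M) {w : W}
include H

theorem pure (hw : S₂.Q w = 0) (h0 : w ≠ 0) {d d' : W} (hd : S₂.B d w = 0) (hd' : S₂.B d' w = 0)
    (hdd : S₂.B d' d ≠ 0) (tr : ∀ ξ : End F U, (Lv h M w fun v => ξ (h.cw d v)) → Lv h M w fun v => ξ (h.cw d' v))
    {η : End F U} (L : Lv h M w fun v => η (h.cw d v)) : ∃ c : F, η = c • 1 := by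
  have k := fun {ξ ξ' : End F U} (a : Lv h M w fun v => ξ (h.cw d v)) (b : Lv h M w fun v => ξ' (h.cw d v)) =>
    a.comm _ h0 (H.Z w hw h0) (tr ξ' b) hd hd' hdd
  have k1 : ∀ {ξ : End F U}, (Lv h M w fun v => ξ (h.cw d v)) → adj h.nd₁ ξ = ξ := fun a => LinearMap.ext fun u => by
    simpa [adj_eq h.nd₁ (X := 1) (Y := 1) fun _ _ => rfl] using (k a (ξ' := 1) ⟨_, H.eT_mem w (-d),
      eT_inQ hw (by simp [hd]), fun v hv => by simp [eT_apply hw (y := -d) (by simp [hd]), hv, h.cw_neg]⟩ u).symm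
  refine ss H.hc H.hs H.ow (C := {ξ | Lv h M w fun v => ξ (h.cw d v)}) (fun j g hg ξ hξ => ?_)
    (fun ξ a ξ' b => LinearMap.ext fun u => by simpa [k1 a, k1 b] using k a b u) L
  obtain ⟨a, ⟨n, hn, en⟩, e⟩ := H.fst j g hg
  rw [cj_of_eq e]
  exact (Lv.conj hξ h0 hn (H.bis hn) (a := a) fun u => en w u).congr fun v => by
    rw [cw_tens_symm (b := 1) (fun u y => en y u) (one_mem _)]; rfl

/-- the vectors with scalar level -/
def Ys (τ : U →ₗ[F] W →ₗ[F] V) (Θ : V →ₗ[F] U) : Submodule F W where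
  carrier := {y | ∃ c : F, ∀ u, Θ (τ u y) = c • u}
  add_mem' := fun ⟨c, e⟩ ⟨c', e'⟩ => ⟨c + c', fun u => by simp [e, e', add_smul]⟩
  zero_mem' := ⟨0, by simp⟩
  smul_mem' := fun a _ ⟨c, e⟩ => ⟨a * c, fun u => by simp [e, mul_smul]⟩

theorem exists_eT (hw : S₂.Q w = 0) (h0 : w ≠ 0) {q : V ≃ₗ[F] V} (hQ : InQ h w q) {Θ : V →ₗ[F] U}
    (e : ∀ v, h.cw w v = 0 → q v = v + τ (Θ v) w)
    (h5 : 5 ≤ finrank F W → ∀ d y, S₂.Q d = 0 → S₂.B d w = 0 → d ∉ F ∙ w → S₂.B y w = 0 → S₂.B y d = 0 → S₂.Q y ≠ 0 →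
      d ∈ Ys τ Θ)
    (h3 : finrank F W = 3 → ∀ t : F, t ≠ 0 → t ^ 2 ≠ 1 → ∀ d y, S₂.Q d = 0 → S₂.B d w = 1 → S₂.B y d = 0 →
      S₂.B y w = 0 → S₂.Q y ≠ 0 → (∀ u, Θ (τ u w) = 0) → y ∈ Ys τ Θ) :
    ∃ y, S₂.B y w = 0 ∧ ∀ v, h.cw w v = 0 → q v = eT h w y v := by
  obtain ⟨y, hy, ey⟩ := hQ.exists_of_scalar h0 fun y hy => by
    suffices hc : y ∈ Ys τ Θ from hc.imp fun c hc u => by simp [e _, hy, hc]
    rcases H.ow.dim with h4 | ⟨h4, t, t0, t1⟩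
    · refine perp_le_of_sing h.nd₂ h4 hw h0 (fun d hd hdw hn => ?_) hy
      obtain ⟨y, hyw, hyd, hy⟩ := exists_ns₂ h.nd₂ h4 w d
      exact h5 h4 d y hd hdw hn hyw hyd hy
    obtain ⟨d, hd, hdw⟩ := exists_partner h.nd₂ hw h0
    obtain ⟨z, a1, a2, hz⟩ := exists_ns_hyp h.nd₂ h4.ge hw hd (by simp [hdw])
    have a3 : ∀ u, Θ (τ u w) = 0 := fun u => (h.tens.eq_zero (a := Θ (τ u w)) (b := w) (by
      simpa [hQ.fix] using e (τ u w) (by simp [B_self_zero hw]))).resolve_right h0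
    rw [dec3 H.ow.two h.nd₂ h4 hw hd hdw a1 a2 hz y, hy, zero_smul, add_zero]
    exact add_mem (Submodule.smul_mem _ _ ⟨0, by simp [a3]⟩)
      (Submodule.smul_mem _ _ (h3 h4 t t0 t1 d z hd hdw a1 a2 hz a3))
  exact ⟨-y, by simp [hy], fun v hv => by simp [ey v hv, eT_apply hw (y := -y) (by simp [hy]), hv, h.cw_neg]⟩

theorem eq_eT (hw : S₂.Q w = 0) (h0 : w ≠ 0) {q : V ≃ₗ[F] V} (hq : q ∈ M) (hQ : InQ h w q) :
    ∃ y, S₂.B y w = 0 ∧ q = eT h w y := by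
  obtain ⟨Θ, e⟩ := exists_Lv h0 hQ
  have L : Lv h M w Θ := ⟨q, hq, hQ, e⟩
  have two := H.ow.two
  refine (H.exists_eT hw h0 hQ e (fun h5 d y hd hdw hn hyw hyd hy => ?_)
    fun h3 _ _ _ d y hd hdw a1 a2 hy a3 => ?_).imp fun y hy => ⟨hy.1,
      eq_of_eq_on_perp _ h0 (H.Z w hw h0) hq (H.eT_mem _ _) hQ.bis (eT_bis _ _) hy.2⟩
  · set η : End F U := (-(2 * S₂.Q y)) • Θ ∘ₗ τ.flip d with hη
    have cj1 : ∀ {Θ : V → U} {d y}, Lv h M w Θ → S₂.B d w = 0 → S₂.B y w = 0 →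
        Lv h M w fun v => Θ ((eT h d y).symm v) := fun L h1 h2 =>
      L.conj h0 (H.eT_mem _ _) (eT_bis _ _) (a := id) (eT_fix (S₂.B_comm_zero h1) (S₂.B_comm_zero h2))
    have L1 : Lv h M w fun v => η (h.cw d v) :=
      ((((cj1 L hdw hyw).add (cj1 L hdw (y := -y) (by simp [hyw]))).add L.neg).add L.neg).congr fun v => by
        simp [eT_symm, eT_apply hd hyd, eT_apply hd (y := -y) (by simp [hyd]), hη, h.cw_neg, S₂.orth_Q_neg]
        module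
    obtain ⟨f, hf, hf', hdf⟩ := h.nd₂.exists_hyperbolic_perp (X := Submodule.span F {w, y})
      ((S₂.orth_sing d).2 hd) (fun hm => by
        obtain ⟨a, b, rfl⟩ := Submodule.mem_span_pair.1 hm
        simp [S₂.orth_Q_add, S₂.orth_Q_smul, hw, hy, S₂.B_comm_zero hyw] at hd
        simp [hd, Submodule.smul_mem] at hn) (mem_perp_pair.2 ⟨hdw, S₂.B_comm_zero hyd⟩)
    rw [mem_perp_pair] at hf
    rw [S₂.orth_sing] at hf'
    obtain ⟨c, hc⟩ := H.pure hw h0 hdw (d' := sg S₂ f y d)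
      (by simp [sg_apply hf' (S₂.B_comm_zero hf.2), hdw, hyw, hf.1]) (by
        simpa [sg_apply hf' (S₂.B_comm_zero hf.2), hyd, S₂.B_comm_zero hyd, B_self_zero hd, hdf,
          S₂.orth_B_swap d f] using hy) (fun ξ L => (cj1 L hf.1 hyw).congr fun v => by
        rw [cw_tens_symm (a := 1) (eT_tmul f y) (isom_le_bis (sg_mem _ _))]; rfl) L1
    refine ⟨-(2 * S₂.Q y)⁻¹ * c, fun u => ?_⟩
    rw [mul_smul, show c • u = η u by simp [hc], hη]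
    simp [smul_smul, -mul_inv_rev, mul_ne_zero two hy]
  · obtain ⟨c, hc⟩ := H.pure hw h0 a2 a2 (B_self_ne two hy) (fun _ L => L)
      (η := (2 * S₂.Q y)⁻¹ • Θ ∘ₗ τ.flip y) ⟨q, hq, hQ, fun v hv => by
        rw [e v hv]
        nth_rw 2 [dec3' (h := h) two h3 hw hd hdw a1 a2 hy v]
        simp [a3, hv, -mul_inv_rev]⟩
    refine ⟨2 * S₂.Q y * c, fun u => ?_⟩
    rw [mul_smul, show c • u = ((2 * S₂.Q y)⁻¹ • Θ ∘ₗ τ.flip y) u by rw [hc]; rfl]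
    simp [smul_smul, -mul_inv_rev, mul_ne_zero two hy]

theorem decomp (hw : S₂.Q w = 0) (h0 : w ≠ 0) {x : V ≃ₗ[F] V} (hx : x ∈ M)
    (hxw : ∀ u, x (τ u w) ∈ Bw τ w) : ∃ t ∈ TStab τ, t ∈ H3.RootGeo.bis S ∧ InQ h w (t⁻¹ * x) := by
  have two := H.ow.two
  obtain ⟨a, ha⟩ := exists_of_map_Bw h.tens h0 h0 hxw
  obtain ⟨w', hw', hww⟩ := exists_partner h.nd₂ hw h0
  have hb := H.bis hx
  have hB := B_self_zero hw
  have st : ∀ v, h.cw w v = 0 → h.cw w (x v) = 0 := fun v => (h.cw_stab h0 h0 (bis_le_sim hb) hxw).2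
  have k1 : ∀ y, S₂.B y w = 0 → ∃ y', S₂.B y' w = 0 ∧ (∀ u, ∃ θ,
      x (τ u y) = τ (h.cw w (x (τ u w'))) y' + τ θ w) ∧
      ∀ u, S₂.B y y • a u = S₂.B y' y' • h.cw w (x (τ u w')) := fun y hy => by
    obtain ⟨y', hy', e⟩ := H.eq_eT hw h0 (mul_mem (mul_mem hx (H.eT_mem w y)) (inv_mem hx))
      ((eT_inQ hw hy).conj h0 (bis_le_sim hb) hxw)
    have e1 : ∀ v, x (eT h w y v) = eT h w y' (x v) := fun v => by simp [← e]
    have e2 : ∀ u, ∃ θ, x (τ u y) = τ (h.cw w (x (τ u w'))) y' + τ θ w := fun u => by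
      have := e1 (τ u w')
      simp only [eT_apply hw hy, eT_apply hw hy', h.cw_apply, hww, one_smul, map_sub, map_add x, ha] at this
      exact ⟨a (S₂.B w' y • u + S₂.Q y • u) - (h.cw y' (x (τ u w')) + S₂.Q y' • h.cw w (x (τ u w'))), by
        rw [map_sub, LinearMap.sub_apply]; linear_combination (norm := abel_nf) this⟩
    refine ⟨y', hy', e2, fun u => eq_of_tmul_eq h.tens h0 ?_⟩
    have := e1 (τ u y)
    rw [eT_apply hw hy', st _ (by simp [hy]), eT_apply hw hy] at this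
    obtain ⟨θ, e3⟩ := e2 u
    simpa [hy, ha, e3, S₂.B_comm_zero hy'] using this
  obtain ⟨y₀, hy₀, hQ⟩ := exists_ns₁ h.nd₂ H.ow.three w
  obtain ⟨y₁, -, -, e⟩ := k1 y₀ hy₀
  obtain ⟨u₀, hu₀⟩ := exists_ne (0 : U)
  have hy₁ : S₂.B y₁ y₁ ≠ 0 := fun e0 => by simpa [e0, B_self_ne two hQ, hu₀] using e u₀
  obtain ⟨μ, hμ, e⟩ : ∃ μ : F, μ ≠ 0 ∧ ∀ u, h.cw w (x (τ u w')) = μ • a u :=
    ⟨(S₂.B y₁ y₁)⁻¹ * S₂.B y₀ y₀, by simp [hy₁, B_self_ne two hQ], fun u => by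
      simp [mul_smul, e, hy₁]⟩
  have k2 : ∀ u u', μ * S₁.B (a u) (a u') = S₁.B u u' := fun u u' => by
    simpa [ha, h.B_tmul, e, hww] using hb (τ u w') (τ u' w)
  obtain ⟨ψ, hψ, -⟩ := exists_dual_one (W := (⊥ : Submodule F U)) (x := a u₀) (by simpa using hu₀)
  set z : End F W := h.tens.flip.ctr ψ ∘ₗ (x : V →ₗ[F] V) ∘ₗ τ u₀ with hz
  have ct : ∀ u y, h.tens.flip.ctr ψ (τ u y) = ψ u • y := fun u y => h.tens.flip.ctr_apply ψ y u
  have k3 : ∀ y, S₂.B y w = 0 → S₂.B (z y) w = 0 ∧ ∀ u, ∃ θ, x (τ u y) = τ (a u) (z y) + τ θ w := by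
    intro y hy
    obtain ⟨y', h1, h2, -⟩ := k1 y hy
    obtain ⟨θ₀, h3⟩ := h2 u₀
    have h4 : z y = μ • y' + ψ θ₀ • w := by simp [hz, h3, ct, e, hψ]
    refine ⟨by simp [h4, h1, hB], fun u => ?_⟩
    obtain ⟨θ, h5⟩ := h2 u
    exact ⟨θ - ψ θ₀ • a u, by simp [h4, h5, e]⟩
  have k4 : ∀ y y', S₂.B y w = 0 → S₂.B y' w = 0 → S₂.B (z y) (z y') = μ * S₂.B y y' := by
    intro y y' hy hy'
    obtain ⟨u₁, hu₁⟩ := h.nd₁.exists_eq hu₀ 1
    obtain ⟨θ, h1⟩ := (k3 y hy).2 u₁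
    obtain ⟨θ', h2⟩ := (k3 y' hy').2 u₀
    have := hb (τ u₁ y) (τ u₀ y')
    simp [h1, h2, h.form, (k3 y hy).1, S₂.B_comm_zero (k3 y' hy').1, hB, hu₁] at this
    linear_combination μ * this - S₂.B (z y) (z y') * k2 u₁ u₀ - S₂.B (z y) (z y') * hu₁
  set π : End F W := 1 - rk S₂ w' w - rk S₂ w w' with hπ
  have p1 : ∀ y, S₂.B (π y) w = 0 := fun y => by simp [hπ, hB, hww]
  let b : End F W := rk S₂ w' w + μ • rk S₂ w w' + π ∘ₗ z ∘ₗ π
  have eb : ∀ y, b y = (S₂.B y w' - S₂.B (z (π y)) w') • w + (μ * S₂.B y w) • w' + z (π y) := fun y => by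
    have : ∀ s, π s = s - S₂.B s w' • w - S₂.B s w • w' := fun _ => rfl
    simp only [b, LinearMap.add_apply, LinearMap.comp_apply, LinearMap.smul_apply, rk_apply]
    rw [this (z _), (k3 _ (p1 y)).1]; module
  have k5 : ∀ y y', S₂.B (b y) (b y') = μ * S₂.B y y' := fun y y' => by
    have h1 := k4 _ _ (p1 y) (p1 y')
    have h2 : S₂.B (π y) (π y') = S₂.B y y' - S₂.B y w' * S₂.B y' w - S₂.B y w * S₂.B y' w' := by
      simp [hπ, hB, hww, B_self_zero hw', S₂.orth_B_swap w' w, S₂.orth_B_swap y']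
    simp [eb, hB, hww, B_self_zero hw', S₂.orth_B_swap w' w, (k3 _ (p1 y)).1,
      S₂.B_comm_zero (k3 _ (p1 y')).1, h1, h2, S₂.orth_B_swap (z (π y')) w']
    ring
  let b' := LinearEquiv.ofInjectiveEndo b ((injective_iff_map_eq_zero _).2 fun y hy =>
    h.nd₂ y fun y' => by simpa [hy, hμ] using k5 y y')
  set t := h.tens.tcongr a b' with ht
  have et : ∀ u y, t (τ u y) = τ (a u) (b y) := h.tens.tcongr_apply a b'
  have hti : t ∈ H3.RootGeo.bis S := fun x y => by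
    rw [h.mem_bis_of (m := 1) fun u _ u' _ => by
      rw [et, et, h.form, h.form, k5, ← k2 u u']; ring, one_mul]
  have bw : b w = w := by simp [b, hπ, hB, S₂.orth_B_swap w' w, hww]
  have f1 : ∀ u, t.symm (τ (a u) w) = τ u w := fun u => by rw [LinearEquiv.symm_apply_eq, et, bw]
  exact ⟨t, tcongr_mem _ _ _, hti, mul_mem (inv_mem hti) hb, fun u => by simp [ha, f1], fun v hv => by
    have := mem_of_cw h hww (A := (Bw τ w).comap (((t⁻¹ * x : V ≃ₗ[F] V) : End F V) - 1))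
      (fun u y hy => by
        obtain ⟨θ, h1⟩ := (k3 _ (p1 y)).2 u
        refine ⟨a.symm θ + S₂.B (z (π y)) w' • u, t.injective ?_⟩
        have h2 : x (τ u y) = x (τ u (π y)) + S₂.B y w' • τ (a u) w := by simp [hπ, hy, ha]
        simp [et, bw, h2, h1, eb y, hy]; module) v
    simpa [hv] using this⟩

theorem snd_conj {t : V ≃ₗ[F] V} (hT : t ∈ TStab τ) (ht : t ∈ H3.RootGeo.bis S) {g : W ≃ₗ[F] W} (hg : g ∈ Om S₂) :
    t⁻¹ * h.tens.tcongr 1 g * t ∈ M := by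
  obtain ⟨a, -, b, hb, e⟩ := norm_tens H.odd ht hT h
  obtain ⟨n, hn, en⟩ := H.snd (om_conj (inv_mem (isom_of_bis H.ow.two hb)) hg)
  convert hn using 1
  refine h.eq_of_tens fun u y => t.injective ?_
  simp [en, e]

theorem dec (hw : S₂.Q w = 0) (h0 : w ≠ 0) {x : V ≃ₗ[F] V} (hx : x ∈ M)
    (hxw : ∀ u, x (τ u w) ∈ Bw τ w) : ∃ t ∈ TStab τ, t ∈ H3.RootGeo.bis S ∧ ∃ X, x = zz h hw X * t := by
  obtain ⟨t, hT, ht, hn⟩ := H.decomp hw h0 hx hxw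
  replace hn : InQ h w (x * t⁻¹) := by
    convert hn.conj h0 (bis_le_sim (H.bis hx)) hxw using 1; group
  obtain ⟨n, rfl⟩ : ∃ n, x = n * t := ⟨x * t⁻¹, by simp⟩
  rw [mul_inv_cancel_right] at hn
  obtain ⟨Θ, e⟩ := exists_Lv h0 hn
  have e' : ∀ v, h.cw w v = 0 → n.symm v = v - τ (Θ v) w := fun v hv => by
    rw [LinearEquiv.symm_apply_eq]; simp [e v hv, hn.fix]
  have key : ∀ g ∈ Om S₂, ∀ μ : F, g w = μ • w → ∀ y, S₂.B y w = 0 → S₂.B (g y) w = 0 →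
      ∃ c : F, ∀ u, Θ (τ u (g y)) - μ • Θ (τ u y) = c • u := fun g hg μ hμ y hy hy' => by
    set l := h.tens.tcongr 1 g
    have el : ∀ u y, l (τ u y) = τ u (g y) := h.tens.tcongr_apply 1 g
    have hl : l ∈ M := by simpa using H.snd_conj (one_mem _) (one_mem _) hg
    have hQ : InQ h w (n * (l * n⁻¹ * l⁻¹)) := hn.mul (hn.inv.conj h0 (bis_le_sim (H.bis hl)) fun u =>
      ⟨μ • u, by simp [el, hμ]⟩)
    obtain ⟨y', -, e1⟩ := H.eq_eT hw h0 (by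
      convert mul_mem (mul_mem (mul_mem hx (show t⁻¹ * l * t ∈ M from H.snd_conj hT ht hg)) (inv_mem hx))
        (inv_mem hl) using 1
      group) hQ
    obtain ⟨c, hc⟩ := hQ.scalar_of_TStab H.ow.three h0 (e1 ▸ eT_T w y') hy'
    refine ⟨c, fun u => eq_of_tmul_eq h.tens h0 ?_⟩
    have := hc u
    simp only [LinearEquiv.mul_apply, LinearEquiv.coe_inv, (LinearEquiv.symm_apply_eq l).2 (el u y).symm,
      e' (τ u y) (by simp [hy]), map_sub, el, hμ, map_smul, hn.fix, e (τ u (g y)) (by simp [hy'])] at this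
    simp only [map_sub, map_smul, LinearMap.sub_apply, LinearMap.smul_apply]
    linear_combination (norm := module) this
  obtain ⟨y, hy, ey⟩ := H.exists_eT hw h0 hn e (fun h5 d y hd hdw hn hyw hyd hy => by
    obtain ⟨c, hc⟩ := key _ (H.ow.sg d y) 1 (by
      simp [sg_apply hd hyd, S₂.B_comm_zero hdw, S₂.B_comm_zero hyw]) y hyw (by simp [sg_apply hd hyd, hyd, hyw, hdw])
    refine ⟨-(S₂.B y y)⁻¹ * c, fun u => ?_⟩
    rw [mul_smul, ← hc]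
    simp [sg_apply hd hyd, hyd, smul_smul, B_self_ne H.ow.two hy]) fun _ s s0 s1 d y hd hdw a1 a2 hy _ => by
    obtain ⟨g, hg, b1, b2⟩ := torus h.nd₂ hw hd hdw s0
    obtain ⟨c, hc⟩ := key g hg _ b1 y a2 (by rw [b2 y a2 a1, a2])
    refine ⟨(1 - s ^ 2)⁻¹ * c, fun u => ?_⟩
    rw [mul_smul, ← hc, b2 y a2 a1, eq_inv_smul_iff₀ (sub_ne_zero.2 s1.symm)]
    module
  obtain ⟨X, hX⟩ := exists_of_fix_perp (h := h) h0 (mul_mem hn.bis (inv_mem (eT_bis (h := h) w y))) fun v hv => by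
    obtain ⟨v, rfl⟩ := (eT h w y).surjective v
    rw [(eT_inQ hw hy).cw_eq] at hv
    simp [ey v hv]
  exact ⟨eT h w y * t, mul_mem (eT_T w y) hT, mul_mem (eT_bis w y) ht, X, by
    rw [show zz h hw X = n * (eT h w y)⁻¹ from LinearEquiv.ext fun v => by rw [hX, zz_apply]]; group⟩

theorem comm_fst (hw : S₂.Q w = 0) (h0 : w ≠ 0) {t n : V ≃ₗ[F] V} {X : End F U} (hx : zz h hw X * t ∈ M)
    (hn : n ∈ M) (hn' : t⁻¹ * n * t ∈ M) {a : U ≃ₗ[F] U} (e : ∀ u y, n (τ u y) = τ (a u) y) : cj a X = X := by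
  refine (sub_eq_zero.1 (H.Z w hw h0 _ ⟨_, mul_mem (mul_mem (mul_mem hx hn') (inv_mem hx)) (inv_mem hn),
    fun v => ?_⟩)).symm
  rw [show zz h hw X * t * (t⁻¹ * n * t) * (zz h hw X * t)⁻¹ * n⁻¹ = zz h hw X * (n * (zz h hw X)⁻¹ * n⁻¹) by group]
  simp [zz_apply, zz_symm, e, B_self_zero hw, cw_tens_symm (h := h) (b := 1) e (one_mem _)]
  abel

theorem par5 (h5 : 5 ≤ finrank F W) (hw : S₂.Q w = 0) (h0 : w ≠ 0) {x : V ≃ₗ[F] V} (hx : x ∈ M)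
    (hxw : ∀ u, x (τ u w) ∈ Bw τ w) : x ∈ TStab τ := by
  obtain ⟨t, hT, ht, X, rfl⟩ := H.dec hw h0 hx hxw
  have k : ∀ d, S₂.Q d = 0 → d ≠ 0 → S₂.B d w = 0 → ∃ m ∈ M, ∀ v,
      m v = v + τ (X (h.cw w v)) w - τ (X (h.cw d v)) d := fun d hd d0 hdw => by
    obtain ⟨g, hg, e⟩ := H8.Om_trans (nd_toQF h.nd₂) h5 h0 d0 (hw.trans hd.symm)
    set l := h.tens.tcongr 1 g
    have el : ∀ u y, l (τ u y) = τ u (g y) := h.tens.tcongr_apply 1 g
    have hl : l ∈ M := by simpa using H.snd_conj (one_mem _) (one_mem _) hg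
    refine ⟨_, mul_mem (mul_mem (mul_mem hx (H.snd_conj hT ht hg)) (inv_mem hx)) (inv_mem hl), fun v => ?_⟩
    rw [show zz h hw X * t * (t⁻¹ * l * t) * (zz h hw X * t)⁻¹ * l⁻¹ = zz h hw X * (l * (zz h hw X)⁻¹ * l⁻¹) by group]
    have e1 : ∀ v, h.cw w (l.symm v) = h.cw d v := fun v => by
      rw [cw_tens_symm (h := h) (a := 1) el (isom_le_bis (Om_le _ hg)), e]; rfl
    simp [zz_apply, zz_symm, el, e, hdw, e1]
    abel
  obtain ⟨e, he, hew⟩ := exists_partner h.nd₂ hw h0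
  obtain ⟨a1, a2⟩ := hyp_perp h.nd₂ hw he (by simp [hew])
  obtain ⟨d, a3, d0, hd⟩ := exists_sing S₂ (H := S₂.perp (Submodule.span F {e, w})) (by omega)
  rw [mem_perp_pair] at a3
  have hB := B_self_zero hw
  obtain ⟨m₁, b1, c1⟩ := k (w + d) (by simp [S₂.orth_Q_add, hw, hd, S₂.B_comm_zero a3.2]) (fun e0 => by
    simpa [a3.1, S₂.orth_B_swap e w, hew] using congrArg (S₂.B · e) e0) (by simp [hB, a3.2])
  obtain ⟨m₂, b2, c2⟩ := k (w - d) (by simp [S₂.orth_Q_sub, hw, hd, S₂.B_comm_zero a3.2]) (fun e0 => by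
    simpa [a3.1, S₂.orth_B_swap e w, hew] using congrArg (S₂.B · e) e0) (by simp [hB, a3.2])
  obtain ⟨m₃, b3, c3⟩ := k d hd d0 a3.2
  have := H.Z w hw h0 ((2 : F) • X) ⟨_, mul_mem (inv_mem (mul_mem b1 b2)) (mul_mem b3 b3), fun v => by
    rw [LinearEquiv.mul_apply, LinearEquiv.coe_inv, LinearEquiv.symm_apply_eq]
    simp [c1, c2, c3, hB, a3.2, S₂.B_comm_zero a3.2, B_self_zero hd, h.cw_add, h.cw_sub]
    module⟩
  obtain rfl : X = 0 := by simpa [H.ow.two] using this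
  rwa [show zz h hw 0 = 1 from LinearEquiv.ext fun v => by simp [zz_apply], one_mul]

end LP

end Cfsg.Agent.H1.O7e
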