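import Cfsg.Agent.H1.O7e
import Cfsg.Agent.H1.C7l

/-!
Tensor powers of orthogonal spaces of dimension at least five: the geometric step.
-/

set_option autoImplicit false
set_option linter.unusedSectionVars false
set_option linter.unusedSimpArgs false

namespace Cfsg.Agent.H1.O7f

open Module Cfsg.Agent.H7 Cfsg.Agent.Form Cfsg.Agent.H3.TenLin Cfsg.Agent.H3.RootGeo
  Cfsg.Agent.H3.TenForm Cfsg.Agent.H3.TenPar Cfsg.Agent.H3.TenGlue Cfsg.Agent.H3.OrthLem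
  Cfsg.Agent.H3.TenSpSp Cfsg.Agent.H3.TenO1 Cfsg.Agent.H3.TenO2 Cfsg.Agent.H9.FClass
  Cfsg.Agent.H3.TenO3 Cfsg.Agent.H3.TenO4 Cfsg.Agent.H1.C7a Cfsg.Agent.H1.C7g Cfsg.Agent.H1.C7l
  Cfsg.Agent.H1.C7j Cfsg.Agent.H1.O7a Cfsg.Agent.H1.O7c
open scoped Pointwise

variable {F : Type*} [Field F] {V : Type*} [AddCommGroup V] [Module F V]
  {U : Type*} [AddCommGroup U] [Module F U] {W : Type*} [AddCommGroup W] [Module F W]
  [FiniteDimensional F U] [FiniteDimensional F W] [FiniteDimensional F V]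
  {S₁ : PQ (FP.orth F) U} {S₂ : PQ (FP.orth F) W} {S : PQ (FP.orth F) V}
  {τ : U →ₗ[F] W →ₗ[F] V} {h : TF S₁ S₂ S τ} {M : Subgroup (V ≃ₗ[F] V)}

section ext
variable {P : (V ≃ₗ[F] V) → Prop} {B : Submodule F V} {g : V ≃ₗ[F] V}

/-- an extremal element -/
structure Ex (M : Subgroup (V ≃ₗ[F] V)) (P : (V ≃ₗ[F] V) → Prop) (B : Submodule F V) (g : V ≃ₗ[F] V) : Prop where
  mem : g ∈ M
  bad : P g
  max : ∀ k ∈ M, P k → finrank F (B.map (k : V →ₗ[F] V) ⊓ B : Submodule F V) ≤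
    finrank F (B.map (g : V →ₗ[F] V) ⊓ B : Submodule F V)

theorem exists_ext (h1 : g ∈ M) (h2 : P g) (B : Submodule F V) : ∃ g, Ex M P B g := by
  obtain ⟨g, hg, hmax⟩ := Set.Finite.exists_maximalFor'
    (fun g : V ≃ₗ[F] V => finrank F (B.map (g : V →ₗ[F] V) ⊓ B : Submodule F V)) {g | g ∈ M ∧ P g}
    ((Set.finite_Iic (finrank F V)).subset (by
      rintro _ ⟨g, -, rfl⟩; exact Submodule.finrank_le _)) ⟨g, h1, h2⟩
  exact ⟨g, hg.1, hg.2, fun k h1 h2 => (le_total _ _).elim id (hmax ⟨h1, h2⟩)⟩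

theorem Ex.key (h : Ex M P B g) {k : V ≃ₗ[F] V} (hk : k ∈ M) (hkT : P k)
    (hD : ∀ x ∈ B.map (g : V →ₗ[F] V), x ∈ B → k x = x) {b : V} (hb : b ∈ B) (hkb : k b ∈ B) :
    b ∈ B.map (g : V →ₗ[F] V) := by
  have := mem_of_finrank_le (D := B.map (g : V →ₗ[F] V) ⊓ B) (E := B.map (k : V →ₗ[F] V) ⊓ B)
    (fun x hx => ⟨⟨x, hx.2, hD x hx.1 hx.2⟩, hx.2⟩) (h.max k hk hkT) (x := k b) ⟨⟨b, hb, rfl⟩, hkb⟩
  have e : k b = b := k.injective (hD _ this.1 this.2)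
  exact e ▸ this.1

theorem Ex.key' (h : Ex M P B g) {k : V ≃ₗ[F] V} (hk : k ∈ M) (hkT : P (g⁻¹ * k * g))
    (hD : ∀ x ∈ B.map (g : V →ₗ[F] V), x ∈ B → k x = x) {a : V} (ha : a ∈ B.map (g : V →ₗ[F] V))
    (hka : k a ∈ B.map (g : V →ₗ[F] V)) : a ∈ B := by
  have h1 := h.max _ (M.mul_mem (M.mul_mem (M.inv_mem h.mem) hk) h.mem) hkT
  rw [← finrank_map_inf g, map_map, show g * (g⁻¹ * k * g) = k * g by group, ← map_map] at h1
  have := mem_of_finrank_le (D := B.map (g : V →ₗ[F] V) ⊓ B)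
    (E := (B.map (g : V →ₗ[F] V)).map (k : V →ₗ[F] V) ⊓ B.map (g : V →ₗ[F] V))
    (fun x hx => ⟨⟨x, hx.1, hD x hx.1 hx.2⟩, hx.1⟩) h1 (x := k a) ⟨⟨a, ha, rfl⟩, hka⟩
  have e : k a = a := k.injective (hD _ this.1 this.2)
  exact e ▸ this.2

end ext

/-- bad elements -/
def Bd (τ : U →ₗ[F] W →ₗ[F] V) (g : V ≃ₗ[F] V) : Prop := g ∉ TStab τ ∧ ¬ Comm τ (act g τ)

theorem Bd.inv (h : IsTens τ) {g : V ≃ₗ[F] V} (hg : Bd τ g) : Bd τ g⁻¹ :=
  ⟨fun e => hg.1 (inv_mem_iff.1 e), fun e => hg.2 (by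
    simpa [act_act, act_one] using (e.act h (tens_act h _) g).symm)⟩

theorem Bd.mul (h : IsTens τ) {g n : V ≃ₗ[F] V} (hg : Bd τ g) (hn : n ∈ TStab τ) : Bd τ (n * g) :=
  ⟨fun e => hg.1 (((TStab τ).mul_mem_cancel_left hn).1 e), fun e => hg.2 (by
    simpa [act_act] using ((e.act h (tens_act h _) n⁻¹).symm.eqv (tens_act h _)
      (eqv_act_iff.2 (inv_mem hn)).symm).symm)⟩

theorem sq_mem (T' : IsTens τ) {z : V ≃ₗ[F] V} (hq : ∀ v, z (z v) = (2 : F) • z v - v) (hc : Comm τ (act z τ))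
    {ψ : Dual F W} {w s : W} (h0' : ψ w = 0) (hs : ψ s = 1) (u : U) : (z * z) (τ u w) ∈ Bw τ w := by
  have T1 := tens_act T' z
  have b1 : ∀ χ y, ∀ v ∈ Bw τ w, rk T1 χ y v ∈ Bw τ w := by
    rintro χ y _ ⟨u, rfl⟩
    have := hc T' T1 ψ w χ y (τ u s)
    rw [rk_tmul, hs, one_smul] at this
    rw [LinearMap.flip_apply, ← this]; exact rk_mem ..
  have b2 : ∀ y, ∀ v ∈ Bw (act z (act z τ)) w, rk T1 ψ y v ∈ Bw τ w := by
    rintro y _ ⟨u, rfl⟩
    change rk T1 ψ y (z (z (τ u w))) ∈ _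
    rw [hq, map_sub, map_smul, ← act_apply, rk_tmul, h0', zero_smul, smul_zero, zero_sub]
    exact neg_mem (b1 _ _ _ ⟨u, rfl⟩)
  let c := Module.finBasis F W
  change z (z (τ u w)) ∈ _
  rw [← T1.sum_basis c (z (z (τ u w)))]
  refine Submodule.sum_mem _ fun i _ => ?_
  have := b2 (c i) (rk T1 (c.coord i) s (z (z (τ u w)))) (by
    rw [rk_act T', Bw_act]
    refine ⟨_, ?_, rfl⟩
    have := hc T' T1 (c.coord i) s ψ w (z (τ u s))
    rw [← act_apply, rk_tmul, hs, one_smul] at this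
    rw [← act_apply, this]; exact rk_mem ..)
  rwa [rk_rk, hs, one_smul] at this

theorem nu_eq' (x x' : W) : nu h x x' = rgt h.tens (wg S₂ x x') := h.tens.ext fun u y => by simp [nu_apply]

theorem exists_Ln (hS : S₂.Nondeg) {d d' : W} (hd : S₂.Q d = 0) (hd' : S₂.Q d' = 0) (h0 : d ≠ 0) (h1 : d' ∉ F ∙ d)
    (h2 : S₂.B d' d = 0) : ∃ y y', Ln S₂ d d' y y' := by
  obtain ⟨y', a1, a2⟩ := hS.exists_perp_eq h1 1
  obtain ⟨y, a3⟩ := hS.exists_eq h0 1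
  rw [S₂.mem_perp_span_singleton] at a1
  rw [S₂.orth_B_swap] at a2
  exact ⟨y - S₂.B y d' • y', y', hd, hd', h2, by simp [a1, a3], by simp [a2], a1, a2⟩

/-- stabilisers of the subspaces `U ⊗ w` are tensors -/
structure OQ (h : TF S₁ S₂ S τ) (M : Subgroup (V ≃ₗ[F] V)) : Prop where
  ow : OW S₂
  bis : M ≤ bis S
  snd : Om S₂ ≤ snd τ M
  par : ∀ w, S₂.Q w = 0 → w ≠ 0 → ∀ x ∈ M, (∀ u, x (τ u w) ∈ Bw τ w) → x ∈ TStab τ

namespace OQ
variable [Finite F] [Nontrivial U] (H : OQ h M)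
include H

theorem eT_mem (w y : W) : eT h w y ∈ M := by
  obtain ⟨g, hg, e⟩ := H.snd (H.ow.sg w y)
  rwa [h.eq_of_tens (g := eT h w y) (k := g) fun u z => by rw [eT_tmul, e]]

theorem move (h5 : 5 ≤ finrank F W) {w w' : W} (hw : S₂.Q w = 0) (hw' : S₂.Q w' = 0) (h0 : w ≠ 0) (h0' : w' ≠ 0) :
    ∃ n ∈ M, ∃ b ∈ S₂.isom, (∀ u y, n (τ u y) = τ u (b y)) ∧ b w = w' := by
  obtain ⟨b, hb, e⟩ := H8.Om_trans (nd_toQF h.nd₂) h5 h0 h0' (hw.trans hw'.symm)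
  obtain ⟨n, hn, en⟩ := H.snd hb
  exact ⟨n, hn, b, Om_le S₂ hb, en, e⟩

theorem par' {w w' : W} (hw' : S₂.Q w' = 0) (h0 : w ≠ 0) (h0' : w' ≠ 0) {x : V ≃ₗ[F] V} (hx : x ∈ M)
    (hxw : ∀ u, x (τ u w) ∈ Bw τ w') : x ∈ TStab τ := by
  have hw := sing_of H.ow.two h (H.bis hx) (z := w) fun u u' => by
    obtain ⟨a, e⟩ := hxw u
    obtain ⟨a', e'⟩ := hxw u'
    simp [← e, ← e', h.form, B_self_zero hw']
  obtain ⟨b, hb, c, -, e⟩ := O7a.move h.nd₂ H.ow.three hw' hw h0' h0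
  obtain ⟨n, hn, en⟩ := H.snd hb
  refine ((TStab τ).mul_mem_cancel_left ⟨1, b, en⟩).1 (H.par w hw h0 _ (mul_mem hn hx) fun u => ?_)
  obtain ⟨u', hu'⟩ := hxw u
  exact ⟨c • u', by simp [← hu', en, e]⟩

theorem cub {x y : W} (hx : S₂.Q x = 0) (h1 : S₂.B y x = 0) (hy : S₂.Q y ≠ 0) (h0 : x ≠ 0) {g : V ≃ₗ[F] V}
    (hg : g ∈ M) {b : W ≃ₗ[F] W} (eb' : ∀ u s, eT h x y (g (τ u s)) = g (τ u (b s))) : g ∈ TStab τ := by
  have k : ∀ u s, g (τ u (b (b s) - (2 : F) • b s + s)) = τ (-(2 * S₂.Q y) • h.cw x (g (τ u s))) x := by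
    intro u s
    simp [← eb', eT_apply hx h1, h1, S₂.B_comm_zero h1, B_self_zero hx, S₂.orth_B_self]
    module
  obtain ⟨s, hs⟩ : ∃ s, b (b s) - (2 : F) • b s + s ≠ 0 := by
    by_contra hc
    push Not at hc
    have : h.cw x ∘ₗ (g : V →ₗ[F] V) = 0 := h.tens.ext fun u s => by
      have := k u s
      rw [hc] at this
      simpa [H.ow.two, hy] using (h.tens.eq_zero (this.symm.trans (by simp))).resolve_right h0
    obtain ⟨u, hu⟩ := exists_ne (0 : U)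
    obtain ⟨s, hs⟩ := h.nd₂.exists_eq h0 1
    simpa [hs, hu] using LinearMap.congr_fun this (g.symm (τ u s))
  exact H.par' hx hs h0 hg fun u => ⟨_, (k u s).symm⟩

theorem par₂ (h5 : 5 ≤ finrank F W) {x x' z : W} (hx : S₂.Q x = 0) (hx' : S₂.Q x' = 0) (hxx : S₂.B x' x = 0)
    (h0 : x ≠ 0) (hz : z ≠ 0) {g : V ≃ₗ[F] V} (hg : g ∈ M) (e : ∀ u, g (τ u z) ∈ Bw τ x ⊔ Bw τ x') :
    g ∈ TStab τ := by
  obtain ⟨y, h1, h2, hy⟩ := exists_ns₂ h.nd₂ h5 x x'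
  have e' : ∀ u, ∃ a b, g (τ u z) = τ a x + τ b x' := fun u => by
    obtain ⟨_, ⟨a, rfl⟩, _, ⟨b, rfl⟩, e⟩ := Submodule.mem_sup.1 (e u)
    exact ⟨a, b, e.symm⟩
  have hk := mul_mem (mul_mem (inv_mem hg) (H.eT_mem x y)) hg
  have fx : ∀ u, (g⁻¹ * eT h x y * g) (τ u z) = τ u z := fun u => by
    obtain ⟨a, b, e⟩ := e' u
    simp [e, eT_fix (B_self_zero hx) (S₂.B_comm_zero h1), eT_fix hxx (S₂.B_comm_zero h2), -map_add,
      map_add (eT h x y)]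
    simp [← e]
  obtain ⟨b, eb⟩ := H3.TenSpO2.snd_of_fix h.tens hz (H.par z (sing_of H.ow.two h (H.bis hg) fun u u' => by
    obtain ⟨a, b, e⟩ := e' u
    obtain ⟨a', b', e'⟩ := e' u'
    simp [e, e', h.form, B_self_zero hx, B_self_zero hx', hxx, S₂.B_comm_zero hxx]) hz _ hk
    fun u => ⟨u, (fx u).symm⟩) fx
  exact H.cub hx h1 hy h0 hg (b := b) fun u s => by simp [← eb]

end OQ

variable {x x' y y' : W} (L : Ln S₂ x x' y y') [Nontrivial U] [Finite F] (H : OQ h M) (h5 : 5 ≤ finrank F W)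
include L H h5

theorem quad {c : F} (hc : c ≠ 0) {g : V ≃ₗ[F] V} (hg : g ∈ M) (hT : g * rootE _ (L.nu_sq (h := h)) c * g⁻¹ ∈ TStab τ) :
    g ∈ TStab τ ∨ Cm (rgt h.tens) (cj g (nu h x x')) := by
  set μ := cj g (nu h x x') with hμ
  have ek : ∀ v, (g * rootE _ (L.nu_sq (h := h)) c * g⁻¹) v = v + c • μ v := fun v => by simp [hμ]
  rcases H3.TenSpO1.quad_tens h.tens H.ow.two hT (fun v => by
    rw [ek, ek, map_add, map_smul, cj_sq g L.nu_sq]; module) with ⟨b, e⟩ | ⟨a, e⟩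
  · have e' : ∀ u s, c • μ (τ u s) = τ u (b s - s) := fun u s => by simp [← e, ek]
    obtain ⟨s, hs⟩ : ∃ s, b s - s ≠ 0 := by
      by_contra hh
      push Not at hh
      have : μ = 0 := h.tens.ext fun u s => by simpa [hh, hc] using e' u s
      exact L.nu_ne (h := h) (LinearMap.ext fun v => by simpa [hμ] using LinearMap.congr_fun this (g v))
    refine Or.inl ((TStab τ).inv_mem_iff.1 (H.par₂ h5 L.q L.q' L.b L.ne hs (inv_mem hg) fun u => ?_))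
    rw [← e', ← L.range_nu (h := h)]
    exact ⟨c • g.symm (τ u s), by simp [hμ]⟩
  have e' : ∀ u s, μ (τ u s) = c⁻¹ • τ (a u - u) s := fun u s => by simp [← e, ek, hc]
  exact Or.inr fun m => h.tens.ext fun u s => by simp [e']

theorem not_mem {c : F} (hc : c ≠ 0) {g : V ≃ₗ[F] V} (hg : g ∈ M) (hb : Bd τ g) :
    g * rootE _ (L.nu_sq (h := h)) c * g⁻¹ ∉ TStab τ := fun hT => by
  have h1 := (quad L H h5 hc hg hT).resolve_left hb.1
  refine hb.2 fun _ _ φ w ψ s v => ?_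
  have k : ∀ d d', S₂.Q d = 0 → d ≠ 0 → S₂.B d' d = 0 →
      Commute (rk (tens_act h.tens g) ψ s) (rgt h.tens (wg S₂ d d')) := fun d d' hd h0 hdd => by
    let Y : Submodule F W :=
      { carrier := {z | Commute (rk (tens_act h.tens g) ψ s) (rgt h.tens (wg S₂ d z))}
        add_mem' := fun {a b} ha hb => by
          rw [Set.mem_ofPred_eq, show wg S₂ d (a + b) = wg S₂ d a + wg S₂ d b by ext; simp; module, map_add]
          exact ha.add_right hb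
        zero_mem' := by rw [Set.mem_ofPred_eq, show wg S₂ d 0 = 0 by ext; simp, map_zero]; exact Commute.zero_right _
        smul_mem' := fun c a ha => by rw [Set.mem_ofPred_eq, O7b.wg_smul, map_smul]; exact ha.smul_right c }
    refine perp_le_of_sing h.nd₂ h5 hd h0 (Y := Y) (fun z hz hzd hn => ?_) hdd
    obtain ⟨p, p', L'⟩ := exists_Ln h.nd₂ hd hz h0 hn hzd
    have hρ := L'.R_le (H.eT_mem d) (rootE_mem (hν := L'.nu_sq (h := h)) (c := 1) trivial)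
    have := (quad L' H h5 one_ne_zero (inv_mem hg) (H.par₂ h5 L.q L.q' L.b L.ne L.ne
      (mul_mem (mul_mem (inv_mem hg) hρ) (inv_mem (inv_mem hg))) fun u => ?_)).resolve_left (hb.inv h.tens).1
    · refine LinearMap.ext fun v => ?_
      obtain ⟨v, rfl⟩ := g.surjective v
      have e := congrArg g (LinearMap.congr_fun (this (H3.TenSL.rk1 F W ψ s)).eq v)
      rw [← Nn_apply, ← rk_eq] at e
      change rk (tens_act h.tens g) ψ s (rgt h.tens (wg S₂ d z) (g v)) =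
        rgt h.tens (wg S₂ d z) (rk (tens_act h.tens g) ψ s (g v))
      rw [← nu_eq' (h := h), rk_act h.tens, ← g.apply_symm_apply (nu h d z (g v)), rk_act h.tens]
      simpa [show g⁻¹.symm = g from rfl] using e.symm
    · obtain ⟨v, hv⟩ : τ u x ∈ LinearMap.range (nu h x x') := by
        rw [L.range_nu]; exact Submodule.mem_sup_left ⟨u, rfl⟩
      have e := congrArg g.symm (LinearMap.congr_fun (h1 (wg S₂ d z)).eq (g v))
      rw [← nu_eq' (h := h)] at e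
      rw [← L.range_nu (h := h), ← hv]
      exact ⟨v + g.symm (nu h d z (g v)), by simpa using e⟩
  have k2 : ∀ m ∈ Submodule.span F (Tp S₂ * Tp S₂), Commute (rk (tens_act h.tens g) ψ s) (rgt h.tens m) := by
    have k3 : ∀ t ∈ Tp S₂, Commute (rk (tens_act h.tens g) ψ s) (rgt h.tens t) := by
      rintro _ ⟨d, hd, h0, rfl⟩
      obtain ⟨z, hz, hQ⟩ := exists_ns₁ h.nd₂ H.ow.three d
      have := ((k d z hd h0 hz).mul_right (k d z hd h0 hz)).smul_right (-(2 * S₂.Q z))⁻¹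
      rwa [← map_mul, wg_sq hd hz, map_smul, smul_smul, inv_mul_cancel₀ (by simp [H.ow.two, hQ]), one_smul] at this
    intro m hm
    induction hm using Submodule.span_induction with
    | mem _ hm => obtain ⟨a, ha, b, hb, rfl⟩ := hm; rw [map_mul]; exact (k3 a ha).mul_right (k3 b hb)
    | zero => simp
    | add a b _ _ ha hb => rw [map_add]; exact ha.add_right hb
    | smul c a _ ha => rw [map_smul]; exact ha.smul_right c
  rw [rk_eq h.tens φ]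
  exact (LinearMap.congr_fun (k2 _ (span_Tp H.ow.two h.nd₂ H.ow.three ▸ Submodule.mem_top)).eq v).symm

theorem bad_act {g : V ≃ₗ[F] V} (hg : g ∈ M) (hb : Bd τ g) : Bd τ (g * rootE _ (L.nu_sq (h := h)) 1 * g⁻¹) := by
  refine ⟨not_mem L H h5 one_ne_zero hg hb, fun hc => not_mem L H h5 H.ow.two hg hb ?_⟩
  have hz := mul_mem (mul_mem hg (L.R_le (H.eT_mem x) (rootE_mem (hν := L.nu_sq (h := h)) (c := 1) trivial)))
    (inv_mem hg)
  convert H.par x L.q L.ne _ (mul_mem hz hz) (sq_mem h.tens (fun v => by simp [L.nu_sq]; module) hc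
    (ψ := S₂.lin x) (B_self_zero L.q) L.b₁) using 1
  ext v; simp [L.nu_sq]; module

variable {g : V ≃ₗ[F] V} (E : Ex M (Bd τ) (Bw τ x ⊔ Bw τ x') g)
include E

theorem ext₁ {v : V} (hv : v ∈ (Bw τ x ⊔ Bw τ x').map (g : V →ₗ[F] V) ⊔ (Bw τ x ⊔ Bw τ x'))
    (h0 : nu h x x' v = 0) : v ∈ Bw τ x ⊔ Bw τ x' := by
  obtain ⟨a, ha, b, hb, rfl⟩ := Submodule.mem_sup.1 hv
  rw [map_add, L.nu_eq_zero.2 (L.cw hb), add_zero] at h0
  refine add_mem (E.key' (k := rootE _ (L.nu_sq (h := h)) 1) (L.R_le (H.eT_mem x) (rootE_mem trivial))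
    (by simpa using bad_act L H h5 (inv_mem E.mem) (E.bad.inv h.tens))
    (fun s _ hs => by simp [L.nu_eq_zero.2 (L.cw hs)]) ha (by simpa [h0] using ha)) hb

theorem ext₂ {v : V} (hv : v ∈ (Bw τ x ⊔ Bw τ x').map (g : V →ₗ[F] V) ⊔ (Bw τ x ⊔ Bw τ x'))
    (h0 : nu h x x' (g.symm v) = 0) : v ∈ (Bw τ x ⊔ Bw τ x').map (g : V →ₗ[F] V) := by
  obtain ⟨_, ⟨a, ha, rfl⟩, b, hb, rfl⟩ := Submodule.mem_sup.1 hv
  simp only [map_add, LinearEquiv.coe_coe, LinearEquiv.symm_apply_apply, L.nu_eq_zero.2 (L.cw ha),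
    zero_add] at h0
  refine add_mem ⟨a, ha, rfl⟩ (E.key (k := g * rootE _ (L.nu_sq (h := h)) 1 * g⁻¹)
    (mul_mem (mul_mem E.mem (L.R_le (H.eT_mem x) (rootE_mem trivial))) (inv_mem E.mem)) (bad_act L H h5 E.mem E.bad)
    (by rintro _ ⟨s, hs, rfl⟩ _; simp [L.nu_eq_zero.2 (L.cw hs)]) hb (by simpa [h0] using hb))

theorem ext₃ {s : W} (hs : s ∈ Sup τ ((Bw τ x ⊔ Bw τ x').map (g : V →ₗ[F] V) ⊔ (Bw τ x ⊔ Bw τ x')))
    (h1 : S₂.B s x = 0) (h2 : S₂.B s x' = 0) : s = S₂.B s y • x + S₂.B s y' • x' := by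
  obtain ⟨u, hu⟩ := exists_ne (0 : U)
  obtain ⟨a, b, e⟩ := mem_B2.1 (ext₁ L H h5 E (hs u) (L.nu_eq_zero.2 (by simp [h1, h2])))
  have e1 := congrArg (h.cw y) e
  have e2 := congrArg (h.cw y') e
  simp [S₂.orth_B_swap y, S₂.orth_B_swap y', L.b₁, L.b₂, L.b₃, L.b₄] at e1 e2
  refine h.tens.flip.left_inj hu ?_
  change τ u _ = τ u _
  simp [← e, e1, e2, S₂.orth_B_swap s]

theorem fact : (Bw τ x ⊔ Bw τ x').map (g : V →ₗ[F] V) ⊓ (Bw τ x ⊔ Bw τ x') = ⊥ ∧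
    ∀ z ∈ S₂.perp (Sup τ ((Bw τ x ⊔ Bw τ x').map (g : V →ₗ[F] V) ⊔ (Bw τ x ⊔ Bw τ x'))),
      ∀ a ∈ (Bw τ x ⊔ Bw τ x').map (g : V →ₗ[F] V), h.cw z a = 0 := by
  by_contra hc
  have hk : g * rootE _ (L.nu_sq (h := h)) 1 * g⁻¹ ∉ TStab τ := (bad_act L H h5 E.mem E.bad).1
  have hkM := mul_mem (mul_mem E.mem (L.R_le (H.eT_mem x) (rootE_mem (c := 1) trivial))) (inv_mem E.mem)
  refine hk (L.R_le (h := h) (eT_T x) (frob_end (μ := cj g (nu h x x')) (Λ := ⊤) L.nu_ne ⟨1, trivial, one_ne_zero⟩ (a := -1)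
    (by simp) (fun e => H.ow.two (by linear_combination -e)) (fun _ _ => trivial) (fun δ hδ hst => ?_)
    (RG_le_Gam' (conj_mem_RG (rootE_mem trivial)))))
  have hδM : δ ∈ M := Gam_le (RG_cj_le (hν := L.nu_sq) fun k hk =>
    mul_mem (mul_mem E.mem (L.R_le (H.eT_mem x) hk)) (inv_mem E.mem)) (L.R_le (H.eT_mem x)) hδ
  have hb := H.bis hδM
  have hsub := Gam_sub_mem hδ
  have hcen := (Gam_cen (cj_sq g L.nu_sq) L.nu_sq hδ).1
  rw [range_cj, L.range_nu] at hsub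
  have hst' : ∀ v, v ∈ Bw τ x ⊔ Bw τ x' ↔ δ v ∈ Bw τ x ⊔ Bw τ x' := H8.mem_Stab_of_maps (by
    rw [← L.range_nu (h := h)]; rintro _ ⟨v, rfl⟩; exact hst v)
  have k1 : ∀ v, nu h x x' v = 0 → δ v - v ∈ Bw τ x ⊔ Bw τ x' := fun v hv => ext₁ L H h5 E (hsub v) (by
    rw [map_sub, hv, sub_zero, ← L.perp]
    intro b hb'
    obtain ⟨b, rfl⟩ := δ.surjective b
    rw [hb, L.perp.2 hv b ((hst' b).2 hb')])
  obtain ⟨y₀, h1, h2, hy₀⟩ := exists_ns₂ h.nd₂ h5 x x'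
  obtain ⟨b, eb⟩ := exists_snd_of h.tens (H.par₂ h5 L.q L.q' L.b L.ne L.ne hδM fun u =>
    (hst' _).1 (Submodule.mem_sup_left ⟨u, rfl⟩)) (y := y₀) (φ := (S₂.B y₀ y₀)⁻¹ • S₂.lin y₀)
    (by simp [B_self_ne H.ow.two hy₀]) fun u => by
      obtain ⟨a, b, e⟩ := mem_B2.1 (k1 (τ u y₀) (L.nu_eq_zero.2 (by simp [h1, h2])))
      simp [← e, S₂.B_comm_zero h1, S₂.B_comm_zero h2]
  have hb' := h.snd_bis hb eb
  have eb' : ∀ u s, δ.symm (τ u s) = τ u (b.symm s) := fun u s => by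
    rw [LinearEquiv.symm_apply_eq, eb]; simp
  have hY : ∀ s, b s - s ∈ Sup τ ((Bw τ x ⊔ Bw τ x').map (g : V →ₗ[F] V) ⊔ (Bw τ x ⊔ Bw τ x')) :=
    fun s u => by simpa [eb] using hsub (τ u s)
  have k2 : ∀ s, S₂.B (b s) x • x' - S₂.B (b s) x' • x = S₂.B s x • b.symm x' - S₂.B s x' • b.symm x := by
    intro s
    by_contra hne
    refine hk ((TStab τ).inv_mem_iff.1 ((TStab τ).inv_mem (H.par₂ h5 L.q L.q' L.b L.ne (sub_ne_zero.2 hne) hkM
      fun u => ?_)))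
    have mem : ∀ v, nu h x x' (δ v) - δ.symm (nu h x x' v) ∈ Bw τ x ⊔ Bw τ x' := fun v =>
      sub_mem (L.range_nu (h := h) ▸ ⟨_, rfl⟩) ((hst' _).2 (by
        rw [LinearEquiv.apply_symm_apply, ← L.range_nu (h := h)]; exact ⟨_, rfl⟩))
    have := mem (cj g (nu h x x') (τ u s))
    rw [← hcen] at this
    replace this := add_mem (mem (τ u s)) this
    convert this using 1
    simp [nu_apply x x' (τ _ _), eb, eb', -cj_apply, show ∀ v, (g * rootE _ (L.nu_sq (h := h)) 1 * g⁻¹) v =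
      v + cj g (nu h x x') v from fun v => by simp, -LinearEquiv.mul_apply]
  have adj : ∀ s t, S₂.B (b s) t = S₂.B s (b.symm t) := fun s t => by rw [← hb' s]; simp
  obtain ⟨l, e1, e2⟩ : ∃ l : F, b.symm x = l • x ∧ b.symm x' = l • x' := by
    have a1 := k2 y
    have a2 := k2 y'
    have a3 := congrArg (S₂.B y) a1
    have a4 := congrArg (S₂.B y') a2
    simp [adj, L.b₁, L.b₂, L.b₃, L.b₄] at a1 a2 a3 a4
    have a5 : S₂.B y (b.symm x') = 0 := mul_left_cancel₀ H.ow.two (by linear_combination -a3)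
    have a6 : S₂.B y' (b.symm x) = 0 := mul_left_cancel₀ H.ow.two (by linear_combination a4)
    rw [a5, zero_smul, sub_zero] at a1
    refine ⟨S₂.B y (b.symm x), ?_, a1.symm⟩
    rw [a6, ← a1] at a2
    simpa [L.b₄] using a2.symm
  by_cases hl : l = 1
  · have a1 : ∀ s, b s = s + S₂.B (b s - s) y • x + S₂.B (b s - s) y' • x' := fun s => by
      rw [add_assoc, ← ext₃ L H h5 E (hY s) (by simp [adj, e1, hl]) (by simp [adj, e2, hl])]; simp
    obtain ⟨α, β, a1⟩ : ∃ α β : W → F, ∀ s, b s = s + α s • x + β s • x' := ⟨_, _, a1⟩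
    have a2 : ∀ s t, α s * S₂.B t x + β s * S₂.B t x' + α t * S₂.B s x + β t * S₂.B s x' = 0 := fun s t => by
      have := hb' s t
      simp [a1, B_self_zero L.q, B_self_zero L.q', L.b, S₂.B_comm_zero L.b, S₂.orth_B_swap t] at this
      linear_combination this
    have a3 := a2 y y
    have a4 := a2 y' y'
    have a5 := a2 y y'
    simp only [L.b₁, L.b₂, L.b₃, L.b₄] at a3 a4 a5
    have a6 : α y = 0 := mul_left_cancel₀ H.ow.two (by linear_combination a3)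
    have a7 : β y' = 0 := mul_left_cancel₀ H.ow.two (by linear_combination a4)
    refine ⟨β y, trivial, fun v => h.tens.induction v (by simp) (fun u s => ?_) fun a b ha hb => by
      simp only [map_add, ha, hb, smul_add]; abel⟩
    have a8 := a2 s y
    have a9 := a2 s y'
    simp only [L.b₁, L.b₂, L.b₃, L.b₄, a6, a7] at a8 a9
    rw [eb, a1, show α s = -(β y * S₂.B s x') by linear_combination a8,
      show β s = β y * S₂.B s x by linear_combination a9 - S₂.B s x * a5]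
    simp [nu_apply]; module
  have hl' := sub_ne_zero.2 hl
  have k3 : ∀ u u', ∃ a ∈ (Bw τ x ⊔ Bw τ x').map (g : V →ₗ[F] V), h.cw x a = u ∧ h.cw x' a = u' ∧
      ∀ z ∈ S₂.perp (Sup τ ((Bw τ x ⊔ Bw τ x').map (g : V →ₗ[F] V) ⊔ (Bw τ x ⊔ Bw τ x'))), h.cw z a = 0 := by
    intro u u'
    obtain ⟨a, ha, c, hc, e⟩ := Submodule.mem_sup.1 (add_mem (hY y ((l - 1)⁻¹ • u)) (hY y' ((l - 1)⁻¹ • u')))
    rw [← eq_sub_iff_add_eq] at e
    refine ⟨a, ha, ?_, ?_, fun z hz => ?_⟩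
    · rw [e, map_sub, (L.cw hc).1]
      simp [adj, e1, L.b₁, L.b₃]; match_scalars; field_simp
    · rw [e, map_sub, (L.cw hc).2]
      simp [adj, e2, L.b₂, L.b₄]; match_scalars; field_simp
    · obtain ⟨p, r, rfl⟩ := mem_B2.1 hc
      rw [S₂.mem_perp'] at hz
      simp [-map_sub, map_sub (h.cw z), e, hz _ (hY _),
        hz x fun u => Submodule.mem_sup_right (Submodule.mem_sup_left ⟨u, rfl⟩),
        hz x' fun u => Submodule.mem_sup_right (Submodule.mem_sup_right ⟨u, rfl⟩)]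
  have k4 : Function.Injective (((h.cw x).prod (h.cw x')) ∘ₗ ((Bw τ x ⊔ Bw τ x').map (g : V →ₗ[F] V)).subtype) := by
    rw [LinearMap.injective_iff_surjective_of_finrank_eq_finrank (by
      rw [LinearEquiv.finrank_map_eq, finrank_B2 h.tens L.ne L.notMem, finrank_prod, two_mul])]
    rintro ⟨u, u'⟩
    obtain ⟨a, ha, a1, a2, -⟩ := k3 u u'
    exact ⟨⟨a, ha⟩, by simp [a1, a2]⟩
  refine (hc ⟨eq_bot_iff.2 fun v hv => ?_, fun z hz a ha => ?_⟩).elim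
  · exact congrArg Subtype.val (k4 (a₁ := ⟨v, hv.1⟩) (a₂ := 0) (by simp [L.cw hv.2]))
  · obtain ⟨a', ha', a1, a2, a3⟩ := k3 (h.cw x a) (h.cw x' a)
    rw [show a = a' from congrArg Subtype.val (k4 (a₁ := ⟨a, ha⟩) (a₂ := ⟨a', ha'⟩) (by simp [a1, a2]))]
    exact a3 z hz

omit L E in
/-- The geometric step. -/
theorem not_bad {g₀ : V ≃ₗ[F] V} (hg₀ : g₀ ∈ M) : ¬ Bd τ g₀ := fun hle => by
  obtain ⟨x, x', y, y', L⟩ : ∃ x x' y y', Ln S₂ x x' y y' := by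
    obtain ⟨x, -, h0, hx⟩ := exists_sing S₂ (H := ⊤) (by rw [finrank_top]; omega)
    obtain ⟨y, hy, hyx⟩ := exists_partner h.nd₂ hx h0
    obtain ⟨h1, h2⟩ := hyp_perp h.nd₂ hx hy (by simp [hyx])
    obtain ⟨x', h3, h0', hx'⟩ := exists_sing S₂ (H := S₂.perp (Submodule.span F {y, x})) (by omega)
    obtain ⟨y', h4, h5⟩ := h.nd₂.exists_perp_eq (U := Submodule.span F {y, x}) (x := x') (fun hm =>
      h0' (h1 x' h3 fun z hz => S₂.B_comm_zero (hz x' hm))) 1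
    rw [mem_perp_pair] at h3 h4
    exact ⟨x, x', y, y', hx, hx', h3.2, hyx, S₂.B_comm_zero h3.1, h4.2, by rwa [S₂.orth_B_swap]⟩
  obtain ⟨g, E⟩ := exists_ext hg₀ hle (Bw τ x ⊔ Bw τ x')
  obtain ⟨h1, h2⟩ := fact L H h5 E
  obtain ⟨z, hz, hzY⟩ : ∃ z, S₂.Q z = 0 ∧
      z ∉ Sup τ ((Bw τ x ⊔ Bw τ x').map (g : V →ₗ[F] V) ⊔ (Bw τ x ⊔ Bw τ x')) := by
    by_contra hc
    push Not at hc
    obtain ⟨y₀, h3, h4, hy₀⟩ := exists_ns₂ h.nd₂ h5 x x'
    have := ext₃ L H h5 E (top_le_of_sing h.nd₂ (by omega) hc y₀) h3 h4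
    exact hy₀ (by rw [this]; simp [S₂.orth_Q_add, S₂.orth_Q_smul, L.q, L.q', S₂.B_comm_zero L.b])
  obtain ⟨n, hn, b, hb, en, e⟩ := H.move h5 hz L.q (by rintro rfl; exact hzY (zero_mem _)) L.ne
  have E' : Ex M (Bd τ) (Bw τ x ⊔ Bw τ x') (n * g) := ⟨mul_mem hn E.mem,
    E.bad.mul h.tens ⟨1, b, en⟩, fun k h3 h4 =>
      (E.max k h3 h4).trans (by rw [h1, finrank_bot]; exact Nat.zero_le _)⟩
  obtain ⟨-, h3⟩ := fact L H h5 E'
  set Y := Sup τ ((Bw τ x ⊔ Bw τ x').map (n * g : V ≃ₗ[F] V).toLinearMap ⊔ (Bw τ x ⊔ Bw τ x')) with hY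
  obtain ⟨s, hs, hzs⟩ := h.nd₂.exists_perp_ne hzY
  obtain ⟨r, ⟨hr, hrY⟩, hr0⟩ := Submodule.exists_mem_ne_zero_of_ne_bot
    (p := (S₂.perp Y ⊔ F ∙ b s) ⊓ Y) fun e0 => by
      have a1 := Submodule.finrank_sup_add_finrank_inf_eq (S₂.perp Y ⊔ F ∙ b s) Y
      have a2 := Submodule.finrank_le (S₂.perp Y ⊔ F ∙ b s ⊔ Y)
      have a3 := h.nd₂.finrank_perp Y
      have a4 := Submodule.finrank_lt_finrank_of_lt (show S₂.perp Y < S₂.perp Y ⊔ F ∙ b s from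
        lt_of_le_of_ne le_sup_left fun e1 => hzs (by
          have : b s ∈ S₂.perp Y := e1 ▸ Submodule.mem_sup_right (Submodule.mem_span_singleton_self _)
          rw [← PQ.B_isom hb, e]
          exact S₂.B_comm_zero (this x fun u => Submodule.mem_sup_right (Submodule.mem_sup_left ⟨u, rfl⟩))))
      rw [e0, finrank_bot] at a1
      omega
  refine E'.bad.1 ((TStab τ).inv_mem_iff.1 (H.par₂ h5 L.q L.q' L.b L.ne hr0 (inv_mem E'.mem) fun u => ?_))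
  obtain ⟨a, ha, e⟩ := ext₂ L H h5 E' (hrY u) (L.perp.1 fun a ha => by
    obtain ⟨p, hp, t, ht, rfl⟩ := Submodule.mem_sup.1 hr
    obtain ⟨c, rfl⟩ := Submodule.mem_span_singleton.1 ht
    rw [← H.bis E'.mem, LinearEquiv.apply_symm_apply, S.orth_B_swap, h.B_tmul, h.cw_add,
      h3 p hp ((n * g) a) ⟨a, ha, rfl⟩, h.cw_smul, LinearEquiv.mul_apply,
      cw_tens (a := 1) en (isom_le_bis hb), h2 s hs (g a) ⟨a, ha, rfl⟩]
    simp)
  simpa [← e] using ha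

omit L E in
theorem ac5 {s g : V ≃ₗ[F] V} (hs : s ∈ M) (hg : g ∈ M) : Eqv (act s τ) (act g τ) ∨ Comm (act s τ) (act g τ) := by
  have := not_bad H h5 (mul_mem (inv_mem hs) hg)
  rw [Bd, not_and_or, not_not, not_not] at this
  exact this.imp (fun e => by simpa [act_act] using (eqv_act_iff.2 e).act s)
    fun e => by simpa [act_act] using e.act h.tens (tens_act h.tens _) s

end Cfsg.Agent.H1.O7f
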