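import Mathlib

/-!
A fusion argument for commuting families of four-groups.
-/

set_option autoImplicit false
set_option linter.unusedSectionVars false
set_option linter.unusedSimpArgs false

namespace Cfsg.Agent.H1.O7g

variable {Γ : Type*} [Group Γ] [Finite Γ]

theorem dihedral {H : Subgroup Γ} {z z' : Γ} (h : z ∈ H) (h' : z' ∈ H) (hz : z * z = 1) (hz' : z' * z' = 1) :
    (∃ s ∈ H, s * z * s⁻¹ = z') ∨ ∃ i ∈ H, i ≠ 1 ∧ z * i = i * z ∧ z' * i = i * z' ∧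
      (((∃ s ∈ H, z * i = s * z * s⁻¹) ∧ ∃ s ∈ H, z' * i = s * z' * s⁻¹) ∨
        (∃ s ∈ H, z * i = s * z' * s⁻¹) ∧ ∃ s ∈ H, z' * i = s * z * s⁻¹) := by
  set r := z * z' with hr
  have m : ∀ n : ℕ, r ^ n ∈ H := fun n => pow_mem (mul_mem h h') n
  have i1 : z⁻¹ = z := inv_eq_of_mul_eq_one_left hz
  have i2 : z'⁻¹ = z' := inv_eq_of_mul_eq_one_left hz'
  have c1 : ∀ n : ℕ, (r ^ n)⁻¹ * z = z * r ^ n := fun n => by
    have : z * r * z⁻¹ = r⁻¹ := by rw [hr, mul_inv_rev, i1, i2, ← mul_assoc, hz, one_mul]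
    rw [← inv_pow, ← this, conj_pow]; group
  have c2 : ∀ n : ℕ, (r ^ n)⁻¹ * z' = z' * r ^ n := fun n => by
    have : z' * r * z'⁻¹ = r⁻¹ := by rw [hr, mul_inv_rev, i1, i2, mul_assoc, mul_assoc, hz', mul_one]
    rw [← inv_pow, ← this, conj_pow]; group
  have d1 : z * r = z' := by rw [hr, ← mul_assoc, hz, one_mul]
  have d2 : ∀ n, (r ^ n)⁻¹ * z * (r ^ n)⁻¹⁻¹ = z * r ^ (2 * n) := fun n => by
    rw [c1, inv_inv, mul_assoc, ← pow_add, two_mul]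
  have d3 : ∀ n, (r ^ n)⁻¹ * z' * (r ^ n)⁻¹⁻¹ = z' * r ^ (2 * n) := fun n => by
    rw [c2, inv_inv, mul_assoc, ← pow_add, two_mul]
  have h0 := pow_orderOf_eq_one r
  have hpos := orderOf_pos r
  rcases Nat.even_or_odd' (orderOf r) with ⟨j, hj | hj⟩
  · right
    have h1 : (r ^ j)⁻¹ = r ^ j := inv_eq_of_mul_eq_one_left (by rw [← pow_add, ← two_mul, ← hj, h0])
    refine ⟨r ^ j, m j, pow_ne_one_of_lt_orderOf (by omega) (by omega), by rw [← c1, h1], by rw [← c2, h1], ?_⟩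
    rcases Nat.even_or_odd' j with ⟨l, rfl | rfl⟩
    · exact Or.inl ⟨⟨_, inv_mem (m l), (d2 l).symm⟩, _, inv_mem (m l), (d3 l).symm⟩
    · refine Or.inr ⟨⟨_, inv_mem (m l), ?_⟩, _, inv_mem (m (l + 1)), ?_⟩
      · rw [d3, pow_succ', ← mul_assoc, d1]
      · rw [d2, ← d1, mul_assoc, ← pow_succ']; rfl
  · left
    refine ⟨_, inv_mem (m (j + 1)), ?_⟩
    rw [d2, show 2 * (j + 1) = 1 + orderOf r by omega, pow_add, h0, mul_one, pow_one, d1]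

variable {I : Type*} {G T : Subgroup Γ} {R : I → Set Γ} {C : I → Subgroup Γ}

/-- the hypotheses -/
structure AB (G T : Subgroup Γ) (R : I → Set Γ) (C : I → Subgroup Γ) : Prop where
  le : T ≤ G
  rT : ∀ {i r}, r ∈ R i → r ∈ T
  sq : ∀ {i r}, r ∈ R i → r * r = 1
  rc : ∀ {i j r}, r ∈ R j → j ≠ i → r ∈ C i
  nr : ∀ {i r}, r ∈ R i → r ∉ C i
  uq : ∀ {i r r'}, r ∈ R i → r' ∈ R i → r * r' ∈ C i → r = r'
  cm : ∀ {i r c}, r ∈ R i → c ∈ C i → r * c = c * r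
  pm : ∀ t ∈ T, ∃ σ : I → I, Function.Injective σ ∧
    ∀ i, (∀ r ∈ R i, t * r * t⁻¹ ∈ R (σ i)) ∧ ∀ c ∈ C i, t * c * t⁻¹ ∈ C (σ i)
  f1 : ∀ {i r}, r ∈ R i → ∃ r' ∈ R i, r ≠ r' ∧ r * r' = r' * r
  f2 : ∀ {i r r'}, r ∈ R i → r' ∈ R i → r ≠ r' → r * r' = r' * r → r * r' ∈ R i
  ne : ∀ i, (R i).Nonempty
  fu : ∀ {g i j r}, g ∈ G → r ∈ R i → g * r * g⁻¹ ∈ R j → g ∈ T
  fa : ∀ {g i k r s}, g ∈ G → r ∈ R k → g * r * g⁻¹ ∈ T → s ∈ R i → g * r * g⁻¹ * s * (g * r * g⁻¹)⁻¹ ∈ R i →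
    g * r * g⁻¹ ∈ C i ∨ g * r * g⁻¹ ∈ R i
  sc : ∀ {g k r}, g ∈ G → r ∈ R k → ¬ ∀ i, g * r * g⁻¹ ∈ C i

namespace AB
variable (H : AB G T R C) {g r s x : Γ} {i j k : I}
include H

theorem rG (hr : r ∈ R i) : r ∈ G := H.le (H.rT hr)

theorem inv (hr : r ∈ R i) : r⁻¹ = r := inv_eq_of_mul_eq_one_left (H.sq hr)

theorem idx (hr : r ∈ R i) (hr' : r ∈ R j) : i = j := by_contra fun e => H.nr hr' (H.rc hr e)

theorem cen (hg : g ∈ G) (hr : r ∈ R i) (e : r * g = g * r) : g ∈ T := H.fu hg hr (j := i) (by simpa [← e])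

theorem fusT (hg : g ∈ G) (hr : r ∈ R i) (hT : g * r * g⁻¹ ∈ T) : g ∈ T := by
  obtain ⟨σ, -, hσ⟩ := H.pm _ hT
  by_cases h : ∀ j, σ j = j
  · by_contra hn
    refine H.sc hg hr fun j => ?_
    obtain ⟨s, hs⟩ := H.ne j
    exact (H.fa hg hr hT hs (h j ▸ (hσ j).1 s hs :)).resolve_right fun e => hn (H.fu hg hr e)
  exfalso
  push Not at h
  obtain ⟨j, hj⟩ := h
  have h2 : g * r * g⁻¹ * (g * r * g⁻¹) = 1 := by simp [mul_assoc, ← mul_assoc r, H.sq hr]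
  have h3 := inv_eq_of_mul_eq_one_left h2
  have h4 : r = g⁻¹ * (g * r * g⁻¹) * g := by group
  generalize g * r * g⁻¹ = ρ at *
  have k : ∀ s ∈ R j, r * (g⁻¹ * (s * (ρ * s * ρ⁻¹)) * g) = g⁻¹ * (s * (ρ * s * ρ⁻¹)) * g * r ∧
      g⁻¹ * (s * (ρ * s * ρ⁻¹)) * g * r ∈ C i := fun s hs => by
    have a1 := (hσ j).1 s hs
    have a2 := H.rc a1 hj
    have a3 := H.cm hs a2
    have a4 : r * (g⁻¹ * (s * (ρ * s * ρ⁻¹)) * g) = g⁻¹ * (s * (ρ * s * ρ⁻¹)) * g * r := by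
      nth_rw 2 [a3]
      rw [h4, h3]
      simp only [mul_assoc, mul_inv_cancel_left, ← mul_assoc ρ ρ, h2, one_mul]
    have a5 := mul_mem (mul_mem (inv_mem hg) (mul_mem (H.rG hs) (H.rG a1))) hg
    have a6 : g⁻¹ * (s * (ρ * s * ρ⁻¹)) * g * r = g⁻¹ * s * g * r * (g⁻¹ * s * g)⁻¹ := by
      rw [h4, h3]
      simp only [mul_assoc, mul_inv_cancel_left, ← mul_assoc ρ ρ, h2, one_mul, mul_inv_rev, H.inv hs, inv_inv]
    refine ⟨a4, (a6 ▸ H.fa (mul_mem (mul_mem (inv_mem hg) (H.rG hs)) hg) hr (a6 ▸ mul_mem (H.cen a5 hr a4) (H.rT hr)) hr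
      (by rw [← a6, ← a4, mul_assoc r _ r, ← a4, mul_assoc, mul_inv_cancel, mul_one]; exact hr)).resolve_right
      fun a7 => ?_⟩
    generalize ρ * s * ρ⁻¹ = s' at *
    by_cases a8 : g⁻¹ * (s * s') * g * r = r
    · have : s * s' = 1 := by
        calc _ = g * (g⁻¹ * (s * s') * g) * g⁻¹ := by group
          _ = _ := by rw [mul_eq_right.1 a8]; group
      exact H.nr hs (eq_inv_of_mul_eq_one_left this ▸ inv_mem a2)
    have a9 := H.f2 a7 hr a8 (by rw [← mul_assoc r, a4])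
    rw [mul_assoc, H.sq hr, mul_one] at a9
    have b1 : g * (g⁻¹ * (s * s') * g) * g⁻¹ = s * s' := by group
    rcases b1 ▸ H.fa hg a9 (by rw [b1]; exact mul_mem (H.rT hs) (H.rT a1)) hs (by
      rw [b1, mul_assoc s s' s, ← a3, mul_assoc, mul_inv_cancel, mul_one]; exact hs) with b2 | b2
    · exact H.nr hs ((Subgroup.mul_mem_cancel_right _ a2).1 b2)
    · have := H.uq hs b2 (by rwa [← mul_assoc, H.sq hs, one_mul])
      exact H.nr a1 (by rw [left_eq_mul.1 this]; exact one_mem _)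
  obtain ⟨a, ha⟩ := H.ne j
  obtain ⟨b, hb, h5, h6⟩ := H.f1 ha
  have h7 := H.cm hb (H.rc ((hσ j).1 a ha) hj)
  refine H.nr hr ((Subgroup.mul_mem_cancel_left _ (mul_mem (k a ha).2 (k b hb).2)).1 ?_)
  convert (k _ (H.f2 ha hb h5 h6)).2 using 1
  rw [mul_assoc _ r, ← mul_assoc r, (k b hb).1, mul_assoc _ r r, H.sq hr, mul_one]
  calc _ = g⁻¹ * (a * (ρ * a * ρ⁻¹ * b) * (ρ * b * ρ⁻¹)) * g * r := by group
    _ = _ := by rw [← h7]; group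

theorem mem_R (hg : g ∈ G) (hr : r ∈ R i) (hT : g * r * g⁻¹ ∈ T) : ∃ j, g * r * g⁻¹ ∈ R j := by
  obtain ⟨σ, -, hσ⟩ := H.pm _ (H.fusT hg hr hT)
  exact ⟨_, (hσ i).1 r hr⟩

theorem not_two (hr : r ∈ R i) (hs : s ∈ R j) (hij : i ≠ j) : r * s ∉ R k := fun h => by
  by_cases e : k = i
  · subst e
    have := H.uq hr h (by rw [← mul_assoc, H.sq hr, one_mul]; exact H.rc hs hij.symm)
    exact H.nr hs (by rw [left_eq_mul.1 this]; exact one_mem _)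
  · exact H.nr hr ((Subgroup.mul_mem_cancel_right _ (H.rc hs hij.symm)).1 (H.rc h e))

theorem not_two' (hr : r ∈ R i) (hs : s ∈ R j) (hij : i ≠ j) (hg : g ∈ G) (hx : x ∈ R k) : r * s ≠ g * x * g⁻¹ :=
  fun e => by
    obtain ⟨l, h⟩ := H.mem_R hg hx (e ▸ mul_mem (H.rT hr) (H.rT hs))
    exact H.not_two hr hs hij (e ▸ h)

theorem uq2 (hr : r ∈ R i) (hs : s ∈ R j) (hij : i ≠ j) {a b : Γ} {m n : I} (ha : a ∈ R m) (hb : b ∈ R n)
    (e : r * s = a * b) : a = r ∨ a = s := by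
  have h1 := H.cm hr (H.rc hs hij.symm)
  have hmn : n ≠ m := by
    rintro rfl
    refine H.not_two hr hs hij (e ▸ H.f2 ha hb (fun e' => ?_) ?_)
    · rw [← e', H.sq ha] at e
      exact H.nr hr (eq_inv_of_mul_eq_one_left e ▸ inv_mem (H.rc hs hij.symm))
    · calc _ = (r * s)⁻¹ := by rw [mul_inv_rev, H.inv hr, H.inv hs, ← h1, e]
        _ = _ := by rw [e, mul_inv_rev, H.inv ha, H.inv hb]
  have k : ∀ {i j r s}, r ∈ R i → s ∈ R j → i ≠ j → r * s = a * b → m = i → a = r := by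
    rintro i j r s hr hs hij e rfl
    refine (H.uq hr ha ?_).symm
    rw [show r * a = s * b⁻¹ by rw [eq_mul_inv_iff_mul_eq, mul_assoc, ← e, ← mul_assoc, H.sq hr, one_mul]]
    exact mul_mem (H.rc hs hij.symm) (inv_mem (H.rc hb hmn))
  by_cases h2 : m = i
  · exact Or.inl (k hr hs hij e h2)
  by_cases h3 : m = j
  · exact Or.inr (k hs hr hij.symm (h1 ▸ e) h3)
  exact (H.nr ha ((Subgroup.mul_mem_cancel_right _ (H.rc hb hmn)).1
    (e ▸ mul_mem (H.rc hr (Ne.symm h2)) (H.rc hs (Ne.symm h3))))).elim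

theorem zd (hg : g ∈ G) (hr : r ∈ R i) (hs : s ∈ R j) (hij : i ≠ j) {a b : Γ} {k l : I} (ha : a ∈ R k) (hb : b ∈ R l)
    (hkl : k ≠ l) (e : r * s = g * (a * b) * g⁻¹) : g ∈ T := by
  by_contra hn
  obtain ⟨c, hc, h1, h2⟩ := H.f1 ha
  have h3 := H.f2 ha hc h1 h2
  have h4 := H.cm hr (H.rc hs hij.symm)
  have h5 := H.cm hc (H.rc hb hkl.symm)
  have h6 := H.cm ha (H.rc hb hkl.symm)
  have hP := mul_mem (mul_mem hg (H.rG hc)) (inv_mem hg)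
  have e1 : r * s * (g * c * g⁻¹) = g * (a * c * b) * g⁻¹ := by rw [e, mul_assoc a, h5]; group
  have k1 : ∀ d ∈ G ⊓ Subgroup.centralizer {r * s}, r * s * (d * r * d⁻¹) = d * s * d⁻¹ := fun d hd => by
    rw [← mul_assoc, ← mul_assoc, hd.2 _ rfl, h4, mul_assoc d, mul_assoc s, H.sq hr, mul_one]
  have k2 : ∀ {m}, ∀ u ∈ G, ∀ v ∈ R m, r * s * (g * c * g⁻¹) ≠ u * v * u⁻¹ := fun u hu v hv e2 =>
    H.not_two' h3 hb hkl (mul_mem (inv_mem hg) hu) hv (by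
      rw [e1] at e2
      calc _ = g⁻¹ * (g * (a * c * b) * g⁻¹) * g := by group
        _ = _ := by rw [e2]; group)
  rcases dihedral (H := G ⊓ Subgroup.centralizer {r * s}) (z := r) (z' := g * c * g⁻¹)
    ⟨H.rG hr, by rintro _ rfl; rw [mul_assoc, ← h4]⟩ ⟨hP, by
      rintro _ rfl; rw [e1, e, h2, mul_assoc c]; group⟩ (H.sq hr) (by simp [mul_assoc, ← mul_assoc c, H.sq hc]) with
    ⟨d, hd, e2⟩ | ⟨x, hx, x1, x2, x3, ⟨⟨d, hd, e2⟩, d', hd', e3⟩ | ⟨-, d, hd, e2⟩⟩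
  · exact k2 d hd.1 s hs (e2 ▸ k1 d hd)
  · have xT := H.cen hx.1 hr x2
    have b1 : d * r * d⁻¹ ∈ T := e2 ▸ mul_mem (H.rT hr) xT
    obtain ⟨m, b2⟩ := H.mem_R hd.1 hr b1
    obtain ⟨n, b3⟩ := H.mem_R hd.1 hs (k1 d hd ▸ mul_mem (mul_mem (H.rT hr) (H.rT hs)) b1)
    rcases H.uq2 hr hs hij b2 b3 (by
      calc _ = d * (r * s) * d⁻¹ := by rw [← hd.2 _ rfl]; group
        _ = _ := by group) with b4 | b4
    · exact x1 (mul_eq_left.1 (e2.trans b4))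
    · obtain rfl : x = r * s := by rw [← b4, ← e2, ← mul_assoc, H.sq hr, one_mul]
      exact k2 _ (mul_mem hd'.1 hg) c hc (by rw [← x3, e3]; group)
  · have xT := H.cen hx.1 hr x2
    have b0 : c * (g⁻¹ * x * g) = g⁻¹ * x * g * c := by
      calc _ = g⁻¹ * (g * c * g⁻¹ * x) * g := by group
        _ = _ := by rw [x3]; group
    have xT' := H.cen (mul_mem (mul_mem (inv_mem hg) hx.1) hg) hc b0
    have b1 : c * (g⁻¹ * x * g) = g⁻¹ * d * r * (g⁻¹ * d)⁻¹ := by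
      calc _ = g⁻¹ * (g * c * g⁻¹ * x) * g := by group
        _ = _ := by rw [e2]; group
    have b5 : a * b = g⁻¹ * d * r * (g⁻¹ * d)⁻¹ * (g⁻¹ * d * s * (g⁻¹ * d)⁻¹) := by
      calc _ = g⁻¹ * (g * (a * b) * g⁻¹ * d) * d⁻¹ * g := by group
        _ = _ := by rw [← e, hd.2 _ rfl]; group
    have b6 : g⁻¹ * d * r * (g⁻¹ * d)⁻¹ ∈ T := b1 ▸ mul_mem (H.rT hc) xT'
    obtain ⟨m, b2⟩ := H.mem_R (mul_mem (inv_mem hg) hd.1) hr b6
    obtain ⟨n, b3⟩ := H.mem_R (mul_mem (inv_mem hg) hd.1) hs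
      ((Subgroup.mul_mem_cancel_left _ b6).1 (b5 ▸ mul_mem (H.rT ha) (H.rT hb)))
    have b7 : x = g * (c * (c * (g⁻¹ * x * g))) * g⁻¹ := by rw [← mul_assoc c, H.sq hc]; group
    rcases H.uq2 ha hb hkl b2 b3 b5 with b4 | b4 <;> rw [b1, b4] at b7
    · exact hn (H.fusT hg h3 (by rwa [h2, ← b7]))
    · refine hn (H.fusT hg h3 ?_)
      convert mul_mem xT (mul_mem (H.rT hr) (H.rT hs)) using 1
      rw [e, h6, b7, h2]
      simp only [mul_assoc, inv_mul_cancel_left, ← mul_assoc b b, H.sq hb, one_mul]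

theorem odd (hg : g ∈ G) (hn : g ∉ T) (hr : r ∈ R i) (hs : s ∈ R k) {K : Subgroup Γ} (hK : K ≤ G) (h1 : r ∈ K)
    (h2 : g * s * g⁻¹ ∈ K) : ∃ d ∈ K, d * r * d⁻¹ = g * s * g⁻¹ := by
  refine (dihedral h1 h2 (H.sq hr) (by simp [mul_assoc, ← mul_assoc s, H.sq hs])).resolve_right ?_
  rintro ⟨x, hx, x1, x2, x3, x4⟩
  have xT := H.cen (hK hx) hr x2
  have b0 : s * (g⁻¹ * x * g) = g⁻¹ * x * g * s := by
    calc _ = g⁻¹ * (g * s * g⁻¹ * x) * g := by group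
      _ = _ := by rw [x3]; group
  have xT' := H.cen (mul_mem (mul_mem (inv_mem hg) (hK hx)) hg) hs b0
  have b1 := mul_mem (H.rT hr) xT
  have b2 := mul_mem (H.rT hs) xT'
  obtain ⟨⟨m, b3⟩, n, b4⟩ : (∃ m, r * x ∈ R m) ∧ ∃ n, s * (g⁻¹ * x * g) ∈ R n := by
    have b5 : s * (g⁻¹ * x * g) = g⁻¹ * (g * s * g⁻¹ * x) * g := by group
    rcases x4 with ⟨⟨d, hd, e⟩, d', hd', e'⟩ | ⟨⟨d, hd, e⟩, d', hd', e'⟩
    · have e2 : s * (g⁻¹ * x * g) = g⁻¹ * d' * g * s * (g⁻¹ * d' * g)⁻¹ := by rw [b5, e']; group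
      exact ⟨e ▸ H.mem_R (hK hd) hr (e ▸ b1), e2 ▸ H.mem_R (mul_mem (mul_mem (inv_mem hg) (hK hd')) hg) hs (e2 ▸ b2)⟩
    · have e1 : r * x = d * g * s * (d * g)⁻¹ := by rw [e]; group
      have e2 : s * (g⁻¹ * x * g) = g⁻¹ * d' * r * (g⁻¹ * d')⁻¹ := by rw [b5, e']; group
      exact ⟨e1 ▸ H.mem_R (mul_mem (hK hd) hg) hs (e1 ▸ b1), e2 ▸ H.mem_R (mul_mem (inv_mem hg) (hK hd')) hr (e2 ▸ b2)⟩
  have b5 : r * (r * x) = x := by rw [← mul_assoc, H.sq hr, one_mul]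
  have b6 : s * (s * (g⁻¹ * x * g)) = g⁻¹ * x * g := by rw [← mul_assoc s, H.sq hs, one_mul]
  by_cases c1 : i = m
  · subst c1
    exact hn (inv_mem_iff.1 (H.fusT (inv_mem hg) (b5 ▸ H.f2 hr b3 (by simpa [eq_comm]) (by rw [mul_assoc, ← x2]))
      (by simpa)))
  by_cases c2 : k = n
  · subst c2
    exact hn (H.fusT hg (b6 ▸ H.f2 hs b4 (by simpa [eq_comm, mul_assoc, inv_mul_eq_one]) (by rw [mul_assoc s, ← b0]))
      (by simpa [mul_assoc]))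
  exact hn (H.zd hg hr b3 c1 hs b4 c2 (by rw [b5, b6]; group))

theorem why (hg : g ∈ G) (hn : g ∉ T) (hr : r ∈ R i) {c : Γ} (hc : c ∈ C i) (hs : s ∈ R k) :
    r * c * (g * s * g⁻¹) ≠ g * s * g⁻¹ * (r * c) := fun e => by
  have key : ∀ s ∈ R k, r * c * (g * s * g⁻¹) = g * s * g⁻¹ * (r * c) → s * (g⁻¹ * (r * c) * g) ∈ C k := by
    intro s hs e
    obtain ⟨d, hd, e1⟩ := H.odd hg hn hr hs (K := G ⊓ Subgroup.centralizer {r * c}) inf_le_left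
      ⟨H.rG hr, by rintro _ rfl; rw [mul_assoc, ← H.cm hr hc]⟩
      ⟨G.mul_mem (G.mul_mem hg (H.rG hs)) (G.inv_mem hg), by rintro _ rfl; exact e⟩
    have e2 : g⁻¹ * d * r * (g⁻¹ * d)⁻¹ = s := by
      calc _ = g⁻¹ * (d * r * d⁻¹) * g := by group
        _ = _ := by rw [e1]; group
    obtain ⟨σ, -, hσ⟩ := H.pm _ (H.fu (mul_mem (inv_mem hg) hd.1) hr (e2 ▸ hs))
    obtain rfl := H.idx (e2 ▸ (hσ i).1 r hr) hs
    convert (hσ i).2 c hc using 1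
    calc _ = s * g⁻¹ * (r * c * d) * d⁻¹ * g := by group
      _ = s * (g⁻¹ * d * r * (g⁻¹ * d)⁻¹) * (g⁻¹ * d * c * (g⁻¹ * d)⁻¹) := by rw [hd.2 _ rfl]; group
      _ = _ := by rw [e2, H.sq hs, one_mul]
  obtain ⟨s', hs', h1, h2⟩ := H.f1 hs
  have h3 := key s hs e
  refine h1 (H.uq hs hs' ?_)
  convert (C _).mul_mem h3 ((C _).inv_mem (key s' hs' ?_)) using 1
  · rw [mul_inv_rev, H.inv hs']; group
  have h4 := H.cm hs' h3
  generalize r * c = y at *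
  calc _ = g * s⁻¹ * (s * (g⁻¹ * y * g) * s') * g⁻¹ := by group
    _ = _ := by rw [← h4, ← mul_assoc s', ← h2]; group

theorem le_T [Nontrivial I] : G ≤ T := fun g hg => by
  by_contra hn
  obtain ⟨i, j, hij⟩ := exists_pair_ne I
  obtain ⟨r, hr⟩ := H.ne i
  obtain ⟨s, hs⟩ := H.ne j
  have h0 := H.rc hs hij.symm
  have h1 := H.cm hr h0
  have hz := mul_mem (H.rG hr) (H.rG hs)
  rcases dihedral (z := g * r * g⁻¹) (mul_mem (mul_mem hg (H.rG hr)) (inv_mem hg)) hz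
    (by simp [mul_assoc, ← mul_assoc r, H.sq hr]) (by
      nth_rw 1 [h1]; rw [mul_assoc, ← mul_assoc r, H.sq hr, one_mul, H.sq hs]) with
    ⟨d, hd, e⟩ | ⟨x, hx, x1, x2, x3, ⟨⟨d, hd, e⟩, -⟩ | ⟨-, d, hd, e⟩⟩
  · exact H.not_two' hr hs hij (mul_mem hd hg) hr (by rw [← e]; group)
  swap
  · have e' : r * s * x = d * g * r * (d * g)⁻¹ := by rw [e]; group
    obtain ⟨σ, -, hσ⟩ := H.pm (d * g) (by_contra fun h => H.why (mul_mem hd hg) h hr h0 hr (by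
      rw [← e', mul_assoc (r * s), ← x3]))
    have h2 := e' ▸ (hσ i).1 r hr
    have h3 : r * (s * (s * r * x)) = r * (r * x) := by rw [mul_assoc s, ← mul_assoc s, H.sq hs, one_mul]
    by_cases h4 : σ i = i
    · refine H.why hg hn hs (mul_mem (H.rc hr hij) (H.rc h2 (h4.trans_ne hij))) hr ?_
      rw [mul_assoc r, ← mul_assoc r, H.sq hr, one_mul, ← mul_assoc s, H.sq hs, one_mul, x2]
    · refine H.why hg hn hr (mul_mem h0 (H.rc h2 h4)) hr ?_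
      rw [h1, h3, ← mul_assoc r, H.sq hr, one_mul, x2]
  have b0 : r * (g⁻¹ * x * g) = g⁻¹ * x * g * r := by
    calc _ = g⁻¹ * (g * r * g⁻¹ * x) * g := by group
      _ = _ := by rw [x2]; group
  have hx' := mul_mem (mul_mem (inv_mem hg) hx) hg
  have e2 : r * (g⁻¹ * x * g) = g⁻¹ * d * g * r * (g⁻¹ * d * g)⁻¹ := by
    calc _ = g⁻¹ * (g * r * g⁻¹ * x) * g := by group
      _ = _ := by rw [e]; group
  obtain ⟨n, b4⟩ := e2 ▸ H.mem_R (mul_mem (mul_mem (inv_mem hg) hd) hg) hr (e2 ▸ mul_mem (H.rT hr) (H.cen hx' hr b0))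
  have b6 : r * (r * (g⁻¹ * x * g)) = g⁻¹ * x * g := by rw [← mul_assoc r, H.sq hr, one_mul]
  have xT := H.zd hx hr hs hij hr hs hij (by rw [← x3]; group)
  have hin : i ≠ n := by
    rintro rfl
    exact hn (H.fusT hg (b6 ▸ H.f2 hr b4 (by simpa [eq_comm, mul_assoc, inv_mul_eq_one]) (by rw [mul_assoc r, ← b0]))
      (by simpa [mul_assoc]))
  have xx : x * x = 1 := by
    have := H.sq b4
    rw [mul_assoc, ← mul_assoc _ r, ← b0, mul_assoc r, ← mul_assoc r, H.sq hr] at this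
    simpa [← mul_assoc, eq_comm (a := g)] using (by simpa [mul_assoc, inv_mul_eq_one] using this : g = x * (x * g))
  generalize r * (g⁻¹ * x * g) = r' at b4 b6
  obtain ⟨σ, -, hσ⟩ := H.pm x xT
  rcases H.uq2 hr hs hij ((hσ i).1 r hr) ((hσ j).1 s hs) (by
    calc _ = x * (r * s) * x⁻¹ := by rw [← x3]; group
      _ = _ := by group) with c1 | c1
  · refine H.why (inv_mem hg) (by simpa) hr (H.rc b4 hin.symm) hr ?_
    rw [b6]
    calc _ = g⁻¹ * (x * r * x⁻¹) * x * g := by group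
      _ = _ := by rw [c1]; group
  have c2 : σ i ≠ i := (H.idx (c1 ▸ (hσ i).1 r hr) hs).trans_ne hij.symm
  have k : ∀ a ∈ R i, g⁻¹ * (a * (x * a * x⁻¹)) * g * r * (g⁻¹ * (a * (x * a * x⁻¹)) * g)⁻¹ = r' ∧
      g⁻¹ * (a * (x * a * x⁻¹)) * g * r' * (g⁻¹ * (a * (x * a * x⁻¹)) * g)⁻¹ = r := fun a ha => by
    have a1 := (hσ i).1 a ha
    have a2 := H.rc a1 c2
    have a3 : a * (x * a * x⁻¹) * x = x * (a * (x * a * x⁻¹)) := by
      nth_rw 2 [H.cm ha a2]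
      rw [inv_eq_of_mul_eq_one_left xx]
      simp only [mul_assoc, ← mul_assoc x x, xx, one_mul, mul_one]
    have a4 := H.why hg hn ha a2 hr
    have a5 := mul_mem (mul_mem (inv_mem hg) (mul_mem (H.rG ha) (H.rG a1))) hg
    generalize a * (x * a * x⁻¹) = z at *
    have a6 : r * r' = g⁻¹ * z * g * (r * r') * (g⁻¹ * z * g)⁻¹ := by
      rw [b6]
      calc _ = g⁻¹ * (z * x) * z⁻¹ * g := by rw [a3]; group
        _ = _ := by group
    obtain ⟨π, -, hπ⟩ := H.pm _ (H.zd a5 hr b4 hin hr b4 hin a6)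
    have a7 : r * r' = g⁻¹ * z * g * r * (g⁻¹ * z * g)⁻¹ * (g⁻¹ * z * g * r' * (g⁻¹ * z * g)⁻¹) := by
      nth_rw 1 [a6]; group
    have a8 := (H.uq2 hr b4 hin ((hπ i).1 r hr) ((hπ n).1 r' b4) a7).resolve_left fun e => a4 (by
      calc _ = g * (g⁻¹ * z * g * r * (g⁻¹ * z * g)⁻¹) * g⁻¹ * z := by group
        _ = _ := by rw [e])
    refine ⟨a8, mul_left_cancel (a := r') ?_⟩
    rw [← H.cm hr (H.rc b4 hin.symm), a7, a8]
  obtain ⟨b, hb, h5, h6⟩ := H.f1 hr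
  have h7 := H.cm hb (H.rc ((hσ i).1 r hr) c2)
  have h8 := (k _ (H.f2 hr hb h5 h6)).1
  rw [show g⁻¹ * (r * b * (x * (r * b) * x⁻¹)) * g = g⁻¹ * (r * (x * r * x⁻¹)) * g * (g⁻¹ * (b * (x * b * x⁻¹)) * g) by
    calc _ = g⁻¹ * (r * (b * (x * r * x⁻¹)) * (x * b * x⁻¹)) * g := by group
      _ = _ := by rw [h7]; group] at h8
  have h9 := (k r hr).2
  rw [← (k b hb).1] at h9
  exact hin (H.idx hr ((h9.symm.trans ((by group : _ = _).trans h8)) ▸ b4))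

end AB

end Cfsg.Agent.H1.O7g
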