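import Cfsg.Agent.H1.O7f

/-!
Tensor powers of orthogonal spaces: auxiliary results.
-/

set_option autoImplicit false
set_option linter.unusedSectionVars false
set_option linter.unusedSimpArgs false

namespace Cfsg.Agent.H1.O7h

open Module Cfsg.Agent.H7 Cfsg.Agent.Form Cfsg.Agent.H3.TenLin Cfsg.Agent.H3.TenSL Cfsg.Agent.H3.TenSU
  Cfsg.Agent.H3.RootGeo Cfsg.Agent.H3.OrthLem Cfsg.Agent.H3.TenO1 Cfsg.Agent.H3.TenSpSp
  Cfsg.Agent.H3.TenForm Cfsg.Agent.H3.TenPar Cfsg.Agent.H3.TenGlue Cfsg.Agent.H3.TenO2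
  Cfsg.Agent.H9.FClass Cfsg.Agent.H1.C7j Cfsg.Agent.H1.C7k Cfsg.Agent.H1.C7n Cfsg.Agent.H1.O7a Cfsg.Agent.H1.O7b
  Cfsg.Agent.H1.O7c Cfsg.Agent.H1.O7d Cfsg.Agent.H1.O7e Cfsg.Agent.H1.C7l Cfsg.Agent.H1.C7e

variable {F : Type*} [Field F] {V : Type*} [AddCommGroup V] [Module F V]
  {U : Type*} [AddCommGroup U] [Module F U] {W : Type*} [AddCommGroup W] [Module F W]
  [FiniteDimensional F U] [FiniteDimensional F W] [FiniteDimensional F V]
  {S₁ : PQ (FP.orth F) U} {S₂ : PQ (FP.orth F) W} {S : PQ (FP.orth F) V}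
  {τ τ' : U →ₗ[F] W →ₗ[F] V} {M : Subgroup (V ≃ₗ[F] V)}

theorem orb_sum {A T N : Type*} [AddGroup A] [Fintype A] [AddCommMonoid N] (act : A → T → T)
    (h0 : ∀ x, act 0 x = x) (h1 : ∀ a b x, act (a + b) x = act a (act b x)) (f : T → N) (P : AddSubmonoid N)
    (X : Finset T) (hX : ∀ a, ∀ x ∈ X, act a x ∈ X) (fr : ∀ a, ∀ x ∈ X, act a x = x → a = 0)
    (hs : ∀ x ∈ X, ∑ a, f (act a x) ∈ P) : ∑ x ∈ X, f x ∈ P := by
  classical
  induction X using Finset.strongInduction with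
  | H X ih =>
  rcases X.eq_empty_or_nonempty with rfl | ⟨x, hx⟩
  · simp
  have h2 : Finset.univ.image (act · x) ⊆ X := fun y hy => by
    obtain ⟨a, -, rfl⟩ := Finset.mem_image.1 hy
    exact hX a x hx
  rw [← Finset.sum_sdiff h2, Finset.sum_image fun a _ b _ e => neg_add_eq_zero.1 (fr _ x hx (by
    rw [h1, e, ← h1, neg_add_cancel, h0])) ▸ rfl]
  refine add_mem (ih _ (Finset.sdiff_ssubset h2 ⟨x, Finset.mem_image.2 ⟨0, by simp, h0 x⟩⟩) (fun a y hy => ?_)
    (fun a y hy => fr a y (Finset.mem_sdiff.1 hy).1) fun y hy => hs y (Finset.mem_sdiff.1 hy).1) (hs x hx)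
  rw [Finset.mem_sdiff] at hy ⊢
  refine ⟨hX a y hy.1, fun e => hy.2 ?_⟩
  obtain ⟨b, -, e⟩ := Finset.mem_image.1 e
  exact Finset.mem_image.2 ⟨-a + b, by simp, by rw [h1, e, ← h1, neg_add_cancel, h0]⟩

theorem cj_mul (g : V ≃ₗ[F] V) (X Y : End F V) : cj g (X * Y) = cj g X * cj g Y := by ext; simp

theorem cj_eq_iff {g : V ≃ₗ[F] V} {X Y : End F V} : cj g X = Y ↔ (g : End F V) * X = Y * g :=
  ⟨fun e => by ext; simp [← e], fun e => by
    ext v; simpa using LinearMap.congr_fun e (g.symm v)⟩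

/-- the fixer of an endomorphism -/
def fx (X : End F V) : Subgroup (V ≃ₗ[F] V) where
  carrier := {g | cj g X = X}
  one_mem' := rfl
  mul_mem' := fun {a b} ha hb => by rw [Set.mem_ofPred_eq, ← cj_cj, hb, ha]
  inv_mem' := fun {a} ha => by
    rw [Set.mem_ofPred_eq] at ha ⊢
    nth_rw 1 [← ha]; rw [cj_cj, inv_mul_cancel, cj_one]

theorem hh [Fintype F] (h5 : 5 ≤ Fintype.card F) (h2 : (2 : F) ≠ 0) {K : Subgroup (V ≃ₗ[F] V)} {ν : End F V}
    (h3 : ν * ν * ν = 0) {E : F → V ≃ₗ[F] V} (hE : ∀ a, (E a : End F V) = 1 + a • ν + (a * a / 2) • (ν * ν))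
    (hK : ∀ a, ∀ x ∈ K, E a * x * (E a)⁻¹ ∈ K) (hp : (Nat.card (K ⊓ fx ν : Subgroup _) : F) ≠ 0) :
    K ≤ fx (ν * ν) := by
  classical
  have := finite_GL (F := F) (V := V)
  have := Fintype.ofFinite (V ≃ₗ[F] V)
  have h4 : ∀ X, ν * (ν * (ν * X)) = 0 := fun X => by simp only [← mul_assoc, h3, zero_mul]
  have h4' : ν * (ν * ν) = 0 := by rw [← mul_assoc, h3]
  have e1 : ∀ a b, E (a + b) = E a * E b := fun a b => LinearEquiv.toLinearMap_injective (by
    change _ = (E a : End F V) * E b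
    simp only [hE, mul_add, add_mul, smul_mul_assoc, mul_smul_comm, mul_assoc, h4, h4', one_mul, mul_one, mul_zero]
    match_scalars <;> field_simp <;> ring)
  have e0 : E 0 = 1 := LinearEquiv.toLinearMap_injective (by rw [hE]; ext; simp)
  have e2 : ∀ a, (E a)⁻¹ = E (-a) := fun a => inv_eq_of_mul_eq_one_right (by rw [← e1, add_neg_cancel, e0])
  have e3 : ∀ a, E a ∈ fx ν := fun a => cj_eq_iff.2 (by simp [hE, mul_add, add_mul, mul_assoc])
  let P := LinearMap.range (LinearMap.mulLeft F (ν * ν) ∘ₗ LinearMap.mulRight F (ν * ν))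
  have k1 := orb_sum (fun a x => E a * x * (E a)⁻¹) (by simp [e0]) (fun a b x => by rw [e1]; group)
    (fun x => cj x ν) P.toAddSubmonoid (Finset.univ.filter fun x => x ∈ K ∧ x ∉ fx ν) (fun a x hx => by
      simp only [Finset.mem_filter, Finset.mem_univ, true_and] at hx ⊢
      exact ⟨hK a x hx.1, by
        rw [Subgroup.mul_mem_cancel_right _ (inv_mem (e3 a)), Subgroup.mul_mem_cancel_left _ (e3 a)]; exact hx.2⟩)
    (fun a x hx e => by_contra fun ha => (Finset.mem_filter.1 hx).2.2 (by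
      have b1 : cj x (E a : End F V) = E a := cj_eq_iff.2 (congrArg LinearEquiv.toLinearMap
        (mul_inv_eq_iff_eq_mul.1 e).symm)
      have b2 : ν = a⁻¹ • (((E a : End F V) - 1) - (2 : F)⁻¹ • (((E a : End F V) - 1) * ((E a : End F V) - 1))) := by
        rw [hE, add_assoc, add_sub_cancel_left]
        simp only [mul_add, add_mul, smul_mul_assoc, mul_smul_comm, mul_assoc, h4, h4', mul_zero]
        match_scalars <;> field_simp <;> ring
      have b3 : cj x ((E a : End F V) - 1) = E a - 1 := by nth_rw 2 [← b1]; ext; simp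
      change cj x ν = ν
      generalize (E a : End F V) - 1 = D at b2 b3
      rw [b2, cj_smul, sub_eq_add_neg, ← neg_smul, cj_add, cj_smul, cj_mul, b3]))
    (fun x _ => ⟨(∑ a : F, a ^ 4 / 2 / 2) • cj x ν, by
      have b1 : ∀ a, cj (E a * x * (E a)⁻¹) ν = cj x ν + a ^ 1 • (ν * cj x ν - cj x ν * ν) +
          a ^ 2 • ((2 : F)⁻¹ • (ν * ν * cj x ν + cj x ν * (ν * ν)) - ν * cj x ν * ν) +
          a ^ 3 • (2 : F)⁻¹ • (ν * cj x ν * (ν * ν) - ν * ν * cj x ν * ν) +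
          (a ^ 4 / 2 / 2) • (ν * ν * (cj x ν * (ν * ν))) := fun a => by
        rw [← cj_cj, ← cj_cj, show cj (E a)⁻¹ ν = ν from inv_mem (e3 a), ← cj_eq,
          show ((E a).symm : End F V) = E (-a) from congrArg _ (e2 a), hE, hE]
        simp only [mul_add, add_mul, smul_mul_assoc, mul_smul_comm, mul_assoc, one_mul, mul_one]
        match_scalars <;> field_simp
      simp only [b1, Finset.sum_add_distrib, ← Finset.sum_smul]
      rw [FiniteField.sum_pow_lt_card_sub_one F 1 (by omega), FiniteField.sum_pow_lt_card_sub_one F 2 (by omega),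
        FiniteField.sum_pow_lt_card_sub_one F 3 (by omega), Finset.sum_const, ← Nat.cast_smul_eq_nsmul F]
      simp [mul_assoc]⟩)
  obtain ⟨Y, hY⟩ := k1
  set N := ∑ x ∈ Finset.univ.filter (· ∈ K), cj x ν with hN
  have k2 : N = (Nat.card (K ⊓ fx ν : Subgroup _) : F) • ν + ν * ν * (Y * (ν * ν)) := by
    rw [hN, ← Finset.sum_filter_add_sum_filter_not _ (· ∈ fx ν), Finset.filter_filter, Finset.filter_filter, ← hY,
      Finset.sum_congr rfl (g := fun _ => ν) fun x hx => (Finset.mem_filter.1 hx).2.2, Finset.sum_const,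
      Nat.cast_smul_eq_nsmul, Nat.subtype_card (Finset.univ.filter fun x => x ∈ K ∧ x ∈ fx ν) (by simp)]
    rfl
  intro g hg
  have k3 : cj g N = N := by
    rw [hN, show ∀ X, cj g X = (g.conj : End F V →ₗ[F] _) X from fun _ => rfl, map_sum]
    exact Finset.sum_equiv (Equiv.mulLeft g) (fun x => by simp [K.mul_mem_cancel_left hg]) fun _ _ => rfl
  have k4 := congrArg (fun X => X * X) k3
  generalize (Nat.card (K ⊓ fx ν : Subgroup _) : F) = c at hp k2
  have k5 : N * N = (c * c) • (ν * ν) := by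
    rw [k2]; simp only [mul_add, add_mul, smul_mul_assoc, mul_smul_comm, mul_assoc, h4, h4', mul_zero, smul_smul]
    simp [smul_smul]
  simp only [← cj_mul, k5, cj_smul] at k4
  exact smul_right_injective _ (mul_ne_zero hp hp) k4

theorem snd_om (h : TF S₁ S₂ S τ) (h2 : (2 : F) ≠ 0) : Om S₂ ≤ snd τ (Om S) := by
  have k : ∀ {b}, b ∈ S₂.isom → h.tens.tcongr 1 b ∈ S.isom := fun hb => isom_of_bis h2
    (h.tens_mem_bis (h.tens.tcongr_apply 1 _) (one_mem _) (isom_le_bis hb))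
  rw [Om, Om_toQF, Subgroup.commutator_le]
  refine fun a ha b hb => ⟨_, om_comm (k ha) (k hb), fun u w => ?_⟩
  have e : ∀ (b : W ≃ₗ[F] W) u w, (h.tens.tcongr 1 b).symm (τ u w) = τ u (b.symm w) := fun b u w => by
    rw [LinearEquiv.symm_apply_eq]; simp
  simp [commutatorElement_def, e]

theorem cover [Finite F] (h : TF S₁ S₂ S τ) (h2 : (2 : F) ≠ 0) (hW : 3 ≤ finrank F W) (ho : Odd (finrank F U))
    {g : V ≃ₗ[F] V} (hg : g ∈ S.isom) : ∃ b ∈ S₂.isom, g * h.tens.tcongr 1 b ∈ Om S := by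
  classical
  have hV : 3 ≤ finrank F V := by rw [h.tens.finrank_eq]; have := ho.pos; nlinarith
  have m : ∀ a b : W ≃ₗ[F] W, h.tens.tcongr (1 : U ≃ₗ[F] U) (a * b) = h.tens.tcongr 1 a * h.tens.tcongr 1 b :=
    fun a b => h.eq_of_tens fun u w => by simp
  have m1 : h.tens.tcongr (1 : U ≃ₗ[F] U) (1 : W ≃ₗ[F] W) = 1 := h.eq_of_tens fun u w => by simp
  let C : Subgroup (V ≃ₗ[F] V) :=
    { carrier := {g | g ∈ S.isom ∧ ∃ b ∈ S₂.isom, g * h.tens.tcongr 1 b ∈ Om S}
      mul_mem' := fun {g k} ⟨a1, b, a2, a3⟩ ⟨b1, c, b2, b3⟩ => ⟨mul_mem a1 b1, c * b, mul_mem b2 a2, by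
        convert mul_mem (om_conj a1 b3) a3 using 1; rw [m]; group⟩
      one_mem' := ⟨one_mem _, 1, one_mem _, by simp [m1]⟩
      inv_mem' := fun {g} ⟨a1, b, a2, a3⟩ => ⟨inv_mem a1, b⁻¹, inv_mem a2, by
        convert om_conj (inv_mem a1) (inv_mem a3) using 1
        rw [← inv_eq_of_mul_eq_one_right ((m b b⁻¹).symm.trans (by rw [mul_inv_cancel, m1]))]; group⟩ }
  refine (H8.OG_gen_top (nd_toQF h.nd) C (fun x (hx : S.Q x ≠ 0) => ⟨rl_mem x, ?_⟩)
    (fun u v _ _ _ => ⟨sg_mem u v, 1, one_mem _, by rw [m1, mul_one]; exact sg_mem_Om h2 h.nd hV u v⟩) (OG_toQF S ▸ hg)).2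
  let φ : S.isom →* Abelianization S.isom := Abelianization.of
  have hφ : ∀ g : S.isom, φ g = 1 ↔ g.1 ∈ Om S := fun g => by
    rw [← MonoidHom.mem_ker, Abelianization.ker_of, Om, Om_toQF, ← Subgroup.map_subtype_commutator]
    exact (Subgroup.mem_map_iff_mem (f := S.isom.subtype) Subtype.val_injective).symm
  let ρ : V → Abelianization S.isom := fun x => φ ⟨_, rl_mem x⟩
  have r1 : ∀ x, ρ x ^ 2 = 1 := fun x => by rw [sq, ← map_mul, ← map_one φ]; exact congrArg φ (Subtype.ext (rl_sq x))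
  have r2 : ∀ x y, S.Q x ≠ 0 → S.Q y ≠ 0 → IsSquare (S.Q x * S.Q y) → ρ x = ρ y := fun x y a1 a2 ⟨s, a3⟩ => by
    have := (hφ (⟨_, rl_mem x⟩ * ⟨_, rl_mem y⟩)).2 (rl_mul_mem h.nd (c := s / S.Q x)
      (div_ne_zero (by rintro rfl; simp [a1, a2] at a3) a1) a1 (by field_simp; linear_combination a3))
    rw [map_mul] at this
    exact mul_right_cancel (this.trans ((r1 y).symm.trans (sq _)))
  obtain ⟨v, -, v1, v2, v3⟩ := exists_orthogonal_family S₁ (fun x => S₁.Q x ≠ 0) (fun x => B_self_ne h2)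
    (fun A => exists_Q_ne_zero) _ ⊤ (S₁.nondegOn_top.2 h.nd₁) (finrank_top F U)
  have hQ : ∀ u y, S.Q (τ u y) = 2 * S₁.Q u * S₂.Q y := fun u y => mul_left_cancel₀ h2 (by
    rw [← S.orth_B_self, h.form, S₁.orth_B_self, S₂.orth_B_self]; ring)
  obtain ⟨ε, hε⟩ := FiniteField.exists_nonsquare (F := F) fun e => h2 (by exact_mod_cast e ▸ ringChar.Nat.cast_ringChar)
  have ε0 : ε ≠ 0 := by rintro rfl; exact hε IsSquare.zero
  obtain ⟨x', -, hx'⟩ := exists_value (S.nondegOn_top.2 h.nd) (by rw [finrank_top]; omega) (ε * S.Q x)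
  have k : ∀ y, S₂.Q y ≠ 0 → ∀ p : Fin (finrank F U) → Prop, (∀ i, p i → IsSquare (S.Q (τ (v i) y) * S.Q x)) →
      (∀ i, ¬ p i → IsSquare (S.Q (τ (v i) y) * S.Q x')) → Odd (Finset.univ.filter p).card →
      ∃ b ∈ S₂.isom, rl S x * h.tens.tcongr 1 b ∈ Om S := fun y hy p p1 p2 p3 => by
    have nz : ∀ i, S.Q (τ (v i) y) ≠ 0 := fun i => by simp [hQ, h2, hy, v1 i]
    have : ∀ s : Finset (Fin (finrank F U)), ∃ g : S.isom, φ g = ∏ i ∈ s, ρ (τ (v i) y) ∧
        ∀ i w, g.1 (τ (v i) w) = τ (v i) (if i ∈ s then rl S₂ y w else w) := fun s => by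
      induction s using Finset.induction_on with
      | empty => exact ⟨1, by simp⟩
      | insert j s hj ih =>
        obtain ⟨g, a1, a2⟩ := ih
        refine ⟨⟨_, rl_mem (τ (v j) y)⟩ * g, by rw [map_mul, a1, Finset.prod_insert hj], fun i w => ?_⟩
        by_cases e : i = j
        · subst e
          simp [a2, hj, rl_apply, h.form, hQ, S₁.orth_B_self]
          congr 1; field_simp [v1 i]
        · simp [a2, e, rl_apply (τ _ _), h.form, v2 i j e]
    obtain ⟨g, a1, a2⟩ := this Finset.univ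
    have a3 : h.tens.tcongr 1 (rl S₂ y) = g.1 := h.eq_of_tens fun u w => by
      rw [v3 u trivial]; simp [a2]
    refine ⟨_, rl_mem y, a3 ▸ (hφ (⟨_, rl_mem x⟩ * g)).1 ?_⟩
    have a4 := Finset.card_filter_add_card_filter_not (s := Finset.univ) p
    rw [Finset.card_fin] at a4
    obtain ⟨a, a5⟩ := p3
    obtain ⟨b, a6⟩ : Even (Finset.univ.filter fun i => ¬ p i).card := by
      obtain ⟨n, hn⟩ := ho
      exact ⟨n - a, by omega⟩
    rw [map_mul, a1, Finset.prod_congr rfl (g := fun i => if p i then ρ x else ρ x') fun i _ => by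
      split_ifs with e
      exacts [r2 _ _ (nz i) hx (p1 i e), r2 _ _ (nz i) (by simp [hx', hx, ε0]) (p2 i e)], Finset.prod_ite,
      Finset.prod_const, Finset.prod_const, a5, a6, ← two_mul, pow_succ, pow_mul, pow_mul, r1, r1]
    simpa [sq] using r1 x
  obtain ⟨y, -, hy⟩ := exists_value (S₂.nondegOn_top.2 h.nd₂) (by rw [finrank_top]; omega) 1
  obtain ⟨y', -, hy'⟩ := exists_value (S₂.nondegOn_top.2 h.nd₂) (by rw [finrank_top]; omega) ε
  by_cases h3 : Odd (Finset.univ.filter fun i => IsSquare (S.Q (τ (v i) y) * S.Q x)).card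
  · refine k y (by simp [hy]) _ (fun _ => id) (fun i e => ?_) h3
    convert isSquare_mul_of_not e hε using 1
    rw [hx']; ring
  · refine k y' (by simpa [hy']) (fun i => ¬ IsSquare (S.Q (τ (v i) y) * S.Q x)) (fun i e => ?_) (fun i e => ?_) ?_
    · convert isSquare_mul_of_not e hε using 1
      rw [hQ, hQ, hy, hy']; ring
    · rw [show S.Q (τ (v i) y') * S.Q x' = S.Q (τ (v i) y) * S.Q x * (ε * ε) by rw [hQ, hQ, hy, hy', hx']; ring]
      exact (not_not.1 e).mul (IsSquare.mul_self ε)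
    · have a4 := Finset.card_filter_add_card_filter_not (s := Finset.univ)
        fun i => IsSquare (S.Q (τ (v i) y) * S.Q x)
      rw [Finset.card_fin] at a4
      convert (Nat.odd_add'.1 (a4.symm ▸ ho :)).2 (Nat.not_odd_iff_even.1 h3)

end Cfsg.Agent.H1.O7h
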