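import Cfsg.Agent.H1.O7h

/-!
Tensor powers of orthogonal spaces: normalisers of the factors, special elements.
-/

set_option autoImplicit false
set_option linter.unusedSectionVars false
set_option linter.unusedSimpArgs false

namespace Cfsg.Agent.H1.O7i

open Module Cfsg.Agent.H7 Cfsg.Agent.Form Cfsg.Agent.H3.TenLin Cfsg.Agent.H3.TenSL Cfsg.Agent.H3.TenSU
  Cfsg.Agent.H3.RootGeo Cfsg.Agent.H3.OrthLem Cfsg.Agent.H3.TenO1 Cfsg.Agent.H3.TenSpSp
  Cfsg.Agent.H3.TenForm Cfsg.Agent.H3.TenPar Cfsg.Agent.H3.TenGlue Cfsg.Agent.H3.TenO2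
  Cfsg.Agent.H9.FClass Cfsg.Agent.H1.C7j Cfsg.Agent.H1.C7k Cfsg.Agent.H1.C7n Cfsg.Agent.H1.O7a Cfsg.Agent.H1.O7b
  Cfsg.Agent.H1.O7c Cfsg.Agent.H1.O7d Cfsg.Agent.H1.O7e Cfsg.Agent.H1.C7l Cfsg.Agent.H1.C7e Cfsg.Agent.H1.O7h
  Cfsg.Agent.H1.C7g

variable {F : Type*} [Field F] {V : Type*} [AddCommGroup V] [Module F V]
  {U : Type*} [AddCommGroup U] [Module F U] {W : Type*} [AddCommGroup W] [Module F W]
  [FiniteDimensional F U] [FiniteDimensional F W] [FiniteDimensional F V]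
  {S₁ : PQ (FP.orth F) U} {S₂ : PQ (FP.orth F) W} {S : PQ (FP.orth F) V}
  {τ τ' : U →ₗ[F] W →ₗ[F] V} {M : Subgroup (V ≃ₗ[F] V)} {κ κ' κ'' : End F W →ₐ[F] End F V} {g k : V ≃ₗ[F] V}
  {I : Type*} {ι : I → End F W →ₐ[F] End F V}

/-- `g` carries one factor to another -/
def Nm (S₂ : PQ (FP.orth F) W) (κ κ' : End F W →ₐ[F] End F V) (g : V ≃ₗ[F] V) : Prop :=
  ∃ b ∈ S₂.isom, ∀ m, cj g (κ m) = κ' (cj b m)

theorem Nm.of_cm (h : Cm κ (g : End F V)) : Nm S₂ κ κ g := ⟨1, one_mem _, fun m => cj_eq_iff.2 (h m).eq⟩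

theorem Nm.mul (h : Nm S₂ κ' κ'' g) (h' : Nm S₂ κ κ' k) : Nm S₂ κ κ'' (g * k) := by
  obtain ⟨b, hb, e⟩ := h
  obtain ⟨c, hc, e'⟩ := h'
  exact ⟨b * c, mul_mem hb hc, fun m => by rw [← cj_cj, e', e, cj_cj]⟩

theorem Nm.inv (h : Nm S₂ κ κ' g) : Nm S₂ κ' κ g⁻¹ := by
  obtain ⟨b, hb, e⟩ := h
  refine ⟨b⁻¹, inv_mem hb, fun m => ?_⟩
  rw [← cj_one m, ← mul_inv_cancel b, ← cj_cj, ← e, cj_cj, cj_cj, cj_cj, inv_mul_cancel, cj_one,
    inv_mul_cancel, one_mul]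

theorem Nm.cm (h : Nm S₂ κ κ' g) {X : End F V} (hX : Cm κ X) : Cm κ' (cj g X) := fun m => by
  obtain ⟨b, -, e⟩ := h.inv
  have := congrArg (cj g) (hX (cj b m)).eq
  rwa [← e, cj_mul, cj_mul, cj_cj, mul_inv_cancel, cj_one] at this

/-- the wreath product -/
def WG (S₂ : PQ (FP.orth F) W) (ι : I → End F W →ₐ[F] End F V) : Subgroup (V ≃ₗ[F] V) where
  carrier := {g | ∃ σ : Equiv.Perm I, ∀ i, Nm S₂ (ι i) (ι (σ i)) g}
  one_mem' := ⟨1, fun _ => Nm.of_cm (cm_one _)⟩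
  mul_mem' := fun ⟨σ, a⟩ ⟨π, b⟩ => ⟨σ * π, fun i => (a _).mul (b i)⟩
  inv_mem' := fun ⟨σ, a⟩ => ⟨σ⁻¹, fun i => by simpa using (a (σ⁻¹ i)).inv⟩

theorem ι_inj [Nontrivial V] (κ : End F W →ₐ[F] End F V) {m m' : End F W} (e : κ m = κ m') : m = m' :=
  by_contra fun h => one_ne_zero (cancel (cm_one κ) (sub_ne_zero.2 h) (by rw [map_sub, e, sub_self, zero_mul]))

theorem not_cm [Nontrivial V] (h2 : 2 ≤ finrank F W) : ¬ ∀ m, Cm κ (κ m) := fun h => by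
  let c := finBasis F W
  have := ι_inj κ (m := rk1 F W (c.coord ⟨0, by omega⟩) (c ⟨1, by omega⟩) * rk1 F W (c.coord ⟨0, by omega⟩) (c ⟨0, by omega⟩))
    (m' := rk1 F W (c.coord ⟨0, by omega⟩) (c ⟨0, by omega⟩) * rk1 F W (c.coord ⟨0, by omega⟩) (c ⟨1, by omega⟩))
    (by rw [map_mul, map_mul, (h _ _).eq])
  simpa [c.ne_zero] using LinearMap.congr_fun this (c ⟨0, by omega⟩)

theorem mem_WG [Finite I] [Nontrivial V] (h2 : 2 ≤ finrank F W) (hc : ∀ i j, i ≠ j → ∀ a, Cm (ι j) (ι i a))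
    (h : ∀ i, ∃ j, Nm S₂ (ι i) (ι j) g) : g ∈ WG S₂ ι := by
  choose σ hσ using h
  refine ⟨Equiv.ofBijective σ (Finite.injective_iff_bijective.1 fun i j e => by_contra fun hij => ?_), hσ⟩
  obtain ⟨b, -, e1⟩ := hσ i
  refine not_cm (κ := ι (σ i)) h2 fun m => ?_
  have := (hσ j).cm (hc i j hij (cj b⁻¹ m))
  rwa [e1, cj_cj, mul_inv_cancel, cj_one, ← e] at this

theorem nm_of_eqv [Nontrivial U] (h2 : (2 : F) ≠ 0) (ho : Odd (finrank F W)) (h : TF S₁ S₂ S τ) (h' : TF S₁ S₂ S τ')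
    (hg : g ∈ bis S) (e : C7a.Eqv τ' (C7a.act g τ)) : Nm S₂ (rgt h.tens) (rgt h'.tens) g := by
  obtain ⟨a, b, e⟩ := e
  obtain ⟨a', -, b', hb, e'⟩ := norm_tens ho (t := h'.tens.tcongr a b) (fun x y => by
    rw [h'.mem_bis_of (m := 1) fun u w u' w' => by
      rw [IsTens.tcongr_apply, IsTens.tcongr_apply, ← e, ← e, C7a.act_apply, C7a.act_apply, hg, h.form, h'.form,
        one_mul], one_mul]) (tcongr_mem _ _ _) h'
  refine ⟨b', isom_of_bis h2 hb, fun m => cj_eq_iff.2 (h.tens.ext fun u w => ?_)⟩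
  have : ∀ u w, g (τ u w) = τ' (a' u) (b' w) := fun u w => by rw [← e', IsTens.tcongr_apply, ← e]; rfl
  simp [this]

theorem Nm.eqv [Nontrivial W] {h : IsTens τ} {h' : IsTens τ'} (e : Nm S₂ (rgt h) (rgt h') g) :
    C7a.Eqv τ' (C7a.act g τ) := by
  obtain ⟨b, -, e⟩ := e
  refine (show C7a.Eqv τ' (C7a.act (h'.tcongr 1 b) τ') from tcongr_mem ..).trans
    (eqv_of_rk (C7a.tens_act h' _) (C7a.tens_act h _) fun ψ x => (C7a.tens_act h' (h'.tcongr 1 b)).ext fun u w => ?_)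
  obtain ⟨v, hv⟩ := g.surjective (τ' u (b w))
  have := LinearMap.congr_fun (e (rk1 F W ψ x)) (g v)
  rw [C7a.rk_tmul, C7a.act_apply, C7a.act_apply, IsTens.tcongr_apply, IsTens.tcongr_apply, LinearEquiv.coe_one, id, ← hv,
    C7a.rk_act h, rk_eq]
  simpa [hv, ← hv.symm, Nn_apply, (LinearEquiv.symm_apply_eq g).2 hv.symm] using this.symm

theorem of_adj (h2 : (2 : F) ≠ 0) (hS : S.Nondeg) {X : End F V} (h : adj hS X * X = 1) :
    ∃ g ∈ S.isom, (g : End F V) = X :=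
  ⟨LinearEquiv.ofInjectiveEndo X (Function.LeftInverse.injective (g := adj hS X) (LinearMap.congr_fun h)),
    isom_of_bis h2 fun x y => by
      change S.B (X x) (X y) = _
      rw [← B_adj hS, ← End.mul_apply, h]; rfl, rfl⟩

theorem adj_isom (hS : S.Nondeg) (hg : g ∈ S.isom) : adj hS (g : End F V) = g.symm :=
  adj_eq hS fun u a => by rw [← PQ.B_isom hg u]; simp

theorem adj_one' (hS : S.Nondeg) : adj hS (1 : End F V) = 1 := adj_eq hS fun _ _ => rfl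

theorem adj_rk (hS : S.Nondeg) (a b : V) : adj hS (rk S a b) = rk S b a :=
  adj_eq hS fun x y => by simp [S.orth_B_swap b y, mul_comm]

theorem adj_sub (hS : S.Nondeg) (X Y : End F V) : adj hS (X - Y) = adj hS X - adj hS Y :=
  adj_eq hS fun x y => by simp [B_adj]

/-- the negatives of the reflections -/
noncomputable def zl (S : PQ (FP.orth F) W) (u : W) : W ≃ₗ[F] W := LinearEquiv.neg F * rl S u

theorem zl_apply (u x : W) : zl S₂ u x = (S₂.B x u / S₂.Q u) • u - x := by simp [zl, rl_apply]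

theorem zl_eq (u : W) : (zl S₂ u : End F W) = (S₂.Q u)⁻¹ • rk S₂ u u - 1 := by
  ext; simp [zl_apply, div_eq_inv_mul, mul_smul]

theorem zl_sq (u : W) : zl S₂ u * zl S₂ u = 1 := by ext; simp [zl, rl_rl]

theorem zl_self {u : W} (hu : S₂.Q u ≠ 0) : zl S₂ u u = u := by
  simp [zl_apply, S₂.orth_B_self, hu, two_smul]

theorem zl_perp {u x : W} (h : S₂.B x u = 0) : zl S₂ u x = -x := by simp [zl_apply, h]

theorem cj_zl {b : W ≃ₗ[F] W} (hb : b ∈ S₂.isom) (u : W) : cj b (zl S₂ u : End F W) = zl S₂ (b u) := by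
  ext x; simp [zl, ← rl_conj hb]

theorem zl_mul (h2 : (2 : F) ≠ 0) (h3 : finrank F W = 3) {u v x : W} (hu : S₂.Q u ≠ 0)
    (hv : S₂.Q v ≠ 0) (hx : S₂.Q x ≠ 0) (huv : S₂.B v u = 0) (hxu : S₂.B x u = 0) (hxv : S₂.B x v = 0) :
    rl S₂ u * rl S₂ v = zl S₂ x := LinearEquiv.ext fun y => by
  simpa [zl, rl_apply] using H3.TenO7.orth3 h2 h3 hu hv hx huv hxu hxv y

theorem z_om [Finite F] (h2 : (2 : F) ≠ 0) (hS : S₂.Nondeg) (h3 : finrank F W = 3) {u : W} (hu : S₂.Q u ≠ 0) :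
    ∃ x, S₂.Q x ≠ 0 ∧ S₂.B x u = 0 ∧ ∃ g ∈ S₂.isom, g * g = zl S₂ x := by
  have h1 := hS.finrank_perp (F ∙ u)
  rw [H9.FSpin.finrank_line hu] at h1
  obtain ⟨v, hv, e⟩ := exists_value ((H9.FSpin.nondegOn_line h2 hu).perp hS) (by omega) (S₂.Q u)
  rw [S₂.mem_perp_span_singleton] at hv
  obtain ⟨x, a1, a2, a3⟩ := H3.TenO7.exists3 h2 hS h3 hu (e ▸ hu) hv
  refine ⟨x, a1, a2, _, mul_mem (rl_mem (u - v)) (rl_mem v), ?_⟩
  rw [← zl_mul h2 h3 hu (e ▸ hu) a1 hv a2 a3, ← mul_assoc]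
  nth_rw 2 [← inv_eq_of_mul_eq_one_right (rl_sq (u - v))]
  rw [rl_conj (rl_mem _), rl_apply]
  congr 2
  simp [S₂.orth_Q_sub, hv, S₂.B_comm_zero hv, S₂.orth_B_self, e, ← two_mul, h2, hu]

section
variable (hc : ∀ i j, i ≠ j → ∀ a, Cm (ι j) (ι i a)) {hS : S.Nondeg} {hS₂ : S₂.Nondeg}
  (sa : ∀ j m, adj hS (ι j m) = ι j (adj hS₂ m))
include hc sa

theorem diag [Fintype I] [DecidableEq I] (hs : ∀ X, (∀ i, Cm (ι i) X) → ∃ c : F, X = c • 1) {n : Type*} [Fintype n]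
    {v : n → W} (h0 : ∀ k, S₂.B (v k) (v k) ≠ 0) (h1 : ∑ k, (S₂.B (v k) (v k))⁻¹ • rk S₂ (v k) (v k) = 1)
    {X : End F V} (hX : ∀ i k, Commute (ι i (rk S₂ (v k) (v k))) X) : adj hS X = X := by
  suffices ∀ s : Finset I, ∀ X : End F V, (∀ i ∉ s, Cm (ι i) X) →
      (∀ i ∈ s, ∀ k, Commute (ι i (rk S₂ (v k) (v k))) X) → adj hS X = X from
    this Finset.univ X (by simp) fun i _ => hX i
  intro s
  induction s using Finset.induction_on with
  | empty =>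
    intro X h _
    obtain ⟨c, rfl⟩ := hs X (by simpa using h)
    simp [adj_smul, adj_one']
  | insert j s hj ih =>
    intro X a1 a2
    have e : X = ∑ k, ((S₂.B (v k) (v k))⁻¹ * (S₂.B (v k) (v k))⁻¹) •
        (ι j (rk S₂ (v k) (v k)) * bt S₂ (ι j) X (v k) (v k)) := by
      nth_rw 1 [← mul_one X, ← map_one (ι j), ← h1, map_sum, Finset.mul_sum]
      refine Finset.sum_congr rfl fun k _ => ?_
      rw [← rk_bt, (a2 j (by simp) k).eq, mul_assoc, ← map_mul, rk_mul]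
      simp [smul_smul, h0]
    have e1 : ∀ k, adj hS (bt S₂ (ι j) X (v k) (v k)) = bt S₂ (ι j) X (v k) (v k) := fun k => ih _ (fun i hi => by
      by_cases e : i = j
      · exact e ▸ cm_bt _ _ _ _
      · exact fun m => (comm_bt (a1 i (by simp [e, hi]) m).symm (hc i j e m) _ _).symm)
      fun i hi l => comm_bt (a2 i (by simp [hi]) l) (hc i j (by rintro rfl; exact hj hi) _) _ _
    rw [e, show ∀ Y, adj hS Y = adjH hS Y from fun _ => rfl, map_sum]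
    refine Finset.sum_congr rfl fun k _ => ?_
    change adj hS _ = _
    rw [adj_smul, adj_mul, e1, sa, adj_rk, (cm_bt _ _ _ _ _).eq]; rfl

variable [Finite F] [Nontrivial V] (h2 : (2 : F) ≠ 0) (hV : 3 ≤ finrank F V) {j l : I} (hjl : j ≠ l)
include h2 hV hjl

theorem exists_a₁ {w : W} (hw : S₂.Q w = 0) {J : End F W} (hJ : adj hS₂ J = -J) :
    ∃ a ∈ Om S, (a : End F V) = 1 + ι l J * ι j (rk S₂ w w) := by
  have e1 : ι l J * ι j (rk S₂ w w) * (ι l J * ι j (rk S₂ w w)) = 0 := by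
    rw [mul_assoc, ← mul_assoc (ι j _), (hc j l hjl _ _).eq, mul_assoc, ← map_mul (ι j), rk_mul, B_self_zero hw]; simp
  have e2 : adj hS (ι l J * ι j (rk S₂ w w)) = -(ι l J * ι j (rk S₂ w w)) := by
    rw [adj_mul, sa, sa, adj_rk, hJ, map_neg, mul_neg, (hc j l hjl _ _).eq]
  generalize ι l J * ι j (rk S₂ w w) = N at *
  obtain ⟨g, hg, e⟩ := of_adj h2 hS (X := 1 + (2 : F)⁻¹ • N) (by
    simp [adj_add, adj_smul, adj_one', e2, mul_add, add_mul, e1])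
  refine ⟨_, sq_mem_Om h2 hS hV hg, ?_⟩
  change (g : End F V) * g = _
  simp only [e, mul_add, add_mul, e1, smul_mul_assoc, mul_smul_comm, one_mul, mul_one]
  match_scalars <;> field_simp <;> ring

theorem exists_a (h3 : finrank F W = 3) : ∃ c x, S₂.Q c ≠ 0 ∧ S₂.Q x ≠ 0 ∧ S₂.B x c = 0 ∧ zl S₂ c ∈ Om S₂ ∧
    zl S₂ x ∈ Om S₂ ∧ ∃ a ∈ Om S, a ∉ WG S₂ ι ∧ ∀ i, Commute (a : End F V) (ι i (zl S₂ c)) ∧
      Commute (a : End F V) (ι i (zl S₂ x)) := by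
  obtain ⟨u, -, hu⟩ := exists_value (S₂.nondegOn_top.2 hS₂) (by rw [finrank_top]; omega) 1
  obtain ⟨c, a1, -, b, a2, a3⟩ := z_om h2 hS₂ h3 (u := u) (by simp [hu])
  obtain ⟨x, b1, b2, b', b3, b4⟩ := z_om h2 hS₂ h3 a1
  refine ⟨c, x, a1, b1, b2, a3 ▸ sq_mem_Om h2 hS₂ h3.ge a2, b4 ▸ sq_mem_Om h2 hS₂ h3.ge b3, ?_⟩
  set π : End F W := (2 * S₂.Q c)⁻¹ • rk S₂ c c with hπ
  have p1 : ι l π * ι l π = ι l π := by
    rw [← map_mul]; congr 1; simp [hπ, rk_mul, smul_smul, S₂.orth_B_self, h2, a1, -mul_inv_rev]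
  let Φ : End F W → End F V := fun m => 1 - ι l π + ι l π * ι j m
  have q1 : ∀ m X, ι j m * (ι l π * X) = ι l π * (ι j m * X) := fun m X => by
    rw [← mul_assoc, (hc j l hjl _ _).eq, mul_assoc]
  have q2 : ∀ X, ι l π * (ι l π * X) = ι l π * X := fun X => by rw [← mul_assoc, p1]
  have q3 : ∀ m, ι j m * ι l π = ι l π * ι j m := fun m => (hc j l hjl _ _).eq
  have p2 : ∀ m m', Φ m * Φ m' = Φ (m * m') := fun m m' => by
    simp only [Φ, mul_add, add_mul, mul_sub, sub_mul, one_mul, mul_one, mul_assoc, q1, q2, q3, p1, map_mul]; abel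
  have p3 : ∀ m, adj hS (Φ m) = Φ (adj hS₂ m) := fun m => by
    have : adj hS₂ π = π := by simp [hπ, adj_smul, adj_rk]
    simp only [Φ, adj_add, adj_sub, adj_mul, adj_one', sa, this, q3]
  obtain ⟨g, hg, e⟩ := of_adj h2 hS (X := Φ b) (by
    rw [p3, p2, adj_isom hS₂ a2, show (b.symm : End F W) * b = 1 from LinearMap.ext b.symm_apply_apply]; simp [Φ])
  have e1 : ((g * g : V ≃ₗ[F] V) : End F V) = Φ (zl S₂ c) := by
    change (g : End F V) * g = _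
    rw [e, p2, ← a3]; rfl
  have z1 : ∀ y, Commute π y → Commute (zl S₂ c : End F W) y → ∀ i, Commute (Φ (zl S₂ c)) (ι i y) := by
    intro y c1 c2 i
    have d1 : Commute (ι l π) (ι i y) := by
      by_cases e : l = i
      · subst e; exact c1.map _
      · exact hc l i e _ _
    refine ((Commute.one_left _).sub_left d1).add_left (d1.mul_left ?_)
    by_cases e : j = i
    · subst e; exact c2.map _
    · exact hc j i e _ _
  have z2 : (zl S₂ c : End F W) = (2 : F) • π - 1 := by rw [zl_eq, hπ, smul_smul]; congr 2; field_simp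
  have z3 : Commute π (zl S₂ x) := by
    ext; simp [hπ, zl_apply, b2, S₂.B_comm_zero b2]
  have z4 : Commute π (zl S₂ c) := by rw [z2]; exact ((Commute.refl π).smul_right _).sub_right (Commute.one_right _)
  refine ⟨_, sq_mem_Om h2 hS hV hg, fun ⟨σ, hσ⟩ => ?_, fun i => ⟨e1 ▸ z1 _ z4 (Commute.refl _) i,
    e1 ▸ z1 _ z3 (by rw [z2]; exact (z3.smul_left _).sub_left (Commute.one_left _)) i⟩⟩
  obtain ⟨b, -, e2⟩ := hσ j
  have m1 : (zl S₂ c : End F W) * rk S₂ c x = -rk S₂ c x := by ext; simp [zl_perp b2]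
  have m2 : rk S₂ c x * (zl S₂ c : End F W) = rk S₂ c x := by
    ext; simp [zl_apply, S₂.orth_B_self, a1]; match_scalars; field_simp; ring
  have m0 : rk S₂ c x ≠ 0 := fun e => by
    simpa [S₂.orth_B_self, h2, a1, show x ≠ 0 by rintro rfl; exact b1 S₂.orth_Q_zero] using LinearMap.congr_fun e c
  have e3 : ι (σ j) (cj b (rk S₂ c x)) = -(ι l (zl S₂ c) * ι j (rk S₂ c x)) := by
    rw [← e2, cj_eq_iff, e1]
    nth_rw 2 [z2]
    simp only [Φ, mul_add, add_mul, mul_sub, sub_mul, one_mul, mul_one, mul_assoc, q1, q2, q3, p1, ← map_mul (ι j), m1,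
      m2, map_sub, map_smul, map_one, smul_mul_assoc, neg_mul, map_neg, mul_neg]
    module
  have k : ∀ {t}, t ≠ 0 → (2 : F) • (ι l t * ι j (rk S₂ c x)) ≠ 0 := fun ht e => m0 (ι_inj (ι j)
    ((cancel (hc j l hjl _) ht ((smul_eq_zero.1 e).resolve_left h2)).trans (map_zero _).symm))
  by_cases e4 : σ j = j
  · have := (hc j l hjl (cj b (rk S₂ c x)) (rk S₂ c x)).eq
    rw [e4] at e3
    rw [e3, neg_mul, mul_neg, mul_assoc, (hc j l hjl _ _).eq, ← mul_assoc, ← mul_assoc, ← map_mul, ← map_mul, m1, m2] at this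
    refine k m0 ?_
    rw [map_neg, neg_mul] at this
    linear_combination (norm := module) this
  · have := (hc _ j e4 (cj b (rk S₂ c x)) (zl S₂ c)).eq
    rw [e3, neg_mul, mul_neg, mul_assoc, ← mul_assoc (ι j _), (hc j l hjl _ _).eq, mul_assoc, ← map_mul, ← map_mul,
      m1, m2, map_neg, mul_neg] at this
    refine k (t := zl S₂ c) (fun e => a1 ?_) (by linear_combination (norm := module) -this)
    rw [← zl_self a1, show zl S₂ c c = 0 from LinearMap.congr_fun e c, S₂.orth_Q_zero]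

end

end Cfsg.Agent.H1.O7i
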