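import Cfsg.Agent.H1.O7i

/-!
Tensor powers of orthogonal spaces: towers, and parabolics for three-dimensional factors.
-/

set_option autoImplicit false
set_option linter.unusedSectionVars false
set_option linter.unusedSimpArgs false

namespace Cfsg.Agent.H1.O7j

open Module Cfsg.Agent.H7 Cfsg.Agent.Form Cfsg.Agent.H3.TenLin Cfsg.Agent.H3.TenSL Cfsg.Agent.H3.TenSU
  Cfsg.Agent.H3.RootGeo Cfsg.Agent.H3.OrthLem Cfsg.Agent.H3.TenO1 Cfsg.Agent.H3.TenSpSp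
  Cfsg.Agent.H3.TenForm Cfsg.Agent.H3.TenPar Cfsg.Agent.H3.TenGlue Cfsg.Agent.H3.TenO2
  Cfsg.Agent.H9.FClass Cfsg.Agent.H1.C7j Cfsg.Agent.H1.C7k Cfsg.Agent.H1.C7n Cfsg.Agent.H1.O7a Cfsg.Agent.H1.O7b
  Cfsg.Agent.H1.O7c Cfsg.Agent.H1.O7d Cfsg.Agent.H1.O7e Cfsg.Agent.H1.C7l Cfsg.Agent.H1.C7e Cfsg.Agent.H1.O7h
  Cfsg.Agent.H1.O7i Cfsg.Agent.H1.O7f

variable {F : Type*} [Field F] {V : Type*} [AddCommGroup V] [Module F V]
  {U : Type*} [AddCommGroup U] [Module F U] {W : Type*} [AddCommGroup W] [Module F W]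
  [FiniteDimensional F U] [FiniteDimensional F W] [FiniteDimensional F V]
  {S₁ : PQ (FP.orth F) U} {S₂ : PQ (FP.orth F) W} {S : PQ (FP.orth F) V} {M N : Subgroup (V ≃ₗ[F] V)}
  {I J : Type*} [Fintype I] [DecidableEq I] [Fintype J] [DecidableEq J] {ι : J → End F W →ₐ[F] End F U}

section one
variable {τ : U →ₗ[F] W →ₗ[F] V} {h : TF S₁ S₂ S τ} {n : V ≃ₗ[F] V} {a : U ≃ₗ[F] U} {b : W ≃ₗ[F] W}

theorem cj_lft (h : IsTens τ) (e : ∀ u w, n (τ u w) = τ (a u) (b w)) (X : End F U) :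
    cj n (lft h X) = lft h (cj a X) := cj_eq_iff.2 (h.ext fun u w => by simp [e])

theorem cj_rgt (h : IsTens τ) (e : ∀ u w, n (τ u w) = τ (a u) (b w)) (X : End F W) :
    cj n (rgt h X) = rgt h (cj b X) := cj_eq_iff.2 (h.ext fun u w => by simp [e])

theorem fst_of [Nontrivial W] (h : IsTens τ) (e : Cm (rgt h) (n : End F V)) :
    ∃ a : U ≃ₗ[F] U, ∀ u w, n (τ u w) = τ (a u) w :=
  exists_of_comm h fun ψ x v => by rw [rk_eq]; exact LinearMap.congr_fun (e _).eq v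

theorem res (h : IsTens τ) {w : W} (h0 : w ≠ 0) {c : F} (hc : c ≠ 0) (e : ∀ u, n (τ u w) = c • τ (a u) w)
    {X Y : End F U} (e' : cj n (lft h X) = lft h Y) : cj a X = Y := cj_eq_iff.2 (LinearMap.ext fun u =>
  eq_of_tmul_eq h h0 (by simpa [e, hc] using LinearMap.congr_fun (cj_eq_iff.1 e') (τ u w)))

theorem rel [Nontrivial U] (h : IsTens τ) {w : W} (h0 : w ≠ 0) {c : F} (hc : c ≠ 0) {a' : U ≃ₗ[F] U}
    (e : ∀ u, τ (a' u) (b w) = c • τ (a u) w) : ∃ μ : F, μ ≠ 0 ∧ ∀ u, a' u = μ • a u := by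
  obtain ⟨u, hu⟩ := exists_ne (0 : U)
  obtain ⟨μ, hμ⟩ := Submodule.mem_span_singleton.1 (h.flip.mem_span_of_eq (a := b w) (b := a' u) (a' := w)
    (b' := c • a u) (by simpa) (by simp [e]))
  have : μ ≠ 0 := by rintro rfl; exact h0 (by simpa using hμ.symm)
  exact ⟨c / μ, by simp [*], fun u => eq_of_tmul_eq h h0 (smul_right_injective _ this (by
    simpa [← hμ, smul_smul, mul_div_cancel₀ _ this] using e u))⟩

/-- the action on `U ⊗ w` -/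
def Pb (S₁ : PQ (FP.orth F) U) (τ : U →ₗ[F] W →ₗ[F] V) (N : Subgroup (V ≃ₗ[F] V)) (w : W) :
    Subgroup (U ≃ₗ[F] U) where
  carrier := {a | a ∈ S₁.isom ∧ ∃ x ∈ N, ∃ c : F, c ≠ 0 ∧ ∀ u, x (τ u w) = c • τ (a u) w}
  one_mem' := ⟨one_mem _, 1, one_mem _, 1, one_ne_zero, by simp⟩
  mul_mem' := fun ⟨a1, x, a2, c, a3, a4⟩ ⟨b1, y, b2, d, b3, b4⟩ =>
    ⟨mul_mem a1 b1, _, mul_mem a2 b2, d * c, mul_ne_zero b3 a3, fun u => by simp [a4, b4, smul_smul]⟩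
  inv_mem' := fun ⟨a1, x, a2, c, a3, a4⟩ => ⟨inv_mem a1, _, inv_mem a2, c⁻¹, inv_ne_zero a3, fun u => by
    rw [LinearEquiv.coe_inv, LinearEquiv.symm_apply_eq]; simp [a4, a3]⟩

variable [Finite F] [Nontrivial U] (L : LP h ι M) {w : W} (hw : S₂.Q w = 0) (h0 : w ≠ 0) {x : V ≃ₗ[F] V}
  (hx : x ∈ M)
include L hw h0 hx

theorem dec' (hxw : ∀ u, x (τ u w) ∈ Bw τ w) : ∃ t ∈ bis S, ∃ X, x = zz h hw X * t ∧ ∃ a ∈ bis S₁,
    ∃ b : W ≃ₗ[F] W, (∀ u y, t (τ u y) = τ (a u) (b y)) ∧ ∀ u, x (τ u w) = τ (a u) (b w) := by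
  obtain ⟨t, hT, ht, X, rfl⟩ := L.dec hw h0 hx hxw
  obtain ⟨a, ha, b, -, e⟩ := norm_tens L.odd ht hT h
  refine ⟨t, ht, X, rfl, a, ha, b, e, fun u => ?_⟩
  obtain ⟨u₀, hu⟩ := exists_ne (0 : U)
  obtain ⟨u', e1⟩ := hxw u₀
  obtain ⟨μ, hμ⟩ := Submodule.mem_span_singleton.1 (h.tens.flip.mem_span_of_eq (a := b w) (b := a u₀) (a' := w)
    (b' := u' - X (h.cw w (τ (a u₀) (b w)))) (by simpa) (by
      simp only [LinearMap.flip_apply, LinearEquiv.mul_apply, e, zz_apply] at e1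
      simp only [LinearMap.flip_apply, map_sub, LinearMap.sub_apply, e1, add_sub_cancel_right]))
  simp [e, zz_apply, ← hμ, B_self_zero hw]

theorem px {c : F} (hc : c ≠ 0) (e : ∀ u, x (τ u w) = c • τ (a u) w) (D : Set (U ≃ₗ[F] U))
    (hD : ∀ d ∈ D, d ∈ snd τ.flip M ∧ a⁻¹ * d * a ∈ snd τ.flip M)
    (hX : ∀ X, (∀ d ∈ D, cj d X = X) → adj h.nd₁ X = X) : x ∈ TStab τ := by
  obtain ⟨t, ht, X, e1, a', -, b, e2, e3⟩ := dec' L hw h0 hx fun u => ⟨c • a u, by simp [e]⟩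
  obtain ⟨μ, hμ, e4⟩ := rel h.tens h0 hc fun u => (e3 u).symm.trans (e u)
  have e5 := hX X fun d hd => by
    obtain ⟨⟨n, b1, b2⟩, n', b3, b4⟩ := hD d hd
    refine L.comm_fst hw h0 (e1 ▸ hx) b1 ?_ fun u y => b2 y u
    rwa [h.eq_of_tens (g := t⁻¹ * n * t) (k := n') fun u y => t.injective (by
      simp [show ∀ u y, n (τ u y) = _ from fun u y => b2 y u, show ∀ u y, n' (τ u y) = _ from fun u y => b4 y u, e2, e4])]
  obtain rfl : X = 0 := LinearMap.ext fun u => h.nd₁ _ fun v => mul_left_cancel₀ L.ow.two (by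
    have := adj_of_hasQ (h := h) bis_le_sim (B_self_zero hw) h0 (X := X) ⟨zz h hw X, by
      rw [eq_mul_inv_of_mul_eq e1.symm]; exact mul_mem (L.bis hx) (inv_mem ht), zz_apply hw X⟩ u v
    nth_rw 2 [← e5] at this
    simpa [B_adj, two_mul] using this)
  exact ⟨a', b, fun u y => by simp [e1, zz_apply, e2]⟩

end one

/-- maximality, in a form suitable for induction -/
def Full (S : PQ (FP.orth F) V) (S₂ : PQ (FP.orth F) W) (κ : I → End F W →ₐ[F] End F V) : Prop :=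
  ∀ M ≤ S.isom, Om S ⊓ WG S₂ κ ≤ M → M ≤ WG S₂ κ ∨ Nontrivial I ∧ Om S ≤ M

variable {τ : I → U →ₗ[F] W →ₗ[F] V}

/-- the factors -/
noncomputable abbrev ka (h : ∀ i, TF S₁ S₂ S (τ i)) (i : I) : End F W →ₐ[F] End F V := rgt (h i).tens

/-- one step of a tower -/
structure TW (h : ∀ i, TF S₁ S₂ S (τ i)) (ι : J → End F W →ₐ[F] End F U) (e : I → J → I) : Prop where
  ne : ∀ o j, e o j ≠ o
  inj : ∀ o, Function.Injective (e o)
  sur : ∀ o i, i ≠ o → ∃ j, e o j = i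
  cp : ∀ o j m, lft (h o).tens (ι j m) = ka h (e o j) m
  hc : ∀ i j, i ≠ j → ∀ a, Cm (ι j) (ι i a)
  hs : ∀ X, (∀ i, Cm (ι i) X) → ∃ c : F, X = c • 1
  ow : OW S₂
  dU : 3 ≤ finrank F U
  oU : Odd (finrank F U)
  oW : Odd (finrank F W)
  sw : ∀ i k, ∃ s ∈ bis S, ∀ n m, cj s (ka h n m) = ka h (Equiv.swap i k n) m

namespace TW
variable {h : ∀ i, TF S₁ S₂ S (τ i)} {e : I → J → I} (H : TW h ι e) [Finite F] [Nontrivial U] [Nontrivial W]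
  [Nontrivial V]
include H

theorem hcV (i k : I) (hik : i ≠ k) (a : End F W) : Cm (ka h k) (ka h i a) := by
  obtain ⟨j, rfl⟩ := H.sur k i hik
  exact H.cp k j a ▸ cm_lft _ _

theorem sa (o : I) (j : J) (m : End F W) : adj (h o).nd₁ (ι j m) = ι j (adj (h o).nd₂ m) := lft_inj (h o).tens (by
  rw [H.cp, ← adjH_tens (h (e o j)) (h o).nd (X := ka h (e o j) m) (Y := ka h (e o j) (adj (h o).nd₂ m))
    fun u w u' w' => by simp [(h _).form, B_adj], ← H.cp]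
  exact (adjH_tens (h o) (h o).nd fun u w u' w' => by simp [(h _).form, B_adj]).symm)

theorem wg {g : V ≃ₗ[F] V} (k : ∀ i, ∃ j, Nm S₂ (ka h i) (ka h j) g) : g ∈ WG S₂ (ka h) :=
  mem_WG (by have := H.ow.three; omega) H.hcV k

omit H in
theorem coe_snd (o : I) (b : W ≃ₗ[F] W) : ((h o).tens.tcongr 1 b : End F V) = ka h o b :=
  (h o).tens.ext fun u w => by simp

theorem snd_WG (o : I) {b : W ≃ₗ[F] W} (hb : b ∈ S₂.isom) : (h o).tens.tcongr 1 b ∈ WG S₂ (ka h) :=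
  H.wg fun i => ⟨i, by
    by_cases e : o = i
    · exact e ▸ ⟨b, hb, cj_rgt _ ((h o).tens.tcongr_apply 1 b)⟩
    · exact Nm.of_cm (coe_snd (h := h) o b ▸ H.hcV o i e b)⟩

theorem nm_T {o : I} {g : V ≃ₗ[F] V} (hg : g ∈ bis S) (hT : g ∈ TStab (τ o)) : Nm S₂ (ka h o) (ka h o) g :=
  nm_of_eqv H.ow.two H.oW (h o) (h o) hg hT

variable (hb : M ≤ S.isom) (hM : Om S ⊓ WG S₂ (ka h) ≤ M)
include hM

theorem sndM (o : I) : Om S₂ ≤ snd (τ o) M := fun b hb => by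
  obtain ⟨g, hg, e⟩ := snd_om (h o) H.ow.two hb
  refine ⟨g, hM ⟨hg, ?_⟩, e⟩
  rw [(h o).eq_of_tens (g := g) (k := (h o).tens.tcongr 1 b) fun u w => by simp [e]]
  exact H.snd_WG o (Om_le _ hb)

theorem le_Pb (o : I) (w : W) : Om S₁ ⊓ WG S₂ ι ≤ Pb S₁ (τ o) (M ⊓ TStab (τ o)) w := fun a ⟨ha, σ, hσ⟩ => by
  obtain ⟨g, hg, e1⟩ := snd_om (h o).flip H.ow.two ha
  replace e1 : ∀ u y, g (τ o u y) = τ o (a u) ((1 : W ≃ₗ[F] W) y) := fun u y => e1 y u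
  refine ⟨Om_le _ ha, g, ⟨hM ⟨hg, H.wg fun i => ?_⟩, a, 1, e1⟩, 1, one_ne_zero, by simp [e1]⟩
  by_cases e : i = o
  · subst e; exact ⟨i, 1, one_mem _, cj_rgt _ e1⟩
  obtain ⟨j, rfl⟩ := H.sur o i e
  obtain ⟨b, b1, b2⟩ := hσ j
  exact ⟨_, b, b1, fun m => by rw [← H.cp, cj_lft _ e1, b2, H.cp]⟩

theorem tsw (i k : I) : ∃ s ∈ M, s ∈ WG S₂ (ka h) ∧ Nm S₂ (ka h i) (ka h k) s ∧
    ∀ n, n ≠ i → n ≠ k → Cm (ka h n) (s : End F V) := by
  obtain ⟨s, a1, a2⟩ := H.sw i k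
  obtain ⟨b, b1, b2⟩ := cover (h i) H.ow.two H.ow.three H.oU (isom_of_bis H.ow.two a1)
  have a3 : ∀ n, Nm S₂ (ka h n) (ka h (Equiv.swap i k n)) s := fun n => ⟨1, one_mem _, a2 n⟩
  have a4 := mul_mem (show s ∈ WG S₂ (ka h) from ⟨_, a3⟩) (H.snd_WG i b1)
  refine ⟨_, hM ⟨b2, a4⟩, a4, by simpa using (a3 i).mul ⟨b, b1, cj_rgt _ ((h i).tens.tcongr_apply 1 b)⟩,
    fun n n1 n2 => Cm.mul (fun m => cj_eq_iff.1 (by simpa [Equiv.swap_apply_of_ne_of_ne n1 n2] using a2 n m))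
      (coe_snd (h := h) i b ▸ H.hcV i n n1.symm b)⟩

include hb

theorem lh (o : I) : LH (h o) ι M where
  ow := H.ow
  dU := H.dU
  bis := hb.trans isom_le_bis
  snd := H.sndM hM o
  hc := H.hc
  hs := H.hs
  sa := H.sa o
  fst j g hg := by
    obtain ⟨n, a1, a2⟩ := H.sndM hM (e o j) hg
    have a3 : (n : End F V) = lft (h o).tens (ι j g) := by
      rw [H.cp]; exact (h (e o j)).tens.ext fun u w => by simp [a2]
    obtain ⟨a, a4⟩ := fst_of (h o).tens (a3 ▸ cm_lft _ _)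
    exact ⟨a, ⟨n, a1, fun w u => a4 u w⟩, lft_inj (h o).tens (a3 ▸ (h o).tens.ext fun u w => by simp [a4])⟩
  link j l := by
    obtain ⟨s, a1, -, ⟨b, -, a2⟩, a3⟩ := H.tsw hM (e o j) (e o l)
    obtain ⟨a, a4⟩ := fst_of (h o).tens (a3 o (H.ne o j).symm (H.ne o l).symm)
    refine ⟨a, ⟨s, a1, fun w u => a4 u w⟩, fun m => ⟨cj b⁻¹ m, lft_inj (h o).tens ?_⟩⟩
    rw [← cj_lft _ (b := 1) a4, H.cp, H.cp, a2, cj_cj, mul_inv_cancel, cj_one]

omit hb in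
theorem par3 (IH : Full S₁ S₂ ι) (L : ∀ o, LP (h o) ι M) (h3 : finrank F W = 3) (o : I) {w : W} (hw : S₂.Q w = 0)
    (h0 : w ≠ 0) {x : V ≃ₗ[F] V} (hx : x ∈ M) (hxw : ∀ u, x (τ o u w) ∈ Bw (τ o) w) : x ∈ TStab (τ o) := by
  have two := H.ow.two
  have mono : Pb S₁ (τ o) (M ⊓ TStab (τ o)) w ≤ Pb S₁ (τ o) M w := fun a ⟨a1, y, a2, a3⟩ => ⟨a1, y, a2.1, a3⟩
  rcases IH (Pb S₁ (τ o) M w) (fun _ ha => ha.1) ((H.le_Pb hM o w).trans mono) with A | ⟨_, B⟩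
  · obtain ⟨-, -, -, -, a, a1, b, -, a2⟩ := dec' (L o) hw h0 hx hxw
    obtain ⟨u, hu⟩ := exists_ne (0 : U)
    obtain ⟨u', e1⟩ := hxw u
    obtain ⟨c, hc⟩ := Submodule.mem_span_singleton.1 ((h o).tens.flip.mem_span_of_eq (a := b w) (b := a u) (a' := w)
      (b' := u') (by simpa) ((a2 u).symm.trans e1.symm))
    have c0 : c ≠ 0 := by rintro rfl; exact h0 (by simpa using hc.symm)
    have a3 : ∀ u, x (τ o u w) = c • τ o (a u) w := fun u => by simp [a2, ← hc]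
    obtain ⟨σ, hσ⟩ := A (inv_mem ⟨isom_of_bis two a1, x, hx, c, c0, a3⟩)
    refine px (L o) hw h0 hx c0 a3 {d | d ∈ snd (τ o).flip M ∧ ∃ j, ∃ g ∈ Om S₂, (d : End F U) = ι j g}
      (fun d ⟨b1, j, g, b2, b3⟩ => ⟨b1, ?_⟩) fun X hX => ?_
    · obtain ⟨b, b4, b5⟩ := hσ j
      obtain ⟨d', b6, b7⟩ := (L o).fst (σ j) _ (om_conj b4 b2)
      convert b6 using 1
      exact LinearEquiv.toLinearMap_injective ((b3 ▸ b5 g :).trans b7.symm)
    · obtain ⟨c, rfl⟩ := sc_of_comm H.hc H.hs H.ow (X := X) fun j g hg => by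
        obtain ⟨d, b1, b2⟩ := (L o).fst j g hg
        have := cj_eq_iff.1 (hX d ⟨b1, j, g, hg, b2⟩)
        rwa [b2] at this
      simp [adj_smul, adj_one']
  exfalso
  obtain ⟨j, l, hjl⟩ := exists_pair_ne J
  obtain ⟨c, c', c1, c2, c3, c4, c5, a, a1, a2, a3⟩ := exists_a H.hc (H.sa o) two H.dU hjl h3
  obtain ⟨a4, y, y1, r, r0, y2⟩ := B a1
  have y3 := px (L o) hw h0 y1 r0 y2 {d | d ∈ snd (τ o).flip M ∧ Commute (a : End F U) d} (fun d ⟨b1, b2⟩ => ⟨b1, by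
      rwa [mul_assoc, show d * a = a * d from LinearEquiv.toLinearMap_injective b2.eq.symm, inv_mul_cancel_left]⟩)
    fun X hX => by
      obtain ⟨c'', d1, d2, d3⟩ := H3.TenO7.exists3 two (h o).nd₂ h3 c1 c2 c3
      have k : ∀ i u, S₂.Q u ≠ 0 → Commute (ι i (zl S₂ u)) X → Commute (ι i (rk S₂ u u)) X := fun i u hu hX => by
        rw [show rk S₂ u u = S₂.Q u • ((zl S₂ u : End F W) + 1) by simp [zl_eq, hu], map_smul, map_add, map_one]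
        exact (hX.add_left (Commute.one_left _)).smul_left _
      have k1 : ∀ i u, zl S₂ u ∈ Om S₂ → Commute (a : End F U) (ι i (zl S₂ u)) → Commute (ι i (zl S₂ u)) X :=
        fun i u b1 b2 => by
          obtain ⟨d, b3, b4⟩ := (L o).fst i _ b1
          exact b4 ▸ cj_eq_iff.1 (hX d ⟨b3, b4 ▸ b2⟩)
      have k2 : (zl S₂ c'' : End F W) = (zl S₂ c : End F W) * zl S₂ c' := by
        rw [← zl_mul two h3 c1 c2 d1 c3 d2 d3]; ext; simp [zl]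
      refine diag H.hc (H.sa o) H.hs (v := ![c, c', c'']) (fun i => by
        fin_cases i <;> simp [B_self_ne two, *]) ?_ fun i n => ?_
      · have k3 := k2
        simp only [zl_eq, mul_sub, sub_mul, smul_mul_assoc, mul_smul_comm, rk_mul, c3, one_mul, mul_one, zero_smul,
          smul_zero] at k3
        simp only [Fin.sum_univ_three, Matrix.cons_val, S₂.orth_B_self, mul_inv, mul_smul]
        rw [← smul_add, ← smul_add, inv_smul_eq_iff₀ two]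
        linear_combination (norm := module) k3
      fin_cases n
      · exact k i _ c1 (k1 i _ c4 (a3 i).1)
      · exact k i _ c2 (k1 i _ c5 (a3 i).2)
      · exact k i c'' d1 (by rw [k2, map_mul]; exact (k1 i _ c4 (a3 i).1).mul_left (k1 i _ c5 (a3 i).2))
  obtain ⟨-, B'⟩ := (IH (Pb S₁ (τ o) (M ⊓ TStab (τ o)) w) (fun _ ha => ha.1) (H.le_Pb hM o w)).resolve_left
    fun A => a2 (A ⟨a4, y, ⟨y1, y3⟩, r, r0, y2⟩)
  obtain ⟨v, v1, v2⟩ := exists_ns₁ (h o).nd₂ H.ow.three w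
  obtain ⟨a₁, b1, b2⟩ := exists_a₁ H.hc (H.sa o) two H.dU hjl hw (J := H3.TenO1.wg S₂ w v) (by
    simp [H3.TenO1.wg, adj_sub, adj_rk])
  obtain ⟨b3, z, ⟨z1, z2⟩, s, s0, z3⟩ := B' b1
  obtain ⟨a', z4, b', z5, z6⟩ := norm_tens H.oW ((L o).bis z1) z2 (h o)
  obtain ⟨μ, μ0, z7⟩ := rel (h o).tens h0 s0 fun u => (z6 u w).symm.trans (z3 u)
  have z8 : μ * μ = 1 := by
    obtain ⟨u, hu⟩ := exists_ne (0 : U)
    obtain ⟨u', hu'⟩ := (h o).nd₁.exists_eq hu 1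
    simpa [z7, PQ.B_isom b3, hu'] using z4 u' u
  obtain ⟨n, n1, n2⟩ := (L o).snd (inv_mem (sq_mem_Om two (h o).nd₂ h3.ge (isom_of_bis two z5)))
  obtain ⟨l', hl'⟩ := H.sur (e o j) (e o l) ((H.inj o).ne hjl.symm)
  have := (L (e o j)).Z w hw h0 ((2 : F) • ι l' (H3.TenO1.wg S₂ w v)) ((one_add_mem (h (e o j))).1
    ⟨_, mul_mem n1 (mul_mem z1 z1), by
      rw [map_smul, H.cp, hl', ← H.cp, show rgt _ _ = _ from (H.cp o j _).symm, smul_mul_assoc, ← map_mul]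
      refine (h o).tens.ext fun u y => ?_
      have b4 : ∀ u, a₁ u = u + ι l (H3.TenO1.wg S₂ w v) (ι j (rk S₂ w w) u) := LinearMap.congr_fun b2
      have b5 : ∀ u, ι j (rk S₂ w w) (ι l (H3.TenO1.wg S₂ w v) (ι j (rk S₂ w w) u)) = 0 := fun u => by
        rw [← End.mul_apply, (H.hc j l hjl _ _).eq, End.mul_apply, ← End.mul_apply (ι j _), ← map_mul, rk_mul]
        simp [B_self_zero hw]
      simp [z6, z7, n2, smul_smul, z8, b4, b5, two_smul, add_assoc]⟩)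
  have := ι_inj (ι l') (((smul_eq_zero.1 this).resolve_left two).trans (map_zero _).symm)
  simpa [v1, S₂.B_comm_zero v1, S₂.orth_B_self, two, v2, h0] using LinearMap.congr_fun this v

end TW

end Cfsg.Agent.H1.O7j
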