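import Cfsg.Agent.H1.O7j
import Cfsg.Agent.H1.O7g

/-!
Tensor powers of three-dimensional orthogonal spaces: centralisers of involutions.
-/

set_option autoImplicit false
set_option linter.unusedSectionVars false
set_option linter.unusedSimpArgs false

namespace Cfsg.Agent.H1.O7k

open Module Cfsg.Agent.H7 Cfsg.Agent.Form Cfsg.Agent.H3.TenLin Cfsg.Agent.H3.TenSL Cfsg.Agent.H3.TenSU
  Cfsg.Agent.H3.RootGeo Cfsg.Agent.H3.OrthLem Cfsg.Agent.H3.TenO1 Cfsg.Agent.H3.TenSpSp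
  Cfsg.Agent.H3.TenForm Cfsg.Agent.H3.TenPar Cfsg.Agent.H3.TenGlue Cfsg.Agent.H3.TenO2
  Cfsg.Agent.H9.FClass Cfsg.Agent.H1.C7j Cfsg.Agent.H1.C7k Cfsg.Agent.H1.C7n Cfsg.Agent.H1.O7a Cfsg.Agent.H1.O7b
  Cfsg.Agent.H1.O7c Cfsg.Agent.H1.O7d Cfsg.Agent.H1.O7e Cfsg.Agent.H1.C7l Cfsg.Agent.H1.C7e Cfsg.Agent.H1.O7h
  Cfsg.Agent.H1.O7i Cfsg.Agent.H1.O7f Cfsg.Agent.H1.O7j

variable {F : Type*} [Field F] {V : Type*} [AddCommGroup V] [Module F V]
  {U : Type*} [AddCommGroup U] [Module F U] {W : Type*} [AddCommGroup W] [Module F W]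
  [FiniteDimensional F U] [FiniteDimensional F W] [FiniteDimensional F V]
  {S₁ : PQ (FP.orth F) U} {S₂ : PQ (FP.orth F) W} {S : PQ (FP.orth F) V} {M N : Subgroup (V ≃ₗ[F] V)}
  {I J : Type*} [Fintype I] [DecidableEq I] [Fintype J] [DecidableEq J] {ι : J → End F W →ₐ[F] End F U}

/-- centraliser of a factor -/
def Cg (κ : End F W →ₐ[F] End F V) : Subgroup (V ≃ₗ[F] V) := ⨅ m, fx (κ m)

theorem mem_Cg {κ : End F W →ₐ[F] End F V} {g : V ≃ₗ[F] V} : g ∈ Cg κ ↔ Cm κ (g : End F V) :=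
  Subgroup.mem_iInf.trans (forall_congr' fun _ => O7h.cj_eq_iff)

/-- pointwise stabiliser of `U ⊗ w` -/
def Fx (ρ : U →ₗ[F] W →ₗ[F] V) (w : W) : Subgroup (V ≃ₗ[F] V) where
  carrier := {g | ∀ u, g (ρ u w) = ρ u w}
  one_mem' _ := rfl
  mul_mem' a b u := by rw [LinearEquiv.mul_apply, b, a]
  inv_mem' a u := by rw [LinearEquiv.coe_inv, LinearEquiv.symm_apply_eq, a]

theorem rgt_mem {ρ : U →ₗ[F] W →ₗ[F] V} (h : IsTens ρ) (a b : W) (v : V) : rgt h (rk S₂ a b) v ∈ Bw ρ b :=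
  h.induction v (by simp) (fun u w => ⟨S₂.B w a • u, by simp⟩) fun x y hx hy => by rw [map_add]; exact add_mem hx hy

theorem eq_one (hS : S₂.Nondeg) (h2 : (2 : F) ≠ 0) (h3 : finrank F W = 3) {p : ℕ} [Fact p.Prime] [CharP F p]
    {b : W ≃ₗ[F] W} (hb : b ∈ bis S₂) (hp : b ^ p = 1) {u : W} (hu : S₂.Q u ≠ 0) (e : b u = u) : b = 1 := by
  refine (H3.TenO6.unip3 hS h3 (p := p) ?_ hb hp).resolve_right fun ⟨N, x, a1, a2, a3, a4⟩ => ?_
  · have := (Fact.out : p.Prime).two_le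
    have : p ≠ 2 := by rintro rfl; exact h2 (by exact_mod_cast CharP.cast_eq_zero F 2)
    omega
  obtain ⟨α, β, γ, a5⟩ := a4 u
  have a6 : N u = 0 := by rw [a1, e, sub_self]
  obtain rfl : α = 0 := by simpa [a3, a2, a6] using (congrArg (N ∘ N) a5).symm
  obtain rfl : β = 0 := by simpa [a3, a2, a6] using (congrArg N a5).symm
  have a7 := hb (N x) u
  rw [e, ← sub_eq_zero, ← PQ.B_sub_left, ← a1] at a7
  refine B_self_ne h2 hu ?_
  nth_rw 1 [a5]; simp [a7]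

variable {τ : I → U →ₗ[F] W →ₗ[F] V} {h : ∀ i, TF S₁ S₂ S (τ i)} {e : I → J → I} (H : TW h ι e) [Finite F]
  [Nontrivial U] [Nontrivial W] [Nontrivial V] {o : I} {u₀ : W} (hu : S₂.Q u₀ ≠ 0) {x : V ≃ₗ[F] V}
include H

theorem eT_eq (o : I) (j : J) (w y : W) (u : U) (z : W) :
    eT (h (e o j)) w y (τ o u z) = τ o (ι j (sg S₂ w y) u) z :=
  (LinearMap.congr_fun ((TW.coe_snd (h := h) _ _).trans (H.cp o j _).symm) _).trans (lft_apply ..)

theorem tstab_of_nm (k : ∀ j, ∃ l, Nm S₂ (ka h (e o j)) (ka h (e o l)) x) : x ∈ TStab (τ o) := by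
  obtain ⟨a, b, e⟩ := C7i.mem_TStab_of_norm (h o).tens.flip (x := x) (A := {X | ∃ j m, X = ι j m}) (fun Z hZ => by
    obtain ⟨c, rfl⟩ := H.hs Z fun j m => LinearMap.ext (hZ _ ⟨j, m, rfl⟩)
    exact ⟨c, fun _ => rfl⟩) (by
    rintro _ ⟨j, m, rfl⟩
    obtain ⟨l, b, -, e⟩ := k j
    refine ⟨ι l (cj b m), fun w u => ?_⟩
    have := LinearMap.congr_fun (O7h.cj_eq_iff.1 (e m)) (τ o u w)
    rw [← H.cp, ← H.cp, show lft (h o).tens (ι l (cj b m)) = (h o).tens.flip.tmap LinearMap.id (ι l (cj b m)) from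
      (h o).tens.ext fun u w => by rw [lft_apply]; exact ((h o).tens.flip.tmap_apply LinearMap.id (ι l (cj b m)) w u).symm] at this
    simpa using this)
  exact ⟨b, a, fun u w => e w u⟩

include hu

theorem kc {j : J} (hT : x ∈ TStab (τ (e o j))) (hx : x ∈ Fx (τ o) u₀) : Cm (ka h (e o j)) (x : End F V) := fun m => by
  obtain ⟨a, b, e1⟩ := hT
  have e2 : cj x (ka h (e o j) m) = ka h (e o j) _ := cj_rgt (h _).tens e1 m
  rw [← H.cp, ← H.cp] at e2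
  rw [← res (a := 1) (h o).tens (w := u₀) (by rintro rfl; exact hu S₂.orth_Q_zero) one_ne_zero
    (fun u => by simpa using hx u) e2,
    cj_one, H.cp] at e2
  exact O7h.cj_eq_iff.1 e2

variable (h3 : finrank F W = 3)
include h3

theorem one {p : ℕ} [Fact p.Prime] [CharP F p] (hb : x ∈ bis S) (hx : x ∈ Fx (τ o) u₀)
    (hc : ∀ j, Cm (ka h (e o j)) (x : End F V)) (hp : x ^ p = 1) : x = 1 := by
  have h0 : u₀ ≠ 0 := by rintro rfl; exact hu S₂.orth_Q_zero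
  obtain ⟨b, e1⟩ := H3.TenSpO2.snd_of_fix (h o).tens h0 (tstab_of_nm H fun j => ⟨j, Nm.of_cm (hc j)⟩) hx
  obtain ⟨u, hu'⟩ := exists_ne (0 : U)
  have k : ∀ (n : ℕ) y, (x ^ n) (τ o u y) = τ o u ((b ^ n) y) := fun n y => by
    induction n with
    | zero => rfl
    | succ n ih => simp [pow_succ', ih, e1]
  have := eq_one (h o).nd₂ H.ow.two h3 (p := p) ((h o).snd_bis hb e1) (LinearEquiv.ext fun y =>
    (h o).tens.flip.left_inj hu' (by simpa [hp] using (k p y).symm)) hu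
    ((h o).tens.flip.left_inj hu' ((e1 u u₀).symm.trans (hx u)))
  exact (h o).eq_of_tens fun u y => by simp [e1, this]

variable (h5 : 5 ≤ Nat.card F) (Q : ∀ o, OQ (h o) M)
include h5 Q

theorem kl (hx : x ∈ M) (hf : x ∈ Fx (τ o) u₀) (j : J) : Cm (ka h (e o j)) (x : End F V) := by
  have two := H.ow.two
  have := Fintype.ofFinite F
  have := finite_GL (F := F) (V := V)
  obtain ⟨p, hp⟩ := CharP.exists F
  have := Fact.mk (CharP.char_is_prime F p)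
  obtain ⟨w, -, h0, hw⟩ := exists_sing S₂ (H := ⊤) (by rw [finrank_top]; omega)
  obtain ⟨y, hy, hQ⟩ := exists_ns₁ (h o).nd₂ h3.ge w
  suffices ∀ s : Finset J, ∀ x ∈ M, x ∈ Fx (τ o) u₀ → (∀ j ∉ s, Cm (ka h (e o j)) (x : End F V)) →
      ∀ j, Cm (ka h (e o j)) (x : End F V) from this Finset.univ x hx hf (by simp) j
  intro s
  induction s using Finset.induction_on with
  | empty => exact fun x _ _ k j => k j (by simp)
  | insert j s hj ih =>
  have fin : ∀ x ∈ M ⊓ Fx (τ o) u₀ ⊓ ⨅ l ∉ insert j s, Cg (ka h (e o l)), x ∈ TStab (τ (e o j)) →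
      ∀ j, Cm (ka h (e o j)) (x : End F V) := fun x hx hT => ih x hx.1.1 hx.1.2 fun l hl => by
    by_cases e : l = j
    · exact e ▸ kc H hu hT hx.1.2
    · exact mem_Cg.1 (Subgroup.mem_iInf.1 (Subgroup.mem_iInf.1 hx.2 l) (by simp [e, hl]))
  have hE : ∀ a : F, (eT (h (e o j)) w (a • y) : End F V) = 1 + a • ka h (e o j) (wg S₂ w y) +
      (a * a / 2) • (ka h (e o j) (wg S₂ w y) * ka h (e o j) (wg S₂ w y)) := fun a => by
    rw [eT, TW.coe_snd (h := h), sg_eq hw (by simp [hy]), ← map_mul, wg_sq hw hy, wg_smul, S₂.orth_Q_smul]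
    simp only [map_sub, map_add, map_one, map_smul]
    match_scalars <;> field_simp
  intro x a1 a2 a3
  have a4 : x ∈ M ⊓ Fx (τ o) u₀ ⊓ ⨅ l ∉ insert j s, Cg (ka h (e o l)) :=
    ⟨⟨a1, a2⟩, Subgroup.mem_iInf.2 fun l => Subgroup.mem_iInf.2 fun hl => mem_Cg.2 (a3 l hl)⟩
  have := hh (by rwa [← Nat.card_eq_fintype_card]) two (by
    rw [mul_assoc, ← map_mul, ← map_mul, wg_sq hw hy, mul_smul_comm, wg_mul_rk hw hy]; simp) hE (fun a x hx => ?_)
    (fun e0 => ?_) a4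
  · refine fin x a4 ((Q _).par w hw h0 x a1 fun u => ?_)
    obtain ⟨z, hz⟩ := (h o).nd₂.exists_eq h0 1
    have b1 := LinearMap.congr_fun (O7h.cj_eq_iff.1 this) (τ (e o j) u z)
    rw [← map_mul, wg_sq hw hy, map_smul] at b1
    simp only [mul_smul_comm, smul_mul_assoc, LinearMap.smul_apply, End.mul_apply, rgt_apply, rk_apply, hz,
      one_smul] at b1
    exact smul_right_injective _ (by simp [two, hQ]) b1 ▸ rgt_mem _ _ _ _
  · have b1 := (Q (e o j)).eT_mem w (a • y)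
    refine ⟨⟨M.mul_mem (M.mul_mem b1 hx.1.1) (M.inv_mem b1), fun u => ?_⟩,
      Subgroup.mul_mem _ (Subgroup.mul_mem _ ?_ hx.2) (Subgroup.inv_mem _ ?_)⟩
    · simp [eT_symm, eT_eq H, hx.1.2 _, ← End.mul_apply, ← map_mul,
        show (sg S₂ w (a • y) : End F W) * sg S₂ w (-(a • y)) = 1 by rw [← sg_symm]; ext; simp]
    all_goals exact Subgroup.mem_iInf.2 fun l => Subgroup.mem_iInf.2 fun hl => mem_Cg.2 (by
      rw [eT, TW.coe_snd (h := h)]; exact H.hcV _ _ ((H.inj o).ne (by rintro rfl; simp at hl)) _)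
  obtain ⟨⟨z, z1⟩, z2⟩ := exists_prime_orderOf_dvd_card' p ((CharP.cast_eq_zero_iff F p _).1 e0)
  rw [← Subgroup.orderOf_coe] at z2
  have z3 : (z : End F V) * eT (h (e o j)) w y = eT (h (e o j)) w y * (z : End F V) := by
    have b1 : Commute (z : End F V) _ := O7h.cj_eq_iff.1 z1.2
    rw [← one_smul F y, hE]
    exact ((Commute.one_right _).add_right (b1.smul_right _)).add_right ((b1.mul_right b1).smul_right _)
  obtain rfl := one H hu h3 ((Q o).bis z1.1.1.1) z1.1.1.2 (fin z z1.1 ((Q _).cub hw hy hQ h0 z1.1.1.1 (b := sg S₂ w y)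
    fun u s => by simpa [eT_tmul] using (LinearMap.congr_fun z3 (τ (e o j) u s)).symm)) (z2 ▸ pow_orderOf_eq_one z)
  exact (Fact.out : p.Prime).one_lt.ne (by simpa using z2)

variable (hM : Om S ⊓ WG S₂ (ka h) ≤ M)
include hM

theorem key (hx : x ∈ M) {a : U ≃ₗ[F] U} {c : F} (e1 : ∀ u, x (τ o u u₀) = c • τ o (a u) u₀) {j l : J}
    {b : W ≃ₗ[F] W} (hb : b ∈ S₂.isom) {w y : W} (hw : S₂.Q w = 0) (h0 : w ≠ 0) (hy : S₂.B y w = 0) (hQ : S₂.Q y ≠ 0)
    (e2 : cj a (ι j (sg S₂ w y)) = ι l (cj b (sg S₂ w y))) : Nm S₂ (ka h (e o j)) (ka h (e o l)) x := by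
  obtain ⟨p, hp⟩ := CharP.exists F
  have := Fact.mk (CharP.char_is_prime F p)
  rw [show cj b (sg S₂ w y) = sg S₂ (b w) (b y) from congrArg LinearEquiv.toLinearMap (sg_conj hb w y)] at e2
  have b1 := mul_mem (mul_mem (mul_mem hx ((Q (e o j)).eT_mem w y)) (inv_mem hx))
    (inv_mem ((Q (e o l)).eT_mem (b w) (b y)))
  have b2 : x * eT (h (e o j)) w y * x⁻¹ * (eT (h (e o l)) (b w) (b y))⁻¹ ∈ Fx (τ o) u₀ := fun u => by
    have c0 : c ≠ 0 := by
      rintro rfl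
      obtain ⟨u, hu'⟩ := exists_ne (0 : U)
      exact hu (by rw [((h o).tens.eq_zero (a := u) (b := u₀) (by simpa using e1 u)).resolve_left hu', S₂.orth_Q_zero])
    have e3 : ∀ u, x.symm (τ o u u₀) = c⁻¹ • τ o (a.symm u) u₀ := fun u => by
      rw [LinearEquiv.symm_apply_eq]; simp [e1, c0]
    simp only [LinearEquiv.mul_apply, LinearEquiv.coe_inv, eT_symm, eT_eq H, e3, map_smul, e1, smul_inv_smul₀ c0,
      inv_smul_smul₀ c0]
    rw [← cj_apply, e2, ← End.mul_apply, ← map_mul, ← sg_symm]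
    simp [show (sg S₂ (b w) (b y) : End F W) * (sg S₂ (b w) (b y)).symm = 1 by ext; simp]
  have b3 := kl H hu h3 h5 Q b1 b2
  have b4 : Commute (x * eT (h (e o j)) w y * x⁻¹ * (eT (h (e o l)) (b w) (b y))⁻¹) (eT (h (e o l)) (b w) (b y)) :=
    LinearEquiv.toLinearMap_injective (by
      have := (b3 l (sg S₂ (b w) (b y))).eq
      rwa [← TW.coe_snd (h := h)] at this)
  have b5 := one H hu h3 (p := p) ((Q o).bis b1) b2 b3 (by
    have := b4.mul_pow p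
    have hw' : S₂.Q (b w) = 0 := by rwa [(S₂.orth_mem_isom b).1 hb]
    rw [inv_mul_cancel_right, conj_pow, H3.TenO6.eT_pow hw hy, H3.TenO6.eT_pow hw' (by rwa [PQ.B_isom hb])] at this
    simpa [H3.TenO6.eT_zero hw, H3.TenO6.eT_zero hw'] using this.symm)
  obtain ⟨s, s1, -, s2, -⟩ := H.tsw hM (e o j) (e o l)
  obtain ⟨a₂, b₂, s3⟩ := s2.eqv
  have b6 : ∀ v, eT (h (e o j)) w y (x.symm v) = x.symm (eT (h (e o l)) (b w) (b y) v) := fun v => by
    rw [← mul_inv_eq_one.1 b5]; simp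
  have b7 := mul_mem (inv_mem hx) s1
  simpa using s2.mul (H.nm_T ((Q o).bis b7) ((Q _).cub hw hy hQ h0 b7 (b := b₂⁻¹ * sg S₂ (b w) (b y) * b₂)
    fun u z => by simp [b6, show ∀ u z, s (τ (e o j) u z) = _ from s3, eT_tmul])).inv

theorem cone (IH : Full S₁ S₂ ι) (hx : x ∈ M) (hxw : ∀ u, x (τ o u u₀) ∈ Bw (τ o) u₀) : x ∈ WG S₂ (ka h) := by
  have two := H.ow.two
  have h0 : u₀ ≠ 0 := by rintro rfl; exact hu S₂.orth_Q_zero
  obtain ⟨w, -, w0, hw⟩ := exists_sing S₂ (H := ⊤) (by rw [finrank_top]; omega)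
  obtain ⟨y, hy, hQ⟩ := exists_ns₁ (h o).nd₂ h3.ge w
  rcases IH (Pb S₁ (τ o) M u₀) (fun _ ha => ha.1) ((H.le_Pb hM o u₀).trans fun a ⟨a1, y, a2, a3⟩ => ⟨a1, y, a2.1, a3⟩)
    with A | ⟨_, B⟩
  · obtain ⟨a, ha⟩ := exists_of_map_Bw (h o).tens h0 h0 hxw
    obtain ⟨σ, hσ⟩ := A (x := a) ⟨isom_of_bis two fun u u' => mul_right_cancel₀ (B_self_ne two hu) (by
      rw [← (h o).form, ← (h o).form, ← ha, ← ha, (Q o).bis hx]), x, hx, 1, one_ne_zero, by simpa using ha⟩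
    have k : ∀ j, ∃ l, Nm S₂ (ka h (e o j)) (ka h (e o l)) x := fun j => by
      obtain ⟨b, b1, b2⟩ := hσ j
      exact ⟨_, key H hu h3 h5 Q hM hx (c := 1) (by simpa using ha) b1 hw w0 hy hQ (b2 _)⟩
    refine H.wg fun i => ?_
    by_cases e1 : i = o
    · exact ⟨o, e1 ▸ H.nm_T ((Q o).bis hx) (e1 ▸ tstab_of_nm H k)⟩
    obtain ⟨j, rfl⟩ := H.sur o i e1
    exact (k j).elim fun l a => ⟨_, a⟩
  exfalso
  obtain ⟨j, l, hjl⟩ := exists_pair_ne J
  obtain ⟨a, a1, a2⟩ := exists_a₁ H.hc (H.sa o) two H.dU hjl hw (J := wg S₂ w y) (by simp [wg, adj_sub, adj_rk])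
  obtain ⟨-, z, z1, c, c0, z2⟩ := B a1
  obtain ⟨b, -, b1⟩ := key H hu h3 h5 Q hM z1 z2 (j := j) (l := j) (one_mem _) hw w0 hy hQ (O7h.cj_eq_iff.2 (by
    rw [a2, cj_one, add_mul, mul_add, mul_assoc, ← map_mul, ← mul_assoc, (H.hc j l hjl _ _).eq, mul_assoc, ← map_mul,
      one_mul, mul_one]
    congr 3
    ext; simp [sg_apply hw hy, hy, S₂.B_comm_zero hy, B_self_zero hw]))
  obtain ⟨f, -, hf⟩ := exists_partner (h o).nd₂ hw w0
  have b2 := b1 (rk S₂ f w)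
  rw [← H.cp, ← H.cp] at b2
  have b3 := O7h.cj_eq_iff.1 (res (h o).tens h0 c0 z2 b2)
  generalize cj b (rk S₂ f w) = m at b3
  have c1 := fun n => (H.hc j l hjl n (wg S₂ w y)).eq
  have c2 : rk S₂ w w * rk S₂ w w = 0 := by simp [rk_mul, B_self_zero hw]
  have b4 : ι j m = ι j (rk S₂ f w) - ι l (wg S₂ w y) * ι j (rk S₂ w w) := by
    have := congrArg (· * (1 - ι l (wg S₂ w y) * ι j (rk S₂ w w))) b3
    have c3 : ∀ n X, ι j n * (ι l (wg S₂ w y) * X) = ι l (wg S₂ w y) * (ι j n * X) := fun n X => by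
      rw [← mul_assoc, c1, mul_assoc]
    simp only [a2, mul_add, add_mul, mul_sub, sub_mul, mul_assoc, one_mul, mul_one, c3, ← map_mul (ι j), rk_mul,
      B_self_zero hw, S₂.orth_B_swap f w, hf, zero_smul, one_smul, map_zero, mul_zero] at this
    simpa using this.symm
  have b5 := (H.hc j l hjl (rk S₂ f w - m) (rk S₂ y y)).eq
  rw [map_sub, b4, sub_sub_cancel, mul_assoc, (H.hc j l hjl _ _).eq, ← mul_assoc, ← mul_assoc, ← map_mul, ← map_mul,
    ← sub_eq_zero, ← sub_mul, ← map_sub] at b5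
  have b6 := ι_inj (ι j) ((cancel (H.hc j l hjl _) (fun e0 => by
    simpa [hy, S₂.B_comm_zero hy, S₂.orth_B_self, two, hQ, w0] using LinearMap.congr_fun e0 y) b5).trans
    (map_zero _).symm)
  simpa [hf, w0] using LinearMap.congr_fun b6 f

end Cfsg.Agent.H1.O7k
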