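import Cfsg.Agent.H1.O7k

/-!
Tensor powers of orthogonal spaces: the inductive step.
-/

set_option autoImplicit false
set_option linter.unusedSectionVars false
set_option linter.unusedSimpArgs false

namespace Cfsg.Agent.H1.O7l

open Module Cfsg.Agent.H7 Cfsg.Agent.Form Cfsg.Agent.H3.TenLin Cfsg.Agent.H3.TenSL Cfsg.Agent.H3.TenSU
  Cfsg.Agent.H3.RootGeo Cfsg.Agent.H3.OrthLem Cfsg.Agent.H3.TenO1 Cfsg.Agent.H3.TenSpSp
  Cfsg.Agent.H3.TenForm Cfsg.Agent.H3.TenPar Cfsg.Agent.H3.TenGlue Cfsg.Agent.H3.TenO2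
  Cfsg.Agent.H9.FClass Cfsg.Agent.H1.C7j Cfsg.Agent.H1.C7k Cfsg.Agent.H1.C7n Cfsg.Agent.H1.O7a Cfsg.Agent.H1.O7b
  Cfsg.Agent.H1.O7c Cfsg.Agent.H1.O7d Cfsg.Agent.H1.O7e Cfsg.Agent.H1.C7l Cfsg.Agent.H1.C7e Cfsg.Agent.H1.O7h
  Cfsg.Agent.H1.O7i Cfsg.Agent.H1.O7f Cfsg.Agent.H1.O7j Cfsg.Agent.H1.O7k

variable {F : Type*} [Field F] {V : Type*} [AddCommGroup V] [Module F V]
  {U : Type*} [AddCommGroup U] [Module F U] {W : Type*} [AddCommGroup W] [Module F W]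
  [FiniteDimensional F U] [FiniteDimensional F W] [FiniteDimensional F V]
  {S₁ : PQ (FP.orth F) U} {S₂ : PQ (FP.orth F) W} {S : PQ (FP.orth F) V} {M N : Subgroup (V ≃ₗ[F] V)}
  {I J : Type*} [Fintype I] [DecidableEq I] [Fintype J] [DecidableEq J] {ι : J → End F W →ₐ[F] End F U}

theorem scal [Nontrivial V] [Nontrivial W] {κ : End F W →ₐ[F] End F V} {m : End F W} (h : Cm κ (κ m)) :
    ∃ c : F, ∀ u, m u = c • u := scalar_of_forall_mem_span m fun u => by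
  by_cases h0 : u = 0
  · simp [h0]
  obtain ⟨ψ, hψ, -⟩ := exists_dual_one (W := (⊥ : Submodule F W)) (x := u) (by simpa using h0)
  have := LinearMap.congr_fun (ι_inj κ (m := m * rk1 F W ψ u) (m' := rk1 F W ψ u * m)
    (by rw [map_mul, map_mul, (h _).eq])) u
  exact Submodule.mem_span_singleton.2 ⟨_, by simpa [hψ] using this.symm⟩

theorem mem_of_zl (h2 : (2 : F) ≠ 0) {u x : W} (e : zl S₂ u x = x) : ∃ c : F, x = c • u :=
  ⟨2⁻¹ * (S₂.B x u / S₂.Q u), by rw [mul_smul, eq_inv_smul_iff₀ h2, two_smul, eq_comm, ← sub_eq_iff_eq_add', ← zl_apply, e]⟩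

theorem fix_mem {ρ : U →ₗ[F] W →ₗ[F] V} (h : IsTens ρ) (h2 : (2 : F) ≠ 0) {u : W} {v : V}
    (e : rgt h (zl S₂ u) v = v) : v ∈ Bw ρ u := by
  rw [zl_eq, map_sub, map_smul, map_one] at e
  refine (Submodule.smul_mem_iff _ h2).1 ?_
  rw [two_smul, ← show _ = v + v from sub_eq_iff_eq_add.1 e]
  exact Submodule.smul_mem _ _ (rgt_mem h u u v)

theorem inv_tens {τ : U →ₗ[F] W →ₗ[F] V} (h : TF S₁ S₂ S τ) (h2 : (2 : F) ≠ 0) (h3 : finrank F W = 3) {ρ : End F V}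
    {a : End F U} {b : End F W} (e : ∀ u y, ρ (τ u y) = τ (a u) (b y)) (ha : ∀ u, a (a u) = u) {p n x : W}
    (hp : S₂.Q p ≠ 0) (hn : S₂.Q n ≠ 0) (hx : S₂.Q x ≠ 0) (h1 : S₂.B n p = 0) (h1' : S₂.B x p = 0)
    (h1'' : S₂.B x n = 0) (e1 : b p = p) (e2 : b n = -n) (e3 : b x = -x) {D : Submodule F V}
    (hD : finrank F D = finrank F U) (hρ : ∀ v, ρ v = v → v ∈ D) : ρ = rgt h.tens (zl S₂ p) := by
  let L : U →ₗ[F] V := τ.flip p ∘ₗ (1 + a) + τ.flip n ∘ₗ (1 - a)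
  have a1 : Function.Injective L := (injective_iff_map_eq_zero _).2 fun u hu => by
    have b1 := congrArg (h.cw p) hu
    have b2 := congrArg (h.cw n) hu
    simp [L, h1, S₂.B_comm_zero h1, B_self_ne h2 hp, B_self_ne h2 hn, -map_add, -map_sub, map_add (h.cw _)] at b1 b2
    rw [← smul_add, smul_eq_zero, or_iff_right (B_self_ne h2 hp)] at b1
    exact smul_right_injective U h2 (by linear_combination (norm := module) b1 + b2)
  have a2 : ∀ u, a u = u := fun u => by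
    obtain ⟨u', b1⟩ := mem_of_finrank_le (D := LinearMap.range L) (E := D) (by
      rintro _ ⟨u, rfl⟩; exact hρ _ (by simp [L, e, e1, e2, ha]; abel)) (by rw [LinearMap.finrank_range_of_inj a1, hD])
      (hρ (τ (u - a u) x) (by simp [e, e3, ha]; abel))
    have := congrArg (h.cw x) b1
    simp [L, S₂.B_comm_zero h1', S₂.B_comm_zero h1'', B_self_ne h2 hx, -map_add, -map_sub, map_add (h.cw _)] at this
    exact (sub_eq_zero.1 ((smul_eq_zero.1 this.symm).resolve_left (B_self_ne h2 hx))).symm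
  refine h.tens.ext fun u y => ?_
  have b1 := LinearEquiv.congr_fun (zl_mul h2 h3 hp hn hx h1 h1' h1'') y
  simp only [LinearEquiv.mul_apply, rl_apply, zl_apply, map_sub, map_smul, PQ.B_sub_left, PQ.B_smul_left, h1] at b1
  have b2 := congrArg b b1
  simp only [map_sub, map_smul, e1, e2, e3] at b2
  rw [e, a2, rgt_apply]
  congr 1
  refine smul_right_injective W h2 ?_
  simp only [LinearEquiv.coe_coe, zl_apply]
  linear_combination (norm := module) b1 + b2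

variable {τ : I → U →ₗ[F] W →ₗ[F] V} {h : ∀ i, TF S₁ S₂ S (τ i)} {e : I → J → I} (H : TW h ι e) [Finite F]
  [Nontrivial U] [Nontrivial W] [Nontrivial V] [Nontrivial I]
include H

theorem hsV (X : End F V) (hX : ∀ i, Cm (ka h i) X) : ∃ c : F, X = c • 1 := by
  obtain ⟨o⟩ : Nonempty I := inferInstance
  obtain ⟨Z, rfl⟩ := C7i.exists_lft (h o).tens (X := X) fun ψ x => by rw [rk_eq]; exact hX o _
  obtain ⟨c, rfl⟩ := H.hs Z fun j m => lft_inj (h o).tens (by rw [map_mul, map_mul, H.cp, (hX _ _).eq])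
  exact ⟨c, by simp⟩

/-- the distinguished involutions -/
def Rz (h : ∀ i, TF S₁ S₂ S (τ i)) (M : Subgroup (V ≃ₗ[F] V)) (i : I) : Set (V ≃ₗ[F] V) :=
  {r | r ∈ M ∧ ∃ u, S₂.Q u ≠ 0 ∧ (r : End F V) = ka h i (zl S₂ u)}

variable (h3 : finrank F W = 3) (h5 : 5 ≤ Nat.card F) (Q : ∀ o, OQ (h o) M) (hM : Om S ⊓ WG S₂ (ka h) ≤ M)
  (IH : Full S₁ S₂ ι)
include h3 h5 Q hM IH

theorem fu {g : V ≃ₗ[F] V} (hg : g ∈ M) {i j : I} {u v : W} (hu : S₂.Q u ≠ 0) (hv : v ≠ 0)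
    (e : ∀ a, g (τ i a u) ∈ Bw (τ j) v) : g ∈ WG S₂ (ka h) := by
  have two := H.ow.two
  have h0 : u ≠ 0 := by rintro rfl; exact hu S₂.orth_Q_zero
  obtain ⟨s, s1, s2, s3, -⟩ := H.tsw hM j i
  obtain ⟨a₂, b₂, s4⟩ := s3.eqv
  obtain ⟨φ, e1⟩ := exists_of_map_Bw (h i).tens h0 (w' := b₂ v) (by simpa) (x := s * g) fun a => by
    obtain ⟨a', e1⟩ := e a
    exact ⟨a₂ a', by rw [LinearEquiv.mul_apply, ← e1]; exact (s4 _ _).symm⟩
  generalize b₂ v = v at e1
  have e2 : ∀ a a', S₁.B (φ a) (φ a') * S₂.B v v = S₁.B a a' * S₂.B u u := fun a a' => by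
    rw [← (h i).form, ← (h i).form, ← e1, ← e1, (Q i).bis (mul_mem s1 hg)]
  have e3 : S₂.B v v ≠ 0 := fun e0 => by
    obtain ⟨a, ha⟩ := exists_ne (0 : U)
    obtain ⟨a', ha'⟩ := (h i).nd₁.exists_eq ha 1
    exact B_self_ne two hu (by simpa [e0, ha'] using (e2 a' a).symm)
  obtain ⟨r, r0, e4⟩ := mult_sq (h i).nd₁ H.oU (b := φ) (div_ne_zero (B_self_ne two hu) e3) fun a a' => by
    field_simp; simpa [mul_comm] using e2 a a'
  obtain ⟨b, b1, b2⟩ := (h i).nd₂.witt_step ⊥ (u := r • v) (v := u) (by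
    simp only [Submodule.mem_bot, smul_eq_zero, r0, false_or]; rintro rfl; simp at e3) (by simpa) (by simp) (by
    rw [div_eq_iff e3, S₂.orth_B_self, S₂.orth_B_self] at e4
    simpa [S₂.orth_Q_smul, sub_eq_zero] using mul_left_cancel₀ two (by linear_combination e4))
  replace b1 := S₂.gen_le_isom _ b1
  obtain ⟨k, hk⟩ := exists_ne i
  obtain ⟨b', c1, c2⟩ := cover (h k) two h3.ge H.oU (isom_of_bis two ((h i).tens_mem_bis
    ((h i).tens.tcongr_apply 1 b) (one_mem _) (isom_le_bis b1)))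
  have c3 := mul_mem (H.snd_WG i b1) (H.snd_WG k c1)
  obtain ⟨a, c4⟩ := fst_of (h i).tens (TW.coe_snd (h := h) k b' ▸ H.hcV k i hk b')
  have := cone H hu h3 h5 Q hM IH (o := i) (mul_mem (hM ⟨c2, c3⟩) (mul_mem s1 hg)) fun a' => ⟨r⁻¹ • a (φ a'), by
    rw [LinearEquiv.mul_apply, e1]; simp [c4, ← b2, r0]⟩
  rwa [Subgroup.mul_mem_cancel_left _ c3, Subgroup.mul_mem_cancel_left _ s2] at this

theorem ab : haveI := finite_GL (F := F) (V := V)
    O7g.AB M (M ⊓ WG S₂ (ka h)) (Rz h M) (fun i => Cg (ka h i)) := by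
  have two := H.ow.two
  have inj := fun {g k : V ≃ₗ[F] V} (e : (g : End F V) = k) => LinearEquiv.toLinearMap_injective e
  have hS := H.ow.nd
  have mul : ∀ g k : V ≃ₗ[F] V, ((g * k : V ≃ₗ[F] V) : End F V) = g * k := fun _ _ => rfl
  have mul' : ∀ g k : W ≃ₗ[F] W, ((g * k : W ≃ₗ[F] W) : End F W) = g * k := fun _ _ => rfl
  have ne : ∀ {u}, S₂.Q u ≠ 0 → u ≠ 0 := by rintro _ h rfl; exact h S₂.orth_Q_zero
  have mk : ∀ i {u}, S₂.Q u ≠ 0 → ∃ x, S₂.B x u = 0 ∧ S₂.Q x ≠ 0 ∧ ∃ r ∈ M, (r : End F V) = ka h i (zl S₂ x) := by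
    intro i u hu
    obtain ⟨x, a1, a2, g, a3, a4⟩ := z_om two hS h3 hu
    obtain ⟨r, b1, b2⟩ := (Q i).snd (a4 ▸ sq_mem_Om two hS h3.ge a3)
    exact ⟨x, a2, a1, r, b1, (h i).tens.ext fun u w => by simp [b2]⟩
  have rc : ∀ {i j r}, r ∈ Rz h M j → j ≠ i → r ∈ Cg (ka h i) := fun ⟨_, u, _, e⟩ hij => mem_Cg.2 (e ▸ H.hcV _ _ hij _)
  have nr : ∀ {i r}, r ∈ Rz h M i → r ∉ Cg (ka h i) := fun ⟨_, u, hu, e⟩ hc => by
    obtain ⟨c, e1⟩ := scal (e ▸ mem_Cg.1 hc)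
    obtain ⟨x, a1, a2⟩ := exists_ns₁ hS h3.ge u
    have b1 := e1 u
    have b2 := e1 x
    rw [LinearEquiv.coe_coe, zl_self hu] at b1
    rw [LinearEquiv.coe_coe, zl_perp a1, show c = 1 from smul_left_injective F (ne hu) (by simpa using b1.symm)] at b2
    exact ne a2 (smul_right_injective W two (by linear_combination (norm := module) -b2))
  have pm : ∀ {t i j}, t ∈ M → Nm S₂ (ka h i) (ka h j) t → ∀ r ∈ Rz h M i, t * r * t⁻¹ ∈ Rz h M j :=
    fun ht ⟨b, b1, b2⟩ r ⟨a1, u, a2, a3⟩ => ⟨mul_mem (mul_mem ht a1) (inv_mem ht), b u, by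
      rwa [(S₂.orth_mem_isom b).1 b1], by rw [← cj_zl b1, ← b2, ← a3]; rfl⟩
  have zi : ∀ u, zl S₂ u ∈ S₂.isom := fun u => isom_of_bis two fun x y => by simp [zl, PQ.B_isom (rl_mem u)]
  have sq : ∀ {i r}, r ∈ Rz h M i → r * r = 1 := fun ⟨_, u, _, e⟩ => inj (by
    rw [mul, e, ← map_mul, ← mul', zl_sq]; exact map_one _)
  refine ⟨inf_le_left, fun {i r} ⟨a1, u, _, e⟩ => ⟨a1, ?_⟩, sq, rc, nr,
    fun {i r r'} ⟨_, u, a1, a2⟩ ⟨_, u', b1, b2⟩ hc => ?_, fun {i r c} ⟨_, u, _, e⟩ hc => inj ?_,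
    fun t ⟨t1, σ, t2⟩ => ⟨σ, σ.injective, fun i => ⟨pm t1 (t2 i), fun c hc => mem_Cg.2 ((t2 i).cm (mem_Cg.1 hc))⟩⟩,
    fun {i r} ⟨_, u, a1, a2⟩ => ?_, fun {i r r'} ⟨a0, u, a1, a2⟩ ⟨b0, u', b1, b2⟩ hne hc => ⟨mul_mem a0 b0, ?_⟩,
    fun i => ?_, fun {g i j r} hg ⟨_, u, a1, a2⟩ ⟨_, v, b1, b2⟩ => ⟨hg, ?_⟩,
    fun {g i k r s} hg hr ⟨t1, σ, t2⟩ hs hs' => ?_, fun {g k r} hg hr hc => ?_⟩
  · rw [inj (e.trans (TW.coe_snd (h := h) i _).symm)]; exact H.snd_WG i (zi u)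
  · obtain ⟨c, e1⟩ := scal (κ := ka h i) (m := (zl S₂ u : End F W) * zl S₂ u') (by rw [map_mul, ← a2, ← b2]; exact mem_Cg.1 hc)
    obtain ⟨x, x1, x0⟩ := exists_mem_notMem_of_finrank_lt (U := S₂.perp (Submodule.span F {u, u'})) (W := ⊥) (by
      have := hS.finrank_perp (Submodule.span F {u, u'})
      have := finrank_span_pair_le (F := F) u u'
      rw [finrank_bot]; omega)
    rw [mem_perp_pair] at x1
    obtain rfl : 1 = c := smul_left_injective F (show x ≠ 0 from x0) (by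
      simpa [zl_perp x1.1, zl_perp x1.2] using e1 x)
    refine inj (a2.trans ((congrArg _ (LinearMap.ext fun y => ?_)).trans b2.symm))
    simpa [← LinearEquiv.mul_apply, ← mul_assoc, zl_sq] using (congrArg (zl S₂ u) (e1 y)).symm
  · rw [mul, mul, e, (mem_Cg.1 hc _).eq]
  · obtain ⟨x, x1, x2, r', x3, x4⟩ := mk i a1
    refine ⟨r', ⟨x3, x, x2, x4⟩, fun e => ?_, inj ?_⟩
    · have := LinearMap.congr_fun (ι_inj _ (a2.symm.trans (e ▸ x4))) u
      rw [LinearEquiv.coe_coe, LinearEquiv.coe_coe, zl_self a1, zl_perp (S₂.B_comm_zero x1)] at this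
      exact ne a1 (smul_right_injective W two (by linear_combination (norm := module) this))
    · rw [mul, mul, a2, x4, ← map_mul, ← map_mul]
      congr 1
      ext; simp [zl_apply, x1, S₂.B_comm_zero x1]; module
  · have e1 := ι_inj (ka h i) (m := zl S₂ u * zl S₂ u') (m' := zl S₂ u' * zl S₂ u) (by
      rw [map_mul, map_mul, ← a2, ← b2, ← mul, hc, mul])
    have e2 : S₂.B u' u = 0 := by_contra fun e2 => by
      obtain ⟨c, e3⟩ := mem_of_zl two (u := u) (x := zl S₂ u' u) (by simpa [zl_self a1] using LinearMap.congr_fun e1 u)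
      rw [zl_apply, sub_eq_iff_eq_add, ← eq_inv_smul_iff₀ (div_ne_zero (by rwa [S₂.orth_B_swap]) b1)] at e3
      obtain ⟨d, rfl⟩ : ∃ d : F, u' = d • u := ⟨(S₂.B u u' / S₂.Q u')⁻¹ * (c + 1), by rw [mul_smul, add_smul, one_smul]; exact e3⟩
      refine hne (inj ?_)
      rw [a2, b2, zl, zl, rl_smul (by rintro rfl; simp at e2)]
    obtain ⟨x, x1, x2, x3⟩ := H3.TenO7.exists3 two hS h3 a1 b1 e2
    refine ⟨x, x1, ?_⟩
    rw [mul, a2, b2, ← map_mul, ← zl_mul two h3 a1 b1 x1 e2 x2 x3]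
    congr 1
    ext; simp [zl]
  · obtain ⟨y, -, hy⟩ := exists_ns₁ hS h3.ge 0
    obtain ⟨x, -, x2, r', x3, x4⟩ := mk i hy
    exact ⟨r', x3, x, x2, x4⟩
  · refine fu H h3 h5 Q hM IH hg (i := i) a1 (ne b1) fun a => fix_mem (S₂ := S₂) (h j).tens two ?_
    have := LinearMap.congr_fun a2 (τ i a u)
    simp only [LinearEquiv.coe_coe, rgt_apply, zl_self a1] at this
    rw [← b2]; simp [this]
  · have e1 : σ i = i := by_contra fun e1 => nr hs' (rc (pm t1 (t2 i) s hs) e1)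
    have e2 := t2 i
    rw [e1] at e2
    have e3 : g * r * g⁻¹ * (g * r * g⁻¹) = 1 := by simp [mul_assoc, ← mul_assoc r, sq hr]
    obtain ⟨_, u, a1, a2⟩ := hr
    have e4 : ∀ v, (g * r * g⁻¹) v = v → v ∈ (Bw (τ k) u).map (g : V →ₗ[F] V) := fun v hv =>
      ⟨g.symm v, fix_mem (h k).tens two (by rw [← a2]; exact g.injective (by simpa using hv)), by simp⟩
    have e5 := (LinearEquiv.finrank_map_eq g _).trans (finrank_Bw (h k).tens (ne a1))
    generalize g * r * g⁻¹ = ρ at *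
    obtain ⟨a, -, b, hb, e6⟩ := norm_tens H.oW ((Q i).bis t1) e2.eqv (h i)
    have e7 : ∀ x y, τ i (a (a x)) (b (b y)) = τ i x y := fun x y => by rw [← e6, ← e6, ← LinearEquiv.mul_apply, e3]; rfl
    obtain ⟨x₀, hx₀⟩ := exists_ne (0 : U)
    obtain ⟨c, e8⟩ := scalar_of_forall_mem_span ((b * b : W ≃ₗ[F] W) : End F W) fun y =>
      (h i).tens.flip.mem_span_of_eq (b := a (a x₀)) (by simpa) (e7 x₀ y)
    have e9 : ∀ y, b (b y) = y := by
      have c1 : c * c = 1 := mul_right_cancel₀ (B_self_ne two a1) (by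
        simpa [show b (b u) = _ from e8 u, mul_assoc] using (hb (b u) (b u)).trans (hb u u))
      have c2 : Om S₂ ≤ LinearEquiv.det.ker := by
        rw [Om, Om_toQF, Subgroup.commutator_le]
        exact fun x _ y _ => by simp [commutatorElement_def]
      have c3 := congrArg Units.val (c2 (sq_mem_Om two hS h3.ge (isom_of_bis two hb)))
      rw [LinearEquiv.coe_det, show ((b * b : W ≃ₗ[F] W) : End F W) = c • LinearMap.id from LinearMap.ext e8,
        LinearMap.det_smul, h3, pow_succ, _root_.sq, c1] at c3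
      simpa [show c = 1 by simpa using c3] using e8
    have e10 : ∀ x, a (a x) = x := fun x => eq_of_tmul_eq (h i).tens (ne a1) (by simpa [e9] using e7 x u)
    have k : ∀ ε : F, ε * ε = 1 → (∃ p, S₂.Q p ≠ 0 ∧ b p = ε • p) ∨ ρ ∈ Cg (ka h i) := fun ε hε => by
      refine or_iff_not_imp_left.2 fun hn => mem_Cg.2 fun m => (h i).tens.ext fun x y => ?_
      push Not at hn
      have c1 : ∀ y, S₂.Q (y + ε • b y) = 0 := fun y => by_contra fun e0 => hn _ e0 (by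
        simp [e9, smul_smul, hε, add_comm])
      have c2 : ∀ y, b y = -ε • y := fun y => by
        have : y + ε • b y = 0 := hS _ fun z => mul_left_cancel₀ two (by
          have d1 := c1 (y + z)
          rw [map_add, smul_add, add_add_add_comm, S₂.orth_Q_add, c1, c1] at d1
          have d2 := hb y (b z)
          have d3 := hb y z
          rw [e9] at d2
          simp only [PQ.B_add_left, PQ.B_add_right, PQ.B_smul_left, PQ.B_smul_right, FP.orth_σ, d3, ← d2] at d1 ⊢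
          linear_combination d1 - S₂.B y z * hε)
        linear_combination (norm := module) ε • this - hε • b y
      simp [e6, c2]
    refine or_iff_not_imp_left.2 fun hn => ⟨t1, ?_⟩
    obtain ⟨p, p1, p2⟩ := (k 1 (by simp)).resolve_right hn
    obtain ⟨n, n1, n2⟩ := (k (-1) (by simp)).resolve_right hn
    rw [one_smul] at p2
    rw [neg_one_smul] at n2
    have c1 : S₂.B n p = 0 := mul_left_cancel₀ two (by
      have := hb n p
      rw [p2, n2, PQ.B_neg_left] at this; linear_combination -this)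
    obtain ⟨x, x1, x2, x3⟩ := H3.TenO7.exists3 two hS h3 p1 n1 c1
    obtain ⟨l, c2⟩ := mem_of_zl two (u := x) (x := b x) (by
      have d1 := hb x p
      have d2 := hb x n
      rw [n2, PQ.B_neg_right, x3, neg_eq_zero] at d2
      rw [p2, x2] at d1
      rw [← zl_mul two h3 p1 n1 x1 c1 x2 x3]; simp [rl_apply, d1, d2])
    rcases mul_self_eq_one_iff.1 (smul_left_injective F (ne x1) (by simpa [c2, smul_smul] using e9 x) :
      l * l = 1) with rfl | rfl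
    · exact ⟨n, n1, inv_tens (h i) two h3 (a := -a) (b := -b) (by simp [e6]) (by simp [e10]) n1 p1 x1
        (S₂.B_comm_zero c1) x3 x2 (by simp [n2]) (by simp [p2]) (by simp [c2]) e5 e4⟩
    · exact ⟨p, p1, inv_tens (h i) two h3 (a := a) (b := b) e6 e10 p1 n1 x1 c1 x2 x3 p2 n2 (by simp [c2]) e5 e4⟩
  · obtain ⟨c, e⟩ := hsV H _ fun i => mem_Cg.1 (hc i)
    refine nr hr (mem_Cg.2 ?_)
    rw [show (r : End F V) = c • 1 from LinearMap.ext fun v => g.injective (by simpa using LinearMap.congr_fun e (g v))]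
    exact (cm_one _).smul c

omit h3 h5 Q hM IH in
theorem step (h5 : finrank F W = 3 → 5 ≤ Nat.card F) (IH : Full S₁ S₂ ι) : Full S S₂ (ka h) := fun M hb hM => by
  by_cases hZ : ∀ o w (hw : S₂.Q w = 0), w ≠ 0 → ∀ X ∈ Zs (h o) M (B_self_zero hw), X = 0
  swap
  · push Not at hZ
    obtain ⟨o, w, hw, h0, X, a1, a2⟩ := hZ
    exact Or.inr ⟨inferInstance, (H.lh hb hM o).le_of_Z hw h0 a1 a2⟩
  have L : ∀ o, LP (h o) ι M := fun o => ⟨H.lh hb hM o, H.oW, hZ o⟩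
  left
  rcases H.ow.dim with h4 | ⟨h3, -⟩
  · have Q : ∀ o, OQ (h o) M := fun o => ⟨H.ow, (L o).bis, (L o).snd, fun w hw h0 x => (L o).par5 h4 hw h0⟩
    intro g hg
    obtain ⟨σ, hσ⟩ := wr_of (fun i => (h i).tens) (by omega) (fun i j hij _ _ ψ x χ y v => by
      rw [rk_eq, rk_eq]; exact LinearMap.congr_fun (H.hcV i j hij _ _).eq v)
      (fun X hX => hsV H X fun i => cm_of_Nn fun ψ x => by rw [← rk_eq]; exact hX i ψ x)
      (Or.inl fun i j => by
        obtain ⟨s, s1, -, s2, -⟩ := H.tsw hM j i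
        exact ⟨s, s1, s2.eqv⟩) (fun i s hs g hg => ac5 (Q i) h4 hs hg) hg
    exact ⟨σ, fun i => nm_of_eqv H.ow.two H.oW (h i) (h _) (isom_le_bis (hb hg)) (hσ i)⟩
  · have := finite_GL (F := F) (V := V)
    exact (ab H h3 (h5 h3) (fun o => ⟨H.ow, (L o).bis, (L o).snd, fun w hw h0 x => H.par3 hM IH L h3 o hw h0⟩)
      hM IH).le_T.trans inf_le_right

end Cfsg.Agent.H1.O7l
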