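import Cfsg.Agent.H1.O7l
import Cfsg.Agent.H1.C7r

/-!
Tensor wreath products with orthogonal factors of odd dimension.
-/

set_option autoImplicit false
set_option linter.unusedSectionVars false
set_option linter.unusedSimpArgs false

namespace Cfsg.Agent.H1.O7m

open Module Cfsg.Agent.H7 Cfsg.Agent.Form Cfsg.Agent.H3.TenLin Cfsg.Agent.H3.RootGeo Cfsg.Agent.H3.TenSpSp
  Cfsg.Agent.H3.TenForm Cfsg.Agent.H9.FClass Cfsg.Agent.H1.C7j Cfsg.Agent.H1.C7l Cfsg.Agent.H1.C7e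
  Cfsg.Agent.H1.C7f Cfsg.Agent.H1.C7m Cfsg.Agent.H1.C7r Cfsg.Agent.H1.O7c Cfsg.Agent.H1.O7i Cfsg.Agent.H1.O7j
  Cfsg.Agent.H1.O7l Cfsg.Agent.Asch
open scoped Matrix MatrixGroups

variable {F : Type*} [Field F] {s : ℕ} {κ : Type} [Fintype κ] [DecidableEq κ]

theorem rgt_fac (i : Fin (s + 1)) (m : End F (κ → F)) (v : (Fin (s + 1) → κ) → F) :
    rgt (tens_fac i) m v = emb i (LinearMap.toMatrix' m) *ᵥ v :=
  (tens_fac (κ := κ) (F := F) i).induction v (by simp) (fun u w => by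
    rw [emb_fac, ← Matrix.toLin'_apply]; simp) fun a b ha hb => by rw [map_add, Matrix.mulVec_add, ha, hb]

theorem emb_fac' (o : Fin (s + 1)) (j : Fin s) (X : Matrix κ κ F) (u : (Fin s → κ) → F) (w : κ → F) :
    emb (o.succAbove j) X *ᵥ fac κ F o u w = fac κ F o (emb j X *ᵥ u) w := by
  funext x
  have : ∀ y, emb (o.succAbove j) X x y = (1 : Matrix _ _ F) (x o) (y o) * emb j X (o.removeNth x) (o.removeNth y) :=
    fun y => by
      rw [emb_apply, pt_apply, Fin.prod_univ_succAbove _ o, emb_apply, pt_apply,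
        Pi.mulSingle_eq_of_ne (Fin.succAbove_ne o j).symm]
      congr 1
      refine Finset.prod_congr rfl fun l _ => ?_
      by_cases e : l = j
      · subst e; simp [Fin.removeNth]
      · simp [Fin.removeNth, Pi.mulSingle_eq_of_ne e, Pi.mulSingle_eq_of_ne (Fin.succAbove_right_injective.ne e)]
  rw [fac_apply]
  simp only [Matrix.mulVec, dotProduct, this, fac_apply]
  rw [← (Fin.insertNthEquiv (fun _ => κ) o).sum_comp, Fintype.sum_prod_type, Finset.sum_comm, Finset.sum_mul]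
  refine Finset.sum_congr rfl fun a _ => ?_
  simp [Matrix.one_apply, Fin.insertNthEquiv, mul_assoc]

theorem cp_fac (o : Fin (s + 2)) (j : Fin (s + 1)) (m : End F (κ → F)) :
    lft (tens_fac o) (rgt (tens_fac j) m) = rgt (tens_fac (κ := κ) (o.succAbove j)) m :=
  (tens_fac o).ext fun u w => by rw [lft_apply, rgt_fac, rgt_fac, emb_fac']

variable [Finite F] {S₂ : PQ (FP.orth F) (κ → F)} (c : F)

theorem exists_tf [Nonempty κ] (h2 : (2 : F) ≠ 0) (hS₂ : S₂.Nondeg) {S : PQ (FP.orth F) ((Fin (s + 1) → κ) → F)}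
    (hS : S.Nondeg) (e : ∀ x y, S.B x y = pw c (Geo.gramMatrix S₂.B) (FP.orth F).σ x y) :
    ∃ S₁ : PQ (FP.orth F) ((Fin s → κ) → F), (∀ x y, S₁.B x y = pw c (Geo.gramMatrix S₂.B) (FP.orth F).σ x y) ∧
      ∀ i, TF S₁ S₂ S (fac κ F i) := by
  have hf := fun i u w u' w' => (e _ _).trans (pw_fac S₂ c i u u' w w')
  obtain ⟨a1, a2, a3, a4⟩ := exists_fst (tens_fac 0) hS hS₂ (fun _ => rfl) (hf 0)
  exact ⟨ofSym h2 _ a1 a2 fun x y => by simpa using a3 x y, fun _ _ => rfl,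
    fun i => ⟨tens_fac i, fun _ => rfl, fun _ => rfl, by simp, hf i, a4, hS₂⟩⟩

theorem full (H : OW S₂) (ho : Odd (Fintype.card κ)) (h5 : Fintype.card κ = 3 → 5 ≤ Nat.card F) (s : ℕ) :
    ∀ S : PQ (FP.orth F) ((Fin (s + 1) → κ) → F), S.Nondeg →
      (∀ x y, S.B x y = pw c (Geo.gramMatrix S₂.B) (FP.orth F).σ x y) →
      Full S S₂ fun i => rgt (tens_fac (κ := κ) i) := by
  have : Nonempty κ := Fintype.card_pos_iff.1 ho.pos
  have h3 : 3 ≤ Fintype.card κ := by simpa using H.three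
  induction s with
  | zero =>
    intro S hS e M hb _
    obtain ⟨S₁, -, h⟩ := exists_tf c H.two H.nd hS e
    refine Or.inl fun g hg => ⟨1, fun i => nm_of_eqv H.two (by simpa) (h i) (h i) (isom_le_bis (hb hg)) ?_⟩
    obtain ⟨a, b, e⟩ := C7i.mem_TStab_of_norm (h i).tens.flip (x := g) (A := ∅) (fun Z _ => ⟨Z 1 default, fun y => by
      rw [show y = y default • 1 from funext fun x => by simp [Subsingleton.elim x default]]
      funext x; simp [Subsingleton.elim x default, mul_comm]⟩) (by simp)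
    exact ⟨b, a, fun u w => e w u⟩
  | succ s ih =>
    intro S hS e
    obtain ⟨S₁, e₁, h⟩ := exists_tf c H.two H.nd hS e
    refine step (h := h) (e := Fin.succAbove) ⟨Fin.succAbove_ne, fun _ => Fin.succAbove_right_injective,
      fun o i => Fin.exists_succAbove_eq, cp_fac, fun i j hij a => cm_of_Nn fun ψ x => (cm_of_Nn (fun χ y => by
        rw [← rk_eq, ← rk_eq]; exact LinearMap.ext (comm_fac j i hij.symm _ _ _ _ _ _)) a).symm,
      fun X hX => scalar_fac X fun i ψ x => by rw [rk_eq]; exact hX i _, H, by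
        simpa using h3.trans (Nat.le_self_pow (by omega) _), by simpa using ho.pow, by simpa,
      fun i k => ⟨toLE (fp κ F (Equiv.swap i k)), fun x y => by rw [e, pw_fp, e], fun n m => LinearMap.ext fun v => ?_⟩⟩
      (by simpa using h5) (ih S₁ (h 0).nd₁ e₁)
    obtain ⟨v, rfl⟩ := (toLE (fp κ F (Equiv.swap i k))).surjective v
    rw [H3.RootGeo.cj_apply, LinearEquiv.symm_apply_apply]
    simp only [rgt_fac, toLE_apply, Matrix.mulVec_mulVec,
      (cj_eq_iff _ _ _).1 (cj_fp_emb _ n _)]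

omit [Finite F] in
theorem isMaximalIn_OO_wr [Fintype F] (hodd : Odd (Fintype.card F)) {ι : Type} [Fintype ι] [DecidableEq ι]
    {Q : (ι → F) → F} (hQ : Geo.IsNondegenerateQuadraticForm Q) {k t : ℕ} (hk : 3 ≤ k) (ho : Odd k) (ht : 2 ≤ t)
    (hex : ¬ (Fintype.card F = 3 ∧ k = 3)) (e : ι ≃ (Fin t → Fin k)) (P : GL ι F)
    (f₁ : (Fin k → F) → (Fin k → F) → F) (hf₁ : Geo.IsSymmetricForm f₁)
    (hT : Geo.IsTensorPowerFormStructure id (QuadraticMap.polar Q) f₁ e P) :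
    Geo.IsMaximalIn (Geo.omegaGL Q) (Geo.tensorWreathSubgroup k t e P ⊓ Geo.omegaGL Q) := by
  obtain ⟨s, rfl⟩ : ∃ s, t = s + 1 := ⟨t - 1, by omega⟩
  have h2 := two_ne_zero_of_odd_card hodd
  have hn : 8 ≤ Fintype.card ι := by
    have : 3 ^ 2 ≤ k ^ (s + 1) := (Nat.pow_le_pow_left hk 2).trans (Nat.pow_le_pow_right (by omega) ht)
    rw [Fintype.card_congr e]; simp; omega
  have : Nonempty (Fin k) := ⟨⟨0, by omega⟩⟩
  obtain ⟨c, -, hT⟩ := hT
  let S := (quadPQ hQ).comap (psi e P).toLinearMap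
  have hS : S.Nondeg := comap_nondeg (quadPQ_nondeg hQ) _
  have H : OW (symmPQ h2 hf₁) := ⟨h2, symmPQ_nondeg h2 hf₁, by
    by_cases h3 : k = 3
    · exact Or.inr ⟨by simpa, H3.TenSpO2.exists_sq_ne_one h2 fun e => hex ⟨e, h3⟩⟩
    · obtain ⟨r, rfl⟩ := ho
      left; simp; omega⟩
  obtain ⟨S₁, -, h⟩ := exists_tf c h2 H.nd hS hT
  refine isMaximalIn_wr (by omega) e P (Om S) (theta_mem_Om e P hQ)
    (H8.omega_not_le_tensorWreathSubgroup hQ hn (by omega) ht e P) fun M h1 h3 => ?_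
  refine (full c H (by simpa) (fun h4 => ?_) s S hS hT M (h1.trans (Om_le S)) fun g ⟨a, σ, b⟩ =>
    h3 g ⟨σ, fun i => (b i).eqv⟩ a).imp (fun A g hg => (A hg).imp fun σ b i => (b i).eqv) And.right
  have := Fintype.one_lt_card (α := F)
  obtain ⟨r, hr⟩ := hodd
  have : Fintype.card F ≠ 3 := fun e => hex ⟨e, by simpa using h4⟩
  rw [Nat.card_eq_fintype_card]; omega

end Cfsg.Agent.H1.O7m
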