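import Cfsg.Agent.H1.O7i

/-!
Orthogonal spaces of dimension four and minus type.
-/

set_option autoImplicit false
set_option linter.unusedSectionVars false
set_option linter.unusedSimpArgs false

namespace Cfsg.Agent.H1.O8a

open Module Cfsg.Agent.H7 Cfsg.Agent.Form Cfsg.Agent.H3.TenLin Cfsg.Agent.H3.TenSL Cfsg.Agent.H3.TenSU
  Cfsg.Agent.H3.TenGen Cfsg.Agent.H3.RootGeo Cfsg.Agent.H3.OrthLem Cfsg.Agent.H3.TenO1 Cfsg.Agent.H3.TenSpSp
  Cfsg.Agent.H9.FClass Cfsg.Agent.H1.C7d Cfsg.Agent.H1.C7j Cfsg.Agent.H1.C7k Cfsg.Agent.H1.C7n Cfsg.Agent.H1.O7a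
  Cfsg.Agent.H1.O7b Cfsg.Agent.H1.O7c Cfsg.Agent.H3.TenO2
open scoped Pointwise

variable {F : Type*} [Field F] {W : Type*} [AddCommGroup W] [Module F W] [FiniteDimensional F W]
  {S : PQ (FP.orth F) W} {R : Type*} [Ring R] [Algebra F R] {I : Type*} [DecidableEq I]

/-- the standing hypotheses on a factor -/
structure OE (S : PQ (FP.orth F) W) : Prop where
  two : (2 : F) ≠ 0
  nd : S.Nondeg
  dim : 5 ≤ finrank F W ∨ finrank F W = 4 ∧ ∀ Y, S.TS Y → finrank F Y < 2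

/-- Witt index one -/
def An (S : PQ (FP.orth F) W) : Prop := ∀ d z, S.Q d = 0 → d ≠ 0 → S.Q z = 0 → S.B z d = 0 → z ∈ F ∙ d

theorem an_of (h : ∀ Y, S.TS Y → finrank F Y < 2) : An S := fun d z hd h0 hz hzd => by_contra fun hn => by
  have h5 : S.TS (Submodule.span F {d, z}) := (S.orth_ts _).2 fun x hx => by
    obtain ⟨a, b, rfl⟩ := Submodule.mem_span_pair.1 hx
    simp [S.orth_Q_add, S.orth_Q_smul, hd, hz, S.B_comm_zero hzd]
  have h6 := finrank_span_eq_card (li_pair h0 hn)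
  rw [Matrix.range_cons_cons_empty] at h6
  simp only [Fintype.card_fin] at h6
  have := h _ h5
  omega

theorem OE.four (H : OE S) : 4 ≤ finrank F W := by rcases H.dim with h | h <;> omega

theorem OE.three (H : OE S) : 3 ≤ finrank F W := by have := H.four; omega

theorem OE.dim' (H : OE S) : 5 ≤ finrank F W ∨ finrank F W = 4 ∧ An S := H.dim.imp_right fun h => ⟨h.1, an_of h.2⟩

theorem OE.sg [Finite F] (H : OE S) (d y : W) : sg S d y ∈ Om S := sg_mem_Om H.two H.nd H.three d y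

theorem OE.ow (H : OE S) (h : 5 ≤ finrank F W) : OW S := ⟨H.two, H.nd, Or.inl h⟩

/-- frames -/
structure Fr (S : PQ (FP.orth F) W) (d e y z : W) : Prop where
  qd : S.Q d = 0
  qe : S.Q e = 0
  ed : S.B e d = 1
  yd : S.B y d = 0
  ye : S.B y e = 0
  zd : S.B z d = 0
  ze : S.B z e = 0
  zy : S.B z y = 0
  qy : S.Q y ≠ 0
  qz : S.Q z ≠ 0

variable {d e y z : W}

theorem Fr.symm (h : Fr S d e y z) : Fr S d e z y :=
  ⟨h.qd, h.qe, h.ed, h.zd, h.ze, h.yd, h.ye, S.B_comm_zero h.zy, h.qz, h.qy⟩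

theorem Fr.ne (h : Fr S d e y z) : d ≠ 0 := by rintro rfl; simpa using h.ed

theorem Fr.all (h : Fr S d e y z) : S.B d d = 0 ∧ S.B e e = 0 ∧ S.B e d = 1 ∧ S.B d e = 1 ∧ S.B y d = 0 ∧
    S.B d y = 0 ∧ S.B y e = 0 ∧ S.B e y = 0 ∧ S.B z d = 0 ∧ S.B d z = 0 ∧ S.B z e = 0 ∧ S.B e z = 0 ∧ S.B z y = 0 ∧
    S.B y z = 0 ∧ S.B y y = 2 * S.Q y ∧ S.B z z = 2 * S.Q z ∧ S.Q d = 0 ∧ S.Q e = 0 :=
  ⟨B_self_zero h.qd, B_self_zero h.qe, h.ed, by rw [S.orth_B_swap, h.ed], h.yd, S.B_comm_zero h.yd, h.ye,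
    S.B_comm_zero h.ye, h.zd, S.B_comm_zero h.zd, h.ze, S.B_comm_zero h.ze, h.zy, S.B_comm_zero h.zy,
    S.orth_B_self y, S.orth_B_self z, h.qd, h.qe⟩

theorem OE.fr (H : OE S) (hd : S.Q d = 0) (h0 : d ≠ 0) : ∃ e y z, Fr S d e y z := by
  obtain ⟨e, he, hed⟩ := exists_partner H.nd hd h0
  obtain ⟨h5, h6⟩ := hyp_perp H.nd hd he (by simp [hed])
  obtain ⟨y, h7, h8, hy⟩ := exists_ns_hyp H.nd H.three hd he (by simp [hed])
  obtain ⟨z, h9, hzy, hz⟩ := exists_ns_perp H.two h5 (by have := H.four; omega) (mem_perp_pair.2 ⟨h7, h8⟩) hy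
  rw [mem_perp_pair] at h9
  exact ⟨e, y, z, hd, he, hed, h8, h7, h9.2, h9.1, hzy, hy, hz⟩

theorem OE.fr' [Finite F] (H : OE S) : ∃ d e y z, Fr S d e y z := by
  obtain ⟨d, -, h0, hd⟩ := exists_sing S (H := ⊤) (by rw [finrank_top]; exact H.three)
  exact ⟨d, H.fr hd h0⟩

theorem Fr.dec (h : Fr S d e y z) (h2 : (2 : F) ≠ 0) (h4 : finrank F W = 4) (x : W) :
    x = S.B x e • d + S.B x d • e + (S.B x y / (2 * S.Q y)) • y + (S.B x z / (2 * S.Q z)) • z := by
  have li : LinearIndependent F ![d, e, y, z] := Fintype.linearIndependent_iff.2 fun g hg => by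
    rw [Fin.sum_univ_four] at hg
    have a1 := congrArg (S.B · d) hg
    have a2 := congrArg (S.B · e) hg
    have a3 := congrArg (S.B · y) hg
    have a4 := congrArg (S.B · z) hg
    simp [h.all, h2, h.qy, h.qz] at a1 a2 a3 a4
    intro i; fin_cases i <;> assumption
  have := li.span_eq_top_of_card_eq_finrank' (by simp [h4])
  obtain ⟨c, rfl⟩ := (Submodule.mem_span_range_iff_exists_fun F).1 (this ▸ Submodule.mem_top (x := x))
  simp [Fin.sum_univ_four, h.all, h2, h.qy, h.qz]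

theorem Fr.one (h : Fr S d e y z) (h2 : (2 : F) ≠ 0) (h4 : finrank F W = 4) :
    (1 : End F W) = rk S e d + rk S d e + (2 * S.Q y)⁻¹ • rk S y y + (2 * S.Q z)⁻¹ • rk S z z := by
  ext x; simpa [div_eq_inv_mul, mul_smul] using h.dec h2 h4 x

theorem Fr.an (h : Fr S d e y z) (h2 : (2 : F) ≠ 0) (A : An S) {s t : F} (h0 : s * s * S.Q y + t * t * S.Q z = 0) :
    s = 0 ∧ t = 0 := by
  obtain ⟨c, hc⟩ := Submodule.mem_span_singleton.1 (A d (s • y + t • z) h.qd h.ne (by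
    simp [S.orth_Q_add, S.orth_Q_smul, h.all]; linear_combination h0) (by simp [h.all]))
  exact ⟨by simpa [h.all, h2, h.qy] using congrArg (S.B · y) hc, by simpa [h.all, h2, h.qz] using congrArg (S.B · z) hc⟩

theorem two_refl {w e : W} (hw : S.Q w = 0) (he : S.Q e = 0) (h : S.B e w = 1) {a b : F} (ha : a ≠ 0) (hb : b ≠ 0) :
    rl S (w + a • e) (rl S (w + b • e) w) = (b / a) • w := by
  have hQ : ∀ a : F, S.Q (w + a • e) = a := fun a => by
    simp [S.orth_Q_add, S.orth_Q_smul, hw, he, S.orth_B_swap e w, h]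
  rw [rl_apply _ w, hQ, map_sub, map_smul, map_add, map_smul, rl_apply, rl_apply, hQ]
  simp [B_self_zero hw, B_self_zero he, S.orth_B_swap e w, h, ha, hb]
  match_scalars <;> field_simp

theorem rl_pair (hS : S.Nondeg) {w e y : W} (hw : S.Q w = 0) (he : S.Q e = 0) (h : S.B e w = 1) (hy : S.Q y ≠ 0) :
    rl S y * rl S (w + S.Q y • e) ∈ Om S := rl_mul_mem hS one_ne_zero hy (by
  simp [S.orth_Q_add, S.orth_Q_smul, hw, he, S.orth_B_swap e w, h])

theorem OE.torus [Finite F] (H : OE S) {w : W} (hw : S.Q w = 0) (h0 : w ≠ 0) {c : F} (hc : c ≠ 0) :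
    ∃ g ∈ Om S, g w = c • w := by
  obtain ⟨e, he, hew⟩ := exists_partner H.nd hw h0
  obtain ⟨h5, h6⟩ := hyp_perp H.nd hw he (by simp [hew])
  have := H.four
  obtain ⟨y, a1, a2⟩ := exists_value h5 (by omega) 1
  obtain ⟨z, b1, b2⟩ := exists_value h5 (by omega) c
  rw [mem_perp_pair] at a1 b1
  refine ⟨_, mul_mem (rl_pair H.nd hw he hew (y := y) (by simp [a2])) (rl_pair H.nd hw he hew (y := z) (by simpa [b2])),
    ?_⟩
  have k : ∀ x, S.B x z = 0 → rl S z x = x := fun x hx => by simp [rl_apply, hx]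
  rw [LinearEquiv.mul_apply, LinearEquiv.mul_apply, LinearEquiv.mul_apply, k _ (by
    simp [rl_apply, S.B_comm_zero b1.1, S.B_comm_zero b1.2]), a2, b2, two_refl hw he hew one_ne_zero hc]
  simp [rl_apply, S.B_comm_zero a1.2]

theorem Fr.rot (h : Fr S d e y z) (hS : S.Nondeg) : ∃ g ∈ Om S, g d = (S.Q z / S.Q y) • d ∧ g y = -y ∧ g z = -z := by
  refine ⟨_, mul_mem (rl_pair hS h.qd h.qe h.ed h.qy) (rl_pair hS h.qd h.qe h.ed h.qz), ?_, ?_, ?_⟩
  · have k : ∀ x, S.B x z = 0 → rl S z x = x := fun x hx => by simp [rl_apply, hx]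
    rw [LinearEquiv.mul_apply, LinearEquiv.mul_apply, LinearEquiv.mul_apply, k _ (by
      simp [rl_apply, h.all]), two_refl h.qd h.qe h.ed h.qy h.qz]
    simp [rl_apply, h.all]
  · simp [rl_apply, h.all, h.qy]; module
  · simp [rl_apply, h.all, h.qz]; module

theorem om_sim (h2 : (2 : F) ≠ 0) {b g : W ≃ₗ[F] W} (hb : b ∈ sim S) (hg : g ∈ Om S) : b * g * b⁻¹ ∈ Om S := by
  have : Om S ≤ (Om S).comap (MulAut.conj b).toMonoidHom := by
    nth_rw 1 [Om, Om_toQF]
    rw [Subgroup.commutator_le]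
    intro x hx y hy
    have := om_comm (isom_of_bis h2 (conj_mem_bis hb (isom_le_bis hx))) (isom_of_bis h2 (conj_mem_bis hb (isom_le_bis hy)))
    simpa [commutatorElement_def, mul_assoc] using this
  exact this hg

theorem unip4 (H : OE S) (A : An S) {b : W ≃ₗ[F] W} (hb : b ∈ bis S) {n : ℕ} (hn : ((b : End F W) - 1) ^ n = 0)
    (h1 : b ≠ 1) : ∃ d y, S.Q d = 0 ∧ d ≠ 0 ∧ S.B y d = 0 ∧ S.Q y ≠ 0 ∧ b = sg S d y := by
  set N : End F W := (b : End F W) - 1 with hN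
  have eb : ∀ x, b x = x + N x := fun x => by simp [hN]
  have k : ∀ (P D : Submodule F W), (∀ x ∈ D, N x ∈ D) → (∀ x ∈ D, N x ∈ P) ∨ ∃ x ∈ D, N x ∉ P ∧ N (N x) ∈ P := by
    intro P D hD
    refine or_iff_not_imp_right.2 fun hh x hx => ?_
    have : ∀ m, ∀ x ∈ D, (N ^ m) (N x) ∈ P → N x ∈ P := fun m => by
      induction m with
      | zero => exact fun x _ h => h
      | succ m ih => exact fun x hx h => by_contra fun e => hh ⟨x, hx, e, ih _ (hD x hx) h⟩
    exact this n x hx (by simp [hn])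
  have k1 : ∀ u v, S.B (N u) v = -S.B (b u) (N v) := fun u v => by
    have := hb u v
    rw [eb v, PQ.B_add_right, eb u, PQ.B_add_left] at this
    rw [eb u]; linear_combination this
  obtain ⟨x, -, d0, hd⟩ := (k ⊥ ⊤ fun _ _ => trivial).resolve_left fun h => h1 (LinearEquiv.ext fun x => by
    simpa [eb] using h x trivial)
  rw [Submodule.mem_bot] at d0 hd
  set d := N x
  have qd : S.Q d = 0 := Q_of_B H.two (by simp [d, k1 x, hd])
  have pd : ∀ u, S.B (N u) d = 0 := fun u => by simp [k1, hd]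
  have k2 := (k (F ∙ d) (S.perp (F ∙ d)) fun u _ => S.mem_perp_span_singleton.2 (pd u)).resolve_right
    fun ⟨u, a1, a2, a3⟩ => a2 (A d _ qd d0 (Q_of_B H.two (by
      obtain ⟨c, hc⟩ := Submodule.mem_span_singleton.1 a3
      rw [k1, ← hc]; simp [eb, pd, S.mem_perp_span_singleton.1 a1])) (pd u))
  obtain ⟨e, he, hed⟩ := exists_partner H.nd qd d0
  have k3 : ∀ u, S.B u d = 0 → N u = S.B (N u) e • d := fun u hu => by
    obtain ⟨c, hc⟩ := Submodule.mem_span_singleton.1 (k2 u (S.mem_perp_span_singleton.2 hu))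
    simp [← hc, S.orth_B_swap e d, hed]
  have k4 : ∀ u, b u = u + S.B u d • N e - (S.B u (N e) + S.Q (N e) * S.B u d) • d := fun u => by
    have a1 := k3 (u - S.B u d • e) (by simp [hed])
    have a2 := k1 (u - S.B u d • e) e
    have a3 := k1 e e
    rw [eb, a1] at a2
    rw [map_sub, map_smul, sub_eq_iff_eq_add] at a1
    rw [eb, a1]
    simp only [eb e, PQ.B_add_left, PQ.B_sub_left, PQ.B_smul_left, S.B_comm_zero (pd e), S.orth_B_self,
      S.orth_B_swap e (N e), S.orth_B_swap e d, hed, map_sub, map_smul] at a2 a3 ⊢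
    match_scalars
    · ring
    · apply mul_left_cancel₀ H.two; linear_combination 2 * a2 + S.B u d * a3
    · ring
  refine ⟨d, N e, qd, d0, pd e, fun hQ => h1 (LinearEquiv.ext fun u => ?_), LinearEquiv.ext fun u => by
    rw [sg_apply qd (pd e), k4]⟩
  obtain ⟨c, hc⟩ := Submodule.mem_span_singleton.1 (A d _ qd d0 hQ (pd e))
  rw [k4, hQ, ← hc]; simp [smul_smul, mul_comm]

theorem bil [Finite F] (h2 : (2 : F) ≠ 0) (hS : S.Nondeg) (h3 : 3 ≤ finrank F W) {R : Type*} [AddCommGroup R]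
    [Module F R] {β : W →ₗ[F] W →ₗ[F] R} (h : ∀ a d, S.Q d = 0 → S.B a d = 0 → β a d = 0) :
    ∃ r, ∀ a u, β a u = S.B a u • r := by
  have k1 : ∀ a d e, S.Q d = 0 → S.B e d = 1 → β a d = S.B a d • β e d := fun a d e hd he => by
    simpa [sub_eq_zero] using h (a - S.B a d • e) d hd (by simp [he])
  have k2 : ∀ d e, S.Q d = 0 → S.Q e = 0 → S.B e d = 1 → β d e = β e d := fun d e hd he hed => by
    obtain ⟨y, a1, a2, hy⟩ := exists_ns_hyp hS h3 hd he (by simp [hed])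
    have key : ∀ y, S.B y e = 0 → S.B y d = 0 → ∀ a, β a (y + d - S.Q y • e) =
        S.B a (y + d - S.Q y • e) • β e (y + d - S.Q y • e) := fun y a1 a2 a => k1 a _ e (by
      simp [S.orth_Q_sub, S.orth_Q_add, S.orth_Q_smul, hd, he, a1, a2, S.orth_B_swap e d, hed]) (by
      simp [S.B_comm_zero a1, hed, B_self_zero he])
    have b1 := key y a1 a2 d
    have b2 := key (-y) (by simp [a1]) (by simp [a2]) d
    simp [S.B_comm_zero a2, B_self_zero hd, S.orth_B_swap e d, hed, S.orth_Q_neg, h d d hd (B_self_zero hd),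
      h e e he (B_self_zero he)] at b1 b2
    refine smul_right_injective R (mul_ne_zero h2 hy) ?_
    linear_combination (norm := module) -b1 - b2
  obtain ⟨d, -, h0, hd⟩ := exists_sing S (H := ⊤) (by rwa [finrank_top])
  obtain ⟨e, he, hed⟩ := exists_partner hS hd h0
  refine ⟨β e d, fun a u => ?_⟩
  have := top_of_ne h2 hS h3 (A := LinearMap.ker (β a - (S.lin a).smulRight (β e d))) hd h0 (fun x hx hxd => by
    have b1 := k2 d ((S.B x d)⁻¹ • x) hd (by simp [S.orth_Q_smul, hx]) (by simp [hxd])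
    have b2 := k1 a x ((S.B x d)⁻¹ • d) hx (by simp [S.orth_B_swap x d, hxd])
    have b3 := k1 x d e hd hed
    simp only [map_smul, LinearMap.smul_apply, b3, smul_smul, inv_mul_cancel₀ hxd, one_smul] at b1 b2
    simp [b2, ← b1, S.orth_B_swap x a, smul_smul]) u
  simpa [sub_eq_zero, S.orth_B_swap a u] using this

end Cfsg.Agent.H1.O8a
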