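import Cfsg.Agent.H1.O8a

/-!
Extraction of pure elements for orthogonal factors of even dimension.
-/

set_option autoImplicit false
set_option linter.unusedSectionVars false
set_option linter.unusedSimpArgs false

namespace Cfsg.Agent.H1.O8b

open Module Cfsg.Agent.H7 Cfsg.Agent.Form Cfsg.Agent.H3.TenLin Cfsg.Agent.H3.TenSL Cfsg.Agent.H3.TenSU
  Cfsg.Agent.H3.TenGen Cfsg.Agent.H3.RootGeo Cfsg.Agent.H3.OrthLem Cfsg.Agent.H3.TenO1 Cfsg.Agent.H3.TenSpSp
  Cfsg.Agent.H9.FClass Cfsg.Agent.H1.C7d Cfsg.Agent.H1.C7j Cfsg.Agent.H1.C7k Cfsg.Agent.H1.C7n Cfsg.Agent.H1.O7a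
  Cfsg.Agent.H1.O7b Cfsg.Agent.H1.O7c Cfsg.Agent.H3.TenO2 Cfsg.Agent.H1.O8a
open scoped Pointwise

variable {F : Type*} [Field F] {W : Type*} [AddCommGroup W] [Module F W] [FiniteDimensional F W]
  {S : PQ (FP.orth F) W} {R : Type*} [Ring R] [Algebra F R] {I : Type*} [DecidableEq I]

variable [Finite F]

theorem up' (H : OE S) {J : AddSubgroup (End F W)}
    (hJ : ∀ g ∈ Om S, ∀ X ∈ J, cj g X ∈ J) {t : End F W} (ht : t ∈ Tv S) (h : t ∈ J) {d a : W} (hd' : S.Q d = 0)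
    (ha : S.B a d = 0) (c : F) : c • wg S d a ∈ J := by
  have h3 := H.three
  have h2 := H.two
  have hS := H.nd
  let Z : Submodule F (End F W) :=
    { carrier := {X | ∀ c : F, c • X ∈ J}
      add_mem' := fun h h' c => by rw [smul_add]; exact add_mem (h c) (h' c)
      zero_mem' := fun c => by simp
      smul_mem' := fun s X h c => by rw [smul_smul]; exact h _ }
  have hZ : ∀ g ∈ Om S, ∀ X ∈ Z, cj g X ∈ Z := fun g hg X hX c => by rw [← cj_smul]; exact hJ g hg _ (hX c)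
  obtain ⟨f, b, hf, f0, hb, hbf, rfl⟩ := ht
  obtain ⟨e, he, hef⟩ := exists_partner hS hf f0
  obtain ⟨b, hb, hbe, hbf, h⟩ : ∃ b, S.B b f = 0 ∧ S.B b e = 0 ∧ b ≠ 0 ∧ wg S f b ∈ J :=
    ⟨b - S.B b e • f, by simp [hb, B_self_zero hf], by simp [S.orth_B_swap e f, hef], fun e => hbf (by
      rw [sub_eq_zero.1 e]; exact Submodule.smul_mem _ _ (Submodule.mem_span_singleton_self _)), by
      convert h using 1; ext; simp; module⟩
  obtain ⟨y, a1, s, hs, a2⟩ : ∃ y, S.B y e = 0 ∧ ∃ s : F, s ≠ 0 ∧ S.Q y • b - S.B y b • y = s • b := by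
    by_cases hQ : S.Q b = 0
    · obtain ⟨y, a1, a2, a3⟩ := exists_ns₂ hS (H.dim'.resolve_right fun h4 => by
        obtain ⟨c, rfl⟩ := Submodule.mem_span_singleton.1 (h4.2 f b hf f0 hQ hb)
        simp [S.orth_B_swap e f, hef] at hbe
        simp [hbe] at hbf) e b
      exact ⟨y, a1, _, a3, by simp [a2]⟩
    · exact ⟨b, hbe, -S.Q b, by simpa, by rw [S.orth_B_self]; module⟩
  have k1 : ∀ c : F, (c * c) • wg S ((2 * s) • b) e ∈ J := fun c => by
    have := sub_mem (add_mem (hJ _ (sg_mem_Om h2 hS h3 e (c • y)) _ h) (hJ _ (sg_mem_Om h2 hS h3 e (-(c • y))) _ h))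
      (add_mem h h)
    rw [← two_smul F (wg S f b), Sy_skew he (by simp [a1]) (fun _ _ => by simp [S.orth_B_swap b, S.orth_B_swap f]; ring)
      (fun x => by simp [S.orth_B_swap b, S.orth_B_swap f, mul_comm])] at this
    convert this using 1
    have e1 : wg S f b e = b := by simp [hef, S.B_comm_zero hbe]
    have e2 : S.Q (c • y) • b - S.B (c • y) b • c • y = (c * c * s) • b := by
      rw [mul_smul, ← a2]; simp [S.orth_Q_smul]; module
    rw [e1, e2]; ext; simp; module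
  obtain ⟨d₁, e₁, b1, -, b2, b3, -⟩ := skew_extract h2 hS h3 (fun h4 => (H.dim.resolve_left (by omega)).2) Z (fun u v => hZ _ (sg_mem_Om h2 hS h3 u v))
    (X := wg S ((2 * s) • b) e) (fun c => by
      have := sub_mem (k1 ((c + 1) / 2)) (k1 ((c - 1) / 2))
      rwa [← sub_smul, show (c + 1) / 2 * ((c + 1) / 2) - (c - 1) / 2 * ((c - 1) / 2) = c by field_simp; ring] at this)
    (fun e0 => by simpa [S.orth_B_swap e f, hef, S.B_comm_zero hb, h2, hs, hbf] using LinearMap.congr_fun e0 f)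
    (fun _ _ => by simp [S.orth_B_swap b, S.orth_B_swap e]; ring)
  by_cases d0 : d = 0
  · rw [show wg S d a = 0 by ext; simp [d0]]; simp
  obtain ⟨g, hg, r, hr, e1⟩ := move hS h3 b1 hd' (by rintro rfl; simp at b2) d0
  obtain ⟨a, rfl⟩ := g.surjective a
  have := hZ g hg _ (b3 a (by rw [← PQ.B_isom (Om_le S hg), e1]; simp [ha])) (-(c / r))
  rw [cj_wg (Om_le S hg), e1] at this
  convert this using 1
  ext; simp; match_scalars <;> field_simp

variable {G : Subgroup (W ≃ₗ[F] W)}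

theorem ex4 (H : OE S) (h4 : finrank F W = 4) {ι : End F W →ₐ[F] R} {Z : AddSubgroup R} {X : R}
    (hG : ∀ d y, sg S d y ∈ G) (h : Cj G ι Z) (hX : X ∈ Z) (hn : ¬ Cm ι X) :
    (∃ d, S.Q d = 0 ∧ d ≠ 0 ∧ ∃ c : F, c ≠ 0 ∧ bt S ι X d d ≠ 0 ∧ c • (ι (rk S d d) * bt S ι X d d) ∈ Z) ∨
      ∃ d e y z, Fr S d e y z ∧ bt S ι X y d ≠ 0 ∧
        ι (wg S d y) * bt S ι X y d - (S.Q y / S.Q z) • (ι (wg S d z) * bt S ι X z d) ∈ Z := by
  have h2 := H.two
  set β := bt S ι X with hβ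
  by_cases hA : ∃ d, S.Q d = 0 ∧ β d d ≠ 0
  · obtain ⟨d, hd, hb⟩ := hA
    have h0 : d ≠ 0 := by rintro rfl; simp at hb
    obtain ⟨e, y, z, f⟩ := H.fr hd h0
    have hy := f.yd
    have hz := f.zd
    have a1 := dd_mem hG h hX hd hy
    refine Or.inl ⟨d, hd, h0, 8 * S.Q y * S.Q z, by
      rw [show (8 : F) = 2 * 2 * 2 by norm_num]; simp [h2, f.qy, f.qz], hb, ?_⟩
    have e1 : wg S d z * wg S d y = 0 := by ext; simp [f.all]
    have e2 : rk S d d * rk S d d = 0 := by ext; simp [B_self_zero hd]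
    have e3 := congrArg ι (wg_mul_rk hd hz)
    have e4 := congrArg ι (rk_mul_wg hd hz)
    have e5 := congrArg ι (wg_mul_rk hd hy)
    have e6 := congrArg ι (rk_mul_wg hd hy)
    have e7 : wg S d y * wg S d z = 0 := by ext; simp [f.all]
    replace e1 := congrArg ι e1
    replace e2 := congrArg ι e2
    rw [map_mul, map_zero] at e1 e2 e3 e4 e5 e6
    convert dd_mem hG h a1 hd hz using 1
    rw [hβ, ← rk_bt]
    simp only [mul_add, add_mul, mul_sub, sub_mul, smul_mul_assoc, mul_smul_comm, ← mul_assoc, e1, e2, e3, e6,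
      zero_mul, smul_zero]
    simp only [mul_assoc, e2, e4, e5, mul_zero, smul_zero]
    module
  push Not at hA
  refine Or.inr (by_contra fun hc => hn (cm_of_bt h2 H.nd H.three fun a d hd ha => ?_))
  by_cases h0 : d = 0
  · simp [h0]
  have k : ∀ e y z, Fr S d e y z → β y d = 0 := fun e y z f => by_contra fun hb => hc ⟨d, e, y, z, f, hb, by
    have e0 : ι (wg S d y) * X * ι (wg S d y) = ι (rk S d y) * β d y - ι (rk S y y) * β d d -
        ι (rk S d d) * β y y + ι (rk S y d) * β y d := by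
      simp only [wg, map_sub, mul_sub, sub_mul, rk_bt, hβ]; abel
    have key : ∀ v, S.B v d = 0 → S.B v e = 0 → β v v = S.Q v • (β d e + β e d) ∧
        β v d + β d v = S.Q v • (β v e + β e v) := fun v a2 a1 => by
      have b1 := hA (v + d - S.Q v • e) (by simp [S.orth_Q_sub, S.orth_Q_add, S.orth_Q_smul, a1, a2, f.all])
      have b2 := hA (v - d + S.Q v • e) (by simp [S.orth_Q_sub, S.orth_Q_add, S.orth_Q_smul, a1, a2, f.all])
      simp only [map_add, map_sub, map_smul, LinearMap.add_apply, LinearMap.sub_apply, LinearMap.smul_apply,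
        hA d hd, hA e f.qe, smul_zero] at b1 b2
      exact ⟨smul_right_injective R h2 (by linear_combination (norm := module) b1 + b2),
        smul_right_injective R h2 (by linear_combination (norm := module) b1 - b2)⟩
    have b1 := (key y f.yd f.ye).1
    have c1 := (key y f.yd f.ye).2
    have c2 := (key z f.zd f.ze).2
    have c3 := (key (y + z) (by simp [f.all]) (by simp [f.all])).2
    have c4 := (key (y - z) (by simp [f.all]) (by simp [f.all])).2
    simp only [map_add, map_sub, LinearMap.add_apply, LinearMap.sub_apply, S.orth_Q_add, S.orth_Q_sub, f.all,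
      add_zero, sub_zero] at c3 c4
    have b2 : β d y = -β y d := smul_right_injective R (mul_ne_zero h2 f.qz) (by
      linear_combination (norm := module) (2 * (S.Q y + S.Q z)) • c1 - S.Q y • (c3 + c4))
    have b3 : β d z = -β z d := smul_right_injective R (mul_ne_zero h2 f.qy) (by
      linear_combination (norm := module) (2 * (S.Q y + S.Q z)) • c2 - S.Q z • (c3 - c4))
    convert dd_mem hG h hX hd f.yd using 1
    have e2 : ι (rk S d d) * X = ι (rk S d d) * X * ι 1 := by simp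
    have e3 : X * ι (rk S d d) = ι 1 * X * ι (rk S d d) := by simp
    have := f.qy
    have := f.qz
    rw [e0, rk_bt, e2, e3, f.one h2 h4]
    simp only [map_add, map_smul, mul_add, add_mul, smul_mul_assoc, mul_smul_comm, rk_bt, ← hβ, hA d hd, b1, b2, b3,
      wg, map_sub, sub_mul, mul_neg, mul_zero]
    match_scalars <;> field_simp <;> ring⟩
  obtain ⟨e, y, z, f⟩ := H.fr hd h0
  rw [f.dec h2 h4 a]
  simp [ha, ← hβ, hA d hd, k e y z f, k e z y f.symm]

theorem Fr.tv {d e y z : W} (f : Fr S d e y z) (h2 : (2 : F) ≠ 0) {s : F} (hs : s ≠ 0) (t : F) :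
    wg S d (s • y + t • z) ∈ Tv S := ⟨d, _, f.qd, f.ne, by simp [f.all], fun hm => by
  obtain ⟨c, hc⟩ := Submodule.mem_span_singleton.1 hm
  simpa [f.all, h2, hs, f.qy] using congrArg (S.B · y) hc, rfl⟩

theorem ex_of (H : OE S) (hG : Om S ≤ G) {ι : End F W →ₐ[F] R}
    (h : (∀ z, rl S z ∈ G) ∨ ∀ X, Cm ι X → ∃ c : F, X = c • 1) : Ex G Set.univ (Ty S) ι := by
  rcases H.dim with h5 | ⟨h4, -⟩
  · exact fun Z h1 => (H.ow h5).ex (K := Set.univ) (fun _ => trivial) ι Z fun g hg => h1 g (hG hg)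
  intro Z h1 h2 X hX hn
  have fin : ∀ t ∈ Tp S ∪ Tv S, ∀ (c : F) a d, c ≠ 0 → bt S ι X a d ≠ 0 → c • (ι t * bt S ι X a d) ∈ Z →
      ∃ T ∈ Ty S, ∃ t ∈ T, ∃ Y, Y ≠ 0 ∧ Cm ι Y ∧ (∀ C, Commute C X → Cm ι C → Commute C Y) ∧ ι t * Y ∈ Z :=
    fun t ht c a d hc h0 h1 => ⟨_, ⟨t, ht, rfl⟩, t, ⟨1, one_mem _, rfl⟩, c • bt S ι X a d, smul_ne_zero hc h0,
      (cm_bt ι X a d).smul c, fun C b1 b2 => (comm_bt b1 b2 a d).smul_right c, by rwa [mul_smul_comm]⟩
  rcases ex4 H h4 (fun d y => hG (H.sg d y)) h1 hX hn with ⟨d, a1, a2, c, a3, a4, a5⟩ | ⟨d, e, y, z, f, a1, a2⟩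
  · exact fin _ (Or.inl ⟨d, a1, a2, rfl⟩) c d d a3 a4 a5
  rcases h with h | h
  · refine fin (wg S d y) (Or.inr (by simpa using Fr.tv f H.two one_ne_zero 0)) 2 y d H.two a1 ?_
    have k : ∀ a b, ι (rl S z) * (ι (wg S d a) * bt S ι X b d) * ι (rl S z).symm =
        ι (wg S d (rl S z a)) * bt S ι X b d := fun a b => by
      rw [mul_assoc, mul_assoc, (cm_bt ι X b d _).eq, ← mul_assoc, ← mul_assoc, ← map_mul, ← map_mul, cj_eq,
        cj_wg (rl_mem z)]
      simp [rl_apply, f.all]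
    convert add_mem a2 (h1 _ (h z) _ a2) using 1
    rw [mul_sub, sub_mul, mul_smul_comm, smul_mul_assoc, k, k, show rl S z z = -z by
      simp [rl_apply, f.all, f.qz]; module, show rl S z y = y by simp [rl_apply, f.all], wg_neg, map_neg, neg_mul]
    module
  · obtain ⟨s, hs⟩ := h _ (cm_bt (S := S) ι X y d)
    obtain ⟨t, ht⟩ := h _ (cm_bt (S := S) ι X z d)
    have s0 : s ≠ 0 := by rintro rfl; simp [hs] at a1
    refine fin _ (Or.inr (Fr.tv f H.two s0 (-(S.Q y / S.Q z * t)))) s⁻¹ y d (inv_ne_zero s0) a1 ?_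
    convert a2 using 1
    rw [show wg S d (s • y + -(S.Q y / S.Q z * t) • z) = s • wg S d y - (S.Q y / S.Q z * t) • wg S d z by
      ext; simp; module, hs, ht]
    simp only [map_sub, map_smul, mul_smul_comm, mul_one]
    match_scalars <;> field_simp

theorem span_ty' (H : OE S) {T : Set (End F W)} (hT : T ∈ Ty S) : Submodule.span F (T * T * (T * T)) = ⊤ := by
  obtain ⟨t, ht, rfl⟩ := hT
  set B := Submodule.span F (Ob S t)
  have hB : ∀ g ∈ Om S, ∀ X ∈ B, cj g X ∈ B := fun g hg X hX => by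
    induction hX using Submodule.span_induction with
    | mem x hx => obtain ⟨k, hk, rfl⟩ := hx; exact Submodule.subset_span ⟨g * k, mul_mem hg hk, rfl⟩
    | zero => rw [show cj g 0 = 0 by ext; simp]; exact B.zero_mem
    | add x y _ _ h1 h2 => rw [cj_add]; exact add_mem h1 h2
    | smul c x _ h => rw [cj_smul]; exact B.smul_mem c h
  have h1 : t ∈ B := Submodule.subset_span ⟨1, one_mem _, rfl⟩
  have h2 : Submodule.span F (Tp S) ≤ B * B := by
    rcases ht with ⟨d, a1, a2, rfl⟩ | ht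
    · have h3 : Submodule.span F (Tp S) ≤ B := Submodule.span_le.2 (by
        rintro _ ⟨e, b1, b2, rfl⟩
        obtain ⟨g, hg, c, hc, e1⟩ := move H.nd H.three a1 b1 a2 b2
        have := hB g hg _ h1
        rw [cj_rk (Om_le S hg), e1, show rk S (c • e) (c • e) = (c * c) • rk S e e by ext; simp [smul_smul]; ring_nf,
          B.smul_mem_iff (mul_ne_zero hc hc)] at this
        exact this)
      refine le_top.trans ((span_Tp H.two H.nd H.three).ge.trans ?_)
      rw [← Submodule.span_mul_span]; exact mul_le_mul' h3 h3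
    · refine Submodule.span_le.2 ?_
      rintro _ ⟨d, b1, b2, rfl⟩
      obtain ⟨y, hy, hQ⟩ := exists_ns₁ H.nd H.three d
      have h3 : wg S d y ∈ B := by
        simpa using up' H (J := B.toAddSubgroup) hB ht h1 b1 hy 1
      have := Submodule.mul_mem_mul h3 h3
      rwa [wg_sq b1 hy, Submodule.smul_mem_iff _ (by simp [H.two, hQ])] at this
  rw [eq_top_iff, ← span_Tp H.two H.nd H.three, ← Submodule.span_mul_span, ← Submodule.span_mul_span,
    ← Submodule.span_mul_span]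
  exact mul_le_mul' h2 h2

theorem tr_G (hG : Om S ≤ G) (t : End F W) : Tr G Set.univ (Ob S t) := fun a ha b hb =>
  (tr_Ob (K := Set.univ) trivial t a ha b hb).imp fun _ h => ⟨hG h.1, h.2⟩

variable {ι : I → End F W →ₐ[F] R} (hc : ∀ i j, i ≠ j → ∀ a, Cm (ι j) (ι i a))
  (hs : ∀ X, (∀ i, Cm (ι i) X) → ∃ c : F, X = c • 1)
include hc hs

theorem mem_of_pu4' (H : OE S) {l : List (I × Set (End F W))} (hl : (l.map Prod.fst).Nodup) (h : ∀ p ∈ l, p.2 ∈ Ty S)
    {A : Submodule F R} (hA : ∀ H₁ ∈ Pu ι l, ∀ H₂ ∈ Pu ι l, ∀ H₃ ∈ Pu ι l, ∀ H₄ ∈ Pu ι l, H₁ * H₂ * (H₃ * H₄) ∈ A)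
    {X : R} (hX : ∀ i ∉ l.map Prod.fst, Cm (ι i) X) : X ∈ A := by
  refine mem_of_pu hc hs (l := (l.map fun p => (p.1, p.2 * p.2)).map fun p => (p.1, p.2 * p.2)) (fun p hp => ?_)
    (fun Y hY => ?_) (by simpa [Function.comp_def] using hX)
  · simp only [List.map_map, List.mem_map] at hp
    obtain ⟨q, hq, rfl⟩ := hp
    exact span_ty' H (h q hq)
  · obtain ⟨Y₁, a1, Y₂, a2, rfl⟩ := pu_sq hc (by simpa [Function.comp_def] using hl) hY
    obtain ⟨H₁, b1, H₂, b2, rfl⟩ := pu_sq hc hl a1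
    obtain ⟨H₃, b3, H₄, b4, rfl⟩ := pu_sq hc hl a2
    exact hA _ b1 _ b2 _ b3 _ b4

variable [Fintype I] (H : OE S) (hG : Om S ≤ G) (ex : ∀ i, Ex G Set.univ (Ty S) (ι i))
include H hG ex

theorem exists_fac' {J : Subalgebra F R} (hJ : ∀ j, Cj G (ι j) J.toSubring.toAddSubgroup) {X : R}
    (hX : X ∈ J) (hn : ∀ c : F, X ≠ c • 1) : ∃ j, ∀ m, ι j m ∈ J := by
  have hR : Re Set.univ J.toSubring.toAddSubgroup := fun a _ X hX => J.smul_mem hX a
  obtain ⟨l, a1, a2, a3, Y, a4, c, a5, a6⟩ := exists_pu hc hs ex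
    Finset.univ _ (fun j _ => hJ j) hR X hX (by simpa using hn 0) (by simp)
  have k : ∀ Y ∈ Pu ι l, Y ∈ J := fun Y' hY => by
    have : c • Y' ∈ J := pu_trans hc a1 (fun p hp => ⟨by obtain ⟨t, -, e⟩ := (a2 p hp).2; exact e ▸ tr_G hG t,
      hJ _⟩) hR a4 hY a6
    simpa [smul_smul, a5] using J.smul_mem this c⁻¹
  obtain ⟨p, hp⟩ := List.exists_mem_of_ne_nil l fun e => (a3 e).elim fun c e => hn c e
  exact ⟨p.1, fun m => mem_of_pu4' hc hs H a1 (fun p hp => (a2 p hp).2) (A := Subalgebra.toSubmodule J)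
    (fun _ b1 _ b2 _ b3 _ b4 => J.mul_mem (J.mul_mem (k _ b1) (k _ b2)) (J.mul_mem (k _ b3) (k _ b4)))
    fun i hi => hc _ _ (by rintro rfl; exact hi (List.mem_map_of_mem hp)) m⟩

theorem exists_pair' [Nontrivial R] {Z : AddSubgroup R} (hZ : ∀ j, Cj G (ι j) Z)
    (hR' : Re (Set.univ : Set F) Z) (st : R → R) (s1 : st 1 = 1) (s2 : ∀ X Y, st (X * Y) = st Y * st X)
    (s3 : ∀ j d, st (ι j (rk S d d)) = ι j (rk S d d)) (s4 : ∀ (c : F) X, c ≠ 0 → c • X ∈ Z → st X = -X) {X : R}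
    (hX : X ∈ Z) (h0 : X ≠ 0) : ∃ X Y : R, (∀ c : F, c • X ∈ Z) ∧ (∀ c : F, c • Y ∈ Z) ∧ Y * X * Y = 0 ∧
      ∀ c : F, X * Y ≠ c • 1 := by
  obtain ⟨l, a1, a2, -, Y, a4, c, a5, a6⟩ := exists_pu hc hs ex
    Finset.univ _ (fun j _ => hZ j) hR' X hX h0 (by simp)
  have nz : ∀ p ∈ l, ∀ t ∈ p.2, t ≠ 0 := fun p hp t => ne_zero_of_ty H.nd (a2 p hp).2
  obtain ⟨p, hp, t, ht, e⟩ : ∃ p ∈ l, ∃ t ∈ Tv S, p.2 = Ob S t := by
    by_contra hh
    have k : ∀ l' : List (I × Set (End F W)), l' ⊆ l → (l'.map Prod.fst).Nodup → ∀ Y ∈ Pu ι l', st Y = Y := by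
      intro l'
      induction l' with
      | nil => rintro - - _ rfl; exact s1
      | cons q l' ih =>
        rintro b1 b2 _ ⟨t, ht, Y, hY, rfl⟩
        rw [List.map_cons, List.nodup_cons] at b2
        obtain ⟨s, hs | hs, e⟩ := (a2 q (b1 (by simp))).2
        · obtain ⟨g, hg, rfl⟩ : t ∈ Ob S s := e ▸ ht
          obtain ⟨d, -, -, e'⟩ := cj_mem_Tp (Om_le S hg) hs
          rw [s2, e', s3, ih (fun x hx => b1 (by simp [hx])) b2.2 Y hY, (Pu.cm hc b2.1 hY _).eq]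
        · exact (hh ⟨q, b1 (by simp), s, hs, e⟩).elim
    have := (k l (fun _ h => h) a1 Y a4).symm.trans (s4 c Y a5 a6)
    exact pu_ne hc a1 nz a4 (smul_right_injective R H.two (by linear_combination (norm := module) this))
  obtain ⟨l₀, b1, b2, s, hs', H₀, b3, rfl⟩ := pu_split hc a1 hp a4
  rw [List.map_cons, List.nodup_cons] at b1
  obtain ⟨g, hg, rfl⟩ : s ∈ Ob S t := e ▸ hs'
  obtain ⟨d, -, d0, hd⟩ := exists_sing S (H := ⊤) (by rw [finrank_top]; exact H.three)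
  obtain ⟨y, hy, hQ⟩ := exists_ns₁ H.nd H.three d
  have k : ∀ H' ∈ Pu ι l₀, ∀ a : F, a • (ι p.1 (wg S d y) * H') ∈ Z := fun H' h' a => by
    have c1 := up' H
      (J := Z.comap ((AddMonoidHom.mulRight (c • H₀)).comp (ι p.1).toRingHom.toAddMonoidHom)) (fun g hg X hX => by
        convert hZ p.1 g (hG hg) _ hX using 1
        simp [← cj_eq, mul_assoc, (Pu.cm hc b1.1 b3 _).eq]) (cj_mem_Tv (Om_le S hg) ht) (by simpa using a6) hd hy
      (a / c)
    simpa [smul_smul, mul_div_cancel₀ _ a5] using pu_trans hc (Z := Z.comap (AddMonoidHom.mulLeft (ι p.1 ((a / c) • wg S d y)))) b1.2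
      (fun q hq => ⟨by obtain ⟨t, -, e⟩ := (a2 q (b2 hq)).2; exact e ▸ tr_G hG t,
        (hZ _).comap (hc _ _ (by rintro e; exact b1.1 (e ▸ List.mem_map_of_mem hq)) _)⟩) (hR'.comap _) b3 h' c1
  obtain ⟨H₁, c1, c2⟩ : ∃ H' ∈ Pu ι l₀, H₀ * H' ≠ 0 := by
    by_contra hh
    push Not at hh
    simpa [pu_ne hc b1.2 (fun q hq => nz q (b2 hq)) b3] using mem_of_pu4' hc hs H b1.2 (fun q hq => (a2 q (b2 hq)).2)
      (A := LinearMap.ker (LinearMap.mulLeft F H₀)) (fun _ h _ _ _ _ _ _ => by simp [← mul_assoc, hh _ h])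
      (X := 1) fun i _ => cm_one _
  have m0 := Pu.cm hc b1.1 b3
  have m1 := Pu.cm hc b1.1 c1
  have e1 : ι p.1 (wg S d y) * H₀ * (ι p.1 (wg S d y) * H₁) = ι p.1 (-(2 * S.Q y) • rk S d d) * (H₀ * H₁) := by
    rw [← wg_sq hd hy, map_mul, mul_assoc, ← mul_assoc H₀, (m0 _).eq]; simp only [mul_assoc]
  refine ⟨_, _, k H₀ b3, k H₁ c1, ?_, fun a e => ?_⟩
  · rw [mul_assoc, e1, mul_assoc, ← mul_assoc H₁, (m1 _).eq]
    simp only [← mul_assoc, ← map_mul]
    simp [wg_mul_rk hd hy]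
  · have e2 : (a • 1 : R) * (a • 1) = 0 := by
      rw [← e, e1, mul_assoc, ← mul_assoc (H₀ * H₁), ((m0.mul m1) _).eq]
      simp only [← mul_assoc, ← map_mul]
      simp [rk_mul, B_self_zero hd]
    obtain rfl : a = 0 := by simpa [smul_smul] using e2
    obtain ⟨x, hx⟩ := H.nd.exists_eq d0 1
    rw [e1, zero_smul] at e
    exact c2 (cancel (m0.mul m1) (fun e => by simpa [hx, H.two, hQ, d0] using LinearMap.congr_fun e x) e)

theorem ss' [Nontrivial R] {C : Set R} (hC : ∀ j, ∀ g ∈ G, ∀ Y ∈ C, ι j g * Y * ι j g.symm ∈ C)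
    (h : ∀ X ∈ C, ∀ Y ∈ C, X * Y = Y * X) {X : R} (hX : X ∈ C) : ∃ c : F, X = c • 1 := by
  have k : ∀ C : Set R, (∀ j, ∀ g ∈ G, ∀ Y ∈ C, ι j g * Y * ι j g.symm ∈ C) → ∀ j, ∀ g ∈ G,
      ∀ Y ∈ Subalgebra.centralizer F C, ι j g * Y * ι j g.symm ∈ Subalgebra.centralizer F C := by
    intro C hC j g hg Y hY Z hZ
    have := congrArg (fun x => ι j g * x * ι j g.symm) (hY _ (hC j g⁻¹ (inv_mem hg) Z hZ))
    simp only [LinearEquiv.coe_inv, LinearEquiv.symm_symm, ← mul_assoc] at this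
    change ι j g * ι j g.symm * Z * ι j g * Y * ι j g.symm = ι j g * Y * ι j g.symm * Z * ι j g * ι j g.symm at this
    rw [(ι_cancel _ g).1, one_mul, mul_assoc (_ * Z) (ι j g), (ι_cancel _ g).1, mul_one] at this
    simpa only [mul_assoc] using this
  by_contra hn
  push Not at hn
  obtain ⟨j, hj⟩ := exists_fac' hc hs H hG ex (J := Subalgebra.centralizer F C ⊓
    Subalgebra.centralizer F (Subalgebra.centralizer F C : Set R))
    (fun j g hg Y hY => ⟨k C hC j g hg Y hY.1, k _ (k C hC) j g hg Y hY.2⟩) (X := X)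
    ⟨fun Y hY => h Y hY X hX, fun Y hY => (hY X hX).symm⟩ hn
  obtain ⟨d, -, d0, hd⟩ := exists_sing S (H := ⊤) (by rw [finrank_top]; exact H.three)
  obtain ⟨e, he, hed⟩ := exists_partner H.nd hd d0
  refine one_ne_zero (cancel (cm_one (ι j)) (t := rk S d d * rk S e e - rk S e e * rk S d d) (fun e0 => ?_) ?_)
  · simpa [B_self_zero hd, hed, S.orth_B_swap e d, d0] using LinearMap.congr_fun e0 d
  · rw [map_sub, map_mul, map_mul, (hj _).2 _ (hj _).1, sub_self, zero_mul]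

theorem sc_of_comm' [Nontrivial R] {X : R} (h : ∀ j, ∀ g ∈ G, ι j g * X = X * ι j g) :
    ∃ c : F, X = c • 1 :=
  ss' hc hs H hG ex (C := {X}) (by
    rintro j g hg _ rfl
    rw [h j g hg, mul_assoc, (ι_cancel _ g).1, mul_one]; rfl) (by rintro _ rfl _ rfl; rfl) rfl

end Cfsg.Agent.H1.O8b
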