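import Cfsg.Agent.H1.O8b
import Cfsg.Agent.H1.O7l

/-!
Tensor powers of orthogonal spaces of even dimension: levels.
-/

set_option autoImplicit false
set_option linter.unusedSectionVars false
set_option linter.unusedSimpArgs false

namespace Cfsg.Agent.H1.O8c

open Module Cfsg.Agent.H7 Cfsg.Agent.Form Cfsg.Agent.H3.TenLin Cfsg.Agent.H3.TenSL Cfsg.Agent.H3.TenSU
  Cfsg.Agent.H3.TenGen Cfsg.Agent.H3.RootGeo Cfsg.Agent.H3.OrthLem Cfsg.Agent.H3.TenO1 Cfsg.Agent.H3.TenSpSp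
  Cfsg.Agent.H3.TenForm Cfsg.Agent.H3.TenPar Cfsg.Agent.H3.TenGlue Cfsg.Agent.H3.TenO2
  Cfsg.Agent.H9.FClass Cfsg.Agent.H1.C7j Cfsg.Agent.H1.O7a Cfsg.Agent.H1.O7b Cfsg.Agent.H1.O7c Cfsg.Agent.H1.O7i
  Cfsg.Agent.H1.O8a Cfsg.Agent.H1.O8b
open Cfsg.Agent.H1.O7d (cj_of_eq om_of_skew hasE_conj Hs)

variable {F : Type*} [Field F] {V : Type*} [AddCommGroup V] [Module F V]
  {U : Type*} [AddCommGroup U] [Module F U] {W : Type*} [AddCommGroup W] [Module F W]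
  [FiniteDimensional F U] [FiniteDimensional F W] [FiniteDimensional F V]
  {S₁ : PQ (FP.orth F) U} {S₂ : PQ (FP.orth F) W} {S : PQ (FP.orth F) V}
  {τ : U →ₗ[F] W →ₗ[F] V} {h : TF S₁ S₂ S τ} {M : Subgroup (V ≃ₗ[F] V)}
  {J : Type*} [DecidableEq J] [Fintype J] {ι : J → End F W →ₐ[F] End F U}

theorem symm_of_eq {κ : End F W →ₐ[F] End F U} {a : U ≃ₗ[F] U} {g : W ≃ₗ[F] W} (e : (a : End F U) = κ g) :
    (a.symm : End F U) = κ g.symm := by
  rw [← one_mul (κ g.symm), show (1 : End F U) = (a.symm : End F U) * a from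
    (LinearMap.ext a.symm_apply_apply).symm, e, mul_assoc, (ι_cancel κ g).1, mul_one]

/-- the elements acting on all other factors -/
def Gf (τ : U →ₗ[F] W →ₗ[F] V) (ι : J → End F W →ₐ[F] End F U) (M : Subgroup (V ≃ₗ[F] V)) :
    Subgroup (W ≃ₗ[F] W) where
  carrier := {g | ∀ j, ∃ a ∈ snd τ.flip M, (a : End F U) = ι j g}
  one_mem' j := ⟨1, one_mem _, (map_one (ι j)).symm⟩
  mul_mem' {g k} hg hk j := by
    obtain ⟨a, a1, a2⟩ := hg j
    obtain ⟨b, b1, b2⟩ := hk j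
    exact ⟨_, mul_mem a1 b1, by
      change (a : End F U) * b = ι j ((g : End F W) * k)
      rw [a2, b2, map_mul]⟩
  inv_mem' hg j := (hg j).elim fun _ a => ⟨_, inv_mem a.1, symm_of_eq a.2⟩

/-- the standing hypotheses at one factor -/
structure LH (h : TF S₁ S₂ S τ) (ι : J → End F W →ₐ[F] End F U) (M : Subgroup (V ≃ₗ[F] V)) : Prop where
  oe : OE S₂
  dU : 3 ≤ finrank F U
  bis : M ≤ bis S
  snd : Om S₂ ≤ snd τ M
  hc : ∀ i j, i ≠ j → ∀ a, Cm (ι j) (ι i a)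
  hs : ∀ X, (∀ i, Cm (ι i) X) → ∃ c : F, X = c • 1
  sa : ∀ j m, adj h.nd₁ (ι j m) = ι j (adj h.nd₂ m)
  fst : Om S₂ ≤ Gf τ ι M
  alt : (∀ z, rl S₂ z ∈ H3.TenForm.snd τ M ⊓ Gf τ ι M) ∨ Nonempty J ∧ ∀ j X, Cm (ι j) X → ∃ c : F, X = c • 1

/-- the multiplier algebra -/
def As (h : TF S₁ S₂ S τ) (M : Subgroup (V ≃ₗ[F] V)) : Subalgebra F (End F U) where
  carrier := {n | ∀ η ∈ Hs h M, n * η ∈ Hs h M}
  mul_mem' a b η hη := by rw [mul_assoc]; exact a _ (b _ hη)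
  add_mem' a b η hη := by rw [add_mul]; exact add_mem (a _ hη) (b _ hη)
  algebraMap_mem' c η hη := by rw [← Algebra.smul_def]; exact Submodule.smul_mem _ c hη

namespace LH
variable [Finite F] [Nontrivial U] (H : LH h ι M)
include H

theorem ex (j : J) : Ex (Gf τ ι M) Set.univ (Ty S₂) (ι j) :=
  ex_of H.oe H.fst (H.alt.imp (fun a z => (a z).2) fun a => a.2 j)

theorem eT_mem (w y : W) : eT h w y ∈ M := by
  obtain ⟨g, hg, e⟩ := H.snd (H.oe.sg w y)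
  rwa [h.eq_of_tens (g := eT h w y) (k := g) fun u z => by rw [eT_tmul, e]]

theorem fst_isom {a : U ≃ₗ[F] U} (ha : a ∈ H3.TenForm.snd τ.flip M) : a ∈ S₁.isom := by
  have : Nontrivial W := Module.nontrivial_of_finrank_pos (R := F) (by have := H.oe.three; omega)
  obtain ⟨g, hg, e⟩ := ha
  exact isom_of_bis H.oe.two (h.flip.snd_bis (H.bis hg) e)

theorem As_cj (j : J) : Cj (Gf τ ι M) (ι j) (As h M).toSubring.toAddSubgroup := fun g hg n hn η hη => by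
  have hc : ∀ a ∈ H3.TenForm.snd τ.flip M, ∀ η ∈ Hs h M, cj a η ∈ Hs h M := fun a ha η hη w y hw hy => by
    obtain ⟨Y, e⟩ := hη w y hw hy
    obtain ⟨g, hg, eg⟩ := id ha
    refine ⟨cj a Y, ?_⟩
    rw [adj_cj _ (H.fst_isom ha), show -cj a (adj h.nd₁ η) = cj a (-adj h.nd₁ η) by ext; simp]
    exact e.conj hg (b := 1) (fun u y => eg y u) (one_mem _)
  obtain ⟨a, ha, e⟩ := hg j
  rw [cj_of_eq e]
  convert hc a ha _ (hn _ (hc a⁻¹ (inv_mem ha) η hη)) using 1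
  ext; simp [show a⁻¹.symm = a from rfl]

variable {w₀ : W} (hw₀ : S₂.Q w₀ = 0) (h₀ : w₀ ≠ 0)
include hw₀

omit h₀ in
theorem beta {η : End F U} (hη : η ∈ As h M) : η - adj h.nd₁ η ∈ Zs h M (B_self_zero hw₀) := by
  have h1 : (1 : End F U) ∈ Hs h M := fun w y hw hy => ⟨-S₂.Q y • 1, _, H.eT_mem w (-y), fun v => by
    simp [eT_apply hw (y := -y) (by simp [hy]), h.cw_neg, S₂.orth_Q_neg, adj_one']
    abel⟩
  obtain ⟨y, hy, hQ⟩ := exists_ns₁ h.nd₂ H.oe.three w₀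
  obtain ⟨Y, e⟩ := Submodule.smul_mem _ (S₂.B y y)⁻¹ (hη 1 h1) w₀ y hw₀ hy
  refine (e.comm (B_self_zero hw₀) hy (H.eT_mem w₀ (-y)) (eT_inQ hw₀ (by simp [hy])) (η := S₂.B y y • 1) fun u => by
    simp [eT_apply hw₀ (y := -y) (by simp [hy]), hy, h.cw_neg]).congr fun v => ?_
  simp [adj_smul, adj_one', smul_smul, B_self_ne H.oe.two hQ, sub_eq_add_neg]

include h₀

theorem Zre : Re (Set.univ : Set F) (Zs h M (B_self_zero hw₀)) := fun a _ X hX => by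
  have key : ∀ c : F, (c * c) • X ∈ Zs h M (B_self_zero hw₀) := fun c => by
    by_cases hc : c = 0
    · simp [hc]
    obtain ⟨g, hg, e⟩ := H.oe.torus hw₀ h₀ hc
    obtain ⟨n, hn, en⟩ := H.snd hg
    exact (hasQ_conj hX hn (a := LinearEquiv.refl F U) en (isom_le_bis (Om_le _ hg))).congr fun v => by
      simp [e, h.cw_smul, smul_smul]
  have := sub_mem (key ((a + 1) / 2)) (key ((a - 1) / 2))
  rwa [← sub_smul, show (a + 1) / 2 * ((a + 1) / 2) - (a - 1) / 2 * ((a - 1) / 2) = a by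
    have := H.oe.two; field_simp; ring] at this

theorem mv {X : End F U} (hX : X ∈ Zs h M (B_self_zero hw₀)) {d : W} (hd : S₂.Q d = 0) :
    X ∈ Zs h M (B_self_zero hd) := by
  by_cases d0 : d = 0
  · exact ⟨1, one_mem _, by simp [d0]⟩
  obtain ⟨g, hg, c, hc, e⟩ := move h.nd₂ H.oe.three hw₀ hd h₀ d0
  obtain ⟨n, hn, en⟩ := H.snd hg
  exact (hasQ_conj (H.Zre hw₀ h₀ (c * c)⁻¹ trivial X hX) hn (a := LinearEquiv.refl F U) en
    (isom_le_bis (Om_le _ hg))).congr fun v => by simp [e, h.cw_smul, smul_smul, hc]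

theorem skew {X : End F U} (hX : X ∈ Zs h M (B_self_zero hw₀)) : adj h.nd₁ X = -X := adj_eq _ fun a b => by
  simpa [add_eq_zero_iff_eq_neg] using adj_of_hasQ (fun g hg => bis_le_sim (H.bis hg)) (B_self_zero hw₀) h₀ hX a b

theorem core {X Y : End F U} (a1 : X ∈ Zs h M (B_self_zero hw₀)) (a2 : Y ∈ Zs h M (B_self_zero hw₀))
    (a3 : Y * X * Y = 0) : 1 - X * Y ∈ As h M := fun η hη w y hw hy => by
  by_cases h0 : w = 0
  · exact ⟨0, 1, one_mem _, fun v => by simp [h0, h.cw_zero]⟩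
  obtain ⟨e, he, hew⟩ := exists_partner h.nd₂ hw h0
  obtain ⟨Y', e1⟩ := hη w (y - S₂.B y e • w) hw (by simp [hy, B_self_zero hw])
  obtain ⟨g₁, b1, c1⟩ := H.mv hw₀ h₀ a2 he
  obtain ⟨g₂, b2, c2⟩ := H.mv hw₀ h₀ a1 hw
  have hg := mul_mem (mul_mem b1 b2) (inv_mem b1)
  have c3 : ∀ v, g₁.symm v = v - τ (Y (h.cw e v)) e := fun v => by
    rw [LinearEquiv.symm_apply_eq, c1]; simp [B_self_zero he]
  obtain ⟨k, hk, ek⟩ := hasE_conj e1 hg (H.bis hg) (n := 1 - X * Y) (fun u => by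
    simp [c1, c2, c3, B_self_zero hw, B_self_zero he, hew, S₂.orth_B_swap e w,
      show ∀ u, Y (X (Y u)) = 0 from LinearMap.congr_fun a3]; abel) fun u => by
    simp [c1, c2, c3, B_self_zero hw, hy, hew, S₂.orth_B_swap e w, -map_sub]
  refine ⟨(1 - X * Y) * Y' * adj h.nd₁ (1 - X * Y) - S₂.B y e • ((1 - X * Y) * η) + S₂.B y e •
    adj h.nd₁ ((1 - X * Y) * η), k, hk, fun v => ?_⟩
  generalize 1 - X * Y = n at ek
  simp [ek, adj_mul, h.cw_sub, h.cw_smul]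
  abel

theorem Z_cj (j : J) : Cj (Gf τ ι M) (ι j) (Zs h M (B_self_zero hw₀)) := fun g hg X hX => by
  obtain ⟨a, ⟨n, hn, en⟩, e⟩ := hg j
  rw [cj_of_eq e]; exact Zs_conj hX hn fun u y => en y u

theorem alpha {X : End F U} (hX : X ∈ Zs h M (B_self_zero hw₀)) (hX0 : X ≠ 0) : ∃ j, ∀ m, ι j m ∈ As h M := by
  obtain ⟨X, Y, a1, a2, a3, a4⟩ := exists_pair' H.hc H.hs H.oe H.fst H.ex (H.Z_cj hw₀ h₀) (H.Zre hw₀ h₀) (adj h.nd₁)
    (adj_one' _) (adj_mul _) (fun j d => by rw [H.sa, adj_rk])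
    (fun c X hc hX => H.skew hw₀ h₀ (by simpa [hc] using H.Zre hw₀ h₀ c⁻¹ trivial _ hX)) hX hX0
  exact exists_fac' H.hc H.hs H.oe H.fst H.ex H.As_cj (H.core hw₀ h₀ (by simpa using a1 1) (by simpa using a2 1) a3)
    fun c e => a4 (1 - c) (by rw [sub_smul, one_smul, ← e, sub_sub_cancel])

theorem gamma {j : J} {C : End F W} (hX : ι j C ∈ Zs h M (B_self_zero hw₀)) (hX0 : C ≠ 0) (m : End F W) :
    ι j m ∈ As h M := by
  have : Nontrivial W := Module.nontrivial_of_finrank_pos (R := F) (by have := H.oe.three; omega)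
  have hs : ∀ X : End F W, Cm (AlgHom.id F _) X → ∃ c : F, X = c • 1 := fun X hX =>
    (O7l.scal (κ := AlgHom.id F _) hX).imp fun c e => LinearMap.ext e
  have hc : ∀ i j : Unit, i ≠ j → ∀ a, Cm (AlgHom.id F (End F W)) (AlgHom.id F (End F W) a) := fun _ _ e => (e rfl).elim
  have ex := fun _ : Unit => ex_of H.oe le_rfl (Or.inr hs)
  obtain ⟨X, Y, a1, a2, a3, a4⟩ := exists_pair' hc (fun X h => hs X (h ())) H.oe le_rfl ex
    (Z := (Zs h M (B_self_zero hw₀)).comap (ι j).toRingHom.toAddMonoidHom) (fun _ g hg X hX => by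
      simpa using H.Z_cj hw₀ h₀ j g (H.fst hg) _ hX) (fun c _ X hX => by simpa using H.Zre hw₀ h₀ c trivial _ hX)
    (adj h.nd₂) (adj_one' _) (adj_mul _) (fun j d => adj_rk _ _ _) (fun c X hc hX => ι_inj (ι j) (by
      rw [← H.sa, map_neg]
      exact H.skew hw₀ h₀ (by simpa [hc] using H.Zre hw₀ h₀ c⁻¹ trivial _ hX))) hX hX0
  obtain ⟨_, h⟩ := exists_fac' hc (fun X h => hs X (h ())) H.oe le_rfl ex (J := (As h M).comap (ι j))
    (fun _ g hg X hX => by simpa using H.As_cj j g (H.fst hg) _ hX) (X := 1 - X * Y)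
    (by simpa using H.core hw₀ h₀ (by simpa using a1 1) (by simpa using a2 1) (by simp [← map_mul, a3]))
    fun c e => a4 (1 - c) (by rw [sub_smul, one_smul, ← e, sub_sub_cancel])
  exact h m

omit hw₀ h₀ in
theorem top (hA : ∀ j m, ι j m ∈ As h M) : Om S ≤ M :=
  om_of_skew h H.oe.two H.dU H.oe.three H.bis fun a b d hd => by
    have := H.beta hd (eq_top_of H.hc H.hs hA (rk S₁ a b))
    rwa [adj_rk] at this

end LH

end Cfsg.Agent.H1.O8c
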