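import Cfsg.Agent.H1.O8d

/-!
Tensor powers of orthogonal spaces of even dimension: towers.
-/

set_option autoImplicit false
set_option linter.unusedSectionVars false
set_option linter.unusedSimpArgs false

namespace Cfsg.Agent.H1.O8e

open Module Cfsg.Agent.H7 Cfsg.Agent.Form Cfsg.Agent.H3.TenLin Cfsg.Agent.H3.TenSL Cfsg.Agent.H3.TenSU
  Cfsg.Agent.H3.RootGeo Cfsg.Agent.H3.OrthLem Cfsg.Agent.H3.TenO1 Cfsg.Agent.H3.TenSpSp
  Cfsg.Agent.H3.TenForm Cfsg.Agent.H3.TenPar Cfsg.Agent.H3.TenGlue Cfsg.Agent.H3.TenO2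
  Cfsg.Agent.H9.FClass Cfsg.Agent.H1.C7j Cfsg.Agent.H1.C7k Cfsg.Agent.H1.C7n Cfsg.Agent.H1.O7a Cfsg.Agent.H1.O7b
  Cfsg.Agent.H1.O7c Cfsg.Agent.H1.C7l Cfsg.Agent.H1.C7e Cfsg.Agent.H1.O7h
  Cfsg.Agent.H1.O7i Cfsg.Agent.H1.O8a Cfsg.Agent.H1.O8b Cfsg.Agent.H1.O8c Cfsg.Agent.H1.O8d
open Cfsg.Agent.H1.O7j (cj_lft cj_rgt fst_of res rel ka)
open Cfsg.Agent.H1.O7e (zz zz_apply zz_symm)

variable {F : Type*} [Field F] {V : Type*} [AddCommGroup V] [Module F V]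
  {U : Type*} [AddCommGroup U] [Module F U] {W : Type*} [AddCommGroup W] [Module F W]
  [FiniteDimensional F U] [FiniteDimensional F W] [FiniteDimensional F V]
  {S₁ : PQ (FP.orth F) U} {S₂ : PQ (FP.orth F) W} {S : PQ (FP.orth F) V} {M N : Subgroup (V ≃ₗ[F] V)}
  {I J : Type*} [Fintype I] [DecidableEq I] [Fintype J] [DecidableEq J] {ι : J → End F W →ₐ[F] End F U}
  {τ : I → U →ₗ[F] W →ₗ[F] V}

/-- one step of a tower -/
structure TW (h : ∀ i, TF S₁ S₂ S (τ i)) (ι : J → End F W →ₐ[F] End F U) (e : I → J → I) : Prop where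
  ne : ∀ o j, e o j ≠ o
  inj : ∀ o, Function.Injective (e o)
  sur : ∀ o i, i ≠ o → ∃ j, e o j = i
  cp : ∀ o j m, lft (h o).tens (ι j m) = ka h (e o j) m
  hc : ∀ i j, i ≠ j → ∀ a, Cm (ι j) (ι i a)
  hs : ∀ X, (∀ i, Cm (ι i) X) → ∃ c : F, X = c • 1
  oe : OE S₂
  dU : 3 ≤ finrank F U
  sw : ∀ i k, ∃ s ∈ bis S, ∀ n m, cj s (ka h n m) = ka h (Equiv.swap i k n) m
  alt : (∀ o z, (h o).tens.tcongr 1 (rl S₂ z) ∈ Om S) ∧ (∀ o i : I, ∃ l, l ≠ o ∧ l ≠ i) ∨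
    Subsingleton J ∧ finrank F U = finrank F W

namespace TW
variable {h : ∀ i, TF S₁ S₂ S (τ i)} {e : I → J → I} (H : TW h ι e) [Finite F] [Nontrivial U] [Nontrivial W]
  [Nontrivial V] [Nontrivial I]
include H

theorem hcV (i k : I) (hik : i ≠ k) (a : End F W) : Cm (ka h k) (ka h i a) := by
  obtain ⟨j, rfl⟩ := H.sur k i hik
  exact H.cp k j a ▸ cm_lft _ _

theorem sa (o : I) (j : J) (m : End F W) : adj (h o).nd₁ (ι j m) = ι j (adj (h o).nd₂ m) := lft_inj (h o).tens (by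
  rw [H.cp, ← adjH_tens (h (e o j)) (h o).nd (X := ka h (e o j) m) (Y := ka h (e o j) (adj (h o).nd₂ m))
    fun u w u' w' => by simp [(h _).form, B_adj], ← H.cp]
  exact (adjH_tens (h o) (h o).nd fun u w u' w' => by simp [(h _).form, B_adj]).symm)

theorem wgm {g : V ≃ₗ[F] V} (k : ∀ i, ∃ j, Nm S₂ (ka h i) (ka h j) g) : g ∈ WG S₂ (ka h) :=
  mem_WG (by have := H.oe.three; omega) H.hcV k

omit H in
theorem coe_snd (o : I) (b : W ≃ₗ[F] W) : ((h o).tens.tcongr 1 b : End F V) = ka h o b :=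
  (h o).tens.ext fun u w => by simp

theorem snd_WG (o : I) {b : W ≃ₗ[F] W} (hb : b ∈ S₂.isom) : (h o).tens.tcongr 1 b ∈ WG S₂ (ka h) :=
  H.wgm fun i => ⟨i, by
    by_cases e : o = i
    · exact e ▸ ⟨b, hb, cj_rgt _ ((h o).tens.tcongr_apply 1 b)⟩
    · exact Nm.of_cm (coe_snd (h := h) o b ▸ H.hcV o i e b)⟩

theorem hsV (X : End F V) (hX : ∀ i, Cm (ka h i) X) : ∃ c : F, X = c • 1 := by
  obtain ⟨o⟩ : Nonempty I := inferInstance
  obtain ⟨Z, rfl⟩ := C7i.exists_lft (h o).tens (X := X) fun ψ x => by rw [rk_eq]; exact hX o _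
  obtain ⟨c, rfl⟩ := H.hs Z fun j m => lft_inj (h o).tens (by rw [map_mul, map_mul, H.cp, (hX _ _).eq])
  exact ⟨c, by simp⟩

omit H in
/-- a special element -/
def E1 (h : ∀ i, TF S₁ S₂ S (τ i)) (M : Subgroup (V ≃ₗ[F] V)) (o l : I) : Prop :=
  ∃ C d, C ≠ 0 ∧ S₂.Q d = 0 ∧ d ≠ 0 ∧ 1 + ka h l C * ka h o (rk S₂ d d) ∈ mon M

omit H in
theorem E1.move {o l o' l' : I} (E : E1 h M o l) {s : V ≃ₗ[F] V} (hs : s ∈ M) (h1 : Nm S₂ (ka h o) (ka h o') s)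
    (h2 : Nm S₂ (ka h l) (ka h l') s) : E1 h M o' l' := by
  obtain ⟨C, d, a1, a2, a3, g, a4, a5⟩ := E
  obtain ⟨b, b1, b2⟩ := h1
  obtain ⟨c, -, c2⟩ := h2
  refine ⟨cj c C, b d, fun e => a1 (LinearMap.ext fun v => by simpa using LinearMap.congr_fun e (c v)), by
    rwa [(S₂.orth_mem_isom b).1 b1], by simpa, _, M.mul_mem (M.mul_mem hs a4) (M.inv_mem hs), ?_⟩
  rw [← cj_rk b1, ← b2, ← c2, ← cj_mul]
  ext v
  simpa using congrArg s (LinearMap.congr_fun a5 (s.symm v))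

variable (hb : M ≤ S.isom) (hM : Om S ⊓ WG S₂ (ka h) ≤ M)
include hM

theorem sndM' (o : I) {b : W ≃ₗ[F] W} (hb : b ∈ S₂.isom) (h1 : (h o).tens.tcongr 1 b ∈ Om S) : b ∈ snd (τ o) M :=
  ⟨_, hM ⟨h1, H.snd_WG o hb⟩, (h o).tens.tcongr_apply 1 b⟩

theorem sndM (o : I) : Om S₂ ≤ snd (τ o) M := fun b hb => by
  obtain ⟨g, hg, e⟩ := snd_om (h o) H.oe.two hb
  refine H.sndM' hM o (Om_le _ hb) ?_
  rwa [(h o).eq_of_tens (g := g) (k := (h o).tens.tcongr 1 b) fun u w => by simp [e]] at hg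

omit hM in
theorem gf (o : I) {g : W ≃ₗ[F] W} (hg : ∀ i, g ∈ snd (τ i) M) : g ∈ Gf (τ o) ι M := fun j => by
  obtain ⟨n, a1, a2⟩ := hg (e o j)
  have a3 : (n : End F V) = lft (h o).tens (ι j g) := by
    rw [H.cp]; exact (h (e o j)).tens.ext fun u w => by simp [a2]
  obtain ⟨a, a4⟩ := fst_of (h o).tens (a3 ▸ cm_lft _ _)
  exact ⟨a, ⟨n, a1, fun w u => a4 u w⟩, lft_inj (h o).tens (a3 ▸ (h o).tens.ext fun u w => by simp [a4])⟩

theorem cyc {o j l : I} (h1 : o ≠ j) (h2 : o ≠ l) (h3 : j ≠ l) :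
    ∃ s ∈ M, Nm S₂ (ka h o) (ka h l) s ∧ Nm S₂ (ka h j) (ka h o) s := by
  obtain ⟨s, a1, a2⟩ := H.sw o l
  obtain ⟨t, b1, b2⟩ := H.sw o j
  have a3 : ∀ n, Nm S₂ (ka h n) (ka h ((Equiv.swap o l * Equiv.swap o j) n)) (s * t) := fun n =>
    Nm.mul ⟨1, one_mem _, a2 _⟩ ⟨1, one_mem _, b2 n⟩
  have a4 := fun n => (a3 _).mul (a3 n)
  refine ⟨_, hM ⟨sq_mem_Om H.oe.two (h o).nd (by
    rw [(h o).tens.finrank_eq]; have := H.dU; have := H.oe.three; nlinarith)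
    (isom_of_bis H.oe.two (mul_mem a1 b1)), H.wgm fun n => ⟨_, a4 n⟩⟩, ?_, ?_⟩
  · simpa [Equiv.swap_apply_of_ne_of_ne h1.symm h3] using a4 o
  · simpa [Equiv.swap_apply_of_ne_of_ne h2.symm h3.symm] using a4 j

theorem links : (∀ i j, ∃ s ∈ M, C7a.Eqv (τ i) (C7a.act s (τ j))) ∨ finrank F U = finrank F W ∧ Nontrivial I :=
  H.alt.imp (fun a i j => by
    by_cases e : i = j
    · exact ⟨1, one_mem _, e ▸ ⟨1, 1, fun _ _ => rfl⟩⟩
    obtain ⟨l, a1, a2⟩ := a.2 i j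
    obtain ⟨s, b1, -, b2⟩ := H.cyc hM e a1.symm a2.symm
    exact ⟨s, b1, b2.eqv⟩) fun a => ⟨a.2, inferInstance⟩

include hb

theorem lh (o : I) : LH (h o) ι M where
  oe := H.oe
  dU := H.dU
  bis := hb.trans isom_le_bis
  snd := H.sndM hM o
  hc := H.hc
  hs := H.hs
  sa := H.sa o
  fst _ hg := H.gf o fun i => H.sndM hM i hg
  alt := by
    rcases H.alt with a | a
    · exact Or.inl fun z => ⟨H.sndM' hM o (rl_mem z) (a.1 o z), H.gf o fun i => H.sndM' hM i (rl_mem z) (a.1 i z)⟩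
    obtain ⟨i, hi⟩ := exists_ne o
    exact Or.inr ⟨(H.sur o i hi).nonempty, fun j X hX => H.hs X fun i => a.1.elim j i ▸ hX⟩

theorem as_of {o : I} {j : J} (E : E1 h M o (e o j)) (m : End F W) : ι j m ∈ As (h o) M := by
  obtain ⟨C, d, a1, a2, a3, a4⟩ := E
  exact (H.lh hb hM o).gamma a2 a3 ((one_add_mem (h o)).1 (by rwa [H.cp])) a1 m

theorem ed {o : I} {j : J} (E : ∀ m, ι j m ∈ As (h o) M) {d : W} (hd : S₂.Q d = 0) (a b : W) :
    1 + ka h (e o j) (wg S₂ a b) * ka h o (rk S₂ d d) ∈ mon M := by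
  have := (H.lh hb hM o).beta hd (E (rk S₂ a b))
  rw [H.sa o, adj_rk, ← map_sub] at this
  rw [← H.cp]
  exact (one_add_mem (h o)).2 this

theorem rev {o l : I} (hl : l ≠ o) (E : E1 h M o l) : E1 h M l o := by
  obtain ⟨j, rfl⟩ := H.sur o l hl
  have k := fun {d} hd => H.ed hb hM (H.as_of hb hM E) (d := d) hd
  obtain ⟨d, w, y, z, f⟩ := H.oe.fr'
  refine ⟨(2 * S₂.Q y) • wg S₂ w d, d, fun e => by
    simpa [f.all, H.oe.two, f.qy, f.ne] using LinearMap.congr_fun e d, f.qd, f.ne, ?_⟩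
  convert mul_mem (mul_mem (mul_mem (k f.qd d y) (k f.qe y d)) (k f.qd y d)) (k f.qe d y) using 1
  have c := fun a b => (H.hcV o _ hl.symm a b).eq
  have c' : ∀ a b X, ka h o a * (ka h (e o j) b * X) = ka h (e o j) b * (ka h o a * X) := fun a b X => by
    rw [← mul_assoc, c, mul_assoc]
  have m : ∀ i a b X, ka h i a * (ka h i b * X) = ka h i (a * b) * X := fun i a b X => by rw [map_mul, mul_assoc]
  rw [show wg S₂ y d = -wg S₂ d y by simp [wg]]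
  simp only [mul_add, add_mul, one_mul, mul_one, mul_assoc, c, c', m, ← map_mul (ka h o), wg_sq f.qd f.yd, map_neg,
    neg_mul, mul_neg, smul_mul_assoc, mul_smul_comm, wg_mul_rk f.qd f.yd, rk_mul_wg f.qd f.yd, rk_mul, f.all, map_smul,
    smul_zero, map_zero, zero_mul, zero_smul, mul_zero, one_smul, neg_zero, neg_neg]
  simp only [wg, map_sub, mul_sub]
  module

theorem le_of_Z {o : I} {w : W} (hw : S₂.Q w = 0) (h0 : w ≠ 0) {X : End F U} (hX : X ∈ Zs (h o) M (B_self_zero hw))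
    (hX0 : X ≠ 0) : Om S ≤ M := by
  obtain ⟨j, hj⟩ := (H.lh hb hM o).alpha hw h0 hX hX0
  refine (H.lh hb hM o).top fun l => ?_
  by_cases hl : j = l
  · exact hl ▸ hj
  obtain ⟨s, a1, a2, a3⟩ := H.cyc hM (H.ne o j).symm (H.ne o l).symm ((H.inj o).ne hl)
  obtain ⟨d, w, y, z, f⟩ := H.oe.fr'
  exact H.as_of hb hM (H.rev hb hM (H.ne o l).symm (E1.move ⟨wg S₂ w d, d, fun e => by
    simpa [f.all, f.ne] using LinearMap.congr_fun e d, f.qd, f.ne, H.ed hb hM hj f.qd w d⟩ a1 a2 a3))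

end TW

end Cfsg.Agent.H1.O8e
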