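import Cfsg.Agent.H1.O8e

/-!
Tensor powers of orthogonal spaces of even dimension: parabolics for factors of minus type.
-/

set_option autoImplicit false
set_option linter.unusedSectionVars false
set_option linter.unusedSimpArgs false

namespace Cfsg.Agent.H1.O8f

open Module Cfsg.Agent.H7 Cfsg.Agent.Form Cfsg.Agent.H3.TenLin Cfsg.Agent.H3.TenSL Cfsg.Agent.H3.TenSU
  Cfsg.Agent.H3.RootGeo Cfsg.Agent.H3.OrthLem Cfsg.Agent.H3.TenO1 Cfsg.Agent.H3.TenSpSp
  Cfsg.Agent.H3.TenForm Cfsg.Agent.H3.TenPar Cfsg.Agent.H3.TenGlue Cfsg.Agent.H3.TenO2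
  Cfsg.Agent.H9.FClass Cfsg.Agent.H1.C7j Cfsg.Agent.H1.C7k Cfsg.Agent.H1.C7n Cfsg.Agent.H1.O7a Cfsg.Agent.H1.O7b
  Cfsg.Agent.H1.O7c Cfsg.Agent.H1.C7l Cfsg.Agent.H1.C7e Cfsg.Agent.H1.O7h
  Cfsg.Agent.H1.O7i Cfsg.Agent.H1.O8a Cfsg.Agent.H1.O8b Cfsg.Agent.H1.O8c Cfsg.Agent.H1.O8d Cfsg.Agent.H1.O8e
open Cfsg.Agent.H1.O7j (cj_lft cj_rgt fst_of res rel ka)
open Cfsg.Agent.H1.O7e (zz zz_apply zz_symm)

variable {F : Type*} [Field F] {V : Type*} [AddCommGroup V] [Module F V]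
  {U : Type*} [AddCommGroup U] [Module F U] {W : Type*} [AddCommGroup W] [Module F W]
  [FiniteDimensional F U] [FiniteDimensional F W] [FiniteDimensional F V]
  {S₁ : PQ (FP.orth F) U} {S₂ : PQ (FP.orth F) W} {S : PQ (FP.orth F) V} {M N : Subgroup (V ≃ₗ[F] V)}
  {I J : Type*} [Fintype I] [DecidableEq I] [Fintype J] [DecidableEq J] {ι : J → End F W →ₐ[F] End F U}
  {τ : I → U →ₗ[F] W →ₗ[F] V}

theorem card_fix {α : Type*} [DecidableEq α] {p : ℕ} [Fact p.Prime] (f : J → α → α) (X : Finset α)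
    (h1 : ∀ j, ∀ x ∈ X, f j x ∈ X) (h2 : ∀ j l x, f j (f l x) = f l (f j x)) (h3 : ∀ j x, (f j)^[p] x = x) :
    X.card ≡ (X.filter fun x => ∀ j, f j x = x).card [MOD p] := by
  suffices ∀ s : Finset J, X.card ≡ (X.filter fun x => ∀ j ∈ s, f j x = x).card [MOD p] by
    simpa using this Finset.univ
  intro s
  induction s using Finset.induction_on with
  | empty => simp; rfl
  | insert j s hj ih =>
    let g : Function.End (X.filter fun x => ∀ j ∈ s, f j x = x) := fun x => ⟨f j x, by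
      have := x.2
      rw [Finset.mem_filter] at this ⊢
      exact ⟨h1 j _ this.1, fun l hl => by rw [h2, this.2 l hl]⟩⟩
    have k : ∀ (n : ℕ) x, ((g ^ n) x : α) = (f j)^[n] x := fun n x => by
      induction n with
      | zero => rfl
      | succ n ih => rw [pow_succ', Function.iterate_succ_apply', ← ih]; rfl
    have := Equiv.Perm.card_fixedPoints_modEq (f := g) (p := p) (n := 1)
      (funext fun x => Subtype.ext (by rw [pow_one, k, h3]; rfl))
    rw [Fintype.card_coe] at this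
    convert ih.trans this using 1
    refine (Fintype.card_coe _).symm.trans (Fintype.card_congr ⟨fun x => ⟨⟨x, ?_⟩, Subtype.ext ?_⟩,
      fun x => ⟨x.1.1, ?_⟩, fun _ => rfl, fun _ => rfl⟩)
    · have := x.2
      rw [Finset.mem_filter] at this ⊢
      exact ⟨this.1, fun l hl => this.2 l (by simp [hl])⟩
    · exact (Finset.mem_filter.1 x.2).2 j (by simp)
    · have := x.1.2
      rw [Finset.mem_filter] at this ⊢
      exact ⟨this.1, by simpa using ⟨congrArg Subtype.val x.2, this.2⟩⟩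

section sy
variable {R : Type*} [Ring R] [Algebra F R] {κ : End F W →ₐ[F] R} {X : R}

/-- symmetry in one factor -/
def Sy (S₂ : PQ (FP.orth F) W) (κ : End F W →ₐ[F] R) (X : R) : Prop :=
  ∀ a b c d, κ (rk S₂ a b) * X * κ (rk S₂ c d) = κ (rk S₂ d b) * X * κ (rk S₂ c a)

theorem rk_ne (hS : S₂.Nondeg) {a b : W} (ha : a ≠ 0) (hb : b ≠ 0) : rk S₂ a b ≠ 0 := fun e => by
  obtain ⟨x, hx⟩ := hS.exists_eq ha 1
  simpa [hx, hb] using LinearMap.congr_fun e x

theorem sy_iff [Nontrivial W] (hS : S₂.Nondeg) : Sy S₂ κ X ↔ ∀ a d, bt S₂ κ X a d = bt S₂ κ X d a := by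
  refine ⟨fun h a d => ?_, fun h a b c d => by rw [rk_bt, rk_bt, h]⟩
  obtain ⟨x, hx⟩ := exists_ne (0 : W)
  refine sub_eq_zero.1 (cancel (fun m => (cm_bt κ X a d m).sub_left (cm_bt κ X d a m)) (rk_ne hS hx hx) ?_)
  rw [mul_sub, ← rk_bt, ← rk_bt, h, sub_self]

theorem Sy.of_cm (h : Cm κ X) : Sy S₂ κ X := fun a b c d => by
  rw [← (h _).eq, ← (h _).eq, mul_assoc, mul_assoc, ← map_mul, ← map_mul, rk_mul, rk_mul, S₂.orth_B_swap]

theorem bt_mul [Nontrivial W] (hS : S₂.Nondeg) {C C' : R} (hC : Cm κ C) (hC' : Cm κ C') (a d : W) :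
    bt S₂ κ (C * X * C') a d = C * bt S₂ κ X a d * C' := by
  obtain ⟨x, hx⟩ := exists_ne (0 : W)
  refine sub_eq_zero.1 (cancel (fun m => (cm_bt κ _ a d m).sub_left ((hC.mul (cm_bt κ X a d)).mul hC' m))
    (rk_ne hS hx hx) ?_)
  rw [mul_sub, ← rk_bt, ← mul_assoc, ← mul_assoc, ← mul_assoc, ← mul_assoc, ← (hC _).eq, ← (hC _).eq, mul_assoc C,
    mul_assoc C (κ _), ← rk_bt, mul_assoc _ C', (hC' _).eq]
  simp only [mul_assoc, sub_self]

theorem eq_zero_of_rk (hS : S₂.Nondeg) (h : ∀ a b c d, κ (rk S₂ a b) * X * κ (rk S₂ c d) = 0) : X = 0 := by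
  have k : ∀ {A : Submodule F (End F W)}, (∀ a b, rk S₂ a b ∈ A) → 1 ∈ A := fun h => mem_of_rk1 (fun ψ x => by
    obtain ⟨c, rfl⟩ := hS.exists_lin ψ
    exact h c x) 1
  simpa using k (A := LinearMap.ker (LinearMap.mulRight F X ∘ₗ κ.toLinearMap)) fun a b => by
    simpa using k (A := LinearMap.ker (LinearMap.mulLeft F (κ (rk S₂ a b) * X) ∘ₗ κ.toLinearMap)) (h a b)

theorem diag2 [Nontrivial W] {ι : I → End F W →ₐ[F] End F V} (hc : ∀ i j, i ≠ j → ∀ a, Cm (ι j) (ι i a))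
    {hS : S.Nondeg} {hS₂ : S₂.Nondeg} (sa : ∀ j m, adj hS (ι j m) = ι j (adj hS₂ m))
    (hs : ∀ X, (∀ i, Cm (ι i) X) → ∃ c : F, X = c • 1) {X : End F V} (hX : ∀ i, Sy S₂ (ι i) X) : adj hS X = X := by
  suffices ∀ s : Finset I, ∀ X : End F V, (∀ i ∉ s, Cm (ι i) X) → (∀ i ∈ s, Sy S₂ (ι i) X) → adj hS X = X from
    this Finset.univ X (by simp) fun i _ => hX i
  intro s
  induction s using Finset.induction_on with
  | empty =>
    intro X h _
    obtain ⟨c, rfl⟩ := hs X (by simpa using h)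
    simp [adj_smul, adj_one']
  | insert j s hj ih =>
    intro X a1 a2
    have e1 : ∀ a d, adj hS (bt S₂ (ι j) X a d) = bt S₂ (ι j) X a d := fun a d => ih _ (fun i hi => by
      by_cases e : i = j
      · exact e ▸ cm_bt _ _ _ _
      · exact fun m => (comm_bt (a1 i (by simp [e, hi]) m).symm (hc i j e m) _ _).symm) fun i hi a' b c d' => by
      have := hc i j (by rintro rfl; exact hj hi)
      rw [← bt_mul hS₂ (this _) (this _), ← bt_mul hS₂ (this _) (this _), a2 i (by simp [hi])]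
    refine sub_eq_zero.1 (eq_zero_of_rk (κ := ι j) hS₂ fun a b c d => ?_)
    rw [mul_sub, sub_mul, a2 j (by simp), rk_bt _ d, ← e1, ← adj_rk hS₂ b c, ← sa, ← adj_mul, (cm_bt _ _ _ _ _).eq,
      ← rk_bt, adj_mul, adj_mul, sa, sa, adj_rk, adj_rk, mul_assoc, sub_self]

theorem sy_of [Nontrivial W] {w e y z : W} (f : Fr S₂ w e y z) (H : OE S₂) (h4 : finrank F W = 4)
    (h : ∀ a d, S₂.B a w = 0 → S₂.B d a = 0 → bt S₂ κ X a d = 0 ∧ bt S₂ κ X d a = 0) : Sy S₂ κ X := by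
  refine (sy_iff H.nd).2 fun a d => ?_
  have a1 := h w y f.all.1 f.yd
  have a2 := h w z f.all.1 f.zd
  have a3 := h y z f.yd f.zy
  have a4 := h y e f.yd (by simp [f.all])
  have a5 := h z e f.zd (by simp [f.all])
  have a6 := h (y + w) (e - (2 * S₂.Q y)⁻¹ • y) (by simp [f.all]) (by simp [f.all, H.two, f.qy, -mul_inv_rev])
  simp only [map_add, map_sub, map_smul, LinearMap.add_apply, LinearMap.sub_apply, LinearMap.smul_apply, a1, a4] at a6
  have a7 : bt S₂ κ X e w = bt S₂ κ X w e := by linear_combination (norm := module) a6.2 - a6.1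
  rw [f.dec H.two h4 a, f.dec H.two h4 d]
  simp only [map_add, map_smul, LinearMap.add_apply, LinearMap.smul_apply, a1, a2, a3, a4, a5, a7]
  module

end sy

section one
variable {τ : U →ₗ[F] W →ₗ[F] V} {h : TF S₁ S₂ S τ} {w : W} (hw : S₂.Q w = 0)

theorem zz_add (X Y : End F U) : zz h hw X * zz h hw Y = zz h hw (X + Y) := by
  ext v; simp [zz_apply, B_self_zero hw]; abel

theorem zz_zero : zz h hw 0 = 1 := by ext v; simp [zz_apply]

/-- the cocycle values -/
def Xs (h : TF S₁ S₂ S τ) (M : Subgroup (V ≃ₗ[F] V)) (hw : S₂.Q w = 0) : Set (End F U) :=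
  {X | ∃ t ∈ TStab τ, t ∈ bis S ∧ zz h hw X * t ∈ M}

theorem Xs_act {X₀ X Y : End F U} {t : V ≃ₗ[F] V} (hT : t ∈ TStab τ) (ht : t ∈ bis S) (h0 : zz h hw X₀ * t ∈ M)
    (e : t * zz h hw X * t⁻¹ = zz h hw Y) (hX : X ∈ Xs h M hw) : X₀ + Y ∈ Xs h M hw := by
  obtain ⟨s, a1, a2, a3⟩ := hX
  refine ⟨_, mul_mem hT a1, mul_mem ht a2, ?_⟩
  convert mul_mem h0 a3 using 1
  rw [← zz_add, ← e]; group

theorem Xs_skew [Nontrivial U] (h0 : w ≠ 0) (hb : M ≤ bis S) {X : End F U} (hX : X ∈ Xs h M hw) : adj h.nd₁ X = -X := by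
  obtain ⟨s, -, a2, a3⟩ := hX
  exact adj_eq _ fun a b => by
    simpa [add_eq_zero_iff_eq_neg] using adj_of_hasQ (h := h) bis_le_sim (B_self_zero hw) h0 (X := X)
      ⟨zz h hw X, (Subgroup.mul_mem_cancel_right _ a2).1 (hb a3), zz_apply hw X⟩ a b

theorem zz_conj {t : V ≃ₗ[F] V} {a : U ≃ₗ[F] U} {b : W ≃ₗ[F] W} (e : ∀ u y, t (τ u y) = τ (a u) (b y)) {c μ : F}
    (hμ : μ ≠ 0) (e1 : ∀ x y, S₂.B (b x) (b y) = μ * S₂.B x y) (e2 : b w = c • w) (X : End F U) :
    t * zz h hw X * t⁻¹ = zz h hw ((c * c / μ) • cj a X) := by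
  rw [mul_inv_eq_iff_eq_mul]
  refine h.eq_of_tens fun u y => ?_
  have := e1 y w
  rw [e2, PQ.B_smul_right, FP.orth_σ] at this
  simp only [LinearEquiv.mul_apply, zz_apply, e, e2, map_add, map_smul, h.cw_apply, LinearMap.smul_apply, cj_apply,
    LinearEquiv.symm_apply_apply, smul_smul]
  congr 2
  field_simp; linear_combination -c * this

end one

namespace TW
variable {h : ∀ i, TF S₁ S₂ S (τ i)} {e : I → J → I} (H : TW h ι e) [Finite F] [Nontrivial U] [Nontrivial W]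
  [Nontrivial V] [Nontrivial I] (L : ∀ o, LP (h o) ι M) (h4 : finrank F W = 4) {o : I} {w d y z : W}
  (f : Fr S₂ w d y z)
include H L h4 f

theorem fix {X : End F U} (hX : X ∈ Xs (h o) M f.qd) (hc : ∀ j, Commute X (ι j (sg S₂ w y))) : X = 0 := by
  have two := H.oe.two
  have sk := Xs_skew f.qd f.ne (L o).bis hX
  obtain ⟨t, hT, ht, hx⟩ := hX
  obtain ⟨g, hg, c, -, e1⟩ := move H.oe.nd H.oe.three f.qd f.qe f.ne (by rintro rfl; simpa using f.ed)
  set n := (h o).tens.tcongr 1 g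
  have en : ∀ u y, n (τ o u y) = τ o u (g y) := (h o).tens.tcongr_apply 1 g
  have hn : n ∈ M := by simpa using (L o).snd_conj (one_mem _) (one_mem _) hg
  obtain ⟨γ, g1, g2⟩ : ∃ γ ∈ M, ∀ u s, γ (τ o u s) = τ o u s - (c * c * S₂.B s d) • τ o (X u) d +
      τ o (X (S₂.B s w • u - (c * c * S₂.B s d) • X u)) w := by
    refine ⟨_, mul_mem (mul_mem (mul_mem hx ((L o).snd_conj hT ht hg)) (inv_mem hx)) (inv_mem hn), fun u s => ?_⟩
    rw [show zz (h o) f.qd X * t * (t⁻¹ * n * t) * (zz (h o) f.qd X * t)⁻¹ * n⁻¹ =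
      zz (h o) f.qd X * (n * (zz (h o) f.qd X)⁻¹ * n⁻¹) by group]
    obtain ⟨s, rfl⟩ := g.surjective s
    have := PQ.B_isom (Om_le _ hg) s w
    rw [e1, PQ.B_smul_right, FP.orth_σ] at this
    simp [zz_apply, zz_symm, ← en, e1, ← this, f.all, -map_sub, map_sub n, map_sub (TF.cw _ _), smul_smul]
    simp [en, e1, smul_smul, mul_assoc, mul_comm, f.all]
  have e2 : adj (h o).nd₁ X = X := diag2 H.hc (H.sa o) H.hs fun j => by
    have cp : ∀ m u s, ka h (e o j) m (τ o u s) = τ o (ι j m u) s := fun m u s => by rw [← H.cp, lft_apply]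
    have c1 : Commute (γ : End F V) (ka h (e o j) (sg S₂ w y)) := (h o).tens.ext fun u s => by
      simp [g2, cp, show ∀ u, X (ι j (sg S₂ w y) u) = ι j (sg S₂ w y) (X u) from LinearMap.congr_fun (hc j).eq]
    have c2 : Commute (γ : End F V) (ka h (e o j) (rk S₂ w w)) := by
      have := ((c1.sub_right (Commute.one_right _)).mul_right (c1.sub_right (Commute.one_right _))).smul_right
        (-(2 * S₂.Q y))⁻¹
      rwa [← map_one (ka h (e o j)), ← map_sub, ← map_mul, show ((sg S₂ w y : End F W) - 1) * (sg S₂ w y - 1) =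
        -(2 * S₂.Q y) • rk S₂ w w by ext; simp [sg_apply f.qd f.yd, f.all]; module, map_smul,
        inv_smul_smul₀ (by simp [two, f.qy])] at this
    obtain ⟨t', ⟨a', b', e3⟩, -, X', e4⟩ := (L (e o j)).dec f.qd f.ne g1 fun u => by
      have := LinearMap.congr_fun c2.eq (τ (e o j) u d)
      simp only [End.mul_apply, rgt_apply, rk_apply, f.ed, one_smul, LinearEquiv.coe_coe] at this
      exact this ▸ O7k.rgt_mem _ _ _ _
    obtain ⟨u₀, u0, c3⟩ : ∃ u₀, u₀ ≠ 0 ∧ ∀ s, γ (τ (e o j) u₀ s) = τ (e o j) u₀ s := by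
      obtain ⟨u, hu⟩ := exists_ne (0 : U)
      obtain ⟨x, hx⟩ : ∃ x, (h (e o j)).cw x (τ o u y) ≠ 0 := by
        by_contra hh
        push Not at hh
        exact hu (((h o).tens.eq_zero ((h _).eq_zero_of_cw hh)).resolve_right (by rintro rfl; exact f.qy S₂.orth_Q_zero))
      refine ⟨_, hx, fun s => ?_⟩
      have : ∀ v, τ (e o j) ((h (e o j)).cw x v) s = ka h (e o j) (rk S₂ x s) v := fun v =>
        (h (e o j)).tens.induction v (by simp) (by simp) fun a b ha hb => by simp [ha, hb]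
      simp [this, cp, g2, f.all]
    have c4 : ∀ s, S₂.B s w = 0 → ∃ A : End F U, ∀ u, γ (τ (e o j) u s) = τ (e o j) (A u) s := fun s hs => by
      have b1 := c3 s
      rw [e4, LinearEquiv.mul_apply, e3, zz_apply] at b1
      have b2 : S₂.B (b' s) w = 0 := by simpa [hs, f.all, u0] using congrArg ((h (e o j)).cw w) b1
      simp only [TF.cw_apply, b2, zero_smul, map_zero, LinearMap.zero_apply, add_zero] at b1
      obtain ⟨r, hr⟩ := Submodule.mem_span_singleton.1 ((h (e o j)).tens.flip.mem_span_of_eq (a := b' s) (b := a' u₀)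
        (by simpa) b1)
      exact ⟨r • a', fun u => by simp [e4, e3, zz_apply, ← hr, hs]⟩
    have c5 : ∀ s a, S₂.B s w = 0 → S₂.B a s = 0 → ∀ b x, ι j (rk S₂ a b) * X * ι j (rk S₂ x s) = 0 := by
      intro s a hs ha b x
      obtain ⟨A, hA⟩ := c4 s hs
      have b1 : ∀ v, ka h (e o j) (rk S₂ a b) (γ (ka h (e o j) (rk S₂ x s) v)) = 0 := fun v => by
        obtain ⟨u, hu⟩ := O7k.rgt_mem (S₂ := S₂) (h (e o j)).tens x s v
        rw [← hu, LinearMap.flip_apply, hA]; simp [S₂.B_comm_zero ha]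
      ext u
      have := congrArg ((h o).cw d) (b1 (τ o u d))
      simpa [cp, g2, f.all] using this
    refine sy_of f H.oe h4 fun s a hs ha => ⟨?_, ?_⟩
    · have := congrArg (adj (h o).nd₁) (c5 s a hs ha w w)
      rw [adj_mul, adj_mul, H.sa o, H.sa o, adj_rk, adj_rk, sk, adj_eq (X := 0) (Y := 0) _ (by simp), neg_mul, mul_neg,
        neg_eq_zero, ← mul_assoc, rk_bt] at this
      exact cancel (cm_bt _ _ _ _) (rk_ne H.oe.nd f.ne f.ne) this
    · exact cancel (cm_bt _ _ _ _) (rk_ne H.oe.nd f.ne f.ne) ((rk_bt (ι j) a w w s X).symm.trans (c5 s a hs ha w w))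
  exact smul_right_injective _ two (by linear_combination (norm := module) sk - e2)

theorem par4 {x : V ≃ₗ[F] V} (hx : x ∈ M) (hxw : ∀ u, x (τ o u w) ∈ Bw (τ o) w) : x ∈ TStab (τ o) := by
  classical
  obtain ⟨t, hT, ht, X₀, rfl⟩ := (L o).dec f.qd f.ne hx hxw
  have := Module.finite_of_finite F (M := End F U)
  obtain ⟨p, hp⟩ := CharP.exists F
  have := Fact.mk (CharP.char_is_prime F p)
  set 𝒳 := (Set.toFinite (Xs (h o) M f.qd)).toFinset
  have m : ∀ {X}, X ∈ 𝒳 ↔ X ∈ Xs (h o) M f.qd := Set.Finite.mem_toFinset _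
  have k : ∀ X₀ (r : F) (a : U ≃ₗ[F] U), r ≠ 0 → (∀ X ∈ 𝒳, X₀ + r • cj a X ∈ 𝒳) →
      ∑ X ∈ 𝒳, X = (𝒳.card : F) • X₀ + r • cj a (∑ X ∈ 𝒳, X) := fun X₀ r a hr hX => by
    have i : Function.Injective fun X => X₀ + r • cj a X := fun X Y e => by
      simpa [cj_cj, cj_one] using congrArg (cj a⁻¹) (smul_right_injective _ hr (add_left_cancel e))
    nth_rw 1 [← Finset.eq_of_subset_of_card_le (Finset.image_subset_iff.2 hX) (Finset.card_image_of_injective _ i).ge]
    rw [Finset.sum_image fun _ _ _ _ e => i e, Finset.sum_add_distrib, Finset.sum_const, Nat.cast_smul_eq_nsmul,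
      ← Finset.smul_sum, show ∀ X, cj a X = (a.conj : End F U →ₗ[F] _) X from fun _ => rfl, map_sum]
    rfl
  have k1 : ∀ a ∈ snd (τ o).flip M, ∀ X ∈ 𝒳, cj a X ∈ 𝒳 := fun a ⟨n, a1, a2⟩ X hX => by
    simpa using m.2 (Xs_act f.qd (X₀ := 0) ⟨a, 1, fun u y => a2 y u⟩ ((L o).bis a1) (by simpa [zz_zero])
      (zz_conj f.qd (b := 1) (c := 1) (fun u y => a2 y u) one_ne_zero (by simp) (by simp) X) (m.1 hX))
  have k2 : ∑ X ∈ 𝒳, X = 0 := by
    obtain ⟨c, hc⟩ := sc_of_comm' H.hc H.hs H.oe (L o).fst (L o).ex (X := ∑ X ∈ 𝒳, X) fun j g hg => by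
      obtain ⟨a, a1, a2⟩ := hg j
      rw [← a2, ← cj_eq_iff]
      simpa using (k 0 1 a one_ne_zero (by simpa using k1 a a1)).symm
    have : adjH (h o).nd₁ (∑ X ∈ 𝒳, X) = -∑ X ∈ 𝒳, X := by
      rw [map_sum, ← Finset.sum_neg_distrib]
      exact Finset.sum_congr rfl fun X hX => Xs_skew f.qd f.ne (L o).bis (m.1 hX)
    rw [hc, adjH_eq (Y := c • 1) _ (by simp)] at this
    exact hc.trans (smul_right_injective _ H.oe.two (by linear_combination (norm := module) this))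
  have k3 : (𝒳.card : F) = 1 := by
    choose a a1 a2 using (L o).fst (H.oe.sg w y)
    have := card_fix (p := p) (fun j => cj (a j)) 𝒳 (fun j => k1 _ (a1 j)) (fun j l X => by
      by_cases e : j = l
      · rw [e]
      rw [cj_cj, cj_cj, show a j * a l = a l * a j from LinearEquiv.toLinearMap_injective (by
        change (a j : End F U) * a l = (a l : End F U) * a j
        rw [a2, a2, (H.hc j l e _ _).eq])]) fun j X => by
      have : ∀ n : ℕ, (cj (a j))^[n] X = cj (a j ^ n) X ∧ ((a j ^ n : U ≃ₗ[F] U) : End F U) =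
          ι j (sg S₂ w ((n : F) • y)) := fun n => by
        induction n with
        | zero => exact ⟨rfl, by
            rw [show (sg S₂ w (((0 : ℕ) : F) • y) : End F W) = 1 by
              ext; simp [sg_apply f.qd (v := 0) (by simp), S₂.orth_Q_zero], map_one]; rfl⟩
        | succ n ih => exact ⟨by rw [Function.iterate_succ_apply', ih.1, cj_cj, pow_succ'], by
            rw [pow_succ]
            change ((a j ^ n : U ≃ₗ[F] U) : End F U) * a j = _
            rw [ih.2, a2, ← map_mul, Nat.cast_succ, add_smul, one_smul, ← sg_mul f.qd (by simp [f.yd]) f.yd]; rfl⟩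
      rw [(this p).1, show a j ^ p = 1 from LinearEquiv.toLinearMap_injective ((this p).2.trans (by
        rw [CharP.cast_eq_zero, ← Nat.cast_zero]; exact (this 0).2.symm)), cj_one]
    rw [show (𝒳.filter fun X => ∀ j, cj (a j) X = X) = {0} from Finset.eq_singleton_iff_unique_mem.2
      ⟨Finset.mem_filter.2 ⟨m.2 ⟨1, one_mem _, one_mem _, by simp [zz_zero]⟩, fun j => by ext; simp⟩, fun X hX =>
        fix H L h4 f (m.1 (Finset.mem_filter.1 hX).1) fun j =>
          a2 j ▸ (cj_eq_iff.1 ((Finset.mem_filter.1 hX).2 j)).symm⟩] at this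
    simpa using (CharP.natCast_eq_natCast F p).2 this
  obtain ⟨a, b, e1⟩ := id hT
  obtain ⟨μ, hμ, e2⟩ := (h o).sim_of_tens (bis_le_sim ht) e1
  obtain ⟨u₀, hu⟩ := exists_ne (0 : U)
  obtain ⟨u', e3⟩ := hxw u₀
  obtain ⟨c, hc⟩ := Submodule.mem_span_singleton.1 ((h o).tens.flip.mem_span_of_eq (a := b w) (b := a u₀) (a' := w)
    (b' := u' - X₀ ((h o).cw w (τ o (a u₀) (b w)))) (by simpa) (by
      simp only [LinearMap.flip_apply, LinearEquiv.mul_apply, e1, zz_apply] at e3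
      simp only [LinearMap.flip_apply, map_sub, LinearMap.sub_apply, e3, add_sub_cancel_right]))
  have c0 : c ≠ 0 := by rintro rfl; exact f.ne (by simpa using hc.symm)
  have := k X₀ (c * c / μ) a (by simp [c0, hμ]) fun X hX =>
    m.2 (Xs_act f.qd hT ht hx (zz_conj f.qd e1 hμ e2 hc.symm X) (m.1 hX))
  rw [k2, k3, show cj a 0 = 0 by ext; simp, smul_zero, add_zero, one_smul] at this
  rwa [← this, zz_zero, one_mul]

end TW

end Cfsg.Agent.H1.O8f
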