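import Cfsg.Agent.H1.O8f

/-!
Tensor powers of orthogonal spaces of even dimension: fusion for factors of minus type.
-/

set_option autoImplicit false
set_option linter.unusedSectionVars false
set_option linter.unusedSimpArgs false

namespace Cfsg.Agent.H1.O8g

open Module Cfsg.Agent.H7 Cfsg.Agent.Form Cfsg.Agent.H3.TenLin Cfsg.Agent.H3.TenSL Cfsg.Agent.H3.TenSU
  Cfsg.Agent.H3.RootGeo Cfsg.Agent.H3.OrthLem Cfsg.Agent.H3.TenO1 Cfsg.Agent.H3.TenSpSp
  Cfsg.Agent.H3.TenForm Cfsg.Agent.H3.TenPar Cfsg.Agent.H3.TenGlue Cfsg.Agent.H3.TenO2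
  Cfsg.Agent.H9.FClass Cfsg.Agent.H1.C7j Cfsg.Agent.H1.C7k Cfsg.Agent.H1.C7n Cfsg.Agent.H1.O7a Cfsg.Agent.H1.O7b
  Cfsg.Agent.H1.O7c Cfsg.Agent.H1.C7l Cfsg.Agent.H1.C7e Cfsg.Agent.H1.O7h
  Cfsg.Agent.H1.O7i Cfsg.Agent.H1.O8a Cfsg.Agent.H1.O8b Cfsg.Agent.H1.O8c Cfsg.Agent.H1.O8d Cfsg.Agent.H1.O8e Cfsg.Agent.H1.O8f
  Cfsg.Agent.H1.C7g
open Cfsg.Agent.H1.C7a (act tens_act act_apply Eqv Comm eqv_act_iff)
open Cfsg.Agent.H1.O7j (cj_lft cj_rgt fst_of res rel ka)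
open scoped Pointwise

variable {F : Type*} [Field F] {V : Type*} [AddCommGroup V] [Module F V]
  {U : Type*} [AddCommGroup U] [Module F U] {W : Type*} [AddCommGroup W] [Module F W]
  [FiniteDimensional F U] [FiniteDimensional F W] [FiniteDimensional F V]
  {S₁ : PQ (FP.orth F) U} {S₂ : PQ (FP.orth F) W} {S : PQ (FP.orth F) V} {M N : Subgroup (V ≃ₗ[F] V)}
  {I J : Type*} [Fintype I] [DecidableEq I] [Fintype J] [DecidableEq J] {ι : J → End F W →ₐ[F] End F U}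
  {τ : I → U →ₗ[F] W →ₗ[F] V}

theorem fr_of (H : OE S₂) {w y : W} (hw : S₂.Q w = 0) (h0 : w ≠ 0) (hy : S₂.B y w = 0) (hQ : S₂.Q y ≠ 0) :
    ∃ e z, Fr S₂ w e y z := by
  obtain ⟨e, a1, a2, a3⟩ := H.nd.exists_hyperbolic_perp (X := F ∙ y) ((S₂.orth_sing w).2 hw) (fun hm => by
    obtain ⟨c, rfl⟩ := Submodule.mem_span_singleton.1 hm
    simp [S₂.orth_Q_smul, hQ] at hw
    simp [hw] at h0) (S₂.mem_perp_span_singleton.2 (S₂.B_comm_zero hy))
  rw [S₂.mem_perp_span_singleton] at a1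
  rw [S₂.orth_sing] at a2
  rw [← S₂.orth_B_swap] at a3
  obtain ⟨h5, h6⟩ := hyp_perp H.nd hw a2 (by simp [a3])
  obtain ⟨z, h9, hzy, hz⟩ := exists_ns_perp H.two h5 (by have := H.four; omega)
    (mem_perp_pair.2 ⟨S₂.B_comm_zero a1, hy⟩) hQ
  rw [mem_perp_pair] at h9
  exact ⟨e, z, hw, a2, a3, hy, S₂.B_comm_zero a1, h9.2, h9.1, hzy, hQ, hz⟩

theorem cm_of_pi [Finite F] (H : OE S₂) {R : Type*} [Ring R] [Algebra F R] {κ : End F W →ₐ[F] R} {X : R}
    (h : ∀ d e y z, Fr S₂ d e y z → Commute X (κ (rk S₂ d d))) : Cm κ X := fun m => by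
  have hm : m ∈ Submodule.span F (Tp S₂ * Tp S₂) := span_Tp H.two H.nd H.three ▸ Submodule.mem_top
  induction hm using Submodule.span_induction with
  | mem _ hm =>
    obtain ⟨_, ⟨a, a1, a2, rfl⟩, _, ⟨b, b1, b2, rfl⟩, rfl⟩ := hm
    obtain ⟨_, _, _, f⟩ := H.fr a1 a2
    obtain ⟨_, _, _, f'⟩ := H.fr b1 b2
    rw [map_mul]; exact (h _ _ _ _ f).mul_right (h _ _ _ _ f')
  | zero => simp
  | add a b _ _ ha hb => rw [map_add]; exact ha.add_right hb
  | smul c a _ ha => rw [map_smul]; exact ha.smul_right c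

theorem comm_pi {R : Type*} [Ring R] [Algebra F R] {κ : End F W →ₐ[F] R} {X : R} (h2 : (2 : F) ≠ 0) {w y : W}
    (hw : S₂.Q w = 0) (hy : S₂.B y w = 0) (hQ : S₂.Q y ≠ 0) (h : Commute X (κ (sg S₂ w y))) :
    Commute X (κ (rk S₂ w w)) := by
  have := ((h.sub_right (Commute.one_right _)).mul_right (h.sub_right (Commute.one_right _))).smul_right
    (-(2 * S₂.Q y))⁻¹
  rwa [← map_one κ, ← map_sub, ← map_mul, show ((sg S₂ w y : End F W) - 1) * (sg S₂ w y - 1) =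
    -(2 * S₂.Q y) • rk S₂ w w by
      ext; simp [sg_apply hw hy, hy, S₂.B_comm_zero hy, B_self_zero hw, S₂.orth_B_self]; module, map_smul,
    inv_smul_smul₀ (by simp [h2, hQ])] at this

section one
variable {ρ ρ' : U →ₗ[F] W →ₗ[F] V} {h : TF S₁ S₂ S ρ} {h' : TF S₁ S₂ S ρ'}

theorem eT_coe (w y : W) : (eT h w y : End F V) = rgt h.tens (sg S₂ w y) := h.tens.ext fun u z => by simp [eT_tmul]

theorem rgt_act (h : IsTens ρ) (g : V ≃ₗ[F] V) (m : End F W) : rgt (tens_act h g) m = cj g (rgt h m) :=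
  (tens_act h g).ext fun u w => by rw [rgt_apply]; simp

/-- good factors -/
structure OQ (h : TF S₁ S₂ S ρ) (M : Subgroup (V ≃ₗ[F] V)) : Prop where
  oe : OE S₂
  an : An S₂
  four : finrank F W = 4
  bis : M ≤ bis S
  snd : Om S₂ ≤ snd ρ M
  par : ∀ w, S₂.Q w = 0 → w ≠ 0 → ∀ x ∈ M, (∀ u, x (ρ u w) ∈ Bw ρ w) → x ∈ TStab ρ

theorem OQ.act (H : OQ h M) {g : V ≃ₗ[F] V} (hg : g ∈ M) : OQ (tf_act h (H.bis hg)) M :=
  ⟨H.oe, H.an, H.four, H.bis, fun b hb => (H.snd hb).elim fun n a =>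
    ⟨_, mul_mem (mul_mem hg a.1) (inv_mem hg), fun u w => by simp [a.2]⟩, fun w hw h0 x hx e =>
    mem_TStab_act.2 (H.par w hw h0 _ (mul_mem (mul_mem (inv_mem hg) hx) hg) fun u => (e u).imp fun a ha => by
      simpa using congrArg g.symm ha)⟩

variable [Finite F] [Nontrivial U] [Nontrivial W] [Nontrivial V]

theorem OQ.eT_mem (H : OQ h M) (w y : W) : eT h w y ∈ M := by
  obtain ⟨g, hg, e⟩ := H.snd (H.oe.sg w y)
  rwa [h.eq_of_tens (g := eT h w y) (k := g) fun u z => by rw [eT_tmul, e]]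

theorem dich (H : OQ h M) {w e y z : W} (f : Fr S₂ w e y z) (hT : eT h' w y ∈ TStab ρ) :
    Cm (rgt h.tens) (rgt h'.tens (rk S₂ w w)) ∨ ∃ d, S₂.Q d = 0 ∧ d ≠ 0 ∧ ∃ c : F, c ≠ 0 ∧
      rgt h.tens (rk S₂ d d) = c • rgt h'.tens (rk S₂ w w) := by
  have two := H.oe.two
  obtain ⟨p, hp⟩ := CharP.exists F
  have := Fact.mk (CharP.char_is_prime F p)
  obtain ⟨a, b, e1, -, hb⟩ := H3.TenO6.exists_norm h.tens hT (n := p) (by
    simp [H3.TenO6.eT_pow f.qd f.yd, H3.TenO6.eT_zero f.qd]) fun _ c _ _ => surjective_frobenius F p c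
  by_cases b1 : b = 1
  · refine Or.inl fun m => (comm_pi two f.qd f.yd f.qy ?_).symm
    rw [← eT_coe (h := h')]
    exact h.tens.ext fun u s => by simp [e1, b1]
  obtain ⟨m, -, hm⟩ := h.sim_of_tens (bis_le_sim (eT_bis w y)) e1
  have h1 : ∀ (n : ℕ) x y, S₂.B ((b ^ n) x) ((b ^ n) y) = m ^ n * S₂.B x y := fun n x y => by
    induction n with
    | zero => simp
    | succ n ih => simp [pow_succ', hm, ih, mul_assoc]
  obtain rfl : m = 1 := frobenius_inj F p (by simpa [hb, f.ed, frobenius_def] using (h1 p e w).symm)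
  have hb' : b ∈ bis S₂ := fun x y => by rw [hm, one_mul]
  obtain ⟨d, y', a1, a2, a3, a4, rfl⟩ := unip4 H.oe H.an hb' (n := p) (by
    have := charP_of_injective_algebraMap (algebraMap F (End F W)).injective p
    rw [sub_pow_char_of_commute _ (Commute.one_right _), one_pow, sub_eq_zero]
    exact (map_pow LinearEquiv.automorphismGroup.toLinearMapMonoidHom b p).symm.trans (by rw [hb]; rfl)) b1
  obtain ⟨e', z', f'⟩ := fr_of H.oe a1 a2 a3 a4
  let L : U × U →ₗ[F] V := (ρ'.flip w).coprod (ρ'.flip z)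
  have l1 : ∀ x s, h.cw (sg S₂ d y' s) (L x) = a (h.cw s (L x)) := fun x s => by
    rw [← cw_tens e1 hb']
    simp [L, eT_fix f.all.1 (S₂.B_comm_zero f.yd), eT_fix f.zd f.zy]
  have l2 := LinearMap.finrank_le_finrank_of_injective (f := (h.cw e' ∘ₗ L).prod
    ((h.cw z' ∘ₗ L).codRestrict (LinearMap.ker ((a : End F U) - 1)) fun x => by
      simpa [sg_apply a1 a3, f'.all, sub_eq_zero] using (l1 x z').symm)) ((injective_iff_map_eq_zero _).2 fun x hx => by
    have b1 : h.cw e' (L x) = 0 := congrArg Prod.fst hx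
    have b2 : h.cw z' (L x) = 0 := congrArg (fun x => x.2.1) hx
    have b3 := l1 x d
    have b4 := l1 x y'
    have b5 := l1 x e'
    simp only [sg_apply a1 a3, f'.all, h.cw_add, h.cw_sub, h.cw_smul, b1, FP.orth_σ, zero_smul, one_smul, mul_zero,
      add_zero, zero_add, sub_zero, mul_one, map_zero, sub_eq_zero] at b3 b4 b5
    rw [b5, map_smul, ← b3] at b4
    have b6 : h.cw d (L x) = 0 := smul_right_injective U (mul_ne_zero two a4) (by
      linear_combination (norm := module) -b4)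
    have b7 : L x = 0 := by rw [dec4 (h := h) f' two H.four (L x)]; simp [b1, b2, b5, b6]
    have b8 := congrArg (h'.cw e) b7
    have b9 := congrArg (h'.cw z) b7
    simp [L, f.all, two, f.qz] at b8 b9
    exact Prod.ext b8 b9)
  rw [finrank_prod, finrank_prod, add_le_add_iff_left] at l2
  have l3 : ∀ u, a u = u := fun u => by
    simpa [sub_eq_zero] using (Submodule.eq_top_of_finrank_eq (l2.antisymm' (Submodule.finrank_le _))).ge
      (Submodule.mem_top (x := u))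
  have l4 : rgt h'.tens (sg S₂ w y) = rgt h.tens (sg S₂ d y') := by
    rw [← eT_coe (h := h')]; exact h.tens.ext fun u s => by simp [e1, l3]
  have l5 : ∀ {w y : W}, S₂.Q w = 0 → S₂.B y w = 0 → ((sg S₂ w y : End F W) - 1) * (sg S₂ w y - 1) =
      -(2 * S₂.Q y) • rk S₂ w w := fun hw hy => by
    ext; simp [sg_apply hw hy, hy, S₂.B_comm_zero hy, B_self_zero hw, S₂.orth_B_self]; module
  refine Or.inr ⟨d, a1, a2, S₂.Q y / S₂.Q y', div_ne_zero f.qy a4, smul_right_injective _ (neg_ne_zero.2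
    (mul_ne_zero two a4)) ?_⟩
  simp only [← map_smul, ← l5 a1 a3, map_mul, map_sub, ← l4, map_one]
  rw [← map_one (rgt h'.tens), ← map_sub, ← map_mul, l5 f.qd f.yd, smul_smul]
  congr 2; field_simp

theorem lemA (H : OQ h M) (H' : OQ h' M) {d : W} (hd : S₂.Q d = 0) (h0 : d ≠ 0)
    (hc : Cm (rgt h'.tens) (rgt h.tens (rk S₂ d d))) (m : End F W) : Cm (rgt h.tens) (rgt h'.tens m) := by
  refine fun m' => (cm_of_pi H.oe (fun w e y z f => ?_) m).symm
  obtain ⟨x, hx⟩ := h.nd₂.exists_eq h0 1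
  refine (((dich H f (H.par d hd h0 _ (H'.eT_mem w y) fun u => ?_)).resolve_right ?_) m').symm
  · have := LinearMap.congr_fun (hc (sg S₂ w y)).eq (ρ u x)
    simp only [End.mul_apply, rgt_apply, rk_apply, hx, one_smul, ← eT_coe (h := h'), LinearEquiv.coe_coe] at this
    exact this ▸ O7k.rgt_mem _ _ _ _
  rintro ⟨d', a1, a2, c, c0, e1⟩
  have b1 := LinearMap.congr_fun (ι_inj (rgt h.tens) (m := rk S₂ d d * rk S₂ d' d')
    (m' := rk S₂ d' d' * rk S₂ d d) (by rw [map_mul, map_mul, e1, ((hc _).smul_right c).eq])) d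
  obtain ⟨r, rfl⟩ := Submodule.mem_span_singleton.1 (H.an d d' hd h0 a1 (by
    simpa [B_self_zero hd, h0, S₂.orth_B_swap d' d] using b1))
  obtain ⟨s, hs⟩ := O7l.scal (κ := rgt h'.tens) (m := rk S₂ w w) (by
    rw [← inv_smul_smul₀ c0 (rgt h'.tens _), ← e1, show rk S₂ (r • d) (r • d) = (r * r) • rk S₂ d d by
      ext; simp [smul_smul]; ring_nf, map_smul]
    exact (hc.smul _).smul _)
  obtain rfl : s = 0 := by simpa [f.all, f.ne] using (hs w).symm
  simpa [f.all, f.ne] using hs e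

theorem norm_T (H : OE S₂) {x : V ≃ₗ[F] V}
    (e : ∀ A, adj h.nd₂ A = -A → ∃ B, cj x (rgt h.tens A) = rgt h.tens B) : x ∈ TStab ρ :=
  C7i.mem_TStab_of_norm h.tens (A := {A | adj h.nd₂ A = -A}) (fun Z hZ => O7l.scal (κ := AlgHom.id F _) (cm_of_pi H
    fun d _ y _ f => by
      have : Commute Z (wg S₂ d y) := LinearMap.ext (hZ _ (by simp [wg, adj_sub, adj_rk]))
      simpa [wg_sq f.qd f.yd, H.two, f.qy, -mul_inv_rev, smul_smul] using
        (this.mul_right this).smul_right (-(2 * S₂.Q y))⁻¹)) fun A hA => (e A hA).imp fun B e u y => by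
    have := LinearMap.congr_fun (cj_eq_iff.1 e) (ρ u y)
    rw [show rgt h.tens B = h.tens.tmap LinearMap.id B from h.tens.ext fun u w => by simp] at this
    simpa using this

end one

namespace TW
variable {h : ∀ i, TF S₁ S₂ S (τ i)} {e : I → J → I} (H : TW h ι e) [Finite F] [Nontrivial U] [Nontrivial W]
  [Nontrivial V] [Nontrivial I] (Q : ∀ i, OQ (h i) M) {ρ : U →ₗ[F] W →ₗ[F] V} {h' : TF S₁ S₂ S ρ}
include H

theorem mem_range {j : I} {X : End F V} (hX : ∀ l, l ≠ j → Cm (ka h l) X) : ∃ m, ka h j m = X :=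
  mem_of_span (ka h j) Submodule.span_univ (A := LinearMap.range (ka h j).toLinearMap) fun t _ Y h1 h2 => by
    obtain ⟨c, rfl⟩ := H.hsV Y fun l => by
      by_cases e : l = j
      · rwa [e]
      · exact fun m => (h2 _ (hX l e m).symm (H.hcV l j e m)).symm
    exact ⟨c • t, by simp⟩

include Q

theorem tri (H' : OQ h' M) {j : I} {w d y z : W} (f : Fr S₂ w d y z) (hT : eT (h j) w y ∈ TStab ρ) :
    (∀ m, Cm (ka h j) (rgt h'.tens m)) ∨ ∀ m, ∃ m', ka h j m' = rgt h'.tens m :=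
  (dich H' f hT).imp (lemA (Q j) H' f.qd f.ne) fun ⟨_, a1, a2, c, _, a3⟩ m => mem_range H fun l hl m' =>
    (lemA H' (Q l) a1 a2 (a3 ▸ (H.hcV j l hl.symm _).smul c) m' m).symm

end TW

end Cfsg.Agent.H1.O8g
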