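import Cfsg.Agent.H1.O8g

/-!
Tensor powers of orthogonal spaces of even dimension: averaging for factors of minus type.
-/

set_option autoImplicit false
set_option linter.unusedSectionVars false
set_option linter.unusedSimpArgs false

namespace Cfsg.Agent.H1.O8h

open Module Cfsg.Agent.H7 Cfsg.Agent.Form Cfsg.Agent.H3.TenLin Cfsg.Agent.H3.TenSL Cfsg.Agent.H3.TenSU
  Cfsg.Agent.H3.RootGeo Cfsg.Agent.H3.OrthLem Cfsg.Agent.H3.TenO1 Cfsg.Agent.H3.TenSpSp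
  Cfsg.Agent.H3.TenForm Cfsg.Agent.H3.TenPar Cfsg.Agent.H3.TenGlue Cfsg.Agent.H3.TenO2
  Cfsg.Agent.H9.FClass Cfsg.Agent.H1.C7j Cfsg.Agent.H1.C7k Cfsg.Agent.H1.C7n Cfsg.Agent.H1.O7a Cfsg.Agent.H1.O7b
  Cfsg.Agent.H1.O7c Cfsg.Agent.H1.C7l Cfsg.Agent.H1.C7e Cfsg.Agent.H1.O7h
  Cfsg.Agent.H1.O7i Cfsg.Agent.H1.O8a Cfsg.Agent.H1.O8b Cfsg.Agent.H1.O8c Cfsg.Agent.H1.O8d Cfsg.Agent.H1.O8e Cfsg.Agent.H1.O8f Cfsg.Agent.H1.O8g
  Cfsg.Agent.H1.C7g
open Cfsg.Agent.H1.C7a (act tens_act act_apply Eqv Comm eqv_act_iff)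
open Cfsg.Agent.H1.O7j (cj_lft cj_rgt fst_of res rel ka)
open scoped Pointwise

variable {F : Type*} [Field F] {V : Type*} [AddCommGroup V] [Module F V]
  {U : Type*} [AddCommGroup U] [Module F U] {W : Type*} [AddCommGroup W] [Module F W]
  [FiniteDimensional F U] [FiniteDimensional F W] [FiniteDimensional F V]
  {S₁ : PQ (FP.orth F) U} {S₂ : PQ (FP.orth F) W} {S : PQ (FP.orth F) V} {M N : Subgroup (V ≃ₗ[F] V)}
  {I J : Type*} [Fintype I] [DecidableEq I] [Fintype J] [DecidableEq J] {ι : J → End F W →ₐ[F] End F U}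
  {τ : I → U →ₗ[F] W →ₗ[F] V}

open LinearMap (trace)

theorem bt_cj [Nontrivial W] {R : Type*} [Ring R] [Algebra F R] (κ : End F W →ₐ[F] R) (hS : S₂.Nondeg)
    {g : W ≃ₗ[F] W} (hg : g ∈ S₂.isom) (X : R) (a d : W) :
    bt S₂ κ (κ g * X * κ g.symm) a d = bt S₂ κ X (g.symm a) (g.symm d) := by
  obtain ⟨x, hx⟩ := exists_ne (0 : W)
  refine sub_eq_zero.1 (cancel (fun m => (cm_bt κ _ a d m).sub_left (cm_bt κ X _ _ m)) (rk_ne hS hx hx) ?_)
  rw [mul_sub, ← rk_bt, ← rk_bt, ← mul_assoc, ← mul_assoc, ← map_mul, mul_assoc _ (κ _), ← map_mul, sub_eq_zero]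
  congr 3
  · ext v; simp [← PQ.B_isom hg v]
  · ext; simp

theorem poly [Fintype F] {R : Type*} [AddCommGroup R] [Module F R] (h2 : (2 : F) ≠ 0) {α β : W →ₗ[F] W →ₗ[F] R}
    (hα : ∀ x y, α x y = -α y x) (hβ : ∀ x y, β x y = -β y x) {w e y z : W} (f : Fr S₂ w e y z) (a c d : W) :
    ∑ p : F × F, (α (sg S₂ w (-(p.1 • y + p.2 • z)) c) (sg S₂ w (-(p.1 • y + p.2 • z)) d) +
      S₂.B a (p.1 • y + p.2 • z) • β (sg S₂ w (-(p.1 • y + p.2 • z)) c) (sg S₂ w (-(p.1 • y + p.2 • z)) d)) = 0 := by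
  set ψ : F × F → R := fun p => α (sg S₂ w (-(p.1 • y + p.2 • z)) c) (sg S₂ w (-(p.1 • y + p.2 • z)) d) +
      S₂.B a (p.1 • y + p.2 • z) • β (sg S₂ w (-(p.1 • y + p.2 • z)) c) (sg S₂ w (-(p.1 • y + p.2 • z)) d) with hψ
  have a0 : α w w = 0 := smul_right_injective R h2 (by linear_combination (norm := module) hα w w)
  have b0 : β w w = 0 := smul_right_injective R h2 (by linear_combination (norm := module) hβ w w)
  have e0 : ∀ (p : F × F) x, sg S₂ w (-(p.1 • y + p.2 • z)) x = x - (S₂.B x w * p.1) • y - (S₂.B x w * p.2) • z +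
      (p.1 * S₂.B x y + p.2 * S₂.B x z - (p.1 * p.1 * S₂.Q y + p.2 * p.2 * S₂.Q z) * S₂.B x w) • w := fun p x => by
    rw [sg_apply f.qd (by simp [f.all])]
    simp [S₂.orth_Q_neg, S₂.orth_Q_add, S₂.orth_Q_smul, f.all, -neg_add_rev]; module
  have e1 : ∀ p : F × F, ψ p + ψ (-p) = (ψ 0 + ψ 0) + (p.1 * p.1) • (ψ (1, 0) + ψ (-1, 0) - (ψ 0 + ψ 0)) +
      (p.2 * p.2) • (ψ (0, 1) + ψ (0, -1) - (ψ 0 + ψ 0)) + (p.1 * p.2) • (ψ (1, 1) + ψ (-1, -1) - (ψ (1, 0) + ψ (-1, 0))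
        - (ψ (0, 1) + ψ (0, -1)) + (ψ 0 + ψ 0)) := fun p => by
    simp only [hψ, e0, map_add, map_sub, map_smul, LinearMap.add_apply, LinearMap.sub_apply, LinearMap.smul_apply,
      a0, b0, hβ y w, hβ z w, PQ.B_add_right, PQ.B_smul_right, FP.orth_σ, Prod.fst_neg, Prod.snd_neg, Prod.fst_zero,
      Prod.snd_zero]
    module
  refine smul_right_injective R h2 ?_
  have e2 := FiniteField.sum_pow_lt_card_sub_one F 1 (by
    have := Fintype.one_lt_card (α := F)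
    have : Fintype.card F ≠ 2 := fun e => h2 (by exact_mod_cast e ▸ FiniteField.cast_card_eq_zero F)
    omega)
  simp only [pow_one] at e2
  clear_value ψ
  simp only [two_smul]
  nth_rw 2 [← Equiv.sum_comp (Equiv.neg (F × F)) ψ]
  simp only [Equiv.neg_apply, ← Finset.sum_add_distrib, e1]
  simp only [Finset.sum_add_distrib, ← Finset.sum_smul, Finset.sum_const, Fintype.sum_prod_type, ← Finset.mul_sum,
    e2, ← Nat.cast_smul_eq_nsmul F, Finset.card_univ, FiniteField.cast_card_eq_zero, ← Finset.smul_sum]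
  simp [show ∑ x : F, ∑ y : F, x * y = 0 by rw [← Finset.sum_mul_sum, e2, zero_mul]]

theorem cj_sg {w y : W} (hS : S₂.Nondeg) (h2 : (2 : F) ≠ 0) (hw : S₂.Q w = 0) (hy : S₂.B y w = 0) {C : End F W}
    (hC : adj hS C = -C) : cj (sg S₂ w y) C = C + (wg S₂ w y * C - C * wg S₂ w y) + (2 : F)⁻¹ •
      (wg S₂ w y * (wg S₂ w y * C - C * wg S₂ w y) - (wg S₂ w y * C - C * wg S₂ w y) * wg S₂ w y) := by
  have sk : ∀ a b, S₂.B (C a) b = -S₂.B a (C b) := fun a b => by rw [← B_adj hS, hC]; simp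
  have sk' : ∀ a, S₂.B a (C a) = 0 := fun a => mul_left_cancel₀ h2 (by
    linear_combination sk a a + S₂.orth_B_swap (C a) a)
  have hy' : S₂.B (-y) w = 0 := by simp [hy]
  ext v
  simp [sg_symm, sg_apply hw hy, sg_apply hw hy', sk, sk', S₂.orth_Q_neg, show S₂.B w (C y) = -S₂.B y (C w) by
    rw [← sk, S₂.orth_B_swap], hy, S₂.B_comm_zero hy, B_self_zero hw, S₂.orth_B_self]
  match_scalars <;> field_simp <;> ring

section one
variable {ρ ρ' : U →ₗ[F] W →ₗ[F] V} {h : TF S₁ S₂ S ρ} {h' : TF S₁ S₂ S ρ'} {Φ Ψ : End F V →ₗ[F] End F V}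

theorem tr_tens (h : IsTens ρ) (X : End F U) (m : End F W) :
    trace F V (lft h X * rgt h m) = trace F U X * trace F W m := by
  rw [← LinearMap.trace_tensorProduct', ← LinearMap.trace_conj' _ h.equiv]
  congr 1
  exact h.ext fun u w => by simp

theorem adj_rgt (h : TF S₁ S₂ S ρ) (hS : S.Nondeg) (m : End F W) :
    adj hS (rgt h.tens m) = rgt h.tens (adj h.nd₂ m) :=
  adjH_tens h hS fun u w u' w' => by simp [h.form, B_adj]

theorem tr_rk (A : End F W) (a b : W) : trace F W (A * rk S₂ a b) = S₂.B (A b) a := by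
  rw [show A * rk S₂ a b = (S₂.lin a).smulRight (A b) by ext; simp, LinearMap.trace_smulRight]; rfl

theorem tr_adj (hS : S₂.Nondeg) (A : End F W) : trace F W (adj hS A) = trace F W A := by
  have := mem_of_rk1 (A := LinearMap.eqLocus (trace F W ∘ₗ LinearMap.mulLeft F 1 ∘ₗ
    { adjH hS with map_smul' := adj_smul hS }) (trace F W)) (fun ψ x => by
      obtain ⟨c, rfl⟩ := hS.exists_lin ψ
      change trace F W (1 * adj hS (rk S₂ c x)) = trace F W (rk S₂ c x)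
      rw [adj_rk, tr_rk, ← one_mul (rk S₂ c x), tr_rk, S₂.orth_B_swap]; rfl) A
  simpa [adjH] using this

/-- projections -/
def Pr (h : TF S₁ S₂ S ρ) (Φ : End F V →ₗ[F] End F V) : Prop :=
  (∀ Y, ∃ A, adj h.nd₂ A = -A ∧ Φ Y = rgt h.tens A) ∧
    ∀ Y A, adj h.nd₂ A = -A → trace F V (Φ Y * rgt h.tens A) = trace F V (Y * rgt h.tens A)

/-- conjugation of projections -/
noncomputable def ac (g : V ≃ₗ[F] V) : (End F V →ₗ[F] End F V) →ₗ[F] End F V →ₗ[F] End F V := g.conj.conj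

theorem ac_apply (g : V ≃ₗ[F] V) (Y : End F V) : ac g Φ Y = cj g (Φ (cj g⁻¹ Y)) := rfl

theorem ac_ac (g k : V ≃ₗ[F] V) : ac g (ac k Φ) = ac (g * k) Φ := rfl

theorem ac_one : ac 1 Φ = Φ := rfl

theorem Pr.act (P : Pr h Φ) {g : V ≃ₗ[F] V} (hg : g ∈ bis S) : Pr (tf_act h hg) (ac g Φ) := by
  have k : ∀ X, trace F V (cj g X) = trace F V X := fun X => LinearMap.trace_conj' X g
  refine ⟨fun Y => (P.1 _).imp fun A a => ⟨a.1, by rw [ac_apply, a.2, rgt_act]⟩, fun Y A hA => ?_⟩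
  rw [ac_apply, rgt_act h.tens, ← cj_mul, k, P.2 _ _ hA, ← k, cj_mul, cj_cj, mul_inv_cancel, cj_one]

variable (h2 : (2 : F) ≠ 0) (hU : (finrank F U : F) ≠ 0)
include h2 hU

theorem tr_nd {A : End F W} (hA : adj h.nd₂ A = -A)
    (e : ∀ B, adj h.nd₂ B = -B → trace F V (rgt h.tens A * rgt h.tens B) = 0) : A = 0 := by
  refine LinearMap.ext fun b => h.nd₂ _ fun a => mul_left_cancel₀ (mul_ne_zero hU h2) ?_
  have := e (wg S₂ a b) (by simp [wg, adj_sub, adj_rk])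
  rw [← map_mul, ← one_mul (rgt _ _), ← map_one (lft h.tens), tr_tens, LinearMap.trace_one, wg, mul_sub, map_sub, tr_rk,
    tr_rk, ← B_adj h.nd₂ A a, hA, S₂.orth_B_swap] at this
  simp only [LinearMap.neg_apply, PQ.B_neg_right, S₂.orth_B_swap (A b) a] at this
  linear_combination this

theorem Pr.eq (P : Pr h Φ) {Y : End F V} {A : End F W} (hA : adj h.nd₂ A = -A)
    (e : ∀ B, adj h.nd₂ B = -B → trace F V (rgt h.tens A * rgt h.tens B) = trace F V (Y * rgt h.tens B)) :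
    Φ Y = rgt h.tens A := by
  obtain ⟨A', a1, a2⟩ := P.1 Y
  rw [a2, sub_eq_zero.1 (tr_nd (h := h) h2 hU (A := A' - A) (by rw [adj_sub, a1, hA]; abel) fun B hB => by
    rw [map_sub, sub_mul, map_sub, e B hB, ← a2, P.2 Y B hB, sub_self])]

theorem exists_Pr (h : TF S₁ S₂ S ρ) : ∃ Φ, Pr h Φ := by
  let K : Submodule F (End F W) :=
    { carrier := {A | adj h.nd₂ A = -A}
      add_mem' := fun {a b} ha hb => by rw [Set.mem_ofPred_eq, adj_add, ha, hb, neg_add]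
      zero_mem' := adj_eq _ (by simp)
      smul_mem' := fun c a ha => by rw [Set.mem_ofPred_eq, adj_smul, ha]; simp }
  let κ := (rgt h.tens).toLinearMap ∘ₗ K.subtype
  let L : End F V →ₗ[F] Dual F K := ((LinearMap.mul F (End F V)).compr₂ (trace F V)).compl₂ κ
  let T := LinearMap.linearEquivOfInjective (L ∘ₗ κ) ((injective_iff_map_eq_zero _).2 fun A hA => Subtype.ext
    (tr_nd (h := h) h2 hU A.2 fun B hB => LinearMap.congr_fun hA ⟨B, hB⟩)) Subspace.dual_finrank_eq.symm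
  exact ⟨κ ∘ₗ T.symm.toLinearMap ∘ₗ L, fun Y => ⟨_, (T.symm (L Y)).2, rfl⟩, fun Y A hA =>
    LinearMap.congr_fun (T.apply_symm_apply (L Y)) ⟨A, hA⟩⟩

theorem Pr.eq_of [Nontrivial V] (P : Pr h Φ) (P' : Pr h' Ψ) (e : ∀ m, ∃ m', rgt h.tens m' = rgt h'.tens m) :
    Φ = Ψ := by
  have k : ∀ {A A'}, rgt h.tens A = rgt h'.tens A' → (adj h.nd₂ A = -A ↔ adj h.nd₂ A' = -A') := fun e => by
    refine ⟨fun a => ι_inj (rgt h'.tens) ?_, fun a => ι_inj (rgt h.tens) ?_⟩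
    · rw [← adj_rgt h' h.nd, map_neg, ← e, adj_rgt h, a, map_neg]
    · rw [← adj_rgt h h.nd, map_neg, e, adj_rgt h', a, map_neg]
  have k1 := Submodule.eq_of_le_of_finrank_eq (S₁ := LinearMap.range (rgt h'.tens).toLinearMap)
    (S₂ := LinearMap.range (rgt h.tens).toLinearMap) (by rintro _ ⟨m, rfl⟩; exact e m) (by
      rw [LinearMap.finrank_range_of_inj fun _ _ => ι_inj (rgt h'.tens),
        LinearMap.finrank_range_of_inj fun _ _ => ι_inj (rgt h.tens)])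
  ext1 Y
  obtain ⟨A', a1, a2⟩ := P'.1 Y
  obtain ⟨A, a3⟩ := e A'
  refine (P.eq h2 hU ((k a3).2 a1) fun B hB => ?_).trans (a3.trans a2.symm)
  obtain ⟨B', b1⟩ := k1.ge ⟨B, rfl⟩
  have b2 : rgt h.tens B = rgt h'.tens B' := b1.symm
  rw [a3, ← a2, b2, P'.2 _ _ ((k b2).1 hB)]

end one

namespace TW
variable {h : ∀ i, TF S₁ S₂ S (τ i)} {e : I → J → I} (H : TW h ι e) [Finite F] [Nontrivial U] [Nontrivial W]
  [Nontrivial V] [Nontrivial I] (Q : ∀ i, OQ (h i) M) (hU : (finrank F U : F) ≠ 0)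
  {𝒮 : Finset (End F V →ₗ[F] End F V)} (m : ∀ Φ, Φ ∈ 𝒮 ↔ ∃ ρ, ∃ h' : TF S₁ S₂ S ρ, OQ h' M ∧ Pr h' Φ)
include m

theorem ac_mem {g : V ≃ₗ[F] V} (hg : g ∈ M) {Φ : End F V →ₗ[F] End F V} (hΦ : Φ ∈ 𝒮) : ac g Φ ∈ 𝒮 := by
  obtain ⟨ρ, h', a1, a2⟩ := (m Φ).1 hΦ
  exact (m _).2 ⟨_, _, a1.act hg, a2.act (a1.bis hg)⟩

theorem ac_sum {g : V ≃ₗ[F] V} (hg : g ∈ M) : ac g (∑ Φ ∈ 𝒮, Φ) = ∑ Φ ∈ 𝒮, Φ := by
  rw [map_sum]
  exact Finset.sum_nbij' (ac g) (ac g⁻¹) (fun _ => ac_mem m hg) (fun _ => ac_mem m (inv_mem hg))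
    (fun _ _ => by rw [ac_ac, inv_mul_cancel, ac_one]) (fun _ _ => by rw [ac_ac, mul_inv_cancel, ac_one]) fun _ _ => rfl

include H Q hU

theorem sy {j : I} {Φ₀ : End F V →ₗ[F] End F V} (P : Pr (h j) Φ₀) (Z : End F V) :
    Sy S₂ (ka h j) ((∑ Φ ∈ 𝒮, Φ - Φ₀) Z) := by
  classical
  have := Fintype.ofFinite F
  have two := H.oe.two
  have nd := H.oe.nd
  have c0 : ∀ w y m, cj (eT (h j) w y) (ka h j m) = ka h j (cj (sg S₂ w y) m) := fun w y =>
    cj_rgt (a := 1) _ (eT_tmul w y)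
  have c1 : ∀ w y, ac (eT (h j) w y) Φ₀ = Φ₀ := fun w y =>
    (P.eq_of two hU (P.act (eT_bis w y)) fun m => ⟨_, (c0 w y m).symm.trans (rgt_act _ _ _).symm⟩).symm
  have c2 : ∀ w y {X}, Cm (ka h j) X → cj (eT (h j) w y) X = X := fun w y X hX => cj_eq_iff.2 (eT_coe (h := h j) w y ▸
    (hX _).eq.symm)
  suffices k : ∀ Y, Cm (ka h j) Y → ∀ t c d, bt S₂ (ka h j) ((∑ Φ ∈ 𝒮, Φ - Φ₀) (ka h j t * Y)) c d =
      bt S₂ (ka h j) ((∑ Φ ∈ 𝒮, Φ - Φ₀) (ka h j t * Y)) d c by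
    refine fun a b c d => sub_eq_zero.1 (mem_of_span (ka h j) Submodule.span_univ (X := Z) (A := LinearMap.ker
      ((LinearMap.mulLeftRight F (ka h j (rk S₂ a b), ka h j (rk S₂ c d)) -
        LinearMap.mulLeftRight F (ka h j (rk S₂ d b), ka h j (rk S₂ c a))) ∘ₗ (∑ Φ ∈ 𝒮, Φ - Φ₀)))
      fun t _ Y hY _ => sub_eq_zero.2 ((sy_iff nd).2 (k Y hY t) a b c d))
  intro Y hY t c d
  let B : End F V →ₗ[F] W →ₗ[F] W →ₗ[F] End F V :=
    { toFun := fun X => bt S₂ (ka h j) X - (bt S₂ (ka h j) X).flip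
      map_add' := fun X Y => by ext : 2; simp [bt, C7d.E, mul_add, add_mul, Finset.sum_add_distrib]; abel
      map_smul' := fun r X => by ext : 2; simp [bt, C7d.E, Finset.smul_sum, smul_sub] }
  have b0 : ∀ X c d, B X c d = bt S₂ (ka h j) X c d - bt S₂ (ka h j) X d c := fun _ _ _ => rfl
  have b1 : ∀ {X}, Cm (ka h j) X → B X c d = 0 := fun hX => sub_eq_zero.2 ((sy_iff nd).1 (Sy.of_cm hX) c d)
  let l : End F W →ₗ[F] End F V := (LinearMap.applyₗ d ∘ₗ LinearMap.applyₗ c ∘ₗ B) ∘ₗ (∑ Φ ∈ 𝒮, Φ - Φ₀) ∘ₗ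
    LinearMap.mulRight F Y ∘ₗ (ka h j).toLinearMap
  have l0 : ∀ t, l t = B ((∑ Φ ∈ 𝒮, Φ - Φ₀) (ka h j t * Y)) c d := fun _ => rfl
  obtain ⟨r, hr⟩ := bil two nd H.oe.three (β := LinearMap.mk₂ F (fun a u => l (rk S₂ a u))
    (fun a a' u => by rw [← map_add]; congr 1; ext; simp [add_smul])
    (fun r a u => by rw [← map_smul]; congr 1; ext; simp [mul_smul])
    (fun a u u' => by rw [← map_add]; congr 1; ext; simp)
    (fun r a u => by rw [← map_smul]; congr 1; ext; simp [smul_comm r])) fun a w hw ha => by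
    by_cases h0 : w = 0
    · rw [h0, map_zero]
    obtain ⟨x, y, z, f⟩ := H.oe.fr hw h0
    have v0 : ∀ p : F × F, S₂.B (p.1 • y + p.2 • z) w = 0 := fun p => by simp [f.all]
    let A : (End F V →ₗ[F] End F V) →ₗ[F] End F V := (LinearMap.applyₗ d ∘ₗ LinearMap.applyₗ c ∘ₗ B) ∘ₗ
      LinearMap.applyₗ (ka h j (rk S₂ a w) * Y)
    have A0 : ∀ Ψ, A Ψ = B (Ψ (ka h j (rk S₂ a w) * Y)) c d := fun _ => rfl
    change A (∑ Φ ∈ 𝒮, Φ - Φ₀) = 0
    clear_value A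
    rw [← Finset.sum_erase_add _ _ ((m _).2 ⟨_, _, Q j, P⟩), add_sub_cancel_right,
      ← Finset.sum_filter_add_sum_filter_not _ fun Φ => ∀ Y, Cm (ka h j) (Φ Y), map_add, map_sum,
      Finset.sum_eq_zero (f := A) fun Φ hΦ => (A0 Φ).trans (b1 (by exact (Finset.mem_filter.1 hΦ).2 _)), zero_add]
    refine orb_sum (fun (p : F × F) Φ => ac (eT (h j) w (p.1 • y + p.2 • z)) Φ) (fun Φ => by
      simp [H3.TenO6.eT_zero hw, ac_one]) (fun p p' Φ => by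
      rw [ac_ac, H3.TenO6.eT_mul hw (v0 p) (v0 p')]; simp [add_smul, add_add_add_comm]) id
      (LinearMap.ker A).toAddSubmonoid _ (fun p Φ hΦ => ?_) (fun p Φ hΦ e => by_contra fun hp => ?_) fun Φ _ => ?_
    · simp only [Finset.mem_filter, Finset.mem_erase] at hΦ ⊢
      refine ⟨⟨fun e => hΦ.1.1 ?_, ac_mem m ((Q j).eT_mem _ _) hΦ.1.2⟩, fun e => hΦ.2 fun X => ?_⟩
      · rw [← ac_one (Φ := Φ), ← inv_mul_cancel (eT (h j) w (p.1 • y + p.2 • z)), ← ac_ac, e,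
          show (eT (h j) w (p.1 • y + p.2 • z))⁻¹ = _ from eT_symm w _, c1]
      · have := e (cj (eT (h j) w (p.1 • y + p.2 • z)) X)
        rw [ac_apply, cj_cj, inv_mul_cancel, cj_one] at this
        have := Nm.cm (Nm.inv ⟨_, sg_mem _ _, c0 w (p.1 • y + p.2 • z)⟩) this
        rwa [cj_cj, inv_mul_cancel, cj_one] at this
    · simp only [Finset.mem_filter, Finset.mem_erase] at hΦ
      obtain ⟨ρ, h', a1, a2⟩ := (m Φ).1 hΦ.1.2
      obtain ⟨_, _, f'⟩ := fr_of H.oe hw h0 (v0 p) fun e => hp (by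
        have := f.an two a1.an (s := p.1) (t := p.2) (by
          simp [S₂.orth_Q_add, S₂.orth_Q_smul, f.all] at e; linear_combination e)
        exact Prod.ext this.1 this.2)
      rcases O8g.TW.tri H Q a1 f' (norm_T (h := h') H.oe fun C hC => by
        obtain ⟨D, -, a3⟩ := a2.1 (cj (eT (h j) w (p.1 • y + p.2 • z)) (rgt h'.tens C))
        refine ⟨D, ?_⟩
        rw [← a3, ← e, ac_apply, cj_cj, inv_mul_cancel, cj_one, a2.eq two hU hC fun _ _ => rfl]) with a3 | a3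
      · exact hΦ.2 fun X => (a2.1 X).elim fun C a4 => a4.2 ▸ a3 C
      · exact hΦ.1.1 (P.eq_of two hU a2 a3).symm
    · have al : ∀ X x y, B X x y = -B X y x := fun X x y => by simp [b0]
      change A _ = 0
      rw [map_sum, ← poly two (al (Φ (ka h j (rk S₂ a w) * Y))) (al (Φ (ka h j (rk S₂ w w) * Y))) f a c d]
      refine Finset.sum_congr rfl fun p _ => ?_
      generalize p.1 • y + p.2 • z = v, v0 p = hv
      rw [id, A0, ac_apply, show (eT (h j) w v)⁻¹ = _ from eT_symm w v, cj_mul, c0, c2 _ _ hY, cj_rk (sg_mem _ _), ← cj_eq,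
        eT_symm, eT_coe, eT_coe, ← sg_symm, b0,
        bt_cj _ nd (sg_mem _ _), bt_cj _ nd (sg_mem _ _), ← b0, sg_symm,
        show rk S₂ (sg S₂ w (-v) a) (sg S₂ w (-v) w) = rk S₂ a w + S₂.B a v • rk S₂ w w by
          ext; simp [sg_apply hw (v := -v) (by simp [hv]), ha, B_self_zero hw, S₂.B_comm_zero hv, add_smul, smul_smul]]
      simp [add_mul]
  have l1 : l 1 = 0 := by
    rw [l0, map_one, one_mul]
    refine b1 (cm_of_pi H.oe fun w _ y _ f => comm_pi two f.qd f.yd f.qy ?_)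
    have : ac (eT (h j) w y) (∑ Φ ∈ 𝒮, Φ - Φ₀) = ∑ Φ ∈ 𝒮, Φ - Φ₀ := by
      rw [map_sub, ac_sum m ((Q j).eT_mem _ _), c1]
    have := LinearMap.congr_fun this Y
    rw [ac_apply, show (eT (h j) w y)⁻¹ = _ from eT_symm w y, c2 _ _ hY, cj_eq_iff, eT_coe] at this
    exact this.symm
  obtain ⟨w, x, y, z, f⟩ := H.oe.fr'
  simp only [LinearMap.mk₂_apply] at hr
  rw [f.one two (Q j).four] at l1
  simp only [map_add, map_smul, hr, f.all, smul_smul, inv_mul_cancel₀ (mul_ne_zero two f.qy),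
    inv_mul_cancel₀ (mul_ne_zero two f.qz)] at l1
  obtain rfl : r = 0 := smul_right_injective _ (mul_ne_zero two two) (by linear_combination (norm := module) l1)
  exact sub_eq_zero.1 (mem_of_rk1 (A := LinearMap.ker l) (fun ψ x => by
    obtain ⟨c, rfl⟩ := nd.exists_lin ψ
    exact (hr c x).trans (smul_zero _)) t)

omit m in
theorem ac4 {g : V ≃ₗ[F] V} (hg : g ∈ M) (i : I) : g ∈ TStab (τ i) ∨ Comm (τ i) (act g (τ i)) := by
  classical
  have two := H.oe.two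
  have := Module.finite_of_finite F (M := End F V →ₗ[F] End F V)
  obtain ⟨𝒮, m⟩ : ∃ 𝒮 : Finset (End F V →ₗ[F] End F V), ∀ Φ, Φ ∈ 𝒮 ↔ ∃ ρ, ∃ h' : TF S₁ S₂ S ρ, OQ h' M ∧ Pr h' Φ :=
    ⟨(Set.toFinite _).toFinset, fun _ => Set.Finite.mem_toFinset _⟩
  choose Φ P using fun j => exists_Pr two hU (h j)
  have sk : ∀ {ρ} {h' : TF S₁ S₂ S ρ} {Ψ}, Pr h' Ψ → ∀ Z, adjH (h i).nd (Ψ Z) = -Ψ Z := fun {_ h' _} P Z => by
    obtain ⟨A, a1, a2⟩ := P.1 Z
    rw [a2, ← map_neg, ← a1]; exact adj_rgt h' (h i).nd A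
  have k : ∀ Z, (∑ Ψ ∈ 𝒮, Ψ) Z = ∑ j, Φ j Z := fun Z => by
    have a1 := diag2 (hS := (h i).nd) (hS₂ := H.oe.nd) H.hcV (fun j => adj_rgt (h j) (h i).nd) H.hsV (X := (∑ Ψ ∈ 𝒮, Ψ) Z - ∑ j, Φ j Z)
      fun j a b c d => by
        have a1 := sy H Q hU m (P j) Z a b c d
        have a2 := Sy.of_cm (S₂ := S₂) (κ := ka h j) (X := ∑ l ∈ Finset.univ.erase j, Φ l Z) (fun t =>
          Commute.sum_left _ _ _ fun l hl => ((P l).1 Z).elim fun A a => a.2 ▸ H.hcV l j (by simpa using hl) A t) a b c d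
        rw [← Finset.add_sum_erase _ _ (Finset.mem_univ j), ← sub_sub, ← LinearMap.sub_apply]
        simp only [mul_sub (_ : End F V) (_ : End F V) (∑ l ∈ _, _), sub_mul, a1, a2]
    have a2 : adjH (h i).nd ((∑ Ψ ∈ 𝒮, Ψ) Z - ∑ j, Φ j Z) = -((∑ Ψ ∈ 𝒮, Ψ) Z - ∑ j, Φ j Z) := by
      rw [LinearMap.sum_apply, map_sub, map_sum, map_sum, Finset.sum_congr rfl fun Ψ hΨ =>
        ((m Ψ).1 hΨ).elim fun _ ⟨_, a⟩ => sk a.2 Z, Finset.sum_congr rfl fun j _ => sk (P j) Z]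
      simp only [Finset.sum_neg_distrib]; abel
    exact sub_eq_zero.1 (smul_right_injective _ two (by linear_combination (norm := module) a1.symm.trans a2))
  have k1 : ∀ g ∈ M, ∀ j A, adj (h j).nd₂ A = -A → ∃ C : I → End F W, (∀ l, adj (h l).nd₂ (C l) = -C l) ∧
      cj g (ka h j A) = ∑ l, ka h l (C l) := fun g hg j A hA => by
    choose C c1 c2 using fun l => (P l).1 (cj g (ka h j A))
    refine ⟨C, c1, ?_⟩
    rw [← Finset.sum_congr rfl fun l _ => c2 l, ← k, ← ac_sum m hg, ac_apply, cj_cj, inv_mul_cancel, cj_one, k,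
      Finset.sum_eq_single j (fun l _ hl => ((P l).eq two hU (A := 0) (adj_eq _ (by simp)) fun B hB => ?_).trans
        (map_zero _)) (by simp), (P j).eq two hU hA fun _ _ => rfl]
    obtain ⟨n, rfl⟩ := H.sur l j hl.symm
    have := tr_adj H.oe.nd B
    rw [hB, map_neg] at this
    rw [← H.cp, tr_tens, show trace F W B = 0 from mul_left_cancel₀ two (by linear_combination -this)]
    simp
  have k2 : ∀ j (C : I → End F W) A, (∑ l, ka h l (C l)) * ka h j A - ka h j A * ∑ l, ka h l (C l) =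
      ka h j (C j * A - A * C j) := fun j C A => by
    rw [← Finset.add_sum_erase _ _ (Finset.mem_univ j), add_mul, mul_add, (Commute.sum_left _ _ _ fun l hl =>
      H.hcV l j (by simpa using hl) (C l) A).eq, map_sub, map_mul, map_mul]
    abel
  obtain ⟨w, x, y, z, f⟩ := H.oe.fr'
  have k3 : ∀ A, adj (h i).nd₂ A = -A → ∃ B, adj (h i).nd₂ B = -B ∧
      ka h i (wg S₂ w y) * cj g (ka h i A) - cj g (ka h i A) * ka h i (wg S₂ w y) = cj g (ka h i B) := fun A hA => by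
    obtain ⟨C, c1, c2⟩ := k1 _ (inv_mem hg) i (wg S₂ w y) (by simp [wg, adj_sub, adj_rk])
    refine ⟨C i * A - A * C i, by simp [adj_sub, adj_mul, c1, hA], ?_⟩
    rw [← k2, ← c2, sub_eq_add_neg, sub_eq_add_neg, ← neg_one_smul F, ← neg_one_smul F (_ * _), cj_add, cj_smul, cj_mul,
      cj_mul, cj_cj, mul_inv_cancel, cj_one]
  refine (O8g.TW.tri H Q ((Q i).act hg) f (norm_T (h := tf_act (h i) ((Q i).bis hg)) H.oe fun A hA => ?_)).symm.imp
    (fun a => norm_T (h := h i) H.oe fun A _ => (a A).imp fun B e => (e.trans (rgt_act _ _ _)).symm)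
    fun a _ _ ψ x χ y v => by
      rw [rk_eq, rk_eq]; exact (LinearMap.congr_fun (a _ _).eq v).symm
  obtain ⟨B, b1, b2⟩ := k3 A hA
  obtain ⟨B', -, b3⟩ := k3 B b1
  obtain ⟨C, c1, c2⟩ := k1 g hg i A hA
  refine ⟨A + B + (2 : F)⁻¹ • B', ?_⟩
  have b4 : ∀ A, ka h i A * ∑ l, ka h l (C l) - (∑ l, ka h l (C l)) * ka h i A = ka h i (A * C i - C i * A) :=
    fun A => by rw [← neg_sub, k2, ← map_neg, neg_sub]
  rw [rgt_act (h i).tens, rgt_act (h i).tens, map_add, map_add, map_smul, cj_add, cj_add, cj_smul, ← b3, ← b2, c2, b4,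
    ← map_mul, ← map_mul, ← map_sub, ← Finset.add_sum_erase _ _ (Finset.mem_univ i), cj_add,
    cj_rgt (a := 1) _ (eT_tmul w y), cj_sg H.oe.nd two f.qd f.yd (c1 i), cj_eq_iff.2 (eT_coe (h := h i) w y ▸
      (Commute.sum_left _ _ _ fun l hl => H.hcV l i (by simpa using hl) (C l) _).eq.symm), map_add, map_add, map_smul]
  abel

end TW

end Cfsg.Agent.H1.O8h
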