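import Cfsg.Agent.H1.O8h
import Cfsg.Agent.H1.O7m

/-!
Tensor wreath products with orthogonal factors of even dimension.
-/

set_option autoImplicit false
set_option linter.unusedSectionVars false
set_option linter.unusedSimpArgs false

namespace Cfsg.Agent.H1.O8i

open Module Cfsg.Agent.H7 Cfsg.Agent.Form Cfsg.Agent.H3.TenLin Cfsg.Agent.H3.TenSL Cfsg.Agent.H3.TenSU
  Cfsg.Agent.H3.RootGeo Cfsg.Agent.H3.OrthLem Cfsg.Agent.H3.TenO1 Cfsg.Agent.H3.TenSpSp
  Cfsg.Agent.H3.TenForm Cfsg.Agent.H3.TenPar Cfsg.Agent.H3.TenGlue Cfsg.Agent.H3.TenO2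
  Cfsg.Agent.H9.FClass Cfsg.Agent.H1.C7j Cfsg.Agent.H1.C7k Cfsg.Agent.H1.C7n Cfsg.Agent.H1.O7a Cfsg.Agent.H1.O7b
  Cfsg.Agent.H1.O7c Cfsg.Agent.H1.C7l Cfsg.Agent.H1.C7e Cfsg.Agent.H1.O7h
  Cfsg.Agent.H1.O7i Cfsg.Agent.H1.O8a Cfsg.Agent.H1.O8b Cfsg.Agent.H1.O8c Cfsg.Agent.H1.O8d Cfsg.Agent.H1.O8e
  Cfsg.Agent.H1.C7g Cfsg.Agent.H1.C7f Cfsg.Agent.H1.C7m Cfsg.Agent.H1.C7r Cfsg.Agent.Asch
open Cfsg.Agent.H1.C7a (act tens_act eqv_act_iff)
open Cfsg.Agent.H1.O7j (ka)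
open Cfsg.Agent.H1.O7m (rgt_fac cp_fac exists_tf)
open scoped Matrix MatrixGroups

variable {F : Type*} [Field F]

section abs
variable {V : Type*} [AddCommGroup V] [Module F V]
  {U : Type*} [AddCommGroup U] [Module F U] {W : Type*} [AddCommGroup W] [Module F W]
  [FiniteDimensional F U] [FiniteDimensional F W] [FiniteDimensional F V]
  {S₁ : PQ (FP.orth F) U} {S₂ : PQ (FP.orth F) W} {S : PQ (FP.orth F) V} {M N : Subgroup (V ≃ₗ[F] V)}
  {I J : Type*} [Fintype I] [DecidableEq I] [Fintype J] [DecidableEq J] {ι : J → End F W →ₐ[F] End F U}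

theorem prod_one [Finite F] {A : Type*} [CommGroup A] {f : F → A} (h1 : ∀ s, f s ^ 2 = 1)
    (h3 : ∀ s t, s ≠ 0 → t ≠ 0 → IsSquare (s * t) → f s = f t) {m n : ℕ} (hm : Even m) (hn : Even n) {α : Fin m → F}
    {β : Fin n → F} (hα : ∀ i, α i ≠ 0) (hβ : ∀ i, β i ≠ 0) : ∏ p : Fin m × Fin n, f (α p.1 * β p.2) = 1 := by
  obtain ⟨m, rfl⟩ := hm.two_dvd
  obtain ⟨n, rfl⟩ := hn.two_dvd
  have k : ∀ s t, s ≠ 0 → t ≠ 0 → f (s * t) = f t * (f s * f 1) := fun s t hs ht => by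
    by_cases e : IsSquare s
    · rw [h3 s 1 hs one_ne_zero (by simpa), ← sq, h1, mul_one]
      exact h3 _ _ (mul_ne_zero hs ht) ht (by rw [mul_assoc]; exact e.mul (IsSquare.mul_self t))
    by_cases e' : IsSquare t
    · rw [h3 t 1 ht one_ne_zero (by simpa), mul_left_comm, ← sq, h1, mul_one]
      exact h3 _ _ (mul_ne_zero hs ht) hs (by rw [mul_right_comm]; exact (IsSquare.mul_self s).mul e')
    · rw [h3 t s ht hs (isSquare_mul_of_not e' e), ← mul_assoc, ← sq, h1, one_mul]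
      exact h3 _ _ (mul_ne_zero hs ht) one_ne_zero (by simpa using isSquare_mul_of_not e e')
  simp only [Fintype.prod_prod_type, k _ _ (hα _) (hβ _), Finset.prod_mul_distrib (f := fun i => f (β i)),
    Finset.prod_const, Finset.card_fin, pow_mul, mul_pow, ← Finset.prod_pow, h1]
  simp

theorem rf [Finite F] {U₀ : Type*} [AddCommGroup U₀] [Module F U₀] [FiniteDimensional F U₀] {S₀ : PQ (FP.orth F) U₀}
    {τ : U →ₗ[F] W →ₗ[F] V} {τ' : U₀ →ₗ[F] W →ₗ[F] U} (h : TF S₁ S₂ S τ) (h' : TF S₀ S₂ S₁ τ') (h2 : (2 : F) ≠ 0)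
    (hV : 2 ≤ finrank F V) (e0 : Even (finrank F U₀)) (e2 : Even (finrank F W)) (y : W) :
    h.tens.tcongr 1 (rl S₂ y) ∈ Om S := by
  classical
  by_cases hy : S₂.Q y = 0
  · rw [h.eq_of_tens (g := h.tens.tcongr 1 (rl S₂ y)) (k := 1) fun u w => by simp [rl_apply, hy]]
    exact one_mem _
  let φ : S.isom →* Abelianization S.isom := Abelianization.of
  have hφ : ∀ g : S.isom, φ g = 1 ↔ g.1 ∈ Om S := fun g => by
    rw [← MonoidHom.mem_ker, Abelianization.ker_of, Om, Om_toQF, ← Subgroup.map_subtype_commutator]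
    exact (Subgroup.mem_map_iff_mem (f := S.isom.subtype) Subtype.val_injective).symm
  let ρ : V → Abelianization S.isom := fun x => φ ⟨_, rl_mem x⟩
  have r1 : ∀ x, ρ x ^ 2 = 1 := fun x => by rw [sq, ← map_mul, ← map_one φ]; exact congrArg φ (Subtype.ext (rl_sq x))
  have r2 : ∀ x y, S.Q x ≠ 0 → S.Q y ≠ 0 → IsSquare (S.Q x * S.Q y) → ρ x = ρ y := fun x y a1 a2 ⟨s, a3⟩ => by
    have := (hφ (⟨_, rl_mem x⟩ * ⟨_, rl_mem y⟩)).2 (rl_mul_mem h.nd (c := s / S.Q x)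
      (div_ne_zero (by rintro rfl; simp [a1, a2] at a3) a1) a1 (by field_simp; linear_combination a3))
    rw [map_mul] at this
    exact mul_right_cancel (this.trans ((r1 y).symm.trans (sq _)))
  obtain ⟨a, -, a1, a2, a3⟩ := exists_orthogonal_family S₀ (fun x => S₀.Q x ≠ 0) (fun x => B_self_ne h2)
    (fun A => exists_Q_ne_zero) _ ⊤ (S₀.nondegOn_top.2 h'.nd₁) (finrank_top F U₀)
  obtain ⟨b, -, b1, b2, b3⟩ := exists_orthogonal_family S₂ (fun x => S₂.Q x ≠ 0) (fun x => B_self_ne h2)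
    (fun A => exists_Q_ne_zero) _ ⊤ (S₂.nondegOn_top.2 h.nd₂) (finrank_top F W)
  have hQ : ∀ u y, S.Q (τ u y) = 2 * S₁.Q u * S₂.Q y := fun u y => mul_left_cancel₀ h2 (by
    rw [← S.orth_B_self, h.form, S₁.orth_B_self, S₂.orth_B_self]; ring)
  have hQ' : ∀ u y, S₁.Q (τ' u y) = 2 * S₀.Q u * S₂.Q y := fun u y => mul_left_cancel₀ h2 (by
    rw [← S₁.orth_B_self, h'.form, S₀.orth_B_self, S₂.orth_B_self]; ring)
  choose x _ hx using exists_value (S.nondegOn_top.2 h.nd) (by rwa [finrank_top])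
  obtain ⟨v, hv⟩ : ∃ v : _ × _ → U, ∀ p, v p = τ' (a p.1) (b p.2) := ⟨_, fun _ => rfl⟩
  have v1 : ∀ p, S₁.Q (v p) ≠ 0 := fun p => by simp [hv, hQ', h2, a1 p.1, b1 p.2]
  have v2 : ∀ p q, p ≠ q → S₁.B (v p) (v q) = 0 := fun p q e => by
    rw [hv, hv, h'.form, mul_eq_zero]
    exact (not_and_or.1 (mt Prod.ext_iff.2 e)).imp (a2 _ _) (b2 _ _)
  have : ∀ s : Finset _, ∃ g : S.isom, φ g = ∏ i ∈ s, ρ (τ (v i) y) ∧
      ∀ i w, g.1 (τ (v i) w) = τ (v i) (if i ∈ s then rl S₂ y w else w) := fun s => by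
    induction s using Finset.induction_on with
    | empty => exact ⟨1, by simp⟩
    | insert j s hj ih =>
      obtain ⟨g, a1, a2⟩ := ih
      refine ⟨⟨_, rl_mem (τ (v j) y)⟩ * g, by rw [map_mul, a1, Finset.prod_insert hj], fun i w => ?_⟩
      by_cases e : i = j
      · subst e
        simp [a2, hj, rl_apply, h.form, hQ, S₁.orth_B_self]
        congr 1; field_simp [v1 i]
      · simp [a2, e, rl_apply (τ _ _), h.form, v2 i j e]
  obtain ⟨g, c1, c2⟩ := this Finset.univ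
  rw [h.eq_of_tens (g := h.tens.tcongr 1 (rl S₂ y)) (k := g.1) fun u w => h'.tens.induction u (by simp) (fun u z => by
    rw [a3 u trivial, b3 z trivial]; simp [← show ∀ i j, _ = τ' (a i) (b j) from fun i j => hv (i, j), c2])
    fun _ _ a b => by simp only [map_add, LinearMap.add_apply, a, b], ← hφ, c1,
    ← prod_one (f := fun s => ρ (x s)) (fun _ => r1 _) (fun s t hs ht e => r2 _ _ (by rwa [hx]) (by rwa [hx])
      (by rwa [hx, hx])) e0 e2 (α := fun i => 2 * 2 * S₀.Q (a i) * S₂.Q y) (β := fun i => S₂.Q (b i))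
      (fun i => by simp [h2, a1 i, hy]) b1]
  refine Finset.prod_congr rfl fun p _ => ?_
  have : S.Q (x (2 * 2 * S₀.Q (a p.1) * S₂.Q y * S₂.Q (b p.2))) = S.Q (τ (v p) y) := by rw [hx, hQ, hv, hQ']; ring
  exact r2 _ _ (by simp [hQ, h2, v1, hy]) (by simp [this, hQ, h2, v1, hy]) (this ▸ IsSquare.mul_self _)

variable {τ : I → U →ₗ[F] W →ₗ[F] V} {h : ∀ i, TF S₁ S₂ S (τ i)} {e : I → J → I} [Finite F] [Nontrivial U]
  [Nontrivial W] [Nontrivial V] [Nontrivial I]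

theorem step (H : TW h ι e) (hU : finrank F W = 4 → (finrank F U : F) ≠ 0) (hb : M ≤ S.isom)
    (hM : Om S ⊓ WG S₂ (ka h) ≤ M) : (∀ g ∈ M, Wr τ g) ∨ Om S ≤ M := by
  by_cases hZ : ∀ o w (hw : S₂.Q w = 0), w ≠ 0 → ∀ X ∈ Zs (h o) M (B_self_zero hw), X = 0
  swap
  · push Not at hZ
    obtain ⟨o, w, hw, h0, X, a1, a2⟩ := hZ
    exact Or.inr (H.le_of_Z hb hM hw h0 a1 a2)
  have L : ∀ o, LP (h o) ι M := fun o => ⟨H.lh hb hM o, hZ o⟩
  have := H.oe.three
  refine Or.inl fun g hg => wr_of (fun i => (h i).tens) (by omega) (fun i j hij _ _ ψ x χ y v => by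
      rw [rk_eq, rk_eq]; exact LinearMap.congr_fun (H.hcV i j hij _ _).eq v)
      (fun X hX => H.hsV X fun i => cm_of_Nn fun ψ x => by rw [← rk_eq]; exact hX i ψ x) (H.links hM)
      (fun i s hs g hg => ?_) hg
  rcases H.oe.dim' with h5 | ⟨h4, A⟩
  · exact O7f.ac5 (h := h i) ⟨H.oe.ow h5, (L i).bis, (L i).snd, fun w hw h0 x => (L i).par5 h5 hw h0⟩ h5 hs hg
  exact (O8h.TW.ac4 H (fun o => ⟨H.oe, A, h4, (L o).bis, (L o).snd, fun w hw h0 x => by
    obtain ⟨_, _, _, f⟩ := H.oe.fr hw h0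
    exact O8f.TW.par4 H L h4 f⟩) (hU h4) (mul_mem (inv_mem hs) hg) i).imp
    (fun e => by simpa [act_act] using (eqv_act_iff.2 e).act s)
    fun e => by simpa [act_act] using e.act (h i).tens (tens_act (h i).tens _) s

end abs

theorem isMaximalIn_OE_wr [Fintype F] (hodd : Odd (Fintype.card F)) {ι : Type} [Fintype ι] [DecidableEq ι]
    {Q : (ι → F) → F} (hQ : Geo.IsNondegenerateQuadraticForm Q) {k t : ℕ} (hke : Even k) (ht : 2 ≤ t)
    (e : ι ≃ (Fin t → Fin k)) (P : GL ι F) (f₁ : (Fin k → F) → (Fin k → F) → F) (hf₁ : Geo.IsSymmetricForm f₁)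
    (hk : 5 ≤ k ∨ k = 4 ∧ ¬ Geo.IsPlusTypeOn (fun v : Fin k → F => f₁ v v) ⊤)
    (hT : Geo.IsTensorPowerFormStructure id (QuadraticMap.polar Q) f₁ e P) :
    Geo.IsMaximalIn (Geo.omegaGL Q) (Geo.tensorWreathSubgroup k t e P ⊓ Geo.omegaGL Q) := by
  obtain ⟨s, rfl⟩ : ∃ s, t = s + 2 := ⟨t - 2, by omega⟩
  have h2 := two_ne_zero_of_odd_card hodd
  have h4 : 4 ≤ k := by omega
  have hn : 8 ≤ k ^ (s + 2) :=
    le_trans (by simp) ((Nat.pow_le_pow_left h4 2).trans (Nat.pow_le_pow_right (by omega) ht))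
  have : Nontrivial (Fin k) := Fin.nontrivial_iff_two_le.2 (by omega)
  obtain ⟨c, -, hT⟩ := hT
  let S := (quadPQ hQ).comap (psi e P).toLinearMap
  have hS : S.Nondeg := comap_nondeg (quadPQ_nondeg hQ) _
  have H : OE (symmPQ h2 hf₁) := ⟨h2, symmPQ_nondeg h2 hf₁, by
    simp only [finrank_fintype_fun_eq_card, Fintype.card_fin]
    refine hk.imp_right fun a => ⟨a.1, fun Y hY => by_contra fun hc => a.2 ⟨Y, le_top, fun v hv => ?_, ?_⟩⟩
    · simpa [symmPQ, h2] using ((symmPQ h2 hf₁).orth_ts Y).1 hY v hv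
    · have := hY.two_mul_finrank_le (symmPQ_nondeg h2 hf₁)
      simp only [finrank_top, finrank_fintype_fun_eq_card, Fintype.card_fin] at this ⊢
      omega⟩
  obtain ⟨S₁, e₁, h⟩ := exists_tf c h2 H.nd hS hT
  obtain ⟨S₀, -, h'⟩ := exists_tf c h2 H.nd (h 0).nd₁ e₁
  refine isMaximalIn_wr (by omega) e P (Om S) (theta_mem_Om e P hQ)
    (H8.omega_not_le_tensorWreathSubgroup hQ (by rw [Fintype.card_congr e]; simpa) (by omega) ht e P) fun M h1 h3 => ?_
  refine step (h := h) (ι := fun i => rgt (tens_fac i)) (e := Fin.succAbove) ⟨Fin.succAbove_ne, fun _ => Fin.succAbove_right_injective,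
      fun o i => Fin.exists_succAbove_eq, cp_fac, fun i j hij a => cm_of_Nn fun ψ x => (cm_of_Nn (fun χ y => by
        rw [← rk_eq, ← rk_eq]; exact LinearMap.ext (comm_fac j i hij.symm _ _ _ _ _ _)) a).symm,
      fun X hX => scalar_fac X fun i ψ x => by rw [rk_eq]; exact hX i _, H, by
        simpa using le_trans (by omega) (Nat.le_self_pow (n := s + 1) (by omega) k),
      fun i k => ⟨toLE (fp _ F (Equiv.swap i k)), fun x y => (hT _ _).trans ((pw_fp ..).trans (hT _ _).symm),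
        fun n m => LinearMap.ext fun v => ?_⟩, ?_⟩ (fun h4 => ?_) (h1.trans (Om_le S))
      fun g ⟨a, σ, b⟩ => h3 g ⟨σ, fun i => (b i).eqv⟩ a
  · obtain ⟨v, rfl⟩ := (toLE (fp _ F (Equiv.swap i k))).surjective v
    rw [H3.RootGeo.cj_apply, LinearEquiv.symm_apply_apply]
    simp only [rgt_fac, toLE_apply, Matrix.mulVec_mulVec, (Asch.cj_eq_iff _ _ _).1 (cj_fp_emb _ n _)]
  · rcases s with _ | s
    · exact Or.inr ⟨inferInstanceAs (Subsingleton (Fin 1)), by simp⟩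
    refine Or.inl ⟨fun o => rf (h o) (h' 0) h2 (by simpa using le_trans (by omega) hn) (by simpa using hke.pow_of_ne_zero (by omega))
      (by simpa), fun o i => ?_⟩
    simpa using Finset.exists_mem_notMem_of_card_lt_card (s := {o, i}) (t := Finset.univ)
      (Finset.card_le_two.trans_lt (by simp))
  · obtain rfl : k = 4 := by simpa using h4
    simpa using pow_ne_zero (s + 1) (show (4 : F) ≠ 0 from fun e => mul_ne_zero h2 h2 (by linear_combination e))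

end Cfsg.Agent.H1.O8i
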