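import Mathlib

set_option autoImplicit false

/-! Interface for the bound `4 ^ n` on primitive groups (S0725). -/

namespace Cfsg.Agent.H1.PS
open MulAction Finset

universe u v

section
variable (G : Type u) {α : Type v} [Group G] [MulAction G α] [Fintype α] [DecidableEq α]

/-- `a` and `b` lie in one orbit of the pointwise stabiliser of `X`. -/
def Rel (X : Finset α) (a b : α) : Prop := ∃ g : G, (∀ x ∈ X, g • x = x) ∧ g • a = b

open Classical in
/-- The number of `i`-subsets that do not separate `a` from `b`. -/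
noncomputable def cnt (i : ℕ) (a b : α) : ℕ := #{X ∈ powersetCard i (univ : Finset α) | Rel G X a b}

open Classical in
/-- The number of points that separate `a` from `b`. -/
noncomputable def dd (a b : α) : ℕ := #{x : α | ¬ Rel G {x} a b}

variable (α) in
/-- The number of pairs (`i`-subset, ordered pair of distinct points not separated by it). -/
noncomputable def Sm (i : ℕ) : ℕ := ∑ p ∈ (univ : Finset α).offDiag, cnt G i p.1 p.2
end

/-- The entropy bound. -/
def Bd (n : ℕ) (P : ℕ → ℚ) : ℚ := ∏ i ∈ range n, (1 + n * (n - 1) * P i / (n - i))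

/-- The least `k` with `n - 1 ≤ k ^ 2`. -/
def k0 (n : ℕ) : ℕ := Nat.sqrt (n - 2) + 1
/-- Lower bound for the mean of `dd`. -/
def A0 (n : ℕ) : ℚ := min (n / 2 + 1) (2 + 2 * k0 n * (n - 1 - k0 n) / (n - 1))
/-- Lower bound for the minimum of `dd`. -/
def d0 (n : ℕ) : ℕ := min ⌈A0 n / 2⌉₊ (Nat.sqrt ((4 * n - 5) / 3) + 1)

def PU (n : ℕ) : ℕ → ℚ
  | 0 => 1
  | 1 => 1 - A0 n / n
  | i + 2 => PU n (i + 1) * ((n - (i + 1) - d0 n : ℕ) : ℚ) / (n - (i + 1))

def ff (i : ℕ) : ℕ := max 4 ((2 * i + 8) / 3)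

def PI (n : ℕ) : ℕ → ℚ
  | 0 => 1
  | i + 1 => PI n i * ((n - i - ff i : ℕ) : ℚ) / (n - i) +
      (((n - 1) / 2 - 1).choose i : ℚ) / n.choose i * (ff i - 2) / (n - i)

def BU (n : ℕ) : ℚ := Bd n (PU n)
def BI (n : ℕ) : ℚ := Bd n (PI n)
def B2 (n : ℕ) : ℚ := min (n.factorial : ℚ) (max (n * BU (n - 1)) (BI n))
def BM (n : ℕ) : ℚ := max (B2 n) (n * B2 (n - 1))

/-- (E) entropy lemma. -/
def Ent : Prop := ∀ (G : Type u) (α : Type u) [Group G] [Finite G] [MulAction G α] [FaithfulSMul G α] [Fintype α]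
  [DecidableEq α] (P : ℕ → ℚ),
  (∀ i < Fintype.card α, (Sm G α i : ℚ) ≤ Fintype.card α * (Fintype.card α - 1) * (Fintype.card α).choose i * P i) →
  (Nat.card G : ℚ) ≤ Bd (Fintype.card α) P

/-- (Ua) mean of `dd`. -/
def Ua : Prop := ∀ (G : Type u) (α : Type u) [Group G] [MulAction G α] [Fintype α] [DecidableEq α],
  IsPreprimitive G α → ¬ IsMultiplyPretransitive G α 2 →
  (Fintype.card α : ℚ) * (Fintype.card α - 1) * A0 (Fintype.card α) ≤ ∑ p ∈ (univ : Finset α).offDiag, (dd G p.1 p.2 : ℚ)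

/-- (Ub) minimum of `dd`. -/
def Ub : Prop := ∀ (G : Type u) (α : Type u) [Group G] [MulAction G α] [Fintype α] [DecidableEq α],
  IsPreprimitive G α →
  (Fintype.card α : ℚ) * (Fintype.card α - 1) * A0 (Fintype.card α) ≤ ∑ p ∈ (univ : Finset α).offDiag, (dd G p.1 p.2 : ℚ) →
  ∀ a b : α, a ≠ b → d0 (Fintype.card α) ≤ dd G a b

/-- (Uc) counting subsets. -/
def Uc : Prop := ∀ (G : Type u) (α : Type u) [Group G] [MulAction G α] [Fintype α] [DecidableEq α],
  (Fintype.card α : ℚ) * (Fintype.card α - 1) * A0 (Fintype.card α) ≤ ∑ p ∈ (univ : Finset α).offDiag, (dd G p.1 p.2 : ℚ) →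
  (∀ a b : α, a ≠ b → d0 (Fintype.card α) ≤ dd G a b) →
  ∀ i < Fintype.card α, (Sm G α i : ℚ) ≤
    Fintype.card α * (Fintype.card α - 1) * (Fintype.card α).choose i * PU (Fintype.card α) i

/-- (Ic) counting subsets, 2-transitive group with imprimitive point stabiliser. -/
def Ic : Prop := ∀ (G : Type u) (α : Type u) [Group G] [MulAction G α] [Fintype α] [DecidableEq α] (c : α),
  IsMultiplyPretransitive G α 2 → ¬ IsPreprimitive (stabilizer G c) (SubMulAction.ofStabilizer G c) →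
  ∀ a b : α, a ≠ b → ∀ i < Fintype.card α, (cnt G i a b : ℚ) ≤ (Fintype.card α).choose i * PI (Fintype.card α) i

/-- `Bl x a` is the block of the stabiliser of `x` through `a`. -/
structure Blk (G : Type u) {α : Type u} [Group G] [MulAction G α] [Fintype α] [DecidableEq α] (m : ℕ)
    (Bl : α → α → Finset α) : Prop where
  two : 2 ≤ m
  half : 2 * m + 1 ≤ Fintype.card α
  self : ∀ x a, x ≠ a → a ∈ Bl x a
  nmem : ∀ x a, x ≠ a → x ∉ Bl x a
  card : ∀ x a, x ≠ a → #(Bl x a) = m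
  same : ∀ x a y, x ≠ a → y ∈ Bl x a → Bl x y = Bl x a
  smul : ∀ (g : G) x a y, x ≠ a → y ∈ Bl x a → g • y ∈ Bl (g • x) (g • a)
  indeg : ∀ a y, a ≠ y → #{x | x ≠ a ∧ y ∈ Bl x a} = m - 1

/-- (Ia) the blocks. -/
def Ia : Prop := ∀ (G : Type u) (α : Type u) [Group G] [MulAction G α] [Fintype α] [DecidableEq α] (c : α),
  IsMultiplyPretransitive G α 2 → ¬ IsPreprimitive (stabilizer G c) (SubMulAction.ofStabilizer G c) →
  ∃ (m : ℕ) (Bl : α → α → Finset α), Blk G m Bl

/-- (Ib) counting subsets with the blocks. -/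
def Ib : Prop := ∀ (G : Type u) (α : Type u) [Group G] [MulAction G α] [Fintype α] [DecidableEq α] (m : ℕ)
  (Bl : α → α → Finset α), Blk G m Bl →
  ∀ a b : α, a ≠ b → ∀ i < Fintype.card α, (cnt G i a b : ℚ) ≤ (Fintype.card α).choose i * PI (Fintype.card α) i

/-- Order of a primitive group that is not 2-transitive. -/
def HU : Prop := ∀ (G : Type u) (α : Type u) [Group G] [Finite G] [MulAction G α] [FaithfulSMul G α] [Fintype α],
  IsPreprimitive G α → ¬ IsMultiplyPretransitive G α 2 → (Nat.card G : ℚ) ≤ BU (Fintype.card α)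

/-- Order of a 2-transitive group with imprimitive point stabiliser. -/
def HI : Prop := ∀ (G : Type u) (α : Type u) [Group G] [Finite G] [MulAction G α] [FaithfulSMul G α] [Fintype α] (c : α),
  IsMultiplyPretransitive G α 2 → ¬ IsPreprimitive (stabilizer G c) (SubMulAction.ofStabilizer G c) →
  (Nat.card G : ℚ) ≤ BI (Fintype.card α)

/-- Order of a 2-transitive group that is not 3-transitive. -/
def H2 : Prop := ∀ (G : Type u) (α : Type u) [Group G] [Finite G] [MulAction G α] [FaithfulSMul G α] [Fintype α],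
  IsMultiplyPretransitive G α 2 → ¬ IsMultiplyPretransitive G α 3 → (Nat.card G : ℚ) ≤ B2 (Fintype.card α)

/-- Order of a 2-transitive group that is not 4-transitive. -/
def H3 : Prop := ∀ (G : Type u) (α : Type u) [Group G] [Finite G] [MulAction G α] [FaithfulSMul G α] [Fintype α],
  IsMultiplyPretransitive G α 2 → ¬ IsMultiplyPretransitive G α 4 → (Nat.card G : ℚ) ≤ BM (Fintype.card α)

/-- (J) no prime `p` with `n - t < p ≤ n - 3`. -/
def Jo : Prop := ∀ (α : Type u) [Fintype α] [DecidableEq α] (G : Subgroup (Equiv.Perm α)) (t p : ℕ), 2 ≤ t →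
  t ≤ Fintype.card α → IsMultiplyPretransitive G α t → ¬ alternatingGroup α ≤ G → p.Prime → p + 3 ≤ Fintype.card α →
  p + t ≤ Fintype.card α

/-- (Ra) the pointwise stabiliser of `t - 2` points. -/
def Ra : Prop := ∀ (α : Type u) [Fintype α] [DecidableEq α] (G : Subgroup (Equiv.Perm α)) (N s : ℕ),
  N + s = Fintype.card α → 5 ≤ N → IsMultiplyPretransitive G α (s + 2) → ¬ IsMultiplyPretransitive G α (s + 3) →
  (Nat.card G : ℚ) * N.factorial ≤ (N + s).factorial * B2 N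

/-- (Rb) the setwise stabiliser of `t - 2` points. -/
def Rb : Prop := ∀ (α : Type u) [Fintype α] [DecidableEq α] (G : Subgroup (Equiv.Perm α)) (N s : ℕ),
  N + s = Fintype.card α → 5 ≤ N → IsMultiplyPretransitive G α (s + 2) → ¬ IsMultiplyPretransitive G α (s + 3) →
  ¬ alternatingGroup α ≤ G → (Nat.card G : ℚ) ≤ (N + s).choose N * BM N

/-- Numerics, small degrees. -/
def NS : Prop := (∀ n, 9 ≤ n → n < 130 → BU n ≤ 4 ^ n) ∧ ∀ N s : ℕ, 5 ≤ N → N < 130 → 9 ≤ N + s →
  (∀ p : ℕ, p.Prime → p + 3 ≤ N + s → p + 2 ≤ N) →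
  (N + s).factorial * B2 N ≤ 4 ^ (N + s) * N.factorial ∨ (N + s).choose N * BM N ≤ 4 ^ (N + s)
/-- Numerics, middle and large degrees. -/
def NUm : Prop := ∀ n : ℕ, 128 ≤ n → n ≤ 2048 → ((n : ℚ) + 2) ^ 2 * BU n ≤ 3 ^ n
def NUl : Prop := ∀ n : ℕ, 2048 < n → ((n : ℚ) + 2) ^ 2 * BU n ≤ 3 ^ n
def NIm : Prop := ∀ n : ℕ, 128 ≤ n → n ≤ 4096 → ((n : ℚ) + 2) ^ 2 * BI n ≤ 3 ^ n
def NIl : Prop := ∀ n : ℕ, 4096 < n → ((n : ℚ) + 2) ^ 2 * BI n ≤ 3 ^ n

end Cfsg.Agent.H1.PS
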