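import Cfsg.Agent.H1.PS0

set_option autoImplicit false

/-! The entropy lemma. -/

namespace Cfsg.Agent.H1.PS
open MulAction Finset

universe u

theorem sum_insert_eq {α : Type*} [Fintype α] [DecidableEq α] (f : Finset α → ℝ) (i : ℕ) :
    ∑ X ∈ powersetCard i (univ : Finset α), ∑ y ∈ Xᶜ, f (insert y X) =
      (i + 1) * ∑ X ∈ powersetCard (i + 1) (univ : Finset α), f X := by
  have : (i + 1) * ∑ X ∈ powersetCard (i + 1) (univ : Finset α), f X =
      ∑ X ∈ powersetCard (i + 1) (univ : Finset α), ∑ y ∈ X, f X := by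
    rw [mul_sum]
    refine sum_congr rfl fun X hX => ?_
    rw [sum_const, (mem_powersetCard.1 hX).2, nsmul_eq_mul]; push_cast; rfl
  rw [this, sum_sigma', sum_sigma']
  refine sum_bij' (fun p _ => ⟨insert p.2 p.1, p.2⟩) (fun p _ => ⟨p.1.erase p.2, p.2⟩) ?_ ?_ ?_ ?_ ?_
  · rintro ⟨X, y⟩ h
    simp only [mem_sigma, mem_powersetCard, mem_compl, subset_univ, true_and] at h ⊢
    exact ⟨by rw [card_insert_of_notMem h.2, h.1], mem_insert_self _ _⟩
  · rintro ⟨X, y⟩ h
    simp only [mem_sigma, mem_powersetCard, mem_compl, subset_univ, true_and] at h ⊢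
    exact ⟨by rw [card_erase_of_mem h.2, h.1]; rfl, notMem_erase _ _⟩
  · rintro ⟨X, y⟩ h
    simp only [mem_sigma, mem_compl] at h
    simp only [erase_insert h.2]
  · rintro ⟨X, y⟩ h
    simp only [mem_sigma] at h
    simp only [insert_erase h.2]
  · intro _ _; rfl

section
variable (G : Type u) {α : Type u} [Group G] [MulAction G α] [Fintype α] [DecidableEq α]

open Classical in
theorem card_fix (X : Finset α) (y : α) :
    Nat.card (fixingSubgroup G (X : Set α)) =
      #{b | Rel G X y b} * Nat.card (fixingSubgroup G ((insert y X : Finset α) : Set α)) := by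
  set H := fixingSubgroup G (X : Set α)
  rw [← (stabilizer H y).index_mul_card, index_stabilizer]
  congr 1
  · rw [← Set.ncard_coe_finset]
    congr 1
    ext b
    simp only [coe_filter, mem_univ, true_and, Set.mem_setOf_eq, mem_orbit_iff]
    exact ⟨fun ⟨g, h⟩ => ⟨g, fun x hx => (mem_fixingSubgroup_iff G).1 g.2 x hx, h⟩,
      fun ⟨g, h1, h2⟩ => ⟨⟨g, (mem_fixingSubgroup_iff G).2 h1⟩, h2⟩⟩
  · refine Nat.card_congr ⟨fun g => ⟨g.1.1, (mem_fixingSubgroup_iff G).2 fun x hx => ?_⟩,
      fun g => ⟨⟨g.1, (mem_fixingSubgroup_iff G).2 fun x hx => ?_⟩, ?_⟩, fun _ => rfl, fun _ => rfl⟩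
    · rcases mem_insert.1 hx with rfl | hx
      · exact g.2
      · exact (mem_fixingSubgroup_iff G).1 g.1.2 x hx
    · exact (mem_fixingSubgroup_iff G).1 g.2 x (mem_insert_of_mem hx)
    · exact (mem_fixingSubgroup_iff G).1 g.2 y (mem_insert_self _ _)

open Classical in
theorem sum_orb (i : ℕ) :
    ∑ X ∈ powersetCard i (univ : Finset α), ∑ y ∈ Xᶜ, #{b | Rel G X y b} ≤
      (Fintype.card α).choose i * (Fintype.card α - i) + Sm G α i := by
  have e : Sm G α i = ∑ X ∈ powersetCard i (univ : Finset α), ∑ y, #{b ∈ univ.erase y | Rel G X y b} := by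
    simp only [Sm, cnt, card_filter]
    rw [sum_comm]
    refine sum_congr rfl fun X _ => ?_
    rw [sum_sigma']
    refine sum_bij' (fun p _ => ⟨p.1, p.2⟩) (fun p _ => (p.1, p.2)) ?_ ?_ ?_ ?_ ?_
    · intro p h; simpa using (mem_offDiag.1 h).2.2.symm
    · intro p h; simpa [eq_comm] using h
    · intro _ _; rfl
    · intro _ _; rfl
    · intro _ _; rfl
  rw [e, ← card_univ, ← card_powersetCard, ← smul_eq_mul, ← sum_const, ← sum_add_distrib]
  refine sum_le_sum fun X hX => ?_
  rw [card_univ, ← (mem_powersetCard.1 hX).2, ← card_compl, card_eq_sum_ones Xᶜ]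
  refine le_trans ?_ (Nat.add_le_add_left (sum_le_sum_of_subset (subset_univ Xᶜ)) _)
  rw [← sum_add_distrib]
  refine sum_le_sum fun y _ => ?_
  rw [filter_erase, add_comm]
  exact Nat.sub_le_iff_le_add.1 pred_card_le_card_erase
end

theorem ent : Ent.{u} := by
  intro G α _ _ _ _ _ _ P hP
  classical
  set n := Fintype.card α with hn
  set c : ℕ → ℝ := fun i => ((1 + n * (n - 1) * P i / (n - i) : ℚ) : ℝ) with hc
  set L : ℕ → ℝ := fun i => ∑ X ∈ powersetCard i (univ : Finset α), Real.log (Nat.card (fixingSubgroup G (X : Set α)))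
    with hL
  have key : ∀ i < n, ((n.choose i * (n - i) + Sm G α i : ℕ) : ℝ) ≤ n.choose i * (n - i) * c i := fun i hi => by
    have h := hP i hi
    have h1 : (n : ℚ) - i ≠ 0 := sub_ne_zero.2 (by exact_mod_cast hi.ne')
    have : ((n.choose i * (n - i) + Sm G α i : ℕ) : ℚ) ≤ n.choose i * (n - i) * (1 + n * (n - 1) * P i / (n - i)) := by
      push_cast [hi.le]
      rw [mul_add, mul_assoc _ (n - i : ℚ) (_ / _), mul_div_cancel₀ _ h1]
      linarith
    simp only [hc]
    exact_mod_cast this
  have T0 : ∀ i < n, (0 : ℝ) < n.choose i * (n - i) := fun i hi =>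
    mul_pos (by exact_mod_cast Nat.choose_pos hi.le) (sub_pos.2 (by exact_mod_cast hi))
  have c0 : ∀ i < n, 0 < c i := fun i hi => by
    have h := key i hi
    push_cast [hi.le] at h
    have := T0 i hi
    have : (0 : ℝ) ≤ Sm G α i := Nat.cast_nonneg _
    by_contra h3
    nlinarith
  have step : ∀ i < n, (n - i) * L i ≤ n.choose i * (n - i) * Real.log (c i) + (i + 1) * L (i + 1) := fun i hi => by
    have e : (n - i) * L i = ∑ X ∈ powersetCard i (univ : Finset α), ∑ y ∈ Xᶜ,
        (Real.log (#{b | Rel G X y b} : ℕ) + Real.log (Nat.card (fixingSubgroup G ((insert y X : Finset α) : Set α)))) := by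
      rw [hL, mul_sum]
      refine sum_congr rfl fun X hX => ?_
      rw [sum_congr rfl (g := fun _ => Real.log (Nat.card (fixingSubgroup G (X : Set α)))) fun y _ => ?_]
      · rw [sum_const, card_compl, (mem_powersetCard.1 hX).2, nsmul_eq_mul, Nat.cast_sub hi.le]
      · have h := card_fix G X y
        have h0 : Nat.card (fixingSubgroup G (X : Set α)) ≠ 0 := Nat.card_pos.ne'
        rw [h] at h0 ⊢
        rw [Nat.cast_mul, Real.log_mul (by exact_mod_cast left_ne_zero_of_mul h0) (by exact_mod_cast right_ne_zero_of_mul h0)]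
    rw [e]
    simp only [sum_add_distrib]
    rw [sum_insert_eq (fun X : Finset α => Real.log (Nat.card (fixingSubgroup G (X : Set α)))) i]
    refine add_le_add ?_ le_rfl
    have h1 : ∀ X : Finset α, ∀ y, Real.log (#{b | Rel G X y b} : ℕ) ≤
        (Real.log (c i) - 1) + (#{b | Rel G X y b} : ℕ) / c i := fun X y => by
      have h0 : (0 : ℝ) < (#{b | Rel G X y b} : ℕ) := by
        exact Nat.cast_pos.2 (card_pos.2 ⟨y, mem_filter.2 ⟨mem_univ _, 1, fun x _ => one_smul _ _, one_smul _ _⟩⟩)
      have := Real.log_le_sub_one_of_pos (div_pos h0 (c0 i hi))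
      rw [Real.log_div h0.ne' (c0 i hi).ne'] at this
      linarith
    refine (sum_le_sum fun X _ => sum_le_sum fun y _ => h1 X y).trans ?_
    simp only [sum_add_distrib, ← sum_div]
    have h2 : ∑ X ∈ powersetCard i (univ : Finset α), ∑ y ∈ Xᶜ, (Real.log (c i) - 1) =
        n.choose i * (n - i) * (Real.log (c i) - 1) := by
      rw [sum_congr rfl (g := fun _ => (n - i) * (Real.log (c i) - 1)) fun X hX => ?_]
      · rw [sum_const, card_powersetCard, card_univ, nsmul_eq_mul, mul_assoc]
      · rw [sum_const, card_compl, (mem_powersetCard.1 hX).2, nsmul_eq_mul, Nat.cast_sub hi.le]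
    have h3 : (∑ X ∈ powersetCard i (univ : Finset α), ∑ y ∈ Xᶜ, ((#{b | Rel G X y b} : ℕ) : ℝ)) / c i ≤
        n.choose i * (n - i) := by
      rw [div_le_iff₀ (c0 i hi)]
      refine le_trans ?_ (key i hi)
      exact_mod_cast sum_orb G i
    rw [h2]; linarith
  have main : ∀ i ≤ n, n.choose i * Real.log (Nat.card G) ≤ n.choose i * ∑ j ∈ range i, Real.log (c j) + L i := by
    intro i hi
    induction i with
    | zero => simp [hL]
    | succ i ih =>
      have h1 := mul_le_mul_of_nonneg_left (ih (by omega)) (show (0 : ℝ) ≤ n - i from sub_nonneg.2 (by exact_mod_cast by omega))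
      have h2 := step i hi
      have h3 : (n.choose (i + 1) : ℝ) * (i + 1) = n.choose i * (n - i) := by
        have := Nat.choose_succ_right_eq n i
        rw [← Nat.cast_sub (by omega)]; exact_mod_cast this
      rw [sum_range_succ]
      refine le_of_mul_le_mul_left ?_ (show (0 : ℝ) < i + 1 by positivity)
      have e : ∀ x : ℝ, (i + 1) * (n.choose (i + 1) * x) = n.choose i * (n - i) * x := fun x => by rw [← h3]; ring
      rw [mul_add, e, e]; nlinarith
  have h := main n le_rfl
  have hL0 : L n = 0 := by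
    refine sum_eq_zero fun X hX => ?_
    have : X = univ := eq_univ_of_card X (mem_powersetCard.1 hX).2
    have : fixingSubgroup G (X : Set α) = ⊥ := eq_bot_iff.2 fun g hg =>
      eq_of_smul_eq_smul (α := α) fun x => by
        rw [one_smul]; exact (mem_fixingSubgroup_iff G).1 hg x (by simp [this])
    simp [this]
  rw [hL0, Nat.choose_self, Nat.cast_one, one_mul, one_mul, add_zero,
    ← Real.log_prod (fun j hj => (c0 j (mem_range.1 hj)).ne'),
    Real.log_le_log_iff (by exact_mod_cast Nat.card_pos) (prod_pos fun j hj => c0 j (mem_range.1 hj))] at h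
  simp only [hc] at h
  unfold Bd
  exact_mod_cast h

theorem hu_of (a : Ua.{u}) (b : Ub.{u}) (c : Uc.{u}) : HU.{u} := fun G α _ _ _ _ _ h1 h2 => by
  classical
  exact ent G α _ (c G α (a G α h1 h2) (b G α h1 (a G α h1 h2)))

theorem hi_of (a : Ia.{u}) (b : Ib.{u}) : HI.{u} := fun G α _ _ _ _ _ c h1 h2 => by
  classical
  obtain ⟨m, Bl, h⟩ := a G α c h1 h2
  refine ent G α _ fun i hi => ?_
  unfold Sm
  push_cast
  refine (sum_le_sum fun p hp => b G α m Bl h p.1 p.2 (mem_offDiag.1 hp).2.2 i hi).trans_eq ?_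
  rw [sum_const, offDiag_card, card_univ, nsmul_eq_mul, Nat.cast_sub (Nat.le_mul_self _)]
  push_cast; ring

end Cfsg.Agent.H1.PS
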