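import Cfsg.Agent.H1.PS1

set_option autoImplicit false

/-! Final assembly of the bound `4 ^ n`. -/

namespace Cfsg.Agent.H1.PS
open MulAction Finset

universe u

theorem mul_le_of {a b c x : ℚ} (h0 : 0 ≤ a) (h1 : a ≤ b) (hc : 0 ≤ c) (h : b * x ≤ c) : a * x ≤ c := by
  rcases le_total 0 x with hx | hx
  · exact (mul_le_mul_of_nonneg_right h1 hx).trans h
  · exact (mul_nonpos_of_nonneg_of_nonpos h0 hx).trans hc

theorem b2_le (hu : ∀ n : ℕ, 128 ≤ n → ((n : ℚ) + 2) ^ 2 * BU n ≤ 3 ^ n)
    (hi : ∀ n : ℕ, 128 ≤ n → ((n : ℚ) + 2) ^ 2 * BI n ≤ 3 ^ n) (m : ℕ) (hm : 128 ≤ m) :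
    ((m : ℚ) + 2) * B2 (m + 1) ≤ 3 ^ (m + 1) := by
  have h0 : (0 : ℚ) ≤ m := Nat.cast_nonneg _
  refine (mul_le_mul_of_nonneg_left (min_le_right _ _) (by positivity)).trans ?_
  rw [mul_max_of_nonneg _ _ (by positivity), max_le_iff, ← mul_assoc]
  constructor
  · refine (mul_le_of (by positivity) ?_ (by positivity) (hu m hm)).trans (pow_le_pow_right₀ (by norm_num) (by omega))
    push_cast; nlinarith
  · refine mul_le_of (by positivity) ?_ (by positivity) (hi (m + 1) (by omega))
    push_cast; nlinarith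

theorem main (hU : HU.{u}) (jo : Jo.{u}) (ra : Ra.{u}) (rb : Rb.{u}) (ns : NS) (um : NUm) (ul : NUl) (im : NIm) (il : NIl)
    {α : Type u} [Fintype α] [DecidableEq α] (G : Subgroup (Equiv.Perm α)) (hG : IsPreprimitive G α)
    (hA : ¬ alternatingGroup α ≤ G) : Nat.card G ≤ 4 ^ Fintype.card α := by
  have hu : ∀ n : ℕ, 128 ≤ n → ((n : ℚ) + 2) ^ 2 * BU n ≤ 3 ^ n := fun n h =>
    (le_or_gt n 2048).elim (um n h) (ul n)
  have hi : ∀ n : ℕ, 128 ≤ n → ((n : ℚ) + 2) ^ 2 * BI n ≤ 3 ^ n := fun n h =>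
    (le_or_gt n 4096).elim (im n h) (il n)
  rcases lt_or_ge (Fintype.card α) 9 with h9 | h9
  · refine (Subgroup.card_le_card_group G).trans ?_
    rw [Nat.card_eq_fintype_card, Fintype.card_perm]
    generalize Fintype.card α = n at h9
    interval_cases n <;> decide
  suffices (Nat.card G : ℚ) ≤ 4 ^ Fintype.card α by exact_mod_cast this
  by_cases h2 : IsMultiplyPretransitive G α 2
  swap
  · refine (hU G α hG h2).trans ?_
    rcases lt_or_ge (Fintype.card α) 130 with h | h
    · exact ns.1 _ h9 h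
    · have := mul_le_of zero_le_one (one_le_pow₀ (by linarith [Nat.cast_nonneg (α := ℚ) (Fintype.card α)]))
        (by positivity) (hu _ (by omega : 128 ≤ Fintype.card α))
      rw [one_mul] at this
      exact this.trans (pow_le_pow_left₀ (by norm_num) (by norm_num) _)
  classical
  have hn : ¬ IsMultiplyPretransitive G α (Fintype.card α - 5 + 3) := fun h => hA <| by
    have e : Fintype.card α - 5 + 3 = Nat.card α - 2 := by rw [Nat.card_eq_fintype_card]; omega
    rw [e] at h
    exact IsMultiplyPretransitive.alternatingGroup_le α G h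
  have ex : ∃ s, ¬ IsMultiplyPretransitive G α (s + 3) := ⟨_, hn⟩
  obtain ⟨s, hs, h3, ht⟩ : ∃ s, s ≤ Fintype.card α - 5 ∧ ¬ IsMultiplyPretransitive G α (s + 3) ∧
      IsMultiplyPretransitive G α (s + 2) := by
    refine ⟨Nat.find ex, Nat.find_min' ex hn, Nat.find_spec ex, ?_⟩
    rcases h : Nat.find ex with _ | s
    · exact h2
    · exact not_not.1 (Nat.find_min ex (m := s) (by omega))
  obtain ⟨N, hN⟩ : ∃ N, N + s = Fintype.card α := ⟨Fintype.card α - s, by omega⟩
  have a := ra α G N s hN (by omega) ht h3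
  have b := rb α G N s hN (by omega) ht h3 hA
  rw [← hN]
  rcases lt_or_ge N 130 with h | h
  · rcases ns.2 N s (by omega) h (by omega) fun p hp h => by
      have := jo α G (s + 2) p (by omega) (by omega) ht hA hp (by omega); omega with c | c
    · exact le_of_mul_le_mul_right (a.trans c) (by exact_mod_cast N.factorial_pos)
    · exact b.trans c
  · obtain ⟨m, rfl⟩ : ∃ m, N = m + 2 := ⟨N - 2, by omega⟩
    have c : BM (m + 2) ≤ 3 ^ (m + 2) := by
      refine max_le ?_ ?_
      · have := mul_le_of zero_le_one (by linarith [Nat.cast_nonneg (α := ℚ) (m + 1)]) (by positivity)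
          (b2_le hu hi (m + 1) (by omega))
        rwa [one_mul] at this
      · push_cast
        exact (b2_le hu hi m (by omega)).trans (pow_le_pow_right₀ (by norm_num) (by omega))
    refine b.trans ((mul_le_mul_of_nonneg_left c (by positivity)).trans ?_)
    rw [show (4 : ℚ) = 3 + 1 by norm_num, add_pow]
    refine le_trans ?_ (single_le_sum (f := fun k => (3 : ℚ) ^ k * 1 ^ (m + 2 + s - k) * (m + 2 + s).choose k)
      (fun _ _ => by positivity) (mem_range.2 (show m + 2 < m + 2 + s + 1 by omega)))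
    rw [one_pow, mul_one, mul_comm]

end Cfsg.Agent.H1.PS
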