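import Cfsg.Agent.H1.PS0

set_option autoImplicit false

/-! Passing to a point stabiliser. -/

namespace Cfsg.Agent.H1.PS
open MulAction Finset SubMulAction

universe u

section
variable (G : Type u) {α : Type u} [Group G] [MulAction G α]

theorem faithful_stab [FaithfulSMul G α] (c : α) : FaithfulSMul (stabilizer G c) (ofStabilizer G c) :=
  ⟨fun {g h} e => Subtype.ext <| eq_of_smul_eq_smul (α := α) fun x => by
    by_cases hx : x = c
    · rw [hx, g.2, h.2]
    · exact congrArg Subtype.val (e ⟨x, hx⟩)⟩

theorem card_stab [Fintype α] (c : α) [Fintype (ofStabilizer G c)] :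
    Fintype.card (ofStabilizer G c) = Fintype.card α - 1 := by
  rw [← Nat.card_eq_fintype_card, ← Nat.card_eq_fintype_card, ← nat_card_ofStabilizer_add_one_eq G c]; rfl

theorem card_eq [Fintype α] [IsPretransitive G α] (c : α) :
    (Nat.card G : ℚ) = Fintype.card α * Nat.card (stabilizer G c) := by
  rw [← (stabilizer G c).index_mul_card, index_stabilizer_of_transitive, Nat.card_eq_fintype_card]; push_cast; rfl

theorem ne_of_not {k : ℕ} (h : ¬ IsMultiplyPretransitive G α (k + 1)) : Nonempty α := by
  by_contra h0
  exact h ⟨fun x _ => (h0 ⟨x 0⟩).elim⟩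
end

theorem h2_of (hU : HU.{u}) (hI : HI.{u}) : H2.{u} := by
  intro G α _ _ _ _ _ h2 h3
  classical
  refine le_min ?_ ?_
  · have := Nat.card_le_card_of_injective _ (toPerm_injective (α := G) (β := α))
    rw [Nat.card_eq_fintype_card (α := Equiv.Perm α), Fintype.card_perm] at this
    exact_mod_cast this
  obtain ⟨c⟩ := ne_of_not G h3
  by_cases hp : IsPreprimitive (stabilizer G c) (ofStabilizer G c)
  · have := isPretransitive_of_is_two_pretransitive (G := G) (α := α)
    have := faithful_stab G c
    have : Fintype (ofStabilizer G c) := Fintype.ofFinite _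
    have h := hU _ _ hp fun h => h3 (ofStabilizer.isMultiplyPretransitive.2 h)
    rw [card_stab] at h
    exact le_max_of_le_left (card_eq G c ▸ mul_le_mul_of_nonneg_left h (Nat.cast_nonneg _))
  · exact le_max_of_le_right (hI G α c h2 hp)

theorem h3_of (h : H2.{u}) : H3.{u} := by
  intro G α _ _ _ _ _ h2 h4
  by_cases h3 : IsMultiplyPretransitive G α 3
  swap
  · exact le_max_of_le_left (h G α h2 h3)
  obtain ⟨c⟩ := ne_of_not G h4
  have := isPretransitive_of_is_two_pretransitive (G := G) (α := α)
  have := faithful_stab G c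
  have : Fintype (ofStabilizer G c) := Fintype.ofFinite _
  have h := h (stabilizer G c) (ofStabilizer G c) (ofStabilizer.isMultiplyPretransitive.1 h3)
    fun h => h4 (ofStabilizer.isMultiplyPretransitive.2 h)
  rw [card_stab] at h
  exact le_max_of_le_right (card_eq G c ▸ mul_le_mul_of_nonneg_left h (Nat.cast_nonneg _))

end Cfsg.Agent.H1.PS
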