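import Cfsg.Agent.H1.PS1

set_option autoImplicit false

/-! Counting subsets that do not separate two points, with blocks. -/

namespace Cfsg.Agent.H1.PS
open MulAction Finset

universe u

section
variable {G : Type u} {α : Type u} [Group G] [MulAction G α] [Fintype α] [DecidableEq α] {m : ℕ}
  {Bl : α → α → Finset α} {X : Finset α} {a b : α}

omit [Fintype α] [DecidableEq α] in
theorem Rel.symm (h : Rel G X a b) : Rel G X b a := by
  obtain ⟨g, h1, h2⟩ := h
  exact ⟨g⁻¹, fun x hx => inv_smul_eq_iff.2 (h1 x hx).symm, inv_smul_eq_iff.2 h2.symm⟩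

omit [Fintype α] [DecidableEq α] in
theorem Rel.nmem (h : Rel G X a b) (ab : a ≠ b) : a ∉ X := fun ha => by
  obtain ⟨g, h1, h2⟩ := h
  exact ab ((h1 a ha).symm.trans h2)

omit [Fintype α] [DecidableEq α] in
theorem Rel.mono {Y : Finset α} (h : Rel G X a b) (hY : Y ⊆ X) : Rel G Y a b :=
  h.imp fun _ h => ⟨fun x hx => h.1 x (hY hx), h.2⟩

theorem Blk.forb (h : Blk G m Bl) (r : Rel G X a b) (ab : a ≠ b) {x y : α} (hx : x ∈ X) (hy : y ∈ X)
    (e : y ∈ Bl x a) : b ∈ Bl x a := by
  have xa : x ≠ a := fun e => r.nmem ab (e ▸ hx)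
  have xb : x ≠ b := fun e => r.symm.nmem ab.symm (e ▸ hx)
  obtain ⟨g, h1, h2⟩ := r
  have := h.smul g x a y xa e
  rw [h1 x hx, h1 y hy, h2] at this
  rw [← h.same x a y xa e, h.same x b y xb this]
  exact h.self x b xb

open Classical in
theorem Blk.ext_le (h : Blk G m Bl) (r : Rel G X a b) (ab : a ≠ b) :
    #{y ∈ Xᶜ | Rel G (insert y X) a b} ≤ (Fintype.card α - #X - ff #X) +
      if X ⊆ ({x | x ≠ a ∧ b ∈ Bl x a} : Finset α) then ff #X - 2 else 0 := by
  set S : Finset α := {y ∈ Xᶜ | ¬ Rel G (insert y X) a b} with hS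
  have e := card_filter_add_card_filter_not (s := Xᶜ) fun y => Rel G (insert y X) a b
  rw [← hS, card_compl] at e
  have mem : ∀ y, ¬ Rel G (insert y X) a b → y ∈ S := fun y hy =>
    mem_filter.2 ⟨mem_compl.2 fun h => hy (by rwa [insert_eq_of_mem h]), hy⟩
  have ha : a ∈ S := mem a fun r => r.nmem ab (mem_insert_self _ _)
  have hb : b ∈ S.erase a := mem_erase.2 ⟨ab.symm, mem b fun r => r.symm.nmem ab.symm (mem_insert_self _ _)⟩
  have c1 := card_erase_add_one ha
  have c2 := card_erase_add_one hb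
  have f4 : 4 ≤ ff #X := le_max_left _ _
  split_ifs with hX
  · omega
  have xa : ∀ x ∈ X, x ≠ a := fun x hx e => r.nmem ab (e ▸ hx)
  have xb : ∀ x ∈ X, x ≠ b := fun x hx e => r.symm.nmem ab.symm (e ▸ hx)
  have sa : ∀ x ∈ X, b ∉ Bl x a → Bl x a ⊆ S := fun x hx g y hy =>
    mem y fun r => g (h.forb r ab (mem_insert_of_mem hx) (mem_insert_self _ _) hy)
  have h1 : 2 * m ≤ #S := by
    obtain ⟨x, hx, g⟩ := not_subset.1 hX
    have g : b ∉ Bl x a := fun e => g (mem_filter.2 ⟨mem_univ _, xa x hx, e⟩)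
    have d : Disjoint (Bl x a) (Bl x b) := disjoint_left.2 fun y ya yb => g <| by
      rw [← h.same x a y (xa x hx) ya, h.same x b y (xb x hx) yb]; exact h.self x b (xb x hx)
    have sb : Bl x b ⊆ S := fun y hy => mem y fun r => disjoint_left.1 d (h.self x a (xa x hx))
      (h.forb r.symm ab.symm (mem_insert_of_mem hx) (mem_insert_self _ _) hy)
    have := card_le_card (union_subset (sa x hx g) sb)
    rw [card_union_of_disjoint d, h.card x a (xa x hx), h.card x b (xb x hx)] at this
    omega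
  have h2 : #{x ∈ X | b ∉ Bl x a} * (m - 1) ≤ #((S.erase a).erase b) * (m - 1) := by
    refine card_mul_le_card_mul (fun x y => y ∈ Bl x a) (fun x hx => ?_) fun y hy => ?_
    · obtain ⟨hx, g⟩ := mem_filter.1 hx
      rw [← h.card x a (xa x hx), ← card_erase_of_mem (h.self x a (xa x hx))]
      refine card_le_card fun y hy => (mem_bipartiteAbove _).2 ⟨?_, mem_of_mem_erase hy⟩
      exact mem_erase.2 ⟨fun e => g (e ▸ mem_of_mem_erase hy), erase_subset_erase _ (sa x hx g) hy⟩
    · rw [← h.indeg a y (ne_of_mem_erase (mem_of_mem_erase hy)).symm]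
      refine card_le_card fun x hx => ?_
      obtain ⟨hx, g⟩ := (mem_bipartiteBelow _).1 hx
      exact mem_filter.2 ⟨mem_univ _, xa x (mem_filter.1 hx).1, g⟩
  have h3 := Nat.le_of_mul_le_mul_right h2 (by have := h.two; omega)
  have h4 := card_filter_add_card_filter_not (s := X) fun x => b ∈ Bl x a
  have h5 : #{x ∈ X | b ∈ Bl x a} ≤ m - 1 := by
    rw [← h.indeg a b ab]
    exact card_le_card fun x hx => mem_filter.2 ⟨mem_univ _, xa x (mem_filter.1 hx).1, (mem_filter.1 hx).2⟩
  have h6 : ff #X ≤ #S := max_le (by have := h.two; omega) (by have := h.two; omega)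
  omega

theorem Blk.step (h : Blk G m Bl) (ab : a ≠ b) (i : ℕ) :
    (i + 1) * cnt G (i + 1) a b ≤ cnt G i a b * (Fintype.card α - i - ff i) +
      ((Fintype.card α - 1) / 2 - 1).choose i * (ff i - 2) := by
  classical
  have e : (i + 1) * cnt G (i + 1) a b =
      ∑ X ∈ powersetCard i (univ : Finset α), #{y ∈ Xᶜ | Rel G (insert y X) a b} := by
    have := sum_insert_eq (fun X : Finset α => if Rel G X a b then 1 else 0) i
    simp only [sum_boole] at this
    unfold cnt
    exact_mod_cast this.symm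
  set B : Finset α := {x | x ≠ a ∧ b ∈ Bl x a} with hB
  have h1 : ∀ X ∈ powersetCard i (univ : Finset α), #{y ∈ Xᶜ | Rel G (insert y X) a b} ≤
      (if Rel G X a b then Fintype.card α - i - ff i else 0) + if X ⊆ B then ff i - 2 else 0 := fun X hX => by
    by_cases r : Rel G X a b
    · rw [if_pos r, ← (mem_powersetCard.1 hX).2]
      convert h.ext_le r ab
    · rw [card_eq_zero.2 (filter_eq_empty_iff.2 fun y _ r' => r (r'.mono (subset_insert _ _)))]
      exact Nat.zero_le _
  rw [e]
  refine (sum_le_sum h1).trans ?_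
  rw [sum_add_distrib, ← sum_filter, ← sum_filter, sum_const, sum_const, smul_eq_mul, smul_eq_mul]
  refine Nat.add_le_add (le_of_eq ?_) (Nat.mul_le_mul_right _ ?_)
  · unfold cnt; congr!
  · refine (card_le_card (t := powersetCard i B) fun X hX => ?_).trans ?_
    · exact mem_powersetCard.2 ⟨(mem_filter.1 hX).2, (mem_powersetCard.1 (mem_filter.1 hX).1).2⟩
    · rw [card_powersetCard, hB, h.indeg a b ab]
      exact Nat.choose_le_choose _ (by have := h.half; omega)
end

theorem ib : Ib.{u} := by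
  intro G α _ _ _ _ m Bl h a b ab i hi
  induction i with
  | zero =>
    classical
    have : cnt G 0 a b ≤ 1 := (card_filter_le _ _).trans (by simp)
    simpa [PI] using this
  | succ i ih =>
    have h1 := h.step ab i
    have h2 := ih (by omega)
    set n := Fintype.card α
    have h3 : (n.choose (i + 1) : ℚ) * (i + 1) = n.choose i * (n - i) := by
      have := Nat.choose_succ_right_eq n i
      rw [← Nat.cast_sub (by omega)]; exact_mod_cast this
    have h4 : (n : ℚ) - i ≠ 0 := sub_ne_zero.2 (by exact_mod_cast (by omega : n ≠ i))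
    have h5 : (n.choose i : ℚ) ≠ 0 := by exact_mod_cast (Nat.choose_pos (by omega)).ne'
    refine le_of_mul_le_mul_left ?_ (show (0 : ℚ) < i + 1 by positivity)
    have e : ((i : ℚ) + 1) * (n.choose (i + 1) * PI n (i + 1)) =
        n.choose i * PI n i * ((n - i - ff i : ℕ) : ℚ) + ((n - 1) / 2 - 1).choose i * (ff i - 2) := by
      rw [← mul_assoc, mul_comm (i + 1 : ℚ), h3, PI]; field_simp
    have h6 : ((i : ℚ) + 1) * cnt G (i + 1) a b ≤ cnt G i a b * ((n - i - ff i : ℕ) : ℚ) +
        ((n - 1) / 2 - 1).choose i * (ff i - 2) := by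
      have : ((ff i : ℚ) - 2) = ((ff i - 2 : ℕ) : ℚ) := by
        rw [Nat.cast_sub (show 2 ≤ ff i from le_trans (by norm_num) (le_max_left 4 _))]; rfl
      rw [this]; exact_mod_cast h1
    rw [e]
    exact h6.trans (add_le_add (mul_le_mul_of_nonneg_right h2 (Nat.cast_nonneg _)) le_rfl)

end Cfsg.Agent.H1.PS
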