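import Cfsg.Agent.H1.PS4

set_option autoImplicit false

/-! Counting subsets that do not separate two points, from the separation numbers. -/

namespace Cfsg.Agent.H1.PS
open MulAction Finset

universe u

theorem cnt_le {G : Type u} {α : Type u} [Group G] [MulAction G α] [Fintype α] [DecidableEq α] (i : ℕ) (a b : α) :
    cnt G i a b ≤ (Fintype.card α - dd G a b).choose i := by
  classical
  unfold cnt dd
  rw [← card_compl, ← card_powersetCard]
  refine card_le_card fun X hX => mem_powersetCard.2 ⟨fun x hx => ?_, (mem_powersetCard.1 (mem_filter.1 hX).1).2⟩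
  exact mem_compl.2 fun h => (mem_filter.1 h).2 ((mem_filter.1 hX).2.mono (singleton_subset_iff.2 hx))

theorem choose_PU (n i : ℕ) (hi : i + 1 < n) :
    ((i : ℚ) + 1) * (n.choose (i + 1) * PU n (i + 1)) = (n - A0 n) * (n - 1 - d0 n).choose i := by
  induction i with
  | zero =>
    have : (n : ℚ) ≠ 0 := by exact_mod_cast (by omega : n ≠ 0)
    simp [PU]; field_simp
  | succ i ih =>
    have h3 : (n.choose (i + 1 + 1) : ℚ) * (i + 1 + 1) = n.choose (i + 1) * (n - (i + 1)) := by
      have := Nat.choose_succ_right_eq n (i + 1)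
      rw [← Nat.cast_succ i, ← Nat.cast_sub (by omega)]; exact_mod_cast this
    have h4 : (n : ℚ) - (i + 1) ≠ 0 := sub_ne_zero.2 (by exact_mod_cast (by omega : n ≠ i + 1))
    have h5 : (((n - 1 - d0 n).choose (i + 1) : ℕ) : ℚ) * (i + 1) =
        (n - 1 - d0 n).choose i * ((n - (i + 1) - d0 n : ℕ) : ℚ) := by
      have := Nat.choose_succ_right_eq (n - 1 - d0 n) i
      rw [show n - 1 - d0 n - i = n - (i + 1) - d0 n by omega] at this
      exact_mod_cast this
    refine mul_left_cancel₀ (show (i : ℚ) + 1 ≠ 0 by positivity) ?_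
    push_cast
    rw [← mul_assoc (i + 1 + 1 : ℚ), mul_comm (i + 1 + 1 : ℚ), h3, mul_left_comm _ (n - A0 n), mul_comm (i + 1 : ℚ) (Nat.cast _), h5,
      ← mul_assoc (n - A0 n), ← ih (by omega), PU]
    field_simp

theorem uc : Uc.{u} := by
  intro G α _ _ _ _ hA hd i hi
  set n := Fintype.card α with hn
  have hc : (#(univ : Finset α).offDiag : ℚ) = n * (n - 1) := by
    rw [offDiag_card, card_univ, Nat.cast_sub (Nat.le_mul_self _)]; push_cast; ring
  unfold Sm
  push_cast
  rcases i with _ | i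
  · refine (sum_le_sum (g := fun _ => (1 : ℚ)) fun p _ => ?_).trans_eq ?_
    · exact_mod_cast (cnt_le 0 p.1 p.2).trans_eq (Nat.choose_zero_right _)
    · rw [sum_const, nsmul_eq_mul, hc]; simp [PU]
  refine le_of_mul_le_mul_left ?_ (show (0 : ℚ) < i + 1 by positivity)
  rw [mul_assoc, mul_left_comm, choose_PU n i hi, mul_sum]
  have h1 : ∀ p ∈ (univ : Finset α).offDiag, ((i : ℚ) + 1) * cnt G (i + 1) p.1 p.2 ≤
      (n - dd G p.1 p.2) * (n - 1 - d0 n).choose i := fun p hp => by
    have h1 := cnt_le (G := G) (i + 1) p.1 p.2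
    have h2 := hd p.1 p.2 (mem_offDiag.1 hp).2.2
    have h3 : dd G p.1 p.2 ≤ n := by
      classical
      unfold dd; exact card_le_univ _
    have h4 : (i + 1) * cnt G (i + 1) p.1 p.2 ≤ (n - dd G p.1 p.2) * (n - 1 - d0 n).choose i := by
      refine (Nat.mul_le_mul_left _ h1).trans ?_
      rw [← hn]
      rcases h : n - dd G p.1 p.2 with _ | k
      · simp
      · rw [mul_comm, ← Nat.add_one_mul_choose_eq]
        exact Nat.mul_le_mul_left _ (Nat.choose_le_choose _ (by omega))
    rw [← Nat.cast_sub h3]; exact_mod_cast h4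
  refine (sum_le_sum h1).trans ?_
  rw [← sum_mul, ← mul_assoc, sum_sub_distrib, sum_const, nsmul_eq_mul, hc]
  exact mul_le_mul_of_nonneg_right (by linarith) (Nat.cast_nonneg _)

end Cfsg.Agent.H1.PS
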