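import Cfsg.Agent.H1.HH7

/-!
The Sylow step for subgroups normalised by a regular diagonal element of order seven and by a full matrix.
-/

set_option autoImplicit false
set_option linter.unusedSectionVars false

namespace Cfsg.Agent.H3.S7

open Matrix Subgroup
open scoped Pointwise

theorem kl_top {G : Type*} [Group G] [Finite G] {H : Subgroup G}
    (h : ∀ s : ℕ, s.Prime → ∃ P : Sylow s G, (P : Subgroup G) ≤ H) : H = ⊤ := by
  by_contra k
  obtain ⟨s, s1, s2⟩ := Nat.exists_prime_and_dvd (mt index_eq_one.1 k)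
  obtain ⟨P, hP⟩ := h s s1
  have := Fact.mk s1
  exact P.not_dvd_index (s2.trans (index_dvd_of_le hP))

theorem kl_syl {G : Type*} [Group G] [Finite G] {r : ℕ} [Fact r.Prime] {α : MulAut G} (hα : α ^ r = 1)
    (h : ∀ x : G, (∃ k, x ^ r ^ k = 1) → x ∈ center G) (s : ℕ) [Fact s.Prime] :
    ∃ P : Sylow s G, ∀ x, α x ∈ (P : Subgroup G) ↔ x ∈ (P : Subgroup G) := by
  have h1 : IsPGroup r (zpowers α) := IsPGroup.of_card_dvd_pow (n := 1) (by
    rw [Nat.card_zpowers, pow_one]; exact orderOf_dvd_of_pow_eq_one hα)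
  obtain ⟨P, hP⟩ := h1.nonempty_fixed_point_of_prime_not_dvd_card (Sylow s G) fun k => by
    obtain ⟨Q⟩ : Nonempty (Sylow r G) := inferInstance
    obtain ⟨P⟩ : Nonempty (Sylow s G) := inferInstance
    rw [P.card_eq_index_normalizer] at k
    exact Q.not_dvd_index (k.trans (index_dvd_of_le fun x hx => center_le_normalizer _ (h x
      ((Q.2 ⟨x, hx⟩).imp fun k e => congrArg Subtype.val e))))
  refine ⟨P, fun x => ?_⟩
  have : (⟨α, mem_zpowers α⟩ : zpowers α) • (P : Subgroup G) = P := congrArg Sylow.toSubgroup (hP ⟨α, mem_zpowers α⟩)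
  conv_lhs => rw [← this]
  exact smul_mem_pointwise_smul_iff (a := (⟨α, mem_zpowers α⟩ : zpowers α))

variable {F : Type*} [Field F] {ι : Type} [Fintype ι] [DecidableEq ι]

theorem kl_coord {d : ι → F} (hd : Function.Injective d) {W : Submodule F (ι → F)}
    (hW : ∀ v ∈ W, diagonal d *ᵥ v ∈ W) {v : ι → F} (hv : v ∈ W) {i : ι} (hi : v i ≠ 0) : Pi.single i 1 ∈ W := by
  have key : ∀ S : Finset ι, i ∉ S → ∃ w ∈ W, w i ≠ 0 ∧ ∀ j ∈ S, w j = 0 := fun S => by
    induction S using Finset.induction_on with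
    | empty => exact fun _ => ⟨v, hv, hi, by simp⟩
    | insert j S _ ih =>
      intro hS
      rw [Finset.mem_insert, not_or] at hS
      obtain ⟨w, w1, w2, w3⟩ := ih hS.2
      refine ⟨_, W.sub_mem (hW w w1) (W.smul_mem (d j) w1), ?_, fun l hl => ?_⟩
      · simpa [mulVec_diagonal, ← sub_mul, w2, sub_eq_zero] using hd.ne hS.1
      · rcases Finset.mem_insert.1 hl with rfl | hl
        · simp [mulVec_diagonal]
        · simp [mulVec_diagonal, w3 l hl]
  obtain ⟨w, w1, w2, w3⟩ := key (Finset.univ.erase i) (by simp)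
  convert W.smul_mem (w i)⁻¹ w1
  ext j
  by_cases e : j = i
  · simp [e, w2]
  · simp [e, w3 j (by simpa using e)]

/-- the stabiliser of a line -/
def lineSt (v : ι → F) : Subgroup (GL ι F) where
  carrier := {x | ∃ c : F, x.val *ᵥ v = c • v}
  one_mem' := ⟨1, by simp⟩
  mul_mem' := by
    rintro x y ⟨a, ha⟩ ⟨b, hb⟩
    exact ⟨b * a, by rw [Units.val_mul, ← mulVec_mulVec, hb, mulVec_smul, ha, smul_smul]⟩
  inv_mem' := by
    rintro x ⟨a, ha⟩
    have h : ∀ w, (x⁻¹).val *ᵥ (x.val *ᵥ w) = w := fun w => by simp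
    by_cases e : a = 0
    · exact ⟨0, by rw [← h v, ha, e]; simp⟩
    · exact ⟨a⁻¹, by
        nth_rewrite 2 [← h v]
        rw [ha, mulVec_smul, smul_smul, inv_mul_cancel₀ e, one_smul]⟩

theorem kl [Fintype F] (h5 : Fintype.card ι ≤ 5) (hp : ∀ n : ℕ, 0 < n → n ≤ 7 → (n : F) ≠ 0) {ω : F}
    (hω : IsPrimitiveRoot ω 7) {d : ι → ZMod 7} (hd : Function.Injective d) {U : GL ι F}
    (hU : U.val = Matrix.diagonal fun i => ω ^ (d i).val) {Φ : GL ι F} (hΦ : ∀ i j, Φ.val i j ≠ 0)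
    {J : Subgroup (GL ι F)} (hn : ∀ x ∈ J, U * x * U⁻¹ ∈ J) (hn2 : ∀ x ∈ J, Φ * x * Φ⁻¹ ∈ J)
    (h7 : ∀ x ∈ J, (∃ k, x ^ 7 ^ k = 1) → ∃ c : F, x.val = c • 1) {x} (hx : x ∈ J) : ∃ c : F, x.val = c • 1 := by
  cases isEmpty_or_nonempty ι
  · exact ⟨0, Subsingleton.elim _ _⟩
  have : Fact (Nat.Prime 7) := ⟨by norm_num⟩
  obtain ⟨p, hc⟩ := CharP.exists F
  have hpp := CharP.char_is_prime F p
  have := Fact.mk hpp
  have hd' : Function.Injective fun i => ω ^ (d i).val := fun i j e =>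
    hd (ZMod.val_injective 7 (hω.pow_inj (ZMod.val_lt _) (ZMod.val_lt _) e))
  let α := J.normalizerMonoidHom ⟨U, mem_normalizer_fintype hn⟩
  have hα : α ^ 7 = 1 := by
    rw [← map_pow, ← map_one J.normalizerMonoidHom]
    congr 1
    refine Subtype.ext (Units.ext ?_)
    have : ∀ i, (ω ^ (d i).val) ^ 7 = 1 := fun i => by rw [← pow_mul, mul_comm, pow_mul, hω.pow_eq_one, one_pow]
    simp [hU, diagonal_pow, Pi.pow_def, this]
  have syl := kl_syl hα fun x hx => mem_center_iff.2 fun y => Subtype.ext (Units.ext (by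
    obtain ⟨c, hc⟩ := h7 x x.2 (hx.imp fun k e => congrArg Subtype.val e)
    simp [hc]))
  have dg : ∀ s : ℕ, s.Prime → s ≠ p → ∃ P : Sylow s J, ∀ x ∈ (P : Subgroup J), ∀ i j, i ≠ j → x.1.val i j = 0 :=
    fun s hs hsp => by
    have := Fact.mk hs
    obtain ⟨P, hP⟩ := syl s
    refine ⟨P, fun x hx i j hij => ?_⟩
    by_cases e : s = 7
    · subst e
      obtain ⟨c, hc⟩ := h7 x x.2 ((P.2 ⟨x, hx⟩).imp fun k e => congrArg (·.1.1) e)
      simp [hc, hij]
    obtain ⟨k, hk⟩ := P.2.exists_card_eq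
    rw [← card_map_of_injective J.subtype_injective] at hk
    refine H1.HH7.hh (J := (P : Subgroup J).map J.subtype) h5 hp hω hd hU ?_ ?_ ?_ ⟨x, hx, rfl⟩ hij
    · rw [hk, Ne, CharP.cast_eq_zero_iff F p]
      exact fun h => hsp ((Nat.prime_dvd_prime_iff_eq hpp hs).1 (hpp.dvd_of_dvd_pow h)).symm
    · rw [hk]
      exact fun h => e ((Nat.prime_dvd_prime_iff_eq Fact.out hs).1 (Nat.Prime.dvd_of_dvd_pow Fact.out h)).symm
    · rintro _ ⟨y, hy, rfl⟩
      exact ⟨_, (hP y).2 hy, rfl⟩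
  obtain ⟨P, hP⟩ := syl p
  let W : Submodule F (ι → F) :=
    { carrier := {v | ∀ y ∈ (P : Subgroup J), y.1.val *ᵥ v = v}
      add_mem' := fun h1 h2 y hy => by rw [mulVec_add, h1 y hy, h2 y hy]
      zero_mem' := fun _ _ => by simp
      smul_mem' := fun c _ h y hy => by rw [mulVec_smul, h y hy] }
  have hW : ∀ v ∈ W, diagonal (fun i => ω ^ (d i).val) *ᵥ v ∈ W := fun v hv y hy => by
    obtain ⟨y, rfl⟩ := α.surjective y
    rw [← hU, mulVec_mulVec, show (α y).1.val * U.val = U.val * y.1.val from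
      congrArg Units.val (inv_mul_cancel_right (U * y) U), ← mulVec_mulVec, hv y ((hP y).1 hy)]
  obtain ⟨v, v1, v2⟩ := P.2.exists_fixed_point_of_prime_dvd_card_of_fixed_point (α := ι → F) (a := 0) (by
    obtain ⟨n, -, hn⟩ := FiniteField.card F p
    rw [Nat.card_eq_fintype_card, Fintype.card_fun, hn]
    exact dvd_pow (dvd_pow_self _ n.ne_zero) Fintype.card_ne_zero) fun y => smul_zero y
  obtain ⟨i, hi⟩ := Function.ne_iff.1 v2.symm
  have hi := kl_coord hd' hW (fun y hy => v1 ⟨y, hy⟩) hi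
  have dl : ∀ (x : GL ι F), (∀ i j, i ≠ j → x.val i j = 0) → ∀ v, x.val *ᵥ v = fun i => x.val i i * v i :=
    fun x h v => funext fun i => Finset.sum_eq_single i (fun j _ e => by simp [h _ _ e.symm]) (by simp)
  have l1 : ∀ j, Pi.single j 1 ∈ W → ∀ x ∈ J, x ∈ lineSt (Pi.single j (1 : F)) := fun j hj x hx =>
    (kl_top (H := (lineSt (Pi.single j (1 : F))).subgroupOf J) fun s hs => by
      by_cases e : s = p
      · subst e
        exact ⟨P, fun y hy => ⟨1, (hj y hy).trans (one_smul _ _).symm⟩⟩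
      · obtain ⟨Q, hQ⟩ := dg s hs e
        refine ⟨Q, fun y hy => ⟨y.1.val j j, (dl _ (hQ y hy) _).trans ?_⟩⟩
        ext l
        by_cases e : l = j <;> simp [e]).ge (mem_top ⟨x, hx⟩)
  have l2 : ∀ x ∈ J, x ∈ lineSt (Φ.val *ᵥ Pi.single i (1 : F)) := fun x hx => by
    obtain ⟨c, hc⟩ := l1 i hi (Φ⁻¹ * x * Φ) ((mem_normalizer_fintype hn2 _).2 (by simpa [mul_assoc] using hx))
    exact ⟨c, by rw [← mulVec_smul, ← hc, mulVec_mulVec, mulVec_mulVec, ← Units.val_mul, ← Units.val_mul]; group⟩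
  have l3 : Φ.val *ᵥ Pi.single i (1 : F) ∈ W := fun y hy => by
    obtain ⟨c, hc⟩ := l2 y y.2
    obtain ⟨k, hk⟩ := P.2 ⟨y, hy⟩
    have e : ∀ n : ℕ, (y.1 ^ n).val *ᵥ (Φ.val *ᵥ Pi.single i (1 : F)) = c ^ n • (Φ.val *ᵥ Pi.single i (1 : F)) :=
      fun n => by
      induction n with
      | zero => simp
      | succ n ih => rw [pow_succ, Units.val_mul, ← mulVec_mulVec, hc, mulVec_smul, ih, smul_smul, pow_succ']
    have := congrFun (e (p ^ k)) i
    rw [show y.1 ^ p ^ k = 1 from congrArg (·.1.1) hk] at this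
    simp [hΦ] at this
    rw [hc, show c = 1 from sub_eq_zero.1 (eq_zero_of_pow_eq_zero (n := p ^ k) (by
      rw [sub_pow_char_pow, this]; simp)), one_smul]
  obtain ⟨c, hc⟩ := l2 x hx
  have l4 : ∀ i j, i ≠ j → x.val i j = 0 := fun l j e => by
    obtain ⟨c, hc⟩ := l1 j (kl_coord hd' hW l3 (by simpa using hΦ j i)) x hx
    simpa [e] using congrFun hc l
  refine ⟨c, ?_⟩
  ext l j
  by_cases e : l = j
  · simpa [e, hΦ] using congrFun ((dl x l4 _).symm.trans hc) j
  · simp [e, l4]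

theorem mono7 (h6 : Fintype.card ι ≤ 6) {d : ι → F} (hd : Function.Injective d) {U n : GL ι F}
    (hU : U.val = diagonal d) (h : Commute (n * U * n⁻¹) U) (hn : ∃ k, n ^ 7 ^ k = 1) : Commute n U := by
  have h1 : ∀ i j, i ≠ j → (n * U * n⁻¹).val i j = 0 := fun i j e => by
    have := congrArg (fun g : GL ι F => g.val i j) h.eq
    rw [Units.val_mul _ U, Units.val_mul U, hU, mul_diagonal, diagonal_mul, mul_comm (d i)] at this
    by_contra k
    exact e (hd (mul_left_cancel₀ k this)).symm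
  have h2 : ∀ i j, n.val i j ≠ 0 → d j = (n * U * n⁻¹).val i i := fun i j k => by
    have := congrArg (fun g : GL ι F => g.val i j) (inv_mul_cancel_right (n * U) n)
    rw [Units.val_mul _ n, Units.val_mul n U, hU, mul_diagonal, mul_apply,
      Finset.sum_eq_single i (fun l _ e => by rw [h1 _ _ e.symm, zero_mul]) (by simp), mul_comm] at this
    exact (mul_left_cancel₀ k this).symm
  have h3 : ∀ i, ∃ σ, ∀ j, n.val i j ≠ 0 → j = σ := fun i => by
    by_cases k : ∃ j, n.val i j ≠ 0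
    · exact k.imp fun j hj l hl => hd ((h2 _ _ hl).trans (h2 _ _ hj).symm)
    · exact ⟨i, fun j hj => (k ⟨j, hj⟩).elim⟩
  choose σ hσ using h3
  have h4 : ∀ (m : ℕ) i j, (n ^ m).val i j ≠ 0 → j = σ^[m] i := fun m => by
    induction m with
    | zero => exact fun i j k => by_contra fun e => k (one_apply_ne (Ne.symm e))
    | succ m ih =>
      intro i j k
      rw [pow_succ, Units.val_mul, mul_apply] at k
      obtain ⟨l, -, hl⟩ := Finset.exists_ne_zero_of_sum_ne_zero k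
      rw [Function.iterate_succ_apply', ← ih _ _ (left_ne_zero_of_mul hl)]
      exact hσ _ _ (right_ne_zero_of_mul hl)
  obtain ⟨k, hk⟩ := hn
  have h5 : ∀ i, σ i = i := fun i => by
    have : Function.IsPeriodicPt σ (7 ^ k) i := (h4 (7 ^ k) i i (by simp [hk])).symm
    obtain ⟨m, -, hm⟩ := (Nat.dvd_prime_pow (by norm_num)).1 this.minimalPeriod_dvd
    have h7 := (Function.minimalPeriod_le_card (f := σ) (x := i)).trans h6
    rcases m with _ | m
    · exact Function.minimalPeriod_eq_one_iff_isFixedPt.1 hm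
    · have := Nat.one_le_pow m 7 (by simp)
      rw [hm, pow_succ] at h7
      omega
  refine Units.ext ?_
  ext i j
  rw [Units.val_mul, Units.val_mul, hU, mul_diagonal, diagonal_mul, mul_comm]
  by_cases e : n.val i j = 0
  · simp [e]
  · rw [hσ _ _ e, h5]

end Cfsg.Agent.H3.S7
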