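import Cfsg.Agent.H3.S7c

/-! Overgroups of the normaliser of the extraspecial group of order `343`: the special linear case does not occur. -/

set_option autoImplicit false
set_option linter.unusedSectionVars false
set_option linter.unusedSimpArgs false

namespace Cfsg.Agent.H3.S7

open Matrix Subgroup Finset Cfsg.Agent.H5 Cfsg.Agent.Asch

universe v
variable {F : Type v} [Field F] [Fintype F]

theorem nosl_pow {n : ℕ} (h0 : 0 < n) (h : n + 1 < Fintype.card F) : ∃ t : F, t ≠ 0 ∧ t ^ n ≠ 1 := by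
  classical
  obtain ⟨g, hg⟩ := IsCyclic.exists_ofOrder_eq_natCard (α := Fˣ)
  refine ⟨g, g.ne_zero, fun e => ?_⟩
  have := Nat.le_of_dvd h0 (orderOf_dvd_of_pow_eq_one (x := g) (Units.ext (by simpa using e)))
  rw [hg, Nat.card_units, Nat.card_eq_fintype_card] at this
  omega

variable {o : Om7 F} {p : ℕ} {M : Subgroup (G7 F)}

theorem Hyp.nosl_diag (H : Hyp o p M) (hq : 9 ≤ p ∧ 16 ≤ Fintype.card F) {L : Subgroup (GL (Fin 3) F)} {E : Subfield F}
    {P : GL (Fin 3) F} (hu : rp M H.uC ∈ L) (hL : ∀ g, g ∈ L ↔ g.val.det = 1 ∧ Over E (cj P⁻¹ g.val)) :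
    ∃ δ ∈ L, ∃ d, δ.val = diagonal d ∧ d 0 ^ 14 ≠ 1 := by
  classical
  by_cases hE : E = ⊤
  · obtain ⟨t, t0, t1⟩ := nosl_pow (F := F) (n := 14) (by simp) (by omega)
    have e : (diagonal ![t, t⁻¹, 1]).det = 1 := by simp [Fin.prod_univ_three, t0]
    exact ⟨GeneralLinearGroup.mkOfDetNeZero _ (e.trans_ne one_ne_zero), (hL _).2 ⟨e, fun i j => hE.ge trivial⟩, _, rfl, t1⟩
  obtain ⟨h1, -⟩ := (H.sub E).resolve_left hE
  obtain ⟨h3, -⟩ := H.card.resolve_left fun e => hE (eq_top_iff.2 fun x _ =>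
    (E.toAddSubgroup.eq_top_of_card_eq (h1.trans (e.symm.trans Nat.card_eq_fintype_card.symm))).ge trivial)
  obtain ⟨t, t0, t1⟩ := nosl_pow (F := F) (n := (p - 1) * 14) (by omega) (by
    obtain ⟨k, rfl⟩ := Nat.exists_eq_add_of_le hq.1
    rw [h3, show 9 + k - 1 = 8 + k by omega]
    nlinarith [Nat.zero_le (k ^ 3), Nat.zero_le (k ^ 2)])
  let T : Subring (Fin 3 → F) :=
    (E.toSubring.matrix.comap (cj P⁻¹).toRingEquiv.toRingHom).comap (diagonalRingHom (Fin 3) F)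
  have mT : ∀ y, y ∈ T ↔ Over E (cj P⁻¹ (diagonal y)) := fun y => Iff.rfl
  obtain ⟨y, y1, y2⟩ := H.sub_top (T.map (Pi.evalRingHom _ 0)) (k := 4 * ξ 0 ^ 2) (by decide)
    ⟨_, (mT _).2 (H.up ▸ ((hL _).1 hu).2), rfl⟩ t
  have y3 := sub_mem (add_mem y1 T.one_mem) (pow_mem y1 (Fintype.card F - 1))
  have y4 : ∀ i, (y + 1 - y ^ (Fintype.card F - 1)) i = if y i = 0 then 1 else y i := fun i => by
    split_ifs with h
    · simp [h, show Fintype.card F - 1 ≠ 0 by omega]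
    · simp [FiniteField.pow_card_sub_one_eq_one _ h]
  have y5 := y4 0
  rw [show y 0 = t from y2, if_neg t0] at y5
  have y6 : ∀ i, (y + 1 - y ^ (Fintype.card F - 1)) i ≠ 0 := fun i => by
    rw [y4]; split_ifs with h; exacts [one_ne_zero, h]
  generalize y + 1 - y ^ (Fintype.card F - 1) = w at y3 y5 y6
  have e : (diagonal (w ^ (p - 1))).det = 1 := by
    obtain ⟨Y, hY⟩ := ((mT _).1 y3).exists_map
    have e1 := congrArg Matrix.det hY
    rw [cj_apply, det_units_conj, ← RingHom.mapMatrix_apply, ← RingHom.map_det] at e1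
    have := Fintype.ofFinite E
    rw [← diagonal_pow, det_pow, e1, ← map_pow, ← h1, Nat.card_eq_fintype_card,
      FiniteField.pow_card_sub_one_eq_one _ fun e => ?_, map_one]
    rw [e, map_zero, det_diagonal] at e1
    exact prod_ne_zero_iff.2 (fun i _ => y6 i) e1
  exact ⟨GeneralLinearGroup.mkOfDetNeZero _ (e.trans_ne one_ne_zero), (hL _).2 ⟨e, (mT _).1 (pow_mem y3 _)⟩, _, rfl, by
    rwa [Pi.pow_apply, y5, ← pow_mul]⟩

theorem Hyp.noSL (H : Hyp o p M) (h2 : (2 : F) ≠ 0) (hq : 9 ≤ p ∧ 16 ≤ Fintype.card F)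
    (hγ : ∀ g ∈ Cu o M, g * S7.z F = S7.z F * g → ∀ x ≠ 0, g.val x x * g.val x (-x) = 0)
    (hK : ∀ k : Cz M, IsSc (rp M k).val → ∃ c : F, k.1.val = c • 1 ∨ k.1.val = c • (S7.z F).val)
    {L : Subgroup (GL (Fin 3) F)} {E : Subfield F} {P : GL (Fin 3) F} (h1 : L ≤ (rp M).range) (hu : rp M H.uC ∈ L)
    (hL : ∀ g, g ∈ L ↔ g.val.det = 1 ∧ Over E (cj P⁻¹ g.val)) : False := by
  obtain ⟨δ, δ1, d, δ2, δ3⟩ := H.nosl_diag hq hu hL
  obtain ⟨c, rfl⟩ := h1 δ1
  have z1 : (S7.z F).val 1 1 = 0 := (mo_apply _ _).trans (if_neg (by decide))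
  have z2 : (S7.z F).val 1 (-1) = -1 := (mo_apply _ _).trans (if_pos (by decide))
  have k1 : rp M (c * H.uC * c⁻¹ * H.uC⁻¹) = 1 := by
    rw [map_mul, map_mul, map_mul, show rp M c * rp M H.uC = rp M H.uC * rp M c from Units.ext (by
      rw [Units.val_mul, Units.val_mul, δ2, H.up, (commute_diagonal _ _).eq])]
    simp
  have k2 : c.1 ∈ Cu o M := by
    refine ⟨c.2.1, mem_centralizer_singleton_iff.2 ?_⟩
    have e := congrArg (·.val 0 0) k1
    simp only [rp_apply, show ξ 0 = 1 from rfl] at e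
    obtain ⟨s, hs | hs⟩ := hK _ ⟨1, by rw [k1]; simp⟩
    · rw [hs] at e
      rw [show s = 1 by simpa [ne_neg] using e, one_smul] at hs
      exact mul_inv_eq_iff_eq_mul.1 (mul_inv_eq_one.1 (Units.ext hs))
    · rw [hs] at e
      rw [show s = 1 by simpa [z1, z2] using e, one_smul] at hs
      have e1 := congrArg (· ^ 7) (mul_inv_eq_iff_eq_mul.1 (show c.1 * o.u * c.1⁻¹ * o.u⁻¹ = _ from Units.ext hs))
      simp only [conj_pow, Commute.mul_pow o.zu, o.u7, mul_one, mul_inv_cancel] at e1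
      rw [pow_succ _ 6, pow_mul _ 2 3, sq, zz, one_pow, one_mul] at e1
      rw [← e1] at z1
      simp at z1
  have k3 : (c * c).1.val = diagonal fun i => (c * c).1.val i i := by
    ext i j
    by_cases e : i = j
    · simp [e]
    rw [diagonal_apply_ne _ e]
    by_cases e' : j = -i
    swap
    · exact (mem_Cu.1 (mul_mem k2 k2)).2 i j (Ne.symm e) e'
    subst e'
    have i0 : i ≠ 0 := by rintro rfl; exact e rfl
    have e1 := congrArg (·.val 0 1) ((rb o M i0).map_mul ⟨_, k2⟩ ⟨_, k2⟩)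
    have e2 := hγ _ k2 (mem_Cz.1 c.2).2 i i0
    have e3 := Cz.neg c i (-i)
    simp [rb_val] at e1 e3
    simp only [Subgroup.coe_mul, Units.val_mul]
    rw [e1, e3]
    linear_combination 2 * e2
  have k4 : (c * c).1.val 1 1 = d 0 ^ 2 := by
    have e1 := congrArg (·.val 0 0) ((rp M).map_mul c c)
    simp only [rp_apply, show ξ 0 = 1 from rfl, Units.val_mul (rp M c), δ2, diagonal_mul_diagonal] at e1
    rw [show (c * c).1.val 1 (-1) = 0 by rw [k3, diagonal_apply_ne _ (by decide)]] at e1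
    simpa [sq] using e1
  have hd : Dg M _ := ⟨_, (c * c).2.1, k3⟩
  have d0 := hd.ne 1
  obtain ⟨g, g1, g2⟩ := H.avg hd 1
  simp only [k4] at g2 d0
  obtain ⟨s, hs | hs⟩ := hK ⟨g, mem_Cz.2 ⟨g1, comm_z.2 fun i j => by simp [g2, diagonal_apply]⟩⟩ ⟨(d 0 ^ 2)⁻¹, by
    ext i j
    simp [rp_apply, g2, diagonal_apply, ξ_inj, ξ_neg, ξ_ne, one_apply]⟩
  · have e0 := congrFun (congrFun (g2.symm.trans hs) 0) 0
    have e1 := congrFun (congrFun (g2.symm.trans hs) 1) 1
    simp at e0 e1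
    exact δ3 (by rw [show 14 = 2 * 6 + 2 by rfl, pow_add, pow_mul, e0, ← e1, inv_mul_cancel₀ d0])
  · have e1 := congrFun (congrFun (g2.symm.trans hs) 1) 1
    simp [z1] at e1
    exact d0 (by simp [e1])

end Cfsg.Agent.H3.S7
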