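import Cfsg.Agent.H1.C3d
import Cfsg.Agent.H1.C2d
import Cfsg.Agent.H1.C5
import Cfsg.Agent.H1.C8
import Cfsg.Agent.H3.TenSL
import Cfsg.Agent.H7.SubspaceSL

set_option autoImplicit false

namespace Cfsg.Agent.H1.SLAll

theorem subspace_max {F : Type*} [Field F] {ι : Type} [Fintype ι] [DecidableEq ι] (W : Submodule F (ι → F))
    (hW0 : W ≠ ⊥) (hW1 : W ≠ ⊤) : Cfsg.Geo.IsMaximalIn (Cfsg.Geo.specialLinear ι F)
      (Cfsg.Geo.subspaceStabilizer W ⊓ Cfsg.Geo.specialLinear ι F) := by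
  refine H7.isMaximalIn_of _ _ (fun g => LinearEquiv.det g = 1)
    (fun g => (∀ v, v ∈ W ↔ g v ∈ W) ∧ LinearEquiv.det g = 1) H7.mem_SL_iff ?_ (fun g h => h.2) ?_
    (fun M h1 h2 => H7.subspace_max M h1 h2)
  · intro g
    rw [Subgroup.mem_inf, H7.mem_SL_iff, H7.mem_subspaceStabilizer_iff]
  · obtain ⟨g, hg, h⟩ := H7.exists_sl_not_stab hW0 hW1
    exact ⟨g, hg, fun h' => h h'.1⟩

end Cfsg.Agent.H1.SLAll
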