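import Cfsg.Agent.H1.GroupRing
import Cfsg.Agent.H1.PermMod

set_option autoImplicit false

namespace Cfsg.Agent.H1.TwoP

open Finset MulAction Cfsg.Agent.H1.GroupRing Cfsg.Agent.H1.PermMod
open scoped Pointwise

/-- In a primitive action, a non-empty set closed under a non-trivial symmetric invariant relation
is everything. -/
theorem eq_univ_of_closed {G Ω : Type*} [Group G] [MulAction G Ω] (hG : IsPreprimitive G Ω)
    (S : Ω → Ω → Prop) (hS : ∀ (g : G) x y, S x y → S (g • x) (g • y))
    (hsymm : ∀ x y, S x y → S y x) {x y : Ω} (hxy : x ≠ y) (h : S x y) (B : Ω → Prop)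
    (hB : ∀ x y, B x → S x y → B y) {x₀ : Ω} (hx₀ : B x₀) : ∀ z, B z := by
  have hE : ∀ (g : G) x y, Relation.ReflTransGen S x y → Relation.ReflTransGen S (g • x) (g • y) :=
    fun g x y h => by
      induction h with
      | refl => exact .refl
      | tail _ h ih => exact .tail ih (hS g _ _ h)
  have hEs : ∀ x y, Relation.ReflTransGen S x y → Relation.ReflTransGen S y x := by
    intro x y h
    induction h with
    | refl => exact .refl
    | tail _ h ih => exact .head (hsymm _ _ h) ih
  have hblock : IsBlock G {z | Relation.ReflTransGen S x₀ z} := by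
    rw [isBlock_iff_smul_eq_of_mem]
    intro g a ha hga
    have h1 : Relation.ReflTransGen S x₀ (g • x₀) := hga.trans (hEs _ _ (hE g _ _ ha))
    ext z
    rw [Set.mem_smul_set_iff_inv_smul_mem]
    constructor
    · intro hz
      have := hE g _ _ hz
      rw [smul_inv_smul] at this
      exact h1.trans this
    · intro hz
      have := hE g⁻¹ _ _ ((hEs _ _ h1).trans hz)
      rwa [inv_smul_smul] at this
  rcases hG.isTrivialBlock_of_isBlock hblock with h1 | h1
  · exfalso
    obtain ⟨g, rfl⟩ := exists_smul_eq G x x₀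
    exact hxy (smul_left_cancel g (h1 Relation.ReflTransGen.refl (.single (hS g _ _ h))))
  · intro z
    have : z ∈ {z | Relation.ReflTransGen S x₀ z} := h1 ▸ Set.mem_univ z
    induction this with
    | refl => exact hx₀
    | tail _ h ih => exact hB _ _ ih h

variable {G Ω : Type*} [Group G] [MulAction G Ω] [Fintype Ω] {p : ℕ} [hp : Fact p.Prime]

/-- invariant functions of two variables -/
def Inv (G : Type*) {Ω : Type*} [Group G] [MulAction G Ω] (F : Ω → Ω → ℚ) : Prop :=
  ∀ (g : G) x y, F (g • x) (g • y) = F x y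

/-- block entries -/
def ent (e : ZMod p × Bool ≃ Ω) (F : Ω → Ω → ℚ) (i i' : Bool) (j : ZMod p) : ℚ :=
  F (e (0, i)) (e (j, i'))

/-- the sign function -/
def sgn (e : ZMod p × Bool ≃ Ω) (x : Ω) : ℚ := if (e.symm x).2 then -1 else 1

/-- the eigenvalue on the sign function -/
noncomputable def av (e : ZMod p × Bool ≃ Ω) (F : Ω → Ω → ℚ) : ℚ :=
  ∑ j, ent e F false false j - ∑ j, ent e F false true j

variable {c : G} {e : ZMod p × Bool ≃ Ω}

omit [Fintype Ω] in
theorem shift (he : ∀ j i, c • e (j, i) = e (j + 1, i)) {F : Ω → Ω → ℚ} (hF : Inv G F)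
    (j : ZMod p) (i : Bool) (j' : ZMod p) (i' : Bool) :
    F (e (j, i)) (e (j', i')) = ent e F i i' (j' - j) := by
  have h1 : ∀ (n : ℕ) j i, c ^ n • e (j, i) = e (j + n, i) := by
    intro n
    induction n with
    | zero => simp
    | succ n ih => intro j i; rw [pow_succ', mul_smul, ih, he]; congr 2; push_cast; ring
  rw [ent, ← hF (c ^ j.val) (e (0, i)), h1, h1]
  simp

theorem sum_eq (e : ZMod p × Bool ≃ Ω) (f : Ω → ℚ) :
    ∑ x, f x = ∑ j, f (e (j, false)) + ∑ j, f (e (j, true)) := by
  rw [← e.sum_comp, Fintype.sum_prod_type_right, Fintype.sum_bool, add_comm]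

theorem row_const [IsPretransitive G Ω] {F : Ω → Ω → ℚ} (hF : Inv G F) (x x' : Ω) :
    ∑ y, F x y = ∑ y, F x' y := by
  obtain ⟨g, rfl⟩ := exists_smul_eq G x x'
  rw [← sum_smul_eq g (fun y => F (g • x) y)]
  exact sum_congr rfl fun y _ => (hF g x y).symm

omit [Fintype Ω] in
theorem ent_transpose (he : ∀ j i, c • e (j, i) = e (j + 1, i)) {F : Ω → Ω → ℚ} (hF : Inv G F)
    (i i' : Bool) (j : ZMod p) : ent e (fun x y => F y x) i i' j = ent e F i' i (-j) := by
  rw [ent, shift he hF, zero_sub]

theorem aug_symm [IsPretransitive G Ω] (he : ∀ j i, c • e (j, i) = e (j + 1, i)) {F : Ω → Ω → ℚ}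
    (hF : Inv G F) : ∑ j, ent e F true true j = ∑ j, ent e F false false j ∧
      ∑ j, ent e F true false j = ∑ j, ent e F false true j := by
  have h1 := row_const hF (e (0, false)) (e (0, true))
  have h2 := row_const (G := G) (F := fun x y => F y x) (fun g x y => hF g y x)
    (e (0, false)) (e (0, true))
  rw [sum_eq e, sum_eq e] at h1 h2
  have h3 : ∀ i i', ∑ j, F (e (j, i')) (e (0, i)) = ∑ j, ent e F i' i j := by
    intro i i'
    refine Fintype.sum_equiv (Equiv.neg _) _ _ fun j => ?_
    rw [shift he hF]; simp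
  simp only [h3] at h2
  simp only [ent] at h1 h2 ⊢
  constructor <;> linarith

theorem eigen [IsPretransitive G Ω] (he : ∀ j i, c • e (j, i) = e (j + 1, i)) {F : Ω → Ω → ℚ}
    (hF : Inv G F) (g : G) (x : Ω) :
    ∑ y, F x y * sgn e (g • y) = av e F * sgn e (g • x) := by
  have key : ∀ x, ∑ y, F x y * sgn e y = av e F * sgn e x := by
    intro x
    obtain ⟨⟨j, i⟩, rfl⟩ := e.surjective x
    have h3 : ∀ i', ∑ j', F (e (j, i)) (e (j', i')) = ∑ j', ent e F i i' j' := by
      intro i'
      refine Fintype.sum_equiv (Equiv.subRight j) _ _ fun j' => ?_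
      rw [shift he hF]; simp
    obtain ⟨h1, h2⟩ := aug_symm he hF
    rw [sum_eq e]
    simp only [sgn, Equiv.symm_apply_apply, Bool.false_eq_true, if_false, if_true, mul_one, mul_neg,
      sum_neg_distrib, h3, av]
    cases i <;> simp [h1, h2] <;> ring
  rw [← key]
  rw [← sum_smul_eq g (fun y => F (g • x) y * sgn e y)]
  exact sum_congr rfl fun y _ => by rw [hF]

theorem hat_mul_vec (he : ∀ j i, c • e (j, i) = e (j + 1, i)) {F : Ω → Ω → ℚ} (hF : Inv G F)
    (u : Ω → ℚ) (i : Bool) :
    hat (fun j => ∑ y, F (e (-j, i)) y * u y) =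
      hat (ent e F i false) * hat (fun j => u (e (-j, false))) +
      hat (ent e F i true) * hat (fun j => u (e (-j, true))) := by
  rw [hat_mul, hat_mul, ← hat_add]
  congr 1
  funext j
  rw [sum_eq e]
  congr 1 <;>
  · refine Fintype.sum_equiv (Equiv.addRight j) _ _ fun k => ?_
    rw [shift he hF]; simp

theorem hat_mul_mat (he : ∀ j i, c • e (j, i) = e (j + 1, i)) {H : Ω → Ω → ℚ} (hH : Inv G H)
    (F : Ω → Ω → ℚ) (i i' : Bool) :
    hat (ent e (fun x y => ∑ z, F x z * H z y) i i') =
      hat (ent e F i false) * hat (ent e H false i') +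
      hat (ent e F i true) * hat (ent e H true i') := by
  rw [hat_mul, hat_mul, ← hat_add]
  congr 1
  funext j
  rw [ent, sum_eq e]
  simp only [shift he hH]
  rfl

theorem exists_nonconst (hG : IsPreprimitive G Ω) (e : ZMod p × Bool ≃ Ω) :
    ∃ (g : G) (i : Bool), ¬ ∀ j j', sgn e (g • e (j, i)) = sgn e (g • e (j', i)) := by
  by_contra hc
  push Not at hc
  have hblock : IsBlock G {x | sgn e x = 1} := by
    rw [isBlock_iff_smul_eq_of_mem]
    intro g a ha hga
    apply Set.eq_of_subset_of_ncard_le _ (by rw [Set.ncard_smul_set]) (Set.toFinite _)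
    rintro _ ⟨x, hx, rfl⟩
    obtain ⟨⟨j, i⟩, rfl⟩ := e.surjective x
    obtain ⟨⟨j', i'⟩, rfl⟩ := e.surjective a
    have hi : i = false := by
      cases i
      · rfl
      · norm_num [sgn] at hx
    have hi' : i' = false := by
      cases i'
      · rfl
      · norm_num [sgn] at ha
    subst hi hi'
    exact (hc g false j j').trans hga
  rcases hG.isTrivialBlock_of_isBlock hblock with h | h
  · have := h (x := e (0, false)) (by simp [sgn]) (y := e (1, false)) (by simp [sgn])
    simp at this
  · have : e (0, true) ∈ {x | sgn e x = 1} := h ▸ Set.mem_univ _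
    norm_num [sgn] at this

theorem det_zero (hG : IsPreprimitive G Ω) (he : ∀ j i, c • e (j, i) = e (j + 1, i))
    {F : Ω → Ω → ℚ} (hF : Inv G F) (h0 : av e F = 0) :
    hat (ent e F false false) * hat (ent e F true true) =
      hat (ent e F false true) * hat (ent e F true false) := by
  rw [← sub_eq_zero]
  apply eq_zero_of_ev_aug
  · obtain ⟨g, i, hg⟩ := exists_nonconst hG e
    have h1 : ∀ i, hat (ent e F i false) * hat (fun j => sgn e (g • e (-j, false))) +
        hat (ent e F i true) * hat (fun j => sgn e (g • e (-j, true))) = 0 := by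
      intro i
      rw [← hat_mul_vec he hF (fun y => sgn e (g • y))]
      simp only [eigen he hF, h0, zero_mul, hat_zero]
    have h2 : ev p (hat (fun j => sgn e (g • e (-j, i)))) ≠ 0 := by
      rw [Ne, ev_hat_eq_zero_iff]
      intro h
      apply hg
      intro j j'
      simpa using h (-j) (-j')
    apply mul_right_cancel₀ h2
    rw [zero_mul, ← map_mul]
    have h3 := h1 false
    have h4 := h1 true
    cases i
    · refine (congrArg (ev p) ?_).trans (map_zero _)
      linear_combination hat (ent e F true true) * h3 - hat (ent e F false true) * h4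
    · refine (congrArg (ev p) ?_).trans (map_zero _)
      linear_combination hat (ent e F false false) * h4 - hat (ent e F true false) * h3
  · obtain ⟨h1, h2⟩ := aug_symm he hF
    simp only [map_sub, map_mul, aug_hat, h1, h2]
    rw [av, sub_eq_zero] at h0
    rw [h0, sub_self]

theorem av_transpose [IsPretransitive G Ω] (he : ∀ j i, c • e (j, i) = e (j + 1, i))
    {F : Ω → Ω → ℚ} (hF : Inv G F) : av e (fun x y => F y x) = av e F := by
  simp only [av, ent_transpose he hF]
  rw [← (aug_symm he hF).2]
  congr 1 <;> exact Fintype.sum_equiv (Equiv.neg _) _ _ fun j => rfl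

theorem pairing (hG : IsPreprimitive G Ω) (he : ∀ j i, c • e (j, i) = e (j + 1, i))
    {F H : Ω → Ω → ℚ} (hF : Inv G F) (hF0 : av e F = 0) (hH : Inv G H) (hH0 : av e H = 0) :
    ∑ k, ent e F false false k * ent e H true true k +
      ∑ k, ent e H false false k * ent e F true true k =
    ∑ k, ent e F false true k * ent e H false true k +
      ∑ k, ent e H true false k * ent e F true false k := by
  have hH' : Inv G (fun x y => H y x) := fun g x y => hH g y x
  have hH0' : av e (fun x y => H y x) = 0 := by rw [av_transpose he hH, hH0]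
  have h1 := det_zero hG he hF hF0
  have h2 := det_zero hG he hH' hH0'
  have h3 := det_zero hG he (F := fun x y => F x y + H y x)
    (fun g x y => by simp only [hF g, hH g]) (by
      simp only [av, ent, sum_add_distrib] at hF0 hH0' ⊢
      linarith)
  have h4 : ∀ i i', hat (ent e (fun x y => F x y + H y x) i i') =
      hat (ent e F i i') + hat (ent e (fun x y => H y x) i i') := fun i i' => hat_add _ _
  simp only [h4] at h3
  have h5 : hat (ent e F false false) * hat (ent e (fun x y => H y x) true true) +
      hat (ent e F true true) * hat (ent e (fun x y => H y x) false false) =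
      hat (ent e F false true) * hat (ent e (fun x y => H y x) true false) +
      hat (ent e F true false) * hat (ent e (fun x y => H y x) false true) := by
    linear_combination h3 - h1 - h2
  simp only [hat_mul, ← hat_add] at h5
  have h6 := congrFun (hat_inj h5) 0
  simp only [ent_transpose he hH, zero_sub, neg_neg] at h6
  simp only [mul_comm (ent e H _ _ _)] at h6 ⊢
  exact h6

open Classical in
/-- indicator function of a relation -/
noncomputable def ind (S : Ω → Ω → Prop) (x y : Ω) : ℚ := if S x y then 1 else 0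

omit [Fintype Ω] in
theorem ind_inv {S : Ω → Ω → Prop} (hS : ∀ (g : G) x y, S (g • x) (g • y) ↔ S x y) :
    Inv G (ind S) := fun g x y => by unfold ind; rw [hS]

omit [Fintype Ω] in
theorem ind_nonneg (S : Ω → Ω → Prop) (x y : Ω) : 0 ≤ ind S x y := by
  unfold ind; split_ifs <;> norm_num

omit [Fintype Ω] in
theorem ind_le_one (S : Ω → Ω → Prop) (x y : Ω) : ind S x y ≤ 1 := by
  unfold ind; split_ifs <;> norm_num

omit [Fintype Ω] in
theorem ind_mul_self (S : Ω → Ω → Prop) (x y : Ω) : ind S x y * ind S x y = ind S x y := by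
  unfold ind; split_ifs <;> norm_num

omit [Fintype Ω] in
theorem ent_eq (i i' : Bool) (j : ZMod p) :
    ent e (ind Eq) i i' j = if i = i' ∧ j = 0 then 1 else 0 := by
  simp only [ent, ind, EmbeddingLike.apply_eq_iff_eq, Prod.mk.injEq]
  congr 1
  simp only [eq_iff_iff]
  tauto

/-- the function shifted by its eigenvalue -/
noncomputable def nul (e : ZMod p × Bool ≃ Ω) (F : Ω → Ω → ℚ) (x y : Ω) : ℚ :=
  F x y - av e F * ind Eq x y

omit [Fintype Ω] in
theorem nul_inv {F : Ω → Ω → ℚ} (hF : Inv G F) : Inv G (nul e F) := fun g x y => by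
  simp only [nul, hF g, ind_inv (G := G) (S := Eq) (fun g x y => smul_left_cancel_iff g) g]

omit [Fintype Ω] in
theorem ent_nul (F : Ω → Ω → ℚ) (i i' : Bool) (j : ZMod p) :
    ent e (nul e F) i i' j = ent e F i i' j - if i = i' ∧ j = 0 then av e F else 0 := by
  have := ent_eq (e := e) i i' j
  simp only [ent, nul] at this ⊢
  rw [this]; simp

omit [Fintype Ω] in
theorem av_nul (F : Ω → Ω → ℚ) : av e (nul e F) = 0 := by
  conv_lhs => rw [av]
  simp only [ent_nul, sum_sub_distrib]
  simp [av]

theorem pairing' (hG : IsPreprimitive G Ω) (he : ∀ j i, c • e (j, i) = e (j + 1, i))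
    {F H : Ω → Ω → ℚ} (hF : Inv G F) (hF0 : ∀ x, F x x = 0) (hH : Inv G H) (hH0 : ∀ x, H x x = 0) :
    ∑ k, ent e F false false k * ent e H true true k +
      ∑ k, ent e H false false k * ent e F true true k + 2 * av e F * av e H =
    ∑ k, ent e F false true k * ent e H false true k +
      ∑ k, ent e H true false k * ent e F true false k := by
  have h := pairing hG he (nul_inv hF) (av_nul F) (nul_inv hH) (av_nul H)
  have h1 : ∀ i, ent e F i i 0 = 0 := fun i => hF0 _
  have h2 : ∀ i, ent e H i i 0 = 0 := fun i => hH0 _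
  simp only [ent_nul, sub_mul, mul_sub, sum_sub_distrib] at h
  simp [h1, h2] at h
  linarith

theorem av_mul_nonpos (hG : IsPreprimitive G Ω) (he : ∀ j i, c • e (j, i) = e (j + 1, i))
    {S T : Ω → Ω → Prop} (hS : ∀ (g : G) x y, S (g • x) (g • y) ↔ S x y) (hS0 : ∀ x, ¬ S x x)
    (hT : ∀ (g : G) x y, T (g • x) (g • y) ↔ T x y) (hT0 : ∀ x, ¬ T x x)
    (hST : ∀ x y, S x y → ¬ T x y) : av e (ind S) * av e (ind T) ≤ 0 := by
  have h := pairing' hG he (ind_inv hS) (fun x => by simp [ind, hS0]) (ind_inv hT)
    (fun x => by simp [ind, hT0])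
  have h1 : ∀ x y, ind S x y * ind T x y = 0 := by
    intro x y
    unfold ind
    by_cases h : S x y
    · simp [hST x y h]
    · simp [h]
  have h2 : ∀ x y, ind T x y * ind S x y = 0 := fun x y => by rw [mul_comm, h1]
  have h3 : 0 ≤ ∑ k, ent e (ind S) false false k * ent e (ind T) true true k :=
    sum_nonneg fun k _ => mul_nonneg (ind_nonneg _ _ _) (ind_nonneg _ _ _)
  have h4 : 0 ≤ ∑ k, ent e (ind T) false false k * ent e (ind S) true true k :=
    sum_nonneg fun k _ => mul_nonneg (ind_nonneg _ _ _) (ind_nonneg _ _ _)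
  simp only [ent, h1, h2, sum_const_zero] at h h3 h4
  linarith

theorem self_pairing (hG : IsPreprimitive G Ω) (he : ∀ j i, c • e (j, i) = e (j + 1, i))
    {S : Ω → Ω → Prop} (hS : ∀ (g : G) x y, S (g • x) (g • y) ↔ S x y) (hS0 : ∀ x, ¬ S x x) :
    ∑ k, ent e (ind S) false false k * ent e (ind S) true true k + av e (ind S) ^ 2 =
      ∑ k, ent e (ind S) false true k := by
  have h := pairing' hG he (ind_inv hS) (fun x => by simp [ind, hS0]) (ind_inv hS)
    (fun x => by simp [ind, hS0])
  have h1 := (aug_symm he (ind_inv hS)).2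
  simp only [ent, ind_mul_self] at h h1 ⊢
  linarith

theorem av_ne_zero [Finite G] (hG : IsPreprimitive G Ω) (he : ∀ j i, c • e (j, i) = e (j + 1, i))
    {S : Ω → Ω → Prop} (hS : ∀ (g : G) x y, S (g • x) (g • y) ↔ S x y) (hS0 : ∀ x, ¬ S x x)
    {x₀ y₀ : Ω} (hne : S x₀ y₀) : av e (ind S) ≠ 0 := by
  classical
  intro h0
  have := Fintype.ofFinite G
  have hF := ind_inv hS
  have hG0 : (0 : ℚ) < Fintype.card G := by exact_mod_cast Fintype.card_pos
  -- the two diagonal blocks agree
  have hm := self_pairing hG he hS hS0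
  have hu : ∑ j, ent e (ind S) false false j = ∑ j, ent e (ind S) false true j := by
    rwa [av, sub_eq_zero] at h0
  have hdiag : ent e (ind S) true true = ent e (ind S) false false := by
    have h1 : ∑ k, (ent e (ind S) true true k - ent e (ind S) false false k) ^ 2 = 0 := by
      have h2 : ∀ k, (ent e (ind S) true true k - ent e (ind S) false false k) ^ 2 =
          ent e (ind S) true true k + ent e (ind S) false false k -
            2 * (ent e (ind S) false false k * ent e (ind S) true true k) := by
        intro k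
        have h3 := ind_mul_self S (e (0, true)) (e (k, true))
        have h4 := ind_mul_self S (e (0, false)) (e (k, false))
        simp only [ent]
        linear_combination h3 + h4
      simp only [h2, sum_sub_distrib, sum_add_distrib, ← mul_sum, (aug_symm he hF).1]
      rw [h0] at hm
      linarith
    rw [sum_eq_zero_iff_of_nonneg (fun k _ => sq_nonneg _)] at h1
    funext k
    exact sub_eq_zero.1 (pow_eq_zero_iff two_ne_zero |>.1 (h1 k (mem_univ k)))
  have hupos : 0 < ∑ j, ent e (ind S) false false j := by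
    have h1 : 0 < ∑ y, ind S x₀ y :=
      sum_pos' (fun y _ => ind_nonneg _ _ _) ⟨y₀, mem_univ _, by simp [ind, hne]⟩
    rw [row_const hF x₀ (e (0, false)), sum_eq e] at h1
    simp only [ent] at hu ⊢
    linarith
  let X : Ω → Ω → ℚ := fun x y => ∑ g : G, sgn e (g • x) * sgn e (g • y)
  have hX : Inv G X := fun h x y =>
    Fintype.sum_equiv (Equiv.mulRight h) _ _ fun g => by simp [mul_smul]
  have hXs : ∀ x y, X x y = X y x := fun x y => sum_congr rfl fun g _ => mul_comm _ _
  have hsq : ∀ x, sgn e x * sgn e x = 1 := by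
    intro x; unfold sgn; split_ifs <;> norm_num
  have hFX : ∀ {F : Ω → Ω → ℚ}, Inv G F → ∀ x y, ∑ z, F x z * X z y = av e F * X x y := by
    intro F hF x y
    simp only [X, mul_sum]
    rw [sum_comm]
    refine sum_congr rfl fun g _ => ?_
    simp only [← mul_assoc, ← sum_mul, eigen he hF]
  have hXX : ∀ x, X x x = Fintype.card G := by intro x; simp [X, hsq]
  have hXF : ∀ x y, ∑ z, X x z * ind S z y = 0 := by
    intro x y
    have := hFX (F := fun x y => ind S y x) (fun g x y => hF g y x) y x
    rw [av_transpose he hF, h0, zero_mul] at this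
    rw [← this]
    exact sum_congr rfl fun z _ => by rw [mul_comm, hXs]
  have hXd : ent e X true true = ent e X false false := by
    have h1 := hat_mul_mat he hF X false false
    have h2 := hat_mul_mat he hX (ind S) true true
    have h3 : ent e (fun x y => ∑ z, X x z * ind S z y) false false = fun _ => 0 := by
      funext j; simp only [ent, hXF]
    have h4 : ent e (fun x y => ∑ z, ind S x z * X z y) true true = fun _ => 0 := by
      funext j; simp only [ent, hFX hF, h0, zero_mul]
    rw [h3, hat_zero] at h1
    rw [h4, hat_zero, hdiag] at h2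
    have h5 : hat (ent e (ind S) false false) * (hat (ent e X true true) - hat (ent e X false false))
        = 0 := by linear_combination h1 - h2
    apply hat_inj
    rw [← sub_eq_zero]
    apply eq_zero_of_ev_aug
    · have h6 := congrArg (ev p) h5
      rw [map_mul, map_zero] at h6
      refine (mul_eq_zero.1 h6).resolve_left ?_
      rw [ev_hat_eq_zero_iff]
      intro h7
      rw [sum_congr rfl (fun j _ => h7 j 0)] at hupos
      simp [ent, ind, hS0] at hupos
    · have h6 := congrArg (aug p) h5
      rw [map_mul, map_zero, aug_hat] at h6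
      exact (mul_eq_zero.1 h6).resolve_left hupos.ne'
  have hle : ∀ x y, x ≠ y → X x y ≤ 0 := by
    let P : Ω → Ω → Prop := fun x y => x ≠ y ∧ 0 < X x y
    have hP : ∀ (g : G) x y, P (g • x) (g • y) ↔ P x y := by
      intro g x y; simp only [P, hX g, ne_eq, smul_left_cancel_iff]
    have h1 := self_pairing hG he hP (fun x h => h.1 rfl)
    have h2 : ∀ k, ent e (ind P) true true k = ent e (ind P) false false k := by
      intro k
      have := congrFun hXd k
      simp only [ent] at this
      simp only [ent, ind, P, this, ne_eq, EmbeddingLike.apply_eq_iff_eq, Prod.mk.injEq, and_true]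
    simp only [h2] at h1
    simp only [ent, ind_mul_self] at h1
    have h3 : av e (ind P) + av e (ind P) ^ 2 = 0 := by
      rw [av] at h1 ⊢
      simp only [ent] at h1 ⊢
      linarith
    intro x y hxy
    by_contra hpos
    push Not at hpos
    have h4 := hFX (ind_inv hP) x x
    have h5 : 0 < ∑ z, ind P x z * X z x := by
      apply sum_pos'
      · intro z _
        unfold ind
        split_ifs with h
        · rw [one_mul, hXs]; exact h.2.le
        · simp
      · refine ⟨y, mem_univ _, ?_⟩
        rw [hXs]
        simp [ind, P, hxy, hpos]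
    rw [h4, hXX] at h5
    have h6 : 0 < av e (ind P) := (mul_pos_iff_of_pos_right hG0).1 h5
    nlinarith
  have hrow : ∀ x, ∑ y, X x y = 0 := by
    intro x
    have := hFX (F := fun _ _ => 1) (fun _ _ _ => rfl) x x
    simp only [one_mul, av, ent, sub_self, zero_mul] at this
    rw [← this]
    exact sum_congr rfl fun y _ => hXs _ _
  obtain ⟨y₁, hy₁⟩ : ∃ y, X x₀ y < 0 := by
    by_contra hc
    push Not at hc
    have := (sum_eq_zero_iff_of_nonneg (fun y _ => hc y)).1 (hrow x₀) x₀ (mem_univ _)
    rw [hXX] at this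
    exact hG0.ne' this
  apply hS0 y₀
  refine eq_univ_of_closed hG (fun x y => X x y < 0) (fun g x y h => by rwa [hX g])
    (fun x y h => by rwa [hXs]) (x := x₀) (y := y₁) ?_ hy₁ (fun x => S x y₀) ?_ hne y₀
  · rintro rfl
    rw [hXX] at hy₁
    linarith
  · intro x y hx hxy
    have h1 : ∑ z, X x z * (ind S z y₀ - 1) = 0 := by
      simp only [mul_sub, sum_sub_distrib, hXF, mul_one, hrow, sub_self]
    rw [sum_eq_zero_iff_of_nonneg] at h1
    · have h2 := (mul_eq_zero.1 (h1 y (mem_univ _))).resolve_left hxy.ne
      by_contra h3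
      simp [ind, h3] at h2
    · intro z _
      by_cases hz : x = z
      · subst hz; simp [ind, hx]
      · exact mul_nonneg_of_nonpos_of_nonpos (hle x z hz) (sub_nonpos.2 (ind_le_one _ _ _))

end Cfsg.Agent.H1.TwoP
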