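import Cfsg.Agent.H8.L5e
import Cfsg.Agent.H9.U7Defs

/-! Arithmetic for the Singer cycle of `SU₇(q)`. -/

set_option autoImplicit false

namespace Cfsg.Agent.H1.U7R
open Cfsg.Agent.H8.L5e Cfsg.Agent.H9.U7

def chkU (k : ℕ) : Bool :=
  (List.range 8).all fun c => (List.range c).all fun a => (c == 7 && a == 6) ||
    NU7 (7 * k + 6) % (a + c * (t7 (7 * k + 6) / 7 - 1)) != 0

theorem chkU_all : (List.range 600).all chkU = true := by
  decide +kernel

theorem NU7_eq {q s u w t : ℕ} (hs : q = s + 1) (hu : u + q = q ^ 2 + 1) (hw : w + q ^ 3 + q = q ^ 4 + q ^ 2 + 1)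
    (ht : t + q ^ 5 + q ^ 3 + q = q ^ 6 + q ^ 4 + q ^ 2 + 1) :
    NU7 q = q ^ 21 * s ^ 3 * (q + 1) ^ 6 * (q ^ 2 + 1) * u ^ 2 * (q ^ 2 + q + 1) * w * t := by
  have e1 : q ^ 2 - 1 = s * (q + 1) := by subst hs; exact Nat.sub_eq_of_eq_add (by ring)
  have e2 : q ^ 4 - 1 = s * (q + 1) * (q ^ 2 + 1) := by subst hs; exact Nat.sub_eq_of_eq_add (by ring)
  have e3 : q ^ 3 + 1 = (q + 1) * u := by zify at hu ⊢; linear_combination (-(q : ℤ) - 1) * hu
  have e4 : q ^ 5 + 1 = (q + 1) * w := by zify at hw ⊢; linear_combination (-(q : ℤ) - 1) * hw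
  have e5 : q ^ 7 + 1 = (q + 1) * t := by zify at ht ⊢; linear_combination (-(q : ℤ) - 1) * ht
  have e6 : q ^ 6 - 1 = s * (q ^ 2 + q + 1) * (q ^ 3 + 1) := by subst hs; exact Nat.sub_eq_of_eq_add (by ring)
  rw [NU7, e6, e1, e2, e3, e4, e5]; ring

theorem A1 {p f q : ℕ} (hp : p.Prime) (hq : q = p ^ f) (h7 : q % 7 = 6) (a c : ℕ) (h1 : a < c)
    (h2 : c ≤ 7) (h : a + c * (t7 q / 7 - 1) ∣ NU7 q) : c = 7 ∧ a = 6 := by
  obtain ⟨k, hk⟩ : ∃ k, q = 7 * k + 6 := ⟨q / 7, by omega⟩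
  by_contra hne
  by_cases hs : k < 600
  · have := List.all_eq_true.1 chkU_all k (List.mem_range.2 hs)
    have := List.all_eq_true.1 (List.all_eq_true.1 this c (List.mem_range.2 (by omega))) a
      (List.mem_range.2 h1)
    rw [← hk] at this
    simp only [Bool.or_eq_true, Bool.and_eq_true, beq_iff_eq, bne_iff_ne] at this
    rcases this with e | e
    · omega
    · exact e (Nat.mod_eq_zero_of_dvd h)
  obtain ⟨g, hg⟩ : ∃ g, g = 16807 * k ^ 5 + 67228 * k ^ 4 + 108045 * k ^ 3 + 87122 * k ^ 2 + 35231 * k + 5712 :=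
    ⟨_, rfl⟩
  obtain ⟨u, hu⟩ : ∃ u, u = 49 * k ^ 2 + 77 * k + 31 := ⟨_, rfl⟩
  obtain ⟨w, hw⟩ : ∃ w, w = 2401 * k ^ 4 + 7889 * k ^ 3 + 9751 * k ^ 2 + 5369 * k + 1111 := ⟨_, rfl⟩
  have ht : t7 q = 7 * ((k + 1) * g + 1) := by
    rw [t7, show q ^ 7 + 1 = (q + 1) * (7 * ((k + 1) * g + 1)) by rw [hk, hg]; ring,
      Nat.mul_div_cancel_left _ (by omega)]
  rw [ht, Nat.mul_div_cancel_left _ (by norm_num), Nat.add_sub_cancel,
    NU7_eq (s := 7 * k + 5) (u := u) (w := w) (t := 7 * ((k + 1) * g + 1)) (by omega)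
      (by rw [hk, hu]; ring) (by rw [hk, hw]; ring) (by rw [hk, hg]; ring)] at h
  have key : ∀ {n b0 b1 b2 b3 b4 b5 b6 b7 : ℕ}, n ≠ 0 →
      n ∣ q ^ 21 * (7 * k + 5) ^ 3 * (q + 1) ^ 6 * (q ^ 2 + 1) * u ^ 2 * (q ^ 2 + q + 1) * w * (7 * ((k + 1) * g + 1)) →
      n.gcd q ≤ b0 → b0 < q → n.gcd (7 * k + 5) ≤ b1 → n.gcd (q + 1) ≤ b2 → n.gcd (q ^ 2 + 1) ≤ b3 →
      n.gcd u ≤ b4 → n.gcd (q ^ 2 + q + 1) ≤ b5 → n.gcd w ≤ b6 → n.gcd (7 * ((k + 1) * g + 1)) ≤ b7 →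
      n ≤ b0 * b1 ^ 3 * b2 ^ 6 * b3 * b4 ^ 2 * b5 * b6 * b7 := by
    intro n b0 b1 b2 b3 b4 b5 b6 b7 hn h h0 h0' h1 h2 h3 h4 h5 h6 h7
    rw [← Nat.gcd_eq_left h]
    refine gcd_mul_le hn (gcd_mul_le hn (gcd_mul_le hn (gcd_mul_le hn (gcd_mul_le hn (gcd_mul_le hn (gcd_mul_le hn ?_
      (gcd_pow_le hn h1 3)) (gcd_pow_le hn h2 6)) h3) (gcd_pow_le hn h4 2)) h5) h6) h7
    rw [hq] at h0 h0' ⊢
    exact gcd_ppow_le hp hn h0 h0' 21
  have hqz : (q : ℤ) = 7 * k + 6 := by rw [hk]; push_cast; ring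
  have hgz := congrArg (Nat.cast : ℕ → ℤ) hg
  have huz := congrArg (Nat.cast : ℕ → ℤ) hu
  have hwz := congrArg (Nat.cast : ℕ → ℤ) hw
  push_cast at hgz huz hwz
  have hk5 : 600 ^ 5 ≤ k ^ 5 := Nat.pow_le_pow_left (by omega) 5
  have hk4 : 600 ^ 4 ≤ k ^ 4 := Nat.pow_le_pow_left (by omega) 4
  by_cases ha : a = 0
  · subst ha
    have := key (n := g) (by omega) (Dvd.dvd.trans ⟨c * (k + 1), by ring⟩ h)
      (gcd_le (r := -6) (u := 1) (v := -(q ^ 4 - 2 * q ^ 3 + 3 * q ^ 2 - 4 * q + 5)) (B := 6) (by rw [hgz, hqz]; ring)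
        (by norm_num) (by norm_num)) (by omega)
      (gcd_le (r := -3) (u := 1) (v := -(q ^ 4 - q ^ 3 + 2 * q ^ 2 - 2 * q + 3)) (B := 3)
        (by push_cast; rw [hgz, hqz]; ring) (by norm_num) (by norm_num))
      (gcd_le (r := -21) (u := 1) (v := -(q ^ 4 - 3 * q ^ 3 + 6 * q ^ 2 - 10 * q + 15)) (B := 21)
        (by push_cast; rw [hgz, hqz]; ring) (by norm_num) (by norm_num))
      (gcd_le (r := 25) (u := -3 * q - 4) (v := 9 + (3 * q + 4) * (q ^ 3 - 2 * q ^ 2 + 2 * q - 2)) (B := 25)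
        (by push_cast; rw [hgz, hqz]; ring) (by norm_num) (by norm_num))
      (gcd_le (r := 6) (u := -1 - q) (v := q ^ 4 - q) (B := 6)
        (by rw [hgz, huz, hqz]; ring) (by norm_num) (by norm_num))
      (gcd_le (r := 6) (u := -1 - q) (v := q * (q - 1) * (q ^ 2 - q + 1)) (B := 6)
        (by push_cast; rw [hgz, hqz]; ring) (by norm_num) (by norm_num))
      (gcd_le (r := 1555) (u := (q ^ 3 - 7 * q ^ 2 + 43 * q - 259) * (q + 1))
        (v := 1 - (q ^ 3 - 7 * q ^ 2 + 43 * q - 259) * q ^ 2) (B := 1555)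
        (by rw [hgz, hwz, hqz]; ring) (by norm_num) (by norm_num))
      (gcd_le (r := 7) (u := -1 - q) (v := 1) (B := 7) (by push_cast; rw [hgz, hqz]; ring)
        (by norm_num) (by norm_num))
    omega
  set n := a + c * ((k + 1) * g) with hn
  have hnz : (n : ℤ) = a + c * ((k + 1) * g) := by rw [hn]; push_cast; ring
  have n0 : n ≠ 0 := by omega
  have n7 : n.gcd 7 ≤ 1 := (Nat.coprime_comm.1 ((Nat.Prime.coprime_iff_not_dvd (by norm_num)).2 fun e => by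
    have := (Nat.dvd_add_left (Dvd.dvd.mul_left (Dvd.dvd.mul_left (show 7 ∣ g by omega) (k + 1)) c)).1 e
    omega)).le
  obtain ⟨m, rfl⟩ : ∃ m, c = a + m := ⟨c - a, by omega⟩
  obtain ⟨B, hB⟩ : ∃ B, 6 * m = a + B := ⟨6 * m - a, by omega⟩
  have hBz : (B : ℤ) = 6 * m - a := by omega
  have r0 : (-B : ℤ) ≠ 0 := by omega
  have r1 : |(-B : ℤ)| ≤ B := by simp
  have cz : ((a + m : ℕ) : ℤ) = a + m := by simp
  have := key (n := n) n0 h
    (gcd_le (u := 7) (v := -(a + m) * (q ^ 5 - q ^ 4 + q ^ 3 - q ^ 2 + q - 1)) (by rw [hnz, hBz, cz, hgz, hqz]; ring) r0 r1)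
    (by omega)
    (gcd_le (u := 7) (v := -(a + m) * (q ^ 5 + q ^ 3 + q)) (by push_cast; rw [hnz, hBz, cz, hgz, hqz]; ring) r0 r1)
    (show q + 1 = 7 * (k + 1) by omega ▸ gcd_mul_le n0 n7 (gcd_le (r := a) (u := 1) (v := -(a + m) * g) (B := a)
      (by push_cast; rw [hnz, cz]; ring) (by omega) (by simp)))
    (gcd_le (r := 49 * m ^ 2 + (a + m) ^ 2) (u := -7 * (7 * m - (a + m) * q))
      (v := (a + m) ^ 2 + (a + m) * (7 * m - (a + m) * q) * (q ^ 4 - q ^ 3 + 1)) (B := 49 * m ^ 2 + (a + m) ^ 2)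
      (by push_cast; rw [hnz, cz, hgz, hqz]; ring) (by positivity) (by push_cast; exact (abs_of_nonneg (by positivity)).le))
    (gcd_le (u := 7) (v := -(a + m) * (q ^ 4 - q)) (by rw [hnz, hBz, cz, hgz, huz, hqz]; ring) r0 r1)
    (gcd_le (u := 7) (v := -(a + m) * (q * (q - 1) * (q ^ 2 - q + 1)))
      (by push_cast; rw [hnz, hBz, cz, hgz, hqz]; ring) r0 r1)
    (gcd_le (r := B ^ 4 + B ^ 3 * (a + m) + B ^ 2 * (a + m) ^ 2 + B * (a + m) ^ 3 + (a + m) ^ 4)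
      (u := 7 * ((-B ^ 3 + B ^ 2 * (a + m) * q - B * (a + m) ^ 2 * q ^ 2 + (a + m) ^ 3 * q ^ 3) -
        (a + m) * (B ^ 2 - B * (a + m) * q + (a + m) ^ 2 * q ^ 2) + (a + m) ^ 2 * (-B + (a + m) * q) - (a + m) ^ 3))
      (v := (a + m) ^ 4 - ((-B ^ 3 + B ^ 2 * (a + m) * q - B * (a + m) ^ 2 * q ^ 2 + (a + m) ^ 3 * q ^ 3) -
        (a + m) * (B ^ 2 - B * (a + m) * q + (a + m) ^ 2 * q ^ 2) + (a + m) ^ 2 * (-B + (a + m) * q) - (a + m) ^ 3) *
        (a + m) * q ^ 2)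
      (B := B ^ 4 + B ^ 3 * (a + m) + B ^ 2 * (a + m) ^ 2 + B * (a + m) ^ 3 + (a + m) ^ 4)
      (by rw [hnz, hBz, cz, hgz, hwz, hqz]; ring) (by positivity)
      (by push_cast; exact (abs_of_nonneg (by positivity)).le))
    (gcd_mul_le n0 n7 (gcd_le (r := -m) (u := 1) (v := -(a + m)) (B := m) (by push_cast; rw [hnz, cz]; ring)
      (by omega) (by simp)))
  have e1 : 601 * (16807 * 600 ^ 5) ≤ (k + 1) * g := Nat.mul_le_mul (by omega) (by omega)
  have e2 := Nat.mul_le_mul_left (a + m) e1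
  have e3 := (e2.trans (Nat.le_add_left _ a)).trans this
  obtain rfl : B = 6 * m - a := by omega
  clear * - e3 h1 h2 ha
  have : m ≤ 7 := by omega
  have : a ≤ 7 := by omega
  interval_cases m <;> interval_cases a <;> simp_all

theorem chk3 : (List.range 870).all (fun j => j == 0 || 36546861 % ((7 * j + 6) ^ 2 + (7 * j + 6) + 1) != 0) = true := by
  decide +kernel

theorem A3 {q : ℕ} (h7 : q % 7 = 6) (h6 : q ≠ 6) : ∃ r k : ℕ, r.Prime ∧ r ≠ 3 ∧ r ^ k ∣ q ^ 2 + q + 1 ∧ 50 ≤ r ^ k := by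
  by_contra hc
  push Not at hc
  obtain ⟨j, hj⟩ : ∃ j, q = 7 * j + 6 := ⟨q / 7, by omega⟩
  have hd : q ^ 2 + q + 1 ∣ 36546861 := by
    refine (Nat.dvd_iff_prime_pow_dvd_dvd _ _).2 fun r k hr hk => ?_
    rcases Nat.eq_zero_or_pos k with rfl | k0
    · simp
    have h0 : r ∣ q ^ 2 + q + 1 := (dvd_pow_self r k0.ne').trans hk
    have md : ∀ m : ℕ, m ∣ q ^ 2 + q + 1 → ((q % m) ^ 2 + q % m + 1) % m = 0 := fun m h => by
      rw [← Nat.mod_eq_zero_of_dvd h]; simp [Nat.add_mod, Nat.pow_mod]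
    by_cases h3 : r = 3
    · subst h3
      obtain rfl : k = 1 := by
        by_contra h
        have := md 9 ((pow_dvd_pow 3 (show 2 ≤ k by omega)).trans hk)
        have := Nat.mod_lt q (show 0 < 9 by simp)
        interval_cases q % 9 <;> simp_all
      norm_num
    have h4 := hc r k hr h3 hk
    have h5 : r ≤ r ^ k := Nat.le_self_pow k0.ne' r
    have h8 : r = 13 ∨ r = 19 ∨ r = 31 ∨ r = 37 ∨ r = 43 := by
      have h9 := md r h0
      have h10 := Nat.mod_lt q hr.pos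
      have h11 : r = 7 → q % r = 6 := fun e => e ▸ h7
      generalize q % r = x at h9 h10 h11
      have : r < 50 := by omega
      clear * - hr h3 h9 h10 h11 this
      have key : (List.range 50).all (fun r => (List.range r).all fun x => (x ^ 2 + x + 1) % r != 0 ||
        ([1, 3, 21, 39, 49, 13, 19, 31, 37, 43].contains r || (r == 7 && x != 6))) = true := by decide +kernel
      have h := List.all_eq_true.1 (List.all_eq_true.1 key r (List.mem_range.2 this)) x (List.mem_range.2 h10)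
      simp only [h9, bne_self_eq_false, Bool.false_or, Bool.or_eq_true, List.contains_iff_mem, Bool.and_eq_true,
        beq_iff_eq, bne_iff_ne, List.mem_cons, List.not_mem_nil, or_false] at h
      rcases h with (rfl | rfl | rfl | rfl | rfl | h) | h
      all_goals first | exact h | exact absurd rfl h3 | exact (h.2 (h11 h.1)).elim | exact absurd hr (by norm_num)
    have h9 : k = 1 := by
      by_contra h
      have : r ^ 2 ≤ r ^ k := Nat.pow_le_pow_right hr.pos (by omega)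
      rcases h8 with rfl | rfl | rfl | rfl | rfl <;> omega
    subst h9
    rcases h8 with rfl | rfl | rfl | rfl | rfl <;> norm_num
  have := Nat.le_of_dvd (by norm_num) hd
  have := List.all_eq_true.1 chk3 j (List.mem_range.2 (by nlinarith))
  simp only [Bool.or_eq_true, beq_iff_eq, bne_iff_ne, ← hj] at this
  exact this.elim (by omega) fun e => e (Nat.mod_eq_zero_of_dvd hd)

end Cfsg.Agent.H1.U7R
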