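import Cfsg.Agent.H3.U5Rb

/-! The variance argument for characters with a general bound (adapted from `H3.U5Rb`). -/

set_option autoImplicit false

namespace Cfsg.Agent.H1.U7R
open Cfsg Finset Subgroup Cfsg.Agent.H5.Char Cfsg.Agent.H2.Tr
open Cfsg.Agent.H3.U5R hiding var_sum var_char var_main

variable {G : Type*} [Group G] [Fintype G]

theorem var_sum {ι : Type*} [Fintype ι] (D : ι → ℤ) {ρ : ℤ} {e : ℕ} (he : (e + 1) ^ 2 < ρ) (h1 : ∀ i, 2 * |D i| ≤ ρ)
    (h2 : ∑ i, |D i| * (ρ - |D i|) ≤ e * ρ) : |∑ i, D i| ≤ e := by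
  refine (abs_sum_le_sum_abs _ _).trans ?_
  have e0 : (0 : ℤ) ≤ e := by positivity
  have a1 : ∀ i, |D i| ≤ e := fun i => by
    have := (single_le_sum (f := fun i => |D i| * (ρ - |D i|))
      (fun i _ => mul_nonneg (abs_nonneg _) (by have := h1 i; have := abs_nonneg (D i); omega)) (mem_univ i)).trans h2
    by_contra hc
    have := h1 i
    nlinarith [mul_nonneg (show 0 ≤ |D i| - (e + 1) by omega) (show 0 ≤ ρ - |D i| - (e + 1) by omega)]
  have a3 : (∑ i, |D i|) * (ρ - e) ≤ e * ρ := by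
    rw [sum_mul]
    refine (sum_le_sum fun i _ => ?_).trans h2
    nlinarith [abs_nonneg (D i), a1 i]
  by_contra hc
  nlinarith [mul_nonneg (show 0 ≤ ∑ i, |D i| - (e + 1) by omega) (show 0 ≤ ρ - e by nlinarith)]

open Classical in
theorem var_char (χ : Irr G) (C : Subgroup G) (hC : ∀ a b : C, a * b = b * a) (C' : Subgroup C)
    {e : ℕ}
    (h41 : (e + 1) ^ 2 < C'.index) (N : Finset G) (hN : N.card ≤ e * Nat.card C)
    (h : ∀ a b : C, a ∉ C' → b ∉ C' → ∀ g : G, g⁻¹ * a * g = b → g ∈ N) :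
    ∃ D : ℤ, |D| ≤ e ∧ (C'.index : ℤ) ∣ (deg χ : ℤ) - D := by
  have d1 := deg_comm hC
  have d2 := deg_comm (G := C') fun a b => Subtype.ext (hC a b)
  have w1 : ∀ μ : Irr C, ∑ ν : Irr C', mult μ ν = 1 := fun μ => by
    have := (ch_res μ C').one
    simp only [d2, mul_one, OneMemClass.coe_one, deg_eq, d1] at this
    exact_mod_cast this.symm
  have w2 : ∀ ν : Irr C', ∑ μ : Irr C, mult μ ν = C'.index := fun ν => by
    simpa [d1, d2] using sum_deg_mult ν
  choose D h1 h2 h3 using fun ν : Irr C' => var_one (fun μ => mult μ ν) (mult χ) (by omega) (w2 ν)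
  refine ⟨∑ ν, D ν, var_sum D (ρ := C'.index) (by exact_mod_cast h41) h1 ((sum_le_sum fun ν _ => h3 ν).trans ?_), ?_⟩
  · have n1 := ch_normSq (ch_res χ C)
    have n2 := ch_normSq ((ch_res χ C).res C')
    have n3 := ti_bound χ ((univ.filter fun a : C => a ∉ C').map (Function.Embedding.subtype _)) N (by
      simp only [mem_map, mem_filter, mem_univ, true_and, Function.Embedding.coe_subtype]
      rintro _ ⟨a, ha, rfl⟩ g ⟨b, hb, e⟩
      exact h a b ha hb g e.symm)
    rw [sum_map] at n3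
    have n4 := sum_filter_add_sum_filter_not univ (fun a : C => a ∈ C') fun a => Complex.normSq (χ.1 a)
    rw [sum_subtype (p := fun a => a ∈ C') _ (by simp), n1, n2, ← C'.card_mul_index] at n4
    have n5 : (N.card : ℝ) ≤ e * (Nat.card C' * C'.index : ℕ) := by
      rw [C'.card_mul_index]; exact_mod_cast hN
    have n6 : ∑ ν : Irr C', ∑ μ : Irr C, mult μ ν * (mult χ μ * mult χ μ) = ∑ μ : Irr C, mult χ μ * mult χ μ := by
      rw [sum_comm]; simp only [← sum_mul, w1, one_mul]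
    have n7 : (Nat.card C' : ℝ) * (C'.index * (∑ μ : Irr C, mult χ μ * mult χ μ : ℕ) -
        (∑ ν : Irr C', (∑ μ : Irr C, mult χ μ * mult μ ν) * ∑ μ : Irr C, mult χ μ * mult μ ν : ℕ)) ≤
        Nat.card C' * (e * C'.index) := by
      simp only [Function.Embedding.coe_subtype] at n3
      rw [Nat.cast_mul] at n4 n5
      linarith
    have n8 := le_of_mul_le_mul_left n7 (by exact_mod_cast Nat.card_pos)
    rw [sum_sub_distrib, ← mul_sum, ← Nat.cast_sum, n6]
    simp only [← Nat.cast_mul]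
    rw [← Nat.cast_sum]
    exact_mod_cast n8
  · have := (ch_res χ C).one
    simp only [d1, mul_one, OneMemClass.coe_one, deg_eq] at this
    have e : deg χ = ∑ ν : Irr C', ∑ μ : Irr C, mult χ μ * mult μ ν := by
      rw [sum_comm]; simp only [← mul_sum, w1, mul_one]; exact_mod_cast this
    rw [e, Nat.cast_sum, ← sum_sub_distrib]
    exact dvd_sum fun ν _ => h2 ν

theorem var_main {r k e : ℕ} (hr : r.Prime) (hk : r ^ k ∣ Nat.card G) (h41 : (e + 1) ^ 2 < r ^ k)
    (H : ∀ y : G, orderOf y = r → (∀ a ∈ centralizer {y}, ∀ b ∈ centralizer {y}, a * b = b * a) ∧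
      (∀ c ∈ centralizer {y}, c ^ r = 1 → c ∈ zpowers y) ∧
      ∃ s : Finset G, s.card ≤ e ∧ ∀ g, g⁻¹ * y * g ∈ zpowers y → g⁻¹ * y * g ∈ s) (χ : Irr G) :
    ∃ D : ℤ, |D| ≤ e ∧ ((r ^ k : ℕ) : ℤ) ∣ (deg χ : ℤ) - D := by
  classical
  haveI := Fact.mk hr
  obtain ⟨R⟩ : Nonempty (Sylow r G) := inferInstance
  have hR := R.pow_dvd_card_of_pow_dvd_card hk
  haveI : Nontrivial R := Finite.one_lt_card_iff_nontrivial.1 (by
    have := Nat.le_of_dvd Nat.card_pos hR
    have := Nat.one_le_pow 2 (e + 1) (by omega)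
    omega)
  haveI := R.isPGroup'.center_nontrivial
  obtain ⟨n, hn⟩ := (R.isPGroup'.to_subgroup (center R)).exists_card_eq
  obtain ⟨y0, hy0⟩ := exists_prime_orderOf_dvd_card' (G := center R) r (by
    rw [hn]; refine dvd_pow_self _ ?_; rintro rfl; exact Finite.one_lt_card.ne' hn)
  set y : G := y0.1.1
  have hy : orderOf y = r := by rw [orderOf_coe, orderOf_coe, hy0]
  obtain ⟨H1, H2, s, hs, H3⟩ := H y hy
  set C := centralizer {y}
  have hRC : R.1 ≤ C := fun x hx => mem_centralizer_singleton_iff.2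
    (congrArg Subtype.val (mem_center_iff.1 y0.2 ⟨x, hx⟩))
  have hC : ∀ a b : C, a * b = b * a := fun a b => Subtype.ext (H1 a a.2 b b.2)
  obtain ⟨e', m, hm, hem⟩ := Nat.exists_eq_pow_mul_and_not_dvd (Nat.card_pos (α := C)).ne' r hr.ne_one
  let C' : Subgroup C :=
    { carrier := {c | c ^ m = 1}
      one_mem' := one_pow m
      mul_mem' := fun {a b} ha hb => by
        rw [Set.mem_ofPred_eq, (show Commute a b from hC a b).mul_pow, ha, hb, one_mul]
      inv_mem' := fun {a} ha => by rw [Set.mem_ofPred_eq, inv_pow, ha, inv_one] }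
  have hi : r ^ k ∣ C'.index := by
    refine (Nat.Coprime.pow_left k (hr.coprime_iff_not_dvd.2 fun hd => hm ?_)).dvd_of_dvd_mul_left
      (C'.card_mul_index ▸ hR.trans (card_dvd_of_le hRC))
    obtain ⟨x, hx⟩ := exists_prime_orderOf_dvd_card' (G := C') r hd
    rw [← hx, ← orderOf_coe]
    exact orderOf_dvd_of_pow_eq_one x.2
  have key : ∀ a : C, a ∉ C' → ∃ i : ℕ, (a : G) ^ i = y := fun a ha => by
    have h1 : orderOf (a ^ m) ∣ r ^ e' := orderOf_dvd_of_pow_eq_one (by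
      rw [← pow_mul, mul_comm, ← hem, pow_card_eq_one'])
    have h2 : r ∣ orderOf a := by
      obtain ⟨j, -, hj⟩ := (Nat.dvd_prime_pow hr).1 h1
      refine Dvd.dvd.trans (hj ▸ dvd_pow_self r ?_) (orderOf_pow_dvd m)
      rintro rfl; exact ha (orderOf_eq_one_iff.1 hj)
    have h3 := orderOf_pow_orderOf_div (orderOf_pos a).ne' h2
    set b := a ^ (orderOf a / r) with hb
    have h4 := H2 b b.2 (by rw [← h3, ← SubmonoidClass.coe_pow, pow_orderOf_eq_one, OneMemClass.coe_one])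
    have h5 : zpowers (b : G) = zpowers y :=
      eq_of_le_of_card_ge (zpowers_le.2 h4) (by rw [Nat.card_zpowers, Nat.card_zpowers, hy, orderOf_coe, h3])
    obtain ⟨i, hi⟩ := (mem_powers_iff_mem_zpowers.2 (h5 ▸ mem_zpowers y : y ∈ zpowers (b : G)))
    exact ⟨orderOf a / r * i, by rw [pow_mul, ← hi, hb]; rfl⟩
  refine (var_char χ C hC C' (h41.trans_le (Nat.le_of_dvd (Nat.pos_of_ne_zero C'.index_ne_zero_of_finite) hi))
    ((s.biUnion fun x => univ.filter fun g => g * y * g⁻¹ = x).image (·⁻¹)) ?_ ?_).imp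
    fun D h => ⟨h.1, (Int.natCast_dvd_natCast.2 hi).trans h.2⟩
  · refine card_image_le.trans (card_biUnion_le.trans ((sum_le_card_nsmul _ _ (Nat.card C) fun x _ => ?_).trans ?_))
    · rw [card_conj_eq]; split_ifs <;> simp [C]
    · exact Nat.mul_le_mul_right _ hs
  · intro a b ha _ g hg
    obtain ⟨i, hi⟩ := key a ha
    have e : g⁻¹ * y * g = (b ^ i : C) := by
      rw [← hi, SubmonoidClass.coe_pow, ← hg, show g⁻¹ * a * g = g⁻¹ * a * g⁻¹⁻¹ by simp, conj_pow, inv_inv]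
    refine mem_image.2 ⟨g⁻¹, mem_biUnion.2 ⟨_, H3 g (H2 _ (e ▸ (b ^ i).2) ?_), by simp⟩, inv_inv g⟩
    rw [show g⁻¹ * y * g = g⁻¹ * y * g⁻¹⁻¹ by simp, conj_pow, ← hy, pow_orderOf_eq_one]; simp

end Cfsg.Agent.H1.U7R
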