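import Cfsg.Agent.H1.U7Ra
import Cfsg.Agent.H1.U7Rb

/-! Elements of order dividing `q ^ 2 + q + 1` in `GU₇(q)` (adapted from `H3.U5Rc`). -/

set_option autoImplicit false

namespace Cfsg.Agent.H1.U7R
open Cfsg Finset Subgroup Matrix Module Polynomial Cfsg.Agent.H5.Char Cfsg.Agent.Form Cfsg.Agent.H9.U7

section mat
variable {E : Type*} [Field E] {φ : E →+* E} {J A c : Matrix (Fin 7) (Fin 7) E} {r q : ℕ}

/-- `A` is an isometry of the form with matrix `J` -/
def UU (φ : E →+* E) (J A : Matrix (Fin 7) (Fin 7) E) : Prop := Aᵀ * J * A.map φ = J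

theorem map_mv (A : Matrix (Fin 7) (Fin 7) E) (v : Fin 7 → E) : A.map φ *ᵥ (φ ∘ v) = φ ∘ (A *ᵥ v) :=
  funext fun i => (RingHom.map_mulVec φ A v i).symm

theorem UU.pair (h : UU φ J A) {x y : Fin 7 → E} {a b : E} (hx : A *ᵥ x = a • x) (hy : A *ᵥ y = b • y)
    (h0 : x ⬝ᵥ J *ᵥ (φ ∘ y) ≠ 0) : a * φ b = 1 := by
  have e : φ ∘ (b • y) = φ b • (φ ∘ y) := funext fun i => by simp
  have : x ⬝ᵥ (Aᵀ * J * A.map φ) *ᵥ (φ ∘ y) = a * φ b * (x ⬝ᵥ J *ᵥ (φ ∘ y)) := by
    rw [← mulVec_mulVec, ← mulVec_mulVec, map_mv, hy, dotProduct_mulVec, vecMul_transpose, hx, e,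
      mulVec_smul, smul_dotProduct, dotProduct_smul, smul_eq_mul, smul_eq_mul, mul_assoc]
  rw [h] at this
  exact mul_right_cancel₀ h0 (by rw [← this, one_mul])

theorem J_ne (hJ : J.det ≠ 0) {y : Fin 7 → E} (hy : y ≠ 0) : J *ᵥ (φ ∘ y) ≠ 0 := fun h =>
  hJ (exists_mulVec_eq_zero_iff.1 ⟨_, fun e => hy (funext fun i => by simpa using congrFun e i), h⟩)

theorem root_iff {γ : E} : A.charpoly.IsRoot γ ↔ ∃ v ≠ 0, A *ᵥ v = γ • v := by
  rw [IsRoot, eval_charpoly, ← exists_mulVec_eq_zero_iff]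
  simp [sub_mulVec, sub_eq_zero, eq_comm, scalar_apply, ← smul_one_eq_diagonal, smul_mulVec]

theorem UU.root (h : UU φ J A) (hJ : J.det ≠ 0) {γ δ : E} (hγ : A.charpoly.IsRoot γ) (e : δ * φ γ = 1) :
    A.charpoly.IsRoot δ := by
  obtain ⟨v, h0, hv⟩ := root_iff.1 hγ
  rw [← charpoly_transpose]
  refine root_iff.2 ⟨_, J_ne (φ := φ) hJ h0, ?_⟩
  have e1 : φ ∘ (γ • v) = φ γ • (φ ∘ v) := funext fun i => by simp
  conv_rhs => rw [← h, ← mulVec_mulVec, map_mv, hv, e1, mulVec_smul, smul_smul, e, one_smul, ← mulVec_mulVec]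

theorem eig_pow {x : Fin 7 → E} {a : E} (hx : A *ᵥ x = a • x) (n : ℕ) : A ^ n *ᵥ x = a ^ n • x := by
  induction n with
  | zero => simp
  | succ n ih => rw [pow_succ, ← mulVec_mulVec, hx, mulVec_smul, ih, smul_smul, pow_succ']

theorem ext_b (b : Basis (Fin 7) E (Fin 7 → E)) (h : ∀ i, A *ᵥ b i = c *ᵥ b i) : A = c :=
  Matrix.toLin'.injective (b.ext fun i => by simpa using h i)

variable [IsAlgClosed E] (hφ : ∀ x, φ x = x ^ q) (hJ : J.det ≠ 0) (hr : r.Prime) (hr2 : r ≠ 3)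
  (hd : r ∣ q ^ 2 + q + 1) (hE : (r : E) ≠ 0)

include hφ hr hd in
theorem eq_one_of {x : E} (h1 : x ^ r = 1) (h2 : x * φ x = 1) : x = 1 := by
  rw [hφ, ← pow_succ'] at h2
  refine (pow_eq_one_iff_of_coprime (hr.coprime_iff_not_dvd.2 fun h => hr.one_lt.ne' ?_)).1 ⟨h1, h2⟩
  exact Nat.dvd_one.1 ((Nat.dvd_add_right (h.mul_left q)).1 (by rwa [mul_add, ← sq, mul_one]))

include hφ hJ hr hr2 hd hE in
theorem spec (h : UU φ J A) (h1 : A ^ r = 1) (h2 : A ≠ 1) :
    ∃ (l : Fin 7 → E) (b : Basis (Fin 7) E (Fin 7 → E)), l.Injective ∧ (∀ i, A *ᵥ b i = l i • b i) ∧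
      l 0 = 1 ∧ orderOf (l 1) = r ∧ l 2 * φ (l 1) = 1 ∧ l 3 * φ (l 2) = 1 ∧ l 4 * φ (l 3) = 1 ∧ l 5 * φ (l 4) = 1 ∧
      l 6 * φ (l 5) = 1 := by
  haveI := Fact.mk hr
  obtain ⟨γ, hγ, g1⟩ : ∃ γ, A.charpoly.IsRoot γ ∧ γ ≠ 1 := by
    have hn : (0 : E) ∈ spectrum E (aeval A (∑ i ∈ range r, X ^ i : E[X])) := by
      rw [spectrum.zero_mem_iff]
      intro hu
      refine h2 (sub_eq_zero.1 (hu.mul_right_eq_zero.1 ?_))
      simp only [map_sum, map_pow, aeval_X]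
      rw [geom_sum_mul, h1, sub_self]
    rw [spectrum.map_polynomial_aeval_of_nonempty _ _ (spectrum.nonempty_of_isAlgClosed_of_finiteDimensional E A)] at hn
    obtain ⟨γ, a1, a2⟩ := hn
    refine ⟨γ, mem_spectrum_iff_isRoot_charpoly.1 a1, ?_⟩
    rintro rfl
    simp [eval_finsetSum, hE] at a2
  have gr : γ ^ r = 1 := by
    obtain ⟨v, h0, hv⟩ := root_iff.1 hγ
    have := eig_pow hv r
    rw [h1, one_mulVec] at this
    exact (smul_left_injective E h0 (this.symm.trans (one_smul E v).symm))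
  have g0 : γ ≠ 0 := by rintro rfl; simp [hr.ne_zero] at gr
  have f0 : φ γ ≠ 0 := (map_ne_zero φ).2 g0
  have f1 : φ (φ γ) ≠ 0 := (map_ne_zero φ).2 f0
  have pr : γ * φ γ * φ (φ γ) = 1 := by
    obtain ⟨m, hm⟩ := hd
    rw [hφ, hφ, ← pow_mul, ← sq, ← pow_succ', ← pow_add, add_comm, ← add_assoc, hm, pow_mul, gr, one_pow]
  have ff : φ (φ (φ γ)) = γ := by
    have := congrArg φ pr
    rw [map_mul, map_mul, map_one] at this
    exact mul_left_cancel₀ (mul_ne_zero f0 f1) (by linear_combination this - pr)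
  have r2 : r ≠ 2 := by
    rintro rfl
    rcases Nat.even_or_odd' q with ⟨m, rfl | rfl⟩ <;> ring_nf at hd <;> omega
  have g2 : γ ≠ γ⁻¹ := fun e => g1 ((pow_eq_one_iff_of_coprime ((Nat.coprime_primes hr Nat.prime_two).2 r2)).1
    ⟨gr, by rw [sq]; nth_rw 2 [e]; exact mul_inv_cancel₀ g0⟩)
  have g3 : φ γ ≠ γ := fun e => g1 ((pow_eq_one_iff_of_coprime ((Nat.coprime_primes hr Nat.prime_three).2 hr2)).1
    ⟨gr, by rw [e, e] at pr; linear_combination pr⟩)
  have g4 : φ γ ≠ γ⁻¹ := fun e => g1 (eq_one_of hφ hr hd gr (by rw [e, mul_inv_cancel₀ g0]))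
  have g5 : φ γ ≠ 1 := fun e => g1 (φ.injective (by rw [e, map_one]))
  have g6 : φ γ ≠ (φ γ)⁻¹ := fun e => g2 (φ.injective (by rw [map_inv₀, ← e]))
  have k3 : φ (φ γ) ≠ φ γ := φ.injective.ne g3
  have k4 : φ (φ γ) ≠ (φ γ)⁻¹ := map_inv₀ φ γ ▸ φ.injective.ne g4
  have k5 : φ (φ γ) ≠ 1 := map_one φ ▸ φ.injective.ne g5
  have k6 : φ (φ γ) ≠ (φ (φ γ))⁻¹ := map_inv₀ φ (φ γ) ▸ φ.injective.ne g6
  have k7 : γ ≠ φ (φ γ) := by simpa only [ff] using φ.injective.ne k3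
  have k8 : γ ≠ (φ (φ γ))⁻¹ := by simpa only [ff, map_inv₀] using φ.injective.ne k4
  have e3 : φ (φ γ) * φ (φ γ)⁻¹ = 1 := by rw [map_inv₀, mul_inv_cancel₀ f1]
  have e4 : γ⁻¹ * φ (φ (φ γ)) = 1 := by rw [ff, inv_mul_cancel₀ g0]
  have e5 : φ γ * φ γ⁻¹ = 1 := by rw [map_inv₀, mul_inv_cancel₀ f0]
  have r2 := h.root hJ hγ (inv_mul_cancel₀ f0)
  have r3 := h.root hJ r2 e3
  have r4 := h.root hJ r3 e4
  have r5 := h.root hJ r4 e5
  have r6 := h.root hJ r5 (inv_mul_cancel₀ f1)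
  have hinj : (![1, γ, (φ γ)⁻¹, φ (φ γ), γ⁻¹, φ γ, (φ (φ γ))⁻¹] : Fin 7 → E).Injective := by
    have := g1.symm; have := g2.symm; have := g3.symm; have := g4.symm; have := g5.symm; have := g6.symm
    have := k3.symm; have := k4.symm; have := k5.symm; have := k6.symm; have := k7.symm; have := k8.symm
    have g7 : (φ γ)⁻¹ ≠ γ := fun e => g4 (inv_eq_iff_eq_inv.1 e)
    have g8 : (φ (φ γ))⁻¹ ≠ φ γ := fun e => k4 (inv_eq_iff_eq_inv.1 e)
    have g9 : γ⁻¹ ≠ φ (φ γ) := fun e => k8 (inv_eq_iff_eq_inv.1 e)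
    have := g7.symm; have := g8.symm; have := g9.symm
    clear hφ ff
    generalize φ (φ γ) = y at *
    generalize φ γ = x at *
    intro i j
    fin_cases i <;> fin_cases j <;> simp [*]
  have r0 : A.charpoly.IsRoot 1 := by
    have hs := IsAlgClosed.splits A.charpoly
    have hle : ({γ, (φ γ)⁻¹, φ (φ γ), γ⁻¹, φ γ, (φ (φ γ))⁻¹} : Multiset E) ≤ A.charpoly.roots := by
      refine (Multiset.le_iff_subset ?_).2 fun x hx => (mem_roots A.charpoly_monic.ne_zero).2 ?_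
      · have := (List.nodup_ofFn.2 hinj).of_cons
        simpa using this
      · simp only [Multiset.insert_eq_cons, Multiset.mem_cons, Multiset.mem_singleton] at hx
        rcases hx with rfl | rfl | rfl | rfl | rfl | rfl <;> assumption
    obtain ⟨t, ht⟩ := Multiset.le_iff_exists_add.1 hle
    have hc := congrArg Multiset.card ht
    rw [← hs.natDegree_eq_card_roots, charpoly_natDegree_eq_dim] at hc
    obtain ⟨δ, rfl⟩ := Multiset.card_eq_one.1 (show t.card = 1 by simp at hc; omega)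
    have hdet : A.det = 1 := eq_one_of hφ hr hd (by rw [← det_pow, h1, det_one]) (by
      have := congrArg det h
      rw [det_mul, det_mul, det_transpose, ← RingHom.mapMatrix_apply, ← RingHom.map_det] at this
      exact mul_right_cancel₀ hJ (by linear_combination this))
    rw [det_eq_prod_roots_charpoly_of_splits hs, ht] at hdet
    have : δ = 1 := by simp at hdet; field_simp at hdet; exact hdet
    exact (mem_roots A.charpoly_monic.ne_zero).1 (by rw [ht, this]; simp)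
  have : ∀ i, ∃ v ≠ 0, A *ᵥ v = (![1, γ, (φ γ)⁻¹, φ (φ γ), γ⁻¹, φ γ, (φ (φ γ))⁻¹] : Fin 7 → E) i • v := fun i =>
    root_iff.1 (by fin_cases i <;> assumption)
  choose v v0 hv using this
  have li := Module.End.eigenvectors_linearIndependent' (Matrix.toLin' A) _ hinj v fun i =>
    ⟨Module.End.mem_eigenspace_iff.2 (by simpa using hv i), v0 i⟩
  exact ⟨_, basisOfLinearIndependentOfCardEqFinrank li (by simp), hinj, by simpa using hv, rfl,
    orderOf_eq_prime gr g1, inv_mul_cancel₀ f0, e3, e4, e5, inv_mul_cancel₀ f1⟩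

omit [IsAlgClosed E]
variable {l : Fin 7 → E} {b : Basis (Fin 7) E (Fin 7 → E)} (hl : l.Injective) (hb : ∀ i, A *ᵥ b i = l i • b i)
include hb

theorem coef {v : Fin 7 → E} {a : E} (hv : A *ᵥ v = a • v) (j : Fin 7) (hj : l j ≠ a) : b.repr v j = 0 := by
  have : b.repr (A *ᵥ v) j = l j * b.repr v j := by
    conv_lhs => rw [← b.sum_repr v, ← mulVecLin_apply, map_sum]
    simp [hb, smul_smul, Finsupp.single_apply, mul_comm]
  rw [hv] at this
  simpa [hj.symm] using this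

include hl in
theorem diag (h : A * c = c * A) : ∃ d : Fin 7 → E, ∀ i, c *ᵥ b i = d i • b i := by
  refine ⟨fun i => b.repr (c *ᵥ b i) i, fun i => ?_⟩
  conv_lhs => rw [← b.sum_repr (c *ᵥ b i)]
  refine sum_eq_single i (fun j _ hj => ?_) (by simp)
  rw [coef hb (a := l i) (by rw [mulVec_mulVec, h, ← mulVec_mulVec, hb, mulVec_smul]) j (hl.ne hj), zero_smul]

end mat

theorem rtrick {F : Type*} [Field F] {σ : F →+* F} {hσ : ∀ a, σ (σ a) = a} {V : Type*} [AddCommGroup V]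
    [Module F V] {S : PQ (FP.unit σ hσ) V} {M : Subgroup (V ≃ₗ[F] V)} {q : ℕ} [Finite F] [FiniteDimensional F V]
    (h : Un7 S q) (hM : M ≤ S.isom) [Fintype M] {r k : ℕ} (hr : r.Prime) (hr2 : r ≠ 3)
    (hd : r ^ k ∣ q ^ 2 + q + 1) (hk : r ^ k ∣ Nat.card M) (h41 : 50 ≤ r ^ k) (χ : Irr M) :
    ∃ D : ℤ, |D| ≤ 6 ∧ ((r ^ k : ℕ) : ℤ) ∣ (deg χ : ℤ) - D := by
  classical
  haveI := Fintype.ofFinite F
  obtain ⟨p, hp⟩ := CharP.exists F
  obtain ⟨n, pp, hn⟩ := FiniteField.card F p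
  haveI := Fact.mk pp
  have hq : q ^ 2 = p ^ (n : ℕ) := by rw [← h.card, Nat.card_eq_fintype_card, hn]
  obtain ⟨f, -, hf⟩ := (Nat.dvd_prime_pow pp).1 (hq ▸ dvd_pow_self q two_ne_zero)
  replace hd : r ∣ q ^ 2 + q + 1 := (dvd_pow_self r (by rintro rfl; simp at h41)).trans hd
  let E := AlgebraicClosure F
  let φ := iterateFrobenius E p f
  have hφ : ∀ x, φ x = x ^ q := fun x => by rw [hf]; exact iterateFrobenius_def ..
  have hE : (r : E) ≠ 0 := fun e => by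
    obtain rfl := (Nat.prime_dvd_prime_iff_eq pp hr).1 ((CharP.cast_eq_zero_iff E p r).1 e)
    have h1 : p ∣ q ^ 2 := hq ▸ dvd_pow_self _ n.ne_zero
    exact pp.one_lt.ne' (Nat.dvd_one.1 ((Nat.dvd_add_right (h1.add (pp.dvd_of_dvd_pow h1))).1 hd))
  let β := finBasisOfFinrankEq F V h.dim
  let J0 : Matrix (Fin 7) (Fin 7) F := of fun i j => S.B (β i) (β j)
  let ι := (algebraMap F E).mapMatrix (m := Fin 7)
  have hJ : (ι J0).det ≠ 0 := by
    rw [← RingHom.map_det, _root_.map_ne_zero]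
    intro e
    obtain ⟨v, v0, hv⟩ := exists_vecMul_eq_zero_iff.2 e
    refine v0 (funext (Fintype.linearIndependent_iff.1 β.linearIndependent v (h.nd _ fun y => ?_)))
    rw [← β.sum_repr y, S.B_sum_right]
    refine sum_eq_zero fun j _ => ?_
    have := congrFun hv j
    simp only [vecMul, dotProduct, J0, of_apply, Pi.zero_apply] at this
    rw [S.B_smul_right, S.B_sum_left]
    simp [this]
  let ρ : M →* Matrix (Fin 7) (Fin 7) E := (ι.toMonoidHom.comp (LinearMap.toMatrixAlgEquiv β).toMonoidHom).comp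
    (LinearEquiv.automorphismGroup.toLinearMapMonoidHom.comp M.subtype)
  have hρ : Function.Injective ρ := (map_injective (algebraMap F E).injective).comp
    ((LinearMap.toMatrixAlgEquiv β).injective.comp (LinearEquiv.toLinearMap_injective.comp Subtype.val_injective))
  have hU : ∀ g, UU φ (ι J0) (ρ g) := fun g => by
    have e1 : ρ g = ι (LinearMap.toMatrix β β g.1) := rfl
    have e2 : ∀ B : Matrix (Fin 7) (Fin 7) F, (ι B).map φ = ι (B.map σ) := fun B => by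
      ext i j; simp [ι, hφ, h.pow]
    rw [UU, e1, e2, show (ι (LinearMap.toMatrix β β g.1))ᵀ = ι (LinearMap.toMatrix β β g.1)ᵀ from rfl, ← map_mul, ← map_mul]
    congr 1
    ext i j
    rw [show J0 i j = S.B (β i) (β j) from rfl, ← PQ.B_isom (hM g.2), ← β.sum_repr (g.1 (β i)), ← β.sum_repr (g.1 (β j)),
      S.B_sum_right]
    simp only [mul_apply, LinearMap.toMatrix_apply, S.B_sum_left, J0, mul_comm, FP.unit, S.B_smul_left,
      S.B_smul_right, transpose_apply, map_apply, of_apply, LinearEquiv.coe_coe, mul_sum]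
    simp only [mul_assoc, mul_left_comm]
  refine var_main (e := 6) hr hk h41 (fun y hy => ?_) χ
  have y1 : y ^ r = 1 := hy ▸ pow_orderOf_eq_one y
  obtain ⟨l, b, hl, hb, l0, l1, l2, l3, l4, l5, l6⟩ := spec hφ hJ hr hr2 hd hE (hU y) (by rw [← map_pow, y1, map_one])
    fun e => hr.ne_one (hy.symm.trans (orderOf_eq_one_iff.2 (hρ (e.trans (map_one ρ).symm))))
  have dg : ∀ a ∈ centralizer {y}, ∃ d : Fin 7 → E, ∀ i, ρ a *ᵥ b i = d i • b i := fun a ha =>
    diag hl hb (by rw [← map_mul, ← map_mul, mem_centralizer_singleton_iff.1 ha])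
  have lr : l 1 ^ r = 1 := l1 ▸ pow_orderOf_eq_one _
  have key : ∀ c ∈ centralizer {y}, c ^ r = 1 → ∀ d : Fin 7 → E, (∀ i, ρ c *ᵥ b i = d i • b i) →
      ∀ j, l 1 ^ j = d 1 → c = y ^ j := fun c hc h1 d hc' j hj => by
    have a1 : ∀ i i', l i * φ (l i') = 1 → d i * φ (d i') = 1 := fun i i' e => by
      obtain ⟨i0, h0⟩ : ∃ i0, b i0 ⬝ᵥ ι J0 *ᵥ (φ ∘ b i') ≠ 0 := by
        by_contra! hh
        refine J_ne (φ := φ) hJ (b.ne_zero i') (dotProduct_eq_zero _ fun x => ?_)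
        rw [dotProduct_comm, ← b.sum_repr x, sum_dotProduct]
        simp [hh]
      have := (hU y).pair (hb _) (hb _) h0
      obtain rfl : i0 = i := hl (mul_right_cancel₀ (right_ne_zero_of_mul_eq_one e) (this.trans e.symm))
      exact (hU c).pair (hc' _) (hc' _) h0
    have a2 : ∀ i i', l i * φ (l i') = 1 → l i' ^ j = d i' → l i ^ j = d i := fun i i' e e' => by
      have := a1 i i' e
      exact mul_right_cancel₀ (right_ne_zero_of_mul_eq_one this) (by rw [this, ← e', map_pow, ← mul_pow, e, one_pow])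
    have a3 : d 0 = 1 := eq_one_of hφ hr hd (by
      have := eig_pow (hc' 0) r
      rw [← map_pow, h1, map_one, one_mulVec] at this
      exact smul_left_injective E (b.ne_zero 0) (this.symm.trans (one_smul E _).symm)) (a1 0 0 (by simp [l0]))
    have a4 := a2 _ _ l2 hj
    have a5 := a2 _ _ l3 a4
    have a6 := a2 _ _ l4 a5
    have a7 := a2 _ _ l5 a6
    have a8 := a2 _ _ l6 a7
    refine hρ (ext_b b fun i => ?_)
    rw [map_pow, eig_pow (hb i), hc']
    fin_cases i <;> simp_all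
  refine ⟨fun a ha c hc => ?_, fun c hc h1 => ?_, ?_⟩
  · obtain ⟨d, hd⟩ := dg a ha
    obtain ⟨d', hd'⟩ := dg c hc
    exact hρ (ext_b b fun i => by simp only [map_mul, ← mulVec_mulVec, hd, hd', mulVec_smul, smul_smul, mul_comm])
  · obtain ⟨d, hd⟩ := dg c hc
    haveI : NeZero r := ⟨hr.ne_zero⟩
    obtain ⟨j, -, hj⟩ := (l1 ▸ IsPrimitiveRoot.orderOf (l 1) : IsPrimitiveRoot (l 1) r).eq_pow_of_pow_eq_one (ξ := d 1) (by
      have := eig_pow (hd 1) r
      rw [← map_pow, h1, map_one, one_mulVec] at this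
      exact smul_left_injective E (b.ne_zero 1) (this.symm.trans (one_smul E _).symm))
    exact key c hc h1 d hd j hj ▸ npow_mem_zpowers y j
  · have : ∀ i : Fin 7, ∃ c : M, ∀ j : ℕ, l 1 ^ j = l i → y ^ j = c := fun i => by
      by_cases hh : ∃ j : ℕ, l 1 ^ j = l i
      · obtain ⟨j, hj⟩ := hh
        exact ⟨y ^ j, fun j' hj' => key _ (pow_mem (mem_centralizer_singleton_iff.2 rfl) _)
          (by rw [← pow_mul, mul_comm, pow_mul, y1, one_pow]) (fun i => l i ^ j')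
          (fun i => by rw [map_pow, eig_pow (hb i)]) j (hj.trans hj'.symm)⟩
      · exact ⟨1, fun j hj => (hh ⟨j, hj⟩).elim⟩
    choose c hc using this
    refine ⟨(univ.erase 0).image c, card_image_le.trans (by simp), fun g hg => ?_⟩
    obtain ⟨j, hj⟩ := mem_powers_iff_mem_zpowers.2 hg
    replace hj : y ^ j = g⁻¹ * y * g := hj
    have e : ρ y *ᵥ (ρ g *ᵥ b 1) = l 1 ^ j • (ρ g *ᵥ b 1) := by
      rw [← mulVec_smul, ← eig_pow (hb 1), ← map_pow, hj, mulVec_mulVec, mulVec_mulVec, ← map_mul, ← map_mul]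
      congr 2; group
    obtain ⟨i, hi⟩ : ∃ i, l i = l 1 ^ j := by
      by_contra! hh
      have : ρ g *ᵥ b 1 = 0 := b.ext_elem fun i => by simpa using coef hb e i (hh i)
      refine b.ne_zero 1 ?_
      rw [← one_mulVec (b 1), ← map_one ρ, ← inv_mul_cancel g, map_mul, ← mulVec_mulVec, this, mulVec_zero]
    refine mem_image.2 ⟨i, mem_erase.2 ⟨?_, mem_univ _⟩, (hc i j hi.symm).symm.trans hj⟩
    rintro rfl
    have : y ^ j = 1 := orderOf_dvd_iff_pow_eq_one.1 (by rw [hy, ← l1, orderOf_dvd_iff_pow_eq_one, ← hi, l0])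
    refine hr.ne_one (hy.symm.trans (orderOf_eq_one_iff.2 ?_))
    rw [show y = g * (g⁻¹ * y * g) * g⁻¹ by group, ← hj, this, mul_one, mul_inv_cancel]

end Cfsg.Agent.H1.U7R
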