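import Cfsg.Agent.H8.U5h
import Cfsg.Agent.H1.U7Rb

/-!
Characters of a central extension vanishing on a self-centralising subgroup of order `640291`.
-/

set_option autoImplicit false
set_option linter.unusedSectionVars false

namespace Cfsg.Agent.H1.U7t

open Finset Subgroup Cfsg Cfsg.Agent.H5.Char Cfsg.Agent.H2.Tr Cfsg.Agent.H5.Zas1 Cfsg.Agent.H4.CAG
  Cfsg.Agent.H8.L5c Cfsg.Agent.H8.U5 Function
open scoped Classical

variable {K Γ : Type*} [Group K] [Fintype K] [Group Γ] [Fintype Γ] {π : K →* Γ} {X : Subgroup Γ}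

attribute [local instance] ftSub

/-- inflation -/
def infl (hπ : Surjective π) (φ : Irr Γ) : Irr K := ⟨_, isIrr_comp π hπ φ⟩

theorem sum_surj (hπ : Surjective π) (F : Γ → ℂ) : ∑ g, F (π g) = Nat.card π.ker * ∑ γ, F γ := by
  rw [← sum_fiberwise (g := π), mul_sum]
  refine sum_congr rfl fun γ _ => ?_
  rw [sum_congr rfl fun g hg => by rw [(mem_filter.1 hg).2], sum_const, nsmul_eq_mul,
    MonoidHom.card_fiber_eq_of_mem_range π (hπ γ) ⟨1, map_one π⟩, Nat.card_eq_fintype_card, Fintype.card_subtype]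
  simp [MonoidHom.mem_ker]

theorem card_surj (hπ : Surjective π) : Nat.card K = Nat.card π.ker * Nat.card Γ := by
  have := sum_surj hπ fun _ => 1
  simp only [sum_const, card_univ, nsmul_eq_mul, mul_one, ← Nat.card_eq_fintype_card] at this
  exact_mod_cast this

theorem defl (hπ : Surjective π) {f : K → ℂ} {n : Irr K → ℕ} (h : Ch f n) (inv : ∀ g c, π c = 1 → f (g * c) = f g) :
    ∃ f' : Γ → ℂ, Ch f' (fun φ => n (infl hπ φ)) ∧ ∀ g, f' (π g) = f g := by
  have e : ∀ g, f (surjInv hπ (π g)) = f g := fun g => by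
    rw [← inv g (g⁻¹ * surjInv hπ (π g)) (by simp [surjInv_eq]), mul_inv_cancel_left]
  refine ⟨fun γ => f (surjInv hπ γ), fun γ => ?_, e⟩
  beta_reduce
  rw [expand (f := fun γ => f (surjInv hπ γ)) (fun a b => by
    obtain ⟨a, rfl⟩ := hπ a
    obtain ⟨b, rfl⟩ := hπ b
    beta_reduce
    rw [← map_inv, ← map_mul, ← map_mul, e, e, h.cl]) γ]
  refine sum_congr rfl fun φ _ => ?_
  rw [← h.inner, classInner, classInner, card_surj hπ]
  have := sum_surj hπ fun γ => f (surjInv hπ γ) * (starRingEnd ℂ) (φ.1 γ)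
  simp only [e] at this
  have h0 : (Nat.card π.ker : ℂ) ≠ 0 := card_ne
  have h1 : (Nat.card Γ : ℂ) ≠ 0 := card_ne
  rw [show ∑ g, f g * (starRingEnd ℂ) ((infl hπ φ).1 g) = _ from this]
  push_cast
  field_simp

theorem const {f : K → ℂ} {n : Irr K → ℕ} (h : Ch f n) {θ : Irr K} (hθ : n θ ≠ 0) {c : K} (hc : ∀ y, y * c = c * y)
    {a : ℂ} (ha : ∀ g, f (g * c) = a * f g) (g : K) : θ.1 (g * c) = a * θ.1 g := by
  have e : ∀ w, θ.1 (c * w) = θ.1 c / θ.1 1 * θ.1 w := fun w => by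
    have := deg_ne θ
    field_simp
    exact mul_of_central θ hc w
  have i := h.inner θ
  simp only [classInner, conj_irr, inv_mul_eq_iff_eq_mul₀ card_ne] at i
  have i0 : ∑ g, f g * θ.1 g⁻¹ ≠ 0 := i ▸ mul_ne_zero card_ne (Nat.cast_ne_zero.2 hθ)
  have e1 : ∑ g, f (g * c) * θ.1 g⁻¹ = ∑ g, f g * θ.1 (c * g⁻¹) :=
    Fintype.sum_equiv (Equiv.mulRight c) _ _ fun g => by simp
  simp only [ha, e, mul_assoc, mul_left_comm _ (θ.1 c / θ.1 1), ← mul_sum] at e1
  rw [hc, e, mul_right_cancel₀ i0 e1]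

theorem ch_one (θ : Irr K) : Ch θ.1 fun φ => if φ = θ then 1 else 0 := fun g => by simp

theorem ex_ne {ζ : K → ℂ} {m : Irr K → ℕ} (h : Ch ζ m) (h1 : ζ 1 ≠ 0) : ∃ φ, m φ ≠ 0 := by
  by_contra! hc
  simp [h.one, hc] at h1

theorem deg_le {ζ : K → ℂ} {m : Irr K → ℕ} (h : Ch ζ m) {d : ℕ} (h1 : ζ 1 = d) {φ : Irr K} (hφ : m φ ≠ 0) :
    deg φ ≤ d := by
  have e : ∑ φ, m φ * deg φ = d := by exact_mod_cast h.one.symm.trans h1
  exact e ▸ (Nat.le_mul_of_pos_left _ (Nat.pos_of_ne_zero hφ)).trans (single_le_sum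
    (f := fun φ => m φ * deg φ) (fun _ _ => Nat.zero_le _) (mem_univ φ))

variable (hπ : Surjective π) (ca : CA X) (gen : ∀ L : Subgroup Γ, L.Normal → X ≤ L → L = ⊤) (hw : wt X = 7)
  (hn : Nat.card X = 640291)
include hπ ca gen hw hn

theorem small {f f₂ : K → ℂ} {n n₂ : Irr K → ℕ} (h : Ch f n) (inv : ∀ g c, π c = 1 → f (g * c) = f g) {j : ℕ}
    (hj : j ≤ 49) (h1 : f 1 = (j * 640291 : ℕ)) (hX : ∀ g, π g ∈ X → π g ≠ 1 → f g = 0) (h₂ : Ch f₂ n₂)
    (inv₂ : ∀ g c, π c = 1 → f₂ (g * c) = f₂ g) (hle : ∀ φ, n₂ φ ≠ 0 → n φ ≠ 0) {d : ℕ} (hd : d ≤ 49)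
    (h21 : f₂ 1 = d) (g : K) : f₂ g = n₂ (triv K) := by
  obtain ⟨f', a1, a2⟩ := defl hπ h inv
  obtain ⟨f₂', b1, b2⟩ := defl hπ h₂ inv₂
  have p := ch_reg ca a1 (j := j) (by rw [← map_one π, a2, h1, hn]) fun x hx x1 => by
    obtain ⟨g, rfl⟩ := hπ x
    rw [a2, hX g hx x1]
  obtain ⟨ψ, hψ⟩ := ex_psi ca (by omega)
  rw [← b2, b1, sum_eq_single (triv Γ) (fun φ _ hφ => ?_) (by simp), triv_apply, mul_one]
  · rfl
  refine mul_eq_zero_of_left (Nat.cast_eq_zero.2 (by_contra fun hc => hφ ?_)) _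
  have fl := all_flat ca gen p (by omega) (by rw [hw]; omega) (by rw [hw]; omega) (hle _ hc)
  have e1 := fl.deg_eq ca hψ
  have e2 := deg_le b1 (d := d) (by rw [← map_one π, b2, h21]) hc
  refine fl.eq_triv ca gen hψ (by_contra fun h0 => ?_)
  have := Nat.le_mul_of_pos_left (Nat.card X - 1) (Nat.pos_of_ne_zero h0)
  omega

variable (hc : ∀ c, π c = 1 → ∀ y, y * c = c * y) (h7 : ∀ c, π c = 1 → c ^ 7 = 1)
  (genK : ∀ L : Subgroup K, L.Normal → (∀ g : K, g ^ 640291 = 1 → g ∈ L) → L = ⊤)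
  {ζ : K → ℂ} {m : Irr K → ℕ} (hm : Ch ζ m) (h1 : ζ 1 = (4482037 : ℕ))
  (hX : ∀ g, π g ∈ X → π g ≠ 1 → ζ g = 0) (hs : ∀ c, π c = 1 → ∃ a : ℂ, ∀ g, ζ (g * c) = a * ζ g)
include hc h7 genK hm h1 hX hs

theorem eq_triv {θ : Irr K} (hθ : m θ ≠ 0) (hd : deg θ ≤ 7) : θ = triv K := by
  choose nn hnn using fun θ' => ch_mul θ' (bar θ)
  simp only [bar_apply] at hnn
  have i1 : ∀ {f : K → ℂ} {g c : K} {a : ℂ}, π c = 1 → (∀ g, ζ (g * c) = a * ζ g) → f (g * c) = a * f g →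
      f (g * c) * θ.1 (g * c)⁻¹ = f g * θ.1 g⁻¹ := fun {f g c a} c1 ha hf => by
    rw [hf, mul_comm a, mul_assoc, ← const hm hθ (hc c c1) ha, hc c c1, mul_inv_rev, mul_inv_cancel_left]
  have d1 : deg θ = 1 := by
    have e := small hπ ca gen hw hn (f := fun g => ζ g * θ.1 g⁻¹) (n := fun φ => ∑ θ', m θ' * nn θ' φ)
      (fun g => by
        simp only [hm g, sum_mul, mul_assoc, fun θ' => show θ'.1 g * θ.1 g⁻¹ = _ from hnn θ' g, mul_sum, Nat.cast_sum,
          Nat.cast_mul]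
        exact sum_comm)
      (fun g c c1 => by obtain ⟨a, ha⟩ := hs c c1; exact i1 c1 ha (ha g)) (j := 7 * deg θ) (by omega)
      (by simp only [h1, inv_one, deg_eq]; push_cast; ring) (fun g a b => by simp only [hX g a b, zero_mul])
      (hnn θ) (fun g c c1 => by obtain ⟨a, ha⟩ := hs c c1; exact i1 c1 ha (const hm hθ (hc c c1) ha g))
      (fun φ hφ => ((Nat.mul_pos (Nat.pos_of_ne_zero hθ) (Nat.pos_of_ne_zero hφ)).trans_le (single_le_sum
        (f := fun θ' => m θ' * nn θ' φ) (fun _ _ => Nat.zero_le _) (mem_univ θ))).ne')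
      (d := deg θ * deg θ) (Nat.mul_le_mul hd hd) (by simp [deg_eq]) 1
    have e1 := (hnn θ).inner (triv K)
    have e2 := inner_irr θ θ
    rw [if_pos rfl] at e2
    simp only [classInner, conj_irr, triv_apply, map_one, mul_one] at e1 e2
    rw [← e1, e2, inv_one, deg_eq] at e
    exact Nat.eq_one_of_mul_eq_one_left (m := deg θ) (by exact_mod_cast e)
  have k1 : ∀ c, π c = 1 → θ.1 c = 1 := fun c c1 => by
    have e := genK ((powMonoidHom 640291).comp (hom θ d1).toHomUnits).ker inferInstance fun g hg => by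
      rw [MonoidHom.mem_ker, MonoidHom.comp_apply, powMonoidHom_apply, ← map_pow, hg, map_one]
    have e1 : c ^ 640291 = c := by
      rw [show 640291 = 7 * 91470 + 1 from rfl, pow_succ, pow_mul, h7 c c1, one_pow, one_mul]
    have e2 : c ∈ ((powMonoidHom 640291).comp (hom θ d1).toHomUnits).ker := e ▸ mem_top c
    rw [MonoidHom.mem_ker, MonoidHom.comp_apply, powMonoidHom_apply, ← map_pow, e1] at e2
    exact congrArg Units.val e2
  have e := small hπ ca gen hw hn hm (fun g c c1 => by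
      obtain ⟨a, ha⟩ := hs c c1
      have := const hm hθ (hc c c1) ha 1
      rw [one_mul, k1 c c1, deg_eq, d1, Nat.cast_one, mul_one] at this
      rw [ha, ← this, one_mul]) (j := 7) (by omega) h1 hX (ch_one θ)
    (fun g c c1 => by rw [lin_mul θ d1, k1 c c1, mul_one]) (fun φ hφ => by
      split_ifs at hφ with e
      exacts [e ▸ hθ, (hφ rfl).elim]) (d := 1) (by omega) (by rw [deg_eq, d1]) 1
  by_contra hne
  rw [if_neg (Ne.symm hne), Nat.cast_zero] at e
  exact deg_ne θ e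

omit hc h7 genK hm h1 hX hs gen in
theorem degs (hC : ∀ a b : K, π a ∈ X → π b ∈ X → a * b = b * a) (θ : Irr K) :
    ∃ D : ℤ, |D| ≤ 7 ∧ (640291 : ℤ) ∣ deg θ - D := by
  have hs := π.subgroupComap_surjective_of_surjective X hπ
  have e : (π.subgroupComap X).ker.index = 640291 := by
    rw [index_ker, MonoidHom.range_eq_top_of_surjective _ hs, card_top, hn]
  have := U7R.var_char θ (X.comap π) (fun a b => Subtype.ext (hC _ _ a.2 b.2)) (π.subgroupComap X).ker (e := 7)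
    (by omega) (univ.filter fun g => g ∈ (Nm X).comap π) ?_ fun a b ha _ g hg => ?_
  · rwa [e] at this
  · have e1 := ((Nm X).comap π).card_mul_index
    have e2 := (X.comap π).card_mul_index
    have e3 := (Nm X).card_mul_index
    have e4 := X.card_mul_index
    rw [index_comap_of_surjective _ hπ] at e1 e2
    rw [card_Nm, hw, ← e4, mul_assoc] at e3
    rw [← Nat.eq_of_mul_eq_mul_left Nat.card_pos e3, ← e1, ← mul_assoc] at e2
    rw [← Fintype.card_subtype, ← Nat.card_eq_fintype_card, mul_comm,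
      Nat.eq_of_mul_eq_mul_right (Nat.pos_of_ne_zero index_ne_zero_of_finite) e2]
  · refine mem_filter.2 ⟨mem_univ _, ca.mem_norm a.2 (fun e => ha (Subtype.ext e)) ?_⟩
    rw [← map_inv, ← map_mul, ← map_mul, hg]
    exact b.2

omit hπ ca gen hw hn hc h7 genK hm h1 hX hs in
theorem arith {d : ℕ} (h0 : d ≤ 4482037) (h1 : d ∣ 2 * 293013074582944276466625906613665662372714859282309120)
    {D D' : ℤ} (a1 : |D| ≤ 7) (a2 : (640291 : ℤ) ∣ d - D) (b1 : |D'| ≤ 6) (b2 : (61 : ℤ) ∣ d - D') :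
    d ≤ 7 ∨ d = 4482036 ∨ d = 4482037 := by
  by_contra! hc
  obtain ⟨k, hk⟩ := a2
  rw [abs_le] at a1 b1
  have k1 : 1 ≤ k := by omega
  have k2 : k ≤ 7 := by omega
  obtain ⟨a1, a1'⟩ := a1
  have h2 := Int.natCast_dvd_natCast.2 h1
  rw [show (d : ℤ) = 640291 * k + D by omega] at h2
  interval_cases k <;> interval_cases D <;> first | omega | norm_num at h2

theorem core (hC : ∀ a b : K, π a ∈ X → π b ∈ X → a * b = b * a)
    (hN : Nat.card K ∣ 2 * 293013074582944276466625906613665662372714859282309120)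
    (hR : ∀ θ : Irr K, ∃ D : ℤ, |D| ≤ 6 ∧ (61 : ℤ) ∣ deg θ - D) :
    classInner ζ ζ = 1 ∨ ∃ φ : Irr Γ, φ ≠ triv Γ ∧ ∀ g, ζ g = 1 + φ.1 (π g) := by
  have tr := fun θ => eq_triv hπ ca gen hw hn hc h7 genK hm h1 hX hs (θ := θ)
  obtain ⟨θ, t1, t2⟩ : ∃ θ, m θ ≠ 0 ∧ θ ≠ triv K := by
    by_contra! h
    have e : ∀ g, ζ g = m (triv K) := fun g => by
      rw [hm, sum_eq_single (triv K) (fun φ _ hφ => by simp [by_contra fun e => hφ (h φ e)]) (by simp), triv_apply,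
        mul_one]
    have := Finite.one_lt_card_iff_nontrivial.1 (show 1 < Nat.card X by omega)
    obtain ⟨⟨x, hx⟩, x1⟩ := exists_ne (1 : X)
    obtain ⟨g, rfl⟩ := hπ x
    have := hX g hx fun e => x1 (Subtype.ext e)
    rw [e, ← e 1, h1] at this
    norm_num at this
  obtain ⟨D, a1, a2⟩ := degs hπ ca hw hn hC θ
  obtain ⟨D', b1, b2⟩ := hR θ
  rcases arith (deg_le hm h1 t1) ((deg_dvd θ).trans hN) a1 a2 b1 b2 with e | e | e
  · exact (t2 (tr θ t1 e)).elim
  · have c5 : ζ 1 - θ.1 1 = (1 : ℕ) := by rw [h1, deg_eq, e]; norm_num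
    obtain ⟨φ, hφ⟩ := ex_ne (ch_sub hm t1) (by simp only [c5]; norm_num)
    have c6 := deg_le (ch_sub hm t1) c5 hφ
    obtain rfl := tr φ (by omega) (by omega)
    have c7 := ch_irr (ch_sub hm t1) hφ (by rw [c5, ← deg_eq, triv_apply, Nat.cast_one])
    obtain ⟨f', d1, d2⟩ := defl hπ (ch_one θ) fun g c c1 => by
      obtain ⟨a, ha⟩ := hs c c1
      have := const hm (θ := triv K) (by omega) (hc c c1) ha 1
      rw [triv_apply, triv_apply, mul_one] at this
      rw [const hm t1 (hc c c1) ha, ← this, one_mul]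
    obtain ⟨φ, hφ⟩ := ex_ne d1 (by rw [← map_one π, d2]; exact deg_ne θ)
    obtain rfl : infl hπ φ = θ := by_contra fun e => hφ (if_neg e)
    exact Or.inr ⟨φ, fun e => t2 (e ▸ rfl), fun g => eq_add_of_sub_eq (congrFun c7 g)⟩
  · obtain rfl := ch_irr hm t1 (by rw [h1, e])
    exact Or.inl (by simp [inner_irr])

end Cfsg.Agent.H1.U7t
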