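import Cfsg.Agent.H9.U7w
import Cfsg.Agent.H1.U7ta

/-!
The Weil characters of `SU₇(13)` on an overgroup of the Singer cycle.
-/

set_option autoImplicit false
set_option linter.unusedSectionVars false

namespace Cfsg.Agent.H1.U7t

open Finset Module Cfsg.Agent.Form Cfsg.Agent.H6.SU Cfsg.Agent.H7 Cfsg.Agent.H5.Char Cfsg.Agent.H2.Tr
  Cfsg.Agent.H4.CAG Cfsg.Agent.H8.U5 Cfsg.Agent.H9.U7
open scoped ComplexConjugate Classical

variable {F : Type*} [Field F] [Fintype F] {σ : F →+* F} {hσ : ∀ a, σ (σ a) = a}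
  {V : Type*} [AddCommGroup V] [Module F V] [Fintype V] {S : PQ (FP.unit σ hσ) V} {q : ℕ} {χ : AddChar F ℂ}
  (H : Wd S q χ) (h7 : finrank F V = 7)
include h7

variable {K T : Subgroup (V ≃ₗ[F] V)} {Γ : Type*} [Group Γ] [Fintype Γ] {π : K →* Γ} {X : Subgroup Γ}
  (D : SgD7 S q K T π X)
include D

include H in
theorem mem_T {a : K} (ha : π a ∈ X) : a.1 ∈ T := by
  obtain ⟨g, g1, g2, -⟩ := D.lift _ ha
  obtain ⟨c, -, c2⟩ := D.ker' H h7 (g := g⁻¹ * a) (by simp [g2])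
  rw [Subgroup.coe_mul, Subgroup.coe_inv, inv_mul_eq_iff_eq_mul] at c2
  exact c2 ▸ T.mul_mem g1 (D.sc _ _ (zz c) (scl_ap c))

/-- the Weil characters of the group `K` itself -/
theorem famK [Fintype K] {l : ZZ σ →* ℂ} (hl : l ≠ 1) : ∃ m : Irr K → ℕ,
    Ch (fun g : K => (q ^ 7 : ℕ) * (WW H g.1 * ee H l) 0) m ∧
    (∀ g : K, π g ∈ X → π g ≠ 1 → (q ^ 7 : ℕ) * (WW H g.1 * ee H l) 0 = 0) ∧
    (classInner (fun g : K => (q ^ 7 : ℕ) * (WW H g.1 * ee H l) 0)
      (fun g : K => (q ^ 7 : ℕ) * (WW H g.1 * ee H l) 0) = 1 → Sc H K l) := by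
  have iso : ∀ g : K, g.1 ∈ S.isom := fun g => (D.le g.2).1
  have e0 : ee H l * ee H l = ee H l := by simp [ee_mul]
  have hs : ∀ g h : K, WW H (g * h).1 * ee H l = WW H g.1 * ee H l * (WW H h.1 * ee H l) := fun g h => by
    rw [Subgroup.coe_mul, W_mul H (iso g) (iso h), mul_assoc, mul_assoc, ← mul_assoc (ee H l),
      ← ee_comm H (iso h), mul_assoc, e0]
  have hn : q ^ 7 * q ^ 7 = Fintype.card V := h7 ▸ H.sq
  have e2 : WW H (1 : K).1 * ee H l = ee H l := by rw [OneMemClass.coe_one, W_one, one_mul]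
  obtain ⟨m, hm⟩ := ch_fam hn (fun g : K => WW H g.1 * ee H l) hs
  refine ⟨m, hm, fun g hx x1 => ?_, fun h0 v => ?_⟩
  · rw [zeta7 H h7 (iso g), ← mul_zero (q + 1 : ℂ)⁻¹, ← neg_zero, ← sum_l hl, ← sum_neg_distrib]
    congr 1
    refine sum_congr rfl fun c _ => ?_
    rw [fx_eq_zero fun v hv => (D.free _ (T.mul_mem (mem_T H h7 D hx) (D.sc _ _ (zz c) (scl_ap c))) v hv).resolve_left
      fun e => x1 ?_]
    · simp
    · rw [mul_eq_one_iff_eq_inv, ← map_inv] at e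
      exact (D.ker g).2 ⟨_, fun v => by rw [e, scl_ap]⟩
  · have c1 : ∀ g ∈ S.isom, (∀ w ∈ Orb σ K v, g w ∈ Orb σ K v) → (∀ w ∈ Orb σ K v, g⁻¹ w ∈ Orb σ K v) →
        WW H g * ind H K v = ind H K v * WW H g := fun g hg a b => (itw_W H hg).act _ _ fun w =>
      if_congr ⟨fun h => by simpa using b _ h, a w⟩ rfl rfl
    have c2 : ee H l * ind H K v = ind H K v * ee H l := by
      simp only [ee, mul_smul_comm, smul_mul_assoc, mul_sum, sum_mul, fun c => c1 _ (scl_mem S c)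
        (fun w => orb_smul (zz c)) fun w => by rw [← map_inv]; exact orb_smul (zz c⁻¹)]
    simpa only [e2] using hom_one hn hs h0 (a := ind H K v * ee H l) (fun γ => by
      rw [mul_assoc, ← mul_assoc (ee H l), c2, ← mul_assoc, ← mul_assoc, c1 _ (iso _) (fun w => orb_map (Subtype.prop _))
        fun w => orb_map (K.inv_mem (Subtype.prop _)), mul_assoc _ (WW H _), ee_comm H (iso _)]
      simp only [mul_assoc, ee_comm H (iso _)]) (by rw [e2, mul_assoc, e0])

omit h7 D H in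
theorem key13 (H : Wd S 13 χ) (h : Un7 S 13) (D : SgD7 S 13 K T π X) (hw : wt X = 7) (hd : 61 ∣ Nat.card K)
    {l : ZZ σ →* ℂ} (hl : l ≠ 1) :
    Sc H K l ∨ ∃ φ : Irr Γ, φ ≠ triv Γ ∧ ∀ g : K, (13 ^ 7 : ℕ) * (WW H g.1 * ee H l) 0 = 1 + φ.1 (π g) := by
  have := Fintype.ofFinite K
  have h7 := h.dim
  have iso : ∀ g : K, g.1 ∈ S.isom := fun g => (D.le g.2).1
  obtain ⟨m, a1, a2, a3⟩ := famK H h7 D hl
  have hn : Nat.card X = 640291 := by
    have := D.card
    rw [show Nat.gcd 7 (13 + 1) = 7 by norm_num, show t7 13 = 4482037 by norm_num [t7]] at this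
    omega
  have := D.cyc
  refine (core D.surj D.ca D.gen hw hn (fun c c1 y => ?_) (fun c c1 => ?_)
    (fun L hL hg => D.genK L hL fun g _ e => hg g (hn ▸ e)) a1 ?_ a2 (fun c c1 => ?_) (fun a b ha hb => ?_) ?_
    fun θ => ?_).imp_left a3
  · obtain ⟨c', -, e⟩ := D.ker' H h7 c1
    exact Subtype.ext (by rw [Subgroup.coe_mul, Subgroup.coe_mul, e, scl_comm])
  · obtain ⟨c', e1, e⟩ := D.ker' H h7 c1
    exact Subtype.ext (by rw [Subgroup.coe_pow, e, ← map_pow, e1, map_one, OneMemClass.coe_one])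
  · rw [OneMemClass.coe_one, W_one, one_mul, ee_zero7 H h7, if_neg hl]
    norm_num [t7]
  · obtain ⟨c', -, e⟩ := D.ker' H h7 c1
    refine ⟨l c', fun g => ?_⟩
    rw [Subgroup.coe_mul, e, W_mul H (iso g) (scl_mem S c'), mul_assoc, W_ee, mul_smul_comm, smul_ap, mul_left_comm]
  · exact Subtype.ext (congrArg (Subtype.val : T → _)
      (mul_comm' (⟨_, mem_T H h7 D ha⟩ : T) ⟨_, mem_T H h7 D hb⟩))
  · have e1 : Nat.card π.ker ∣ 14 := by
      have e := Subgroup.card_range_dvd (scl V (σ := σ))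
      rw [Nat.card_eq_fintype_card (α := ZZ σ), H.fd.cZ] at e
      refine Dvd.dvd.trans ?_ e
      rw [← Subgroup.card_map_of_injective K.subtype_injective]
      refine Subgroup.card_dvd_of_le ?_
      rintro _ ⟨g, hg, rfl⟩
      obtain ⟨c, -, e⟩ := D.ker' H h7 hg
      exact ⟨c, e.symm⟩
    have e2 := D.dvd
    rw [card_surj D.surj]
    refine (Nat.mul_dvd_mul_right e1 _).trans ?_
    rw [show 14 = 2 * Nat.gcd 7 (13 + 1) by norm_num, mul_assoc]
    exact Nat.mul_dvd_mul_left 2 (e2.trans (by norm_num [NU7]))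
  · simpa using U7R.rtrick h (fun g hg => (D.le hg).1) (r := 61) (k := 1) (by norm_num) (by omega) (by norm_num)
      (by simpa using hd) (by norm_num) θ

omit h7 D H in
theorem ij13 (hF : Fd σ q) (ho : Odd q) (h3 : 3 ≤ q) :
    ∃ i j : ZZ σ →* ℂ, i ≠ 1 ∧ j ≠ 1 ∧ i (mone σ) ≠ j (mone σ) := by
  obtain ⟨φ, hφ⟩ := CommGroup.exists_apply_ne_one_of_hasEnoughRootsOfUnity (ZZ σ) ℂ (a := mone σ) fun e => by
    have e1 : (-1 : F) = 1 := congrArg (fun c : ZZ σ => ((c : Fˣ) : F)) e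
    have := FiniteField.even_card_of_char_two (F := F) (CharP.ringChar_of_prime_eq_zero Nat.prime_two (by
      push_cast; linear_combination -e1))
    rw [hF.card] at this
    have := Nat.odd_iff.1 (ho.pow (n := 2))
    omega
  obtain ⟨c, hc⟩ : ∃ c : ZZ σ, c ^ 2 ≠ 1 := by
    by_contra! hc
    have := Monoid.exponent_dvd_of_forall_pow_eq_one hc
    rw [IsCyclic.exponent_eq_card, Nat.card_eq_fintype_card, hF.cZ] at this
    have h3 := Nat.le_of_dvd (by omega) this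
    omega
  obtain ⟨ψ, hψ⟩ := CommGroup.exists_apply_ne_one_of_hasEnoughRootsOfUnity (ZZ σ) ℂ hc
  have m2 : mone σ ^ 2 = 1 := Subtype.ext (by simp [mone])
  refine ⟨(Units.coeHom ℂ).comp φ, (Units.coeHom ℂ).comp (ψ.comp (powMonoidHom 2)),
    fun e => hφ ?_, fun e => hψ ?_, ?_⟩
  · simpa only [MonoidHom.comp_apply, Units.coeHom_apply, MonoidHom.one_apply, Units.val_eq_one]
      using DFunLike.congr_fun e (mone σ)
  · simpa only [MonoidHom.comp_apply, powMonoidHom_apply, Units.coeHom_apply, MonoidHom.one_apply, Units.val_eq_one]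
      using DFunLike.congr_fun e c
  · simpa only [MonoidHom.comp_apply, powMonoidHom_apply, m2, Units.coeHom_apply, map_one, Ne, Units.val_eq_one]
      using hφ

omit h7 D H in
theorem thirteen (H : Wd S 13 χ) (h : Un7 S 13) (D : SgD7 S 13 K T π X) : ∃ l, l ≠ 1 ∧ Sc H K l := by
  obtain ⟨hw, -, hd, -⟩ := main07 H h.dim D (p := 13) (f := 1) (by norm_num) (by norm_num)
  replace hd := hd.trans (Subgroup.card_dvd_of_surjective π D.surj)
  obtain ⟨i, j, hi, hj, hij⟩ := ij13 H.fd (by decide) (by omega)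
  rcases key13 H h D hw (Dvd.dvd.trans (by norm_num) hd) hi with a | ⟨φ, a, a'⟩
  · exact ⟨i, hi, a⟩
  rcases key13 H h D hw (Dvd.dvd.trans (by norm_num) hd) hj with b | ⟨ψ, b, b'⟩
  · exact ⟨j, hj, b⟩
  exact (D.red H h.dim (by omega) (Dvd.dvd.trans (by norm_num) hd) hi hj hij a b a' b').elim

end Cfsg.Agent.H1.U7t
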